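import Mathlib
import Cfsg.Agent.Lib.H7.LowRank6
import Cfsg.Agent.Lib.H7.UnitSU
import Cfsg.Agent.Lib.H7.SmallField

/-!
`SU_4` and `PΩ⁻_6`.
-/
set_option autoImplicit false
set_option linter.unusedSectionVars false

namespace H7.LowRank

open H7.Hyp H7.HypStd H7.HypOrd H7.Omega H7.OmegaIso H7.OmegaOrd QuadraticMap
open H7.AnisoPlane (Aniso K eK norm_eK)
open H48.QuadStd Matrix
open scoped commutatorElement

section
variable {F : Type*} [Field F] {a b : F} [Fact (∀ r : F, r ^ 2 ≠ -b + a * r)]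

local notation "c⟦" r "⟧" => algebraMap F (K a b) r

/-- upper unipotent elements of `SU_4` -/
def uSU (w : F × F × K a b) : Matrix.SpecialLinearGroup (Fin 2 ⊕ Fin 2) (K a b) :=
  ⟨up c⟦w.1⟧ c⟦w.2.1⟧ w.2.2 (-star w.2.2), det_up _ _ _ _⟩
/-- lower unipotent elements of `SU_4` -/
def lSU (w : F × F × K a b) : Matrix.SpecialLinearGroup (Fin 2 ⊕ Fin 2) (K a b) :=
  ⟨lo c⟦w.1⟧ c⟦w.2.1⟧ w.2.2 (-star w.2.2), det_lo _ _ _ _⟩

variable (a b) in
/-- the group generated by the two unipotent groups -/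
def G0 : Subgroup (Matrix.SpecialLinearGroup (Fin 2 ⊕ Fin 2) (K a b)) :=
  Subgroup.closure (Set.range (uSU (a := a) (b := b)) ∪ Set.range (lSU (a := a) (b := b)))

/-- coordinates -/
def tau6m (p : F × F × (F × F × K a b)) : Matrix (Fin 2 ⊕ Fin 2) (Fin 2 ⊕ Fin 2) (K a b) :=
  toA c⟦p.1⟧ c⟦p.2.1⟧ c⟦p.2.2.1⟧ c⟦p.2.2.2.1⟧ p.2.2.2.2 (-star p.2.2.2.2)

theorem tau6m_injective : Function.Injective (tau6m (a := a) (b := b)) := by
  rintro ⟨x, y, b', c, z⟩ ⟨x', y', b'', c', z'⟩ h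
  obtain ⟨h1, h2, h3, h4, h5, -⟩ := toA_injective h
  exact Prod.ext (algebraMap_injective' h1) (Prod.ext (algebraMap_injective' h2)
    (Prod.ext (algebraMap_injective' h3) (Prod.ext (algebraMap_injective' h4) h5)))

variable (a b) in
/-- the action on matrices -/
def actG (g : G0 a b) (A : Matrix (Fin 2 ⊕ Fin 2) (Fin 2 ⊕ Fin 2) (K a b)) : Matrix (Fin 2 ⊕ Fin 2) (Fin 2 ⊕ Fin 2) (K a b) :=
  g.1.1 * A * g.1.1ᵀ

theorem actG_one (x : Matrix (Fin 2 ⊕ Fin 2) (Fin 2 ⊕ Fin 2) (K a b)) : actG a b 1 x = x := by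
  simp [actG]

theorem actG_mul (g h : G0 a b) (x : Matrix (Fin 2 ⊕ Fin 2) (Fin 2 ⊕ Fin 2) (K a b)) : actG a b (g * h) x = actG a b g (actG a b h x) := by
  change (g.1.1 * h.1.1) * x * (g.1.1 * h.1.1)ᵀ = g.1.1 * (h.1.1 * x * h.1.1ᵀ) * g.1.1ᵀ
  rw [transpose_mul]
  simp only [Matrix.mul_assoc]

/-- generators inside `G0` -/
def uG (w : F × F × K a b) : G0 a b := ⟨uSU w, Subgroup.subset_closure (Or.inl ⟨w, rfl⟩)⟩
/-- generators inside `G0` -/
def lG (w : F × F × K a b) : G0 a b := ⟨lSU w, Subgroup.subset_closure (Or.inr ⟨w, rfl⟩)⟩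

theorem gen_G0 : Subgroup.closure (Set.range (uG (a := a) (b := b)) ∪ Set.range (lG (a := a) (b := b))) = ⊤ := by
  refine Eq.trans ?_ (Subgroup.closure_closure_coe_preimage (k := Set.range (uSU (a := a) (b := b)) ∪ Set.range (lSU (a := a) (b := b))))
  congr 1
  ext g
  constructor
  · rintro (⟨w, rfl⟩ | ⟨w, rfl⟩)
    · exact Or.inl ⟨w, rfl⟩
    · exact Or.inr ⟨w, rfl⟩
  · rintro (⟨w, hw⟩ | ⟨w, hw⟩)
    · exact Or.inl ⟨w, Subtype.ext hw⟩
    · exact Or.inr ⟨w, Subtype.ext hw⟩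

theorem star_smul' (c : F) (z : K a b) : star (c • z) = c • star z := by
  ext
  · simp; ring
  · simp

theorem act_uG (w : F × F × K a b) (p : F × F × (F × F × K a b)) :
    actG a b (uG w) (tau6m p) = tau6m (E (hyp (qN a b)) w p) := by
  obtain ⟨b', c', z'⟩ := w
  obtain ⟨x, y, b₁, c₁, z⟩ := p
  change up c⟦b'⟧ c⟦c'⟧ z' (-star z') * toA c⟦x⟧ c⟦y⟧ c⟦b₁⟧ c⟦c₁⟧ z (-star z) * (up c⟦b'⟧ c⟦c'⟧ z' (-star z'))ᵀ = _
  rw [up_act, E_apply, hyp_apply, polar_hyp, qN_apply, polar_qN]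
  simp only [tau6m, Prod.fst_add, Prod.snd_add, Prod.smul_fst, Prod.smul_snd, smul_eq_mul]
  simp only [map_sub, map_add, map_mul, star_add,
    star_algebraMap', Algebra.smul_def, QuadraticAlgebra.algebraMap_norm_eq_mul_star, QuadraticAlgebra.algebraMap_trace_eq_add_star, star_mul', star_star]
  congr 1 <;> ring

theorem act_lG (w : F × F × K a b) (p : F × F × (F × F × K a b)) :
    actG a b (lG w) (tau6m p) = tau6m (E' (hyp (qN a b)) w p) := by
  obtain ⟨b', c', z'⟩ := w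
  obtain ⟨x, y, b₁, c₁, z⟩ := p
  change lo c⟦b'⟧ c⟦c'⟧ z' (-star z') * toA c⟦x⟧ c⟦y⟧ c⟦b₁⟧ c⟦c₁⟧ z (-star z) * (lo c⟦b'⟧ c⟦c'⟧ z' (-star z'))ᵀ = _
  rw [lo_act, E'_apply, hyp_apply, polar_hyp, qN_apply, polar_qN]
  simp only [tau6m, Prod.fst_add, Prod.snd_add, Prod.smul_fst, Prod.smul_snd, smul_eq_mul]
  simp only [map_sub, map_add, map_mul, star_add,
    star_algebraMap', Algebra.smul_def, QuadraticAlgebra.algebraMap_norm_eq_mul_star, QuadraticAlgebra.algebraMap_trace_eq_add_star, star_mul', star_star]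
  congr 1 <;> ring

theorem scalar_G0 {g : Matrix.SpecialLinearGroup (Fin 2 ⊕ Fin 2) (K a b)} {x : F} (hx : x ≠ 0)
    (h : ∀ p, g.1 * tau6m p * g.1ᵀ = tau6m (x • p)) : ∃ s : K a b, g.1 = s • 1 := by
  have h1 := h (1, 0, (0, 0, 0))
  have h2 := h (0, 1, (0, 0, 0))
  have h3 := h (0, 0, (1, 0, 0))
  have h4 := h (0, 0, (0, 1, 0))
  have h5 := h (0, 0, (0, 0, 1))
  simp only [tau6m, Prod.smul_fst, Prod.smul_snd, smul_eq_mul, mul_one, mul_zero, neg_zero, map_zero, map_one, star_zero, star_one,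
    smul_zero] at h1 h2 h3 h4 h5
  have e : star (x • (1 : K a b)) = c⟦x⟧ := by rw [star_smul', star_one, Algebra.smul_def, mul_one]
  have e' : x • (1 : K a b) = c⟦x⟧ := by rw [Algebra.smul_def, mul_one]
  rw [e, e'] at h5
  have hx' : c⟦x⟧ ≠ 0 := fun h0 => hx (algebraMap_injective' (h0.trans (map_zero _).symm))
  exact scalar_of_act g.2 hx' h1 h2 h3 h4 h5

theorem iso6m [Fintype F] (hab : Aniso a b) {ι : Type} [Fintype ι] [DecidableEq ι] {Q₀ : (ι → F) → F}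
    (e : Cfsg.isometryGroup F Q₀ ≃* O (hyp (hyp (qN a b)))) (hc : ⁅O (hyp (hyp (qN a b))), O (hyp (hyp (qN a b)))⁆ = Om (hyp (qN a b))) :
    Nonempty (Cfsg.POmega F Q₀ ≃* G0 a b ⧸ Subgroup.center (G0 a b)) := by
  refine iso_of_act (nd_qN hab).hyp e hc (actG a b) actG_one actG_mul tau6m tau6m_injective uG lG act_uG act_lG gen_G0 ?_
  intro g x hx h
  obtain ⟨s, hs⟩ := scalar_G0 hx h
  rw [Subgroup.mem_center_iff]
  intro k
  apply Subtype.ext
  apply Subtype.ext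
  change k.1.1 * g.1.1 = g.1.1 * k.1.1
  rw [hs, Matrix.mul_smul, Matrix.smul_mul, Matrix.mul_one, Matrix.one_mul]

/-- `-1` is in `G0` -/
theorem neg_one_mem : ∃ g : G0 a b, g.1.1 = -1 := by
  let n : G0 a b := uG (1, -1, 0) * lG (-1, 1, 0) * uG (1, -1, 0)
  have hn : n.1.1 = fromBlocks 0 1 (-1) 0 := by
    change up c⟦1⟧ c⟦-1⟧ 0 (-star 0) * lo c⟦-1⟧ c⟦1⟧ 0 (-star 0) * up c⟦1⟧ c⟦-1⟧ 0 (-star 0) = _
    rw [up, lo, fromBlocks_multiply, fromBlocks_multiply, one_fin_two]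
    congr 1 <;> (ext1 i j; fin_cases i <;> fin_cases j <;> simp)
  refine ⟨n * n, ?_⟩
  change n.1.1 * n.1.1 = -1
  rw [hn, fromBlocks_multiply, ← fromBlocks_one, fromBlocks_neg]
  congr 1 <;> simp

theorem card_G0 [Fintype F] :
    Nat.card (Om (hyp (qN a b))) * (if ringChar F = 2 then 1 else 2) ≤ Nat.card (G0 a b) := by
  obtain ⟨ρ, hr, hρ⟩ := exists_rho (actG a b) actG_one actG_mul tau6m tau6m_injective uG lG act_uG act_lG gen_G0
  have hfin : Finite (G0 a b) := by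
    have : Finite (Matrix.SpecialLinearGroup (Fin 2 ⊕ Fin 2) (K a b)) := inferInstance
    infer_instance
  have h1 := Subgroup.card_mul_index ρ.ker
  rw [Subgroup.index_ker, hr] at h1
  rw [← h1, mul_comm]
  apply Nat.mul_le_mul_right
  split_ifs with h2
  · exact Nat.card_pos
  · obtain ⟨g, hg⟩ := neg_one_mem (a := a) (b := b)
    have hgk : g ∈ ρ.ker := by
      rw [MonoidHom.mem_ker]
      apply LinearEquiv.ext
      intro p
      apply tau6m_injective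
      rw [← hρ]
      change g.1.1 * tau6m p * g.1.1ᵀ = tau6m p
      rw [hg]
      simp
    have hne : g ≠ 1 := by
      intro h
      rw [h] at hg
      have h3 : (1 : Matrix (Fin 2 ⊕ Fin 2) (Fin 2 ⊕ Fin 2) (K a b)) = -1 := hg
      have h4 := congrFun (congrFun h3 (Sum.inl 0)) (Sum.inl 0)
      simp only [one_apply_eq, Matrix.neg_apply] at h4
      have h5 : c⟦(2 : F)⟧ = c⟦0⟧ := by
        rw [map_zero, ← one_add_one_eq_two, map_add, map_one]
        nth_rewrite 1 [h4]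
        ring
      have h6 : (2 : F) = 0 := algebraMap_injective' h5
      exact h2 (CharP.ringChar_of_prime_eq_zero Nat.prime_two (by exact_mod_cast h6))
    have : Nontrivial ρ.ker := ⟨⟨g, hgk⟩, 1, fun h => hne (congrArg Subtype.val h)⟩
    exact Finite.one_lt_card

theorem map2 {R S : Type*} (f : R → S) (p q r s : R) : (!![p, q; r, s] : Matrix (Fin 2) (Fin 2) R).map f = !![f p, f q; f r, f s] := by
  ext i j
  fin_cases i <;> fin_cases j <;> rfl

theorem map_star_up (x y : F) (z : K a b) : (up c⟦x⟧ c⟦y⟧ z (-star z)).map star = up c⟦x⟧ c⟦y⟧ (star z) (-z) := by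
  rw [up, up, fromBlocks_map, map2]
  congr 1
  · exact Matrix.map_one _ (star_zero _) (star_one _)
  · simp only [star_neg, star_algebraMap', star_star]
  · exact Matrix.map_zero _ (star_zero _)
  · exact Matrix.map_one _ (star_zero _) (star_one _)

theorem map_star_lo (x y : F) (z : K a b) : (lo c⟦x⟧ c⟦y⟧ z (-star z)).map star = lo c⟦x⟧ c⟦y⟧ (star z) (-z) := by
  rw [lo, lo, fromBlocks_map, map2]
  congr 1
  · exact Matrix.map_one _ (star_zero _) (star_one _)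
  · exact Matrix.map_zero _ (star_zero _)
  · simp only [star_neg, star_algebraMap', star_star]
  · exact Matrix.map_one _ (star_zero _) (star_one _)

theorem up_J (x y : F) (z : K a b) : up c⟦x⟧ c⟦y⟧ z (-star z) * toA 0 0 0 0 (-1) (-1) * ((up c⟦x⟧ c⟦y⟧ z (-star z)).map star)ᵀ =
    toA 0 0 0 0 (-1) (-1) := by
  rw [map_star_up, up, up, toA, fromBlocks_transpose, fromBlocks_multiply, fromBlocks_multiply, tr2, one_fin_two, tr2]
  congr 1 <;> (ext1 i j; fin_cases i <;> fin_cases j <;> simp <;> (rw [Algebra.smul_def]; ring))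

theorem lo_J (x y : F) (z : K a b) : lo c⟦x⟧ c⟦y⟧ z (-star z) * toA 0 0 0 0 (-1) (-1) * ((lo c⟦x⟧ c⟦y⟧ z (-star z)).map star)ᵀ =
    toA 0 0 0 0 (-1) (-1) := by
  rw [map_star_lo, lo, lo, toA, fromBlocks_transpose, fromBlocks_multiply, fromBlocks_multiply, tr2, one_fin_two, tr2]
  congr 1 <;> (ext1 i j; fin_cases i <;> fin_cases j <;> simp <;> (rw [Algebra.smul_def]; ring))

end

end H7.LowRank
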