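import Mathlib
import Cfsg.Agent.Lib.H7.LowRank6m
import Cfsg.Agent.S0288

/-!
`G0` is isomorphic to `SU_4(q)`.
-/
set_option autoImplicit false
set_option linter.unusedSectionVars false

namespace H7.LowRank

open H7.Hyp H7.HypStd H7.HypOrd H7.Omega H7.OmegaIso H7.OmegaOrd QuadraticMap
open H7.AnisoPlane (Aniso eK norm_eK)
open H48.QuadStd Matrix
open scoped commutatorElement

/-- change of basis for a Hermitian form -/
theorem unit_conj {ι R : Type*} [Fintype ι] [DecidableEq ι] [Field R] (φ : R →+* R) {P H g : Matrix ι ι R} (hP : IsUnit P.det)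
    (h1 : P * (P.map φ)ᵀ = H) (h2 : g * H * (g.map φ)ᵀ = H) :
    (P⁻¹ * g * P)ᵀ * (P⁻¹ * g * P).map φ = 1 := by
  have hPP : P⁻¹ * P = 1 := Matrix.nonsing_inv_mul P hP
  have e1 : ((P⁻¹ * g * P).map φ)ᵀ = (P.map φ)ᵀ * (g.map φ)ᵀ * ((P⁻¹).map φ)ᵀ := by
    rw [Matrix.map_mul, Matrix.map_mul, transpose_mul, transpose_mul, Matrix.mul_assoc]
  have e2 : (P.map φ)ᵀ * ((P⁻¹).map φ)ᵀ = 1 := by
    rw [← transpose_mul, ← Matrix.map_mul, hPP, Matrix.map_one _ (map_zero φ) (map_one φ), transpose_one]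
  have e3 : (P⁻¹ * g * P) * ((P⁻¹ * g * P).map φ)ᵀ = 1 := by
    rw [e1]
    calc P⁻¹ * g * P * ((P.map φ)ᵀ * (g.map φ)ᵀ * ((P⁻¹).map φ)ᵀ)
        = P⁻¹ * (g * (P * (P.map φ)ᵀ) * (g.map φ)ᵀ) * ((P⁻¹).map φ)ᵀ := by simp only [Matrix.mul_assoc]
      _ = P⁻¹ * (P * (P.map φ)ᵀ) * ((P⁻¹).map φ)ᵀ := by rw [h1, h2]
      _ = (P⁻¹ * P) * ((P.map φ)ᵀ * ((P⁻¹).map φ)ᵀ) := by simp only [Matrix.mul_assoc]
      _ = 1 := by rw [hPP, e2, Matrix.one_mul]
  have e4 := mul_eq_one_comm.1 e3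
  have e5 := congrArg transpose e4
  rwa [transpose_mul, transpose_transpose, transpose_one] at e5

/-- conjugation by an invertible matrix after a ring homomorphism -/
noncomputable def conjHom {ι R S : Type*} [Fintype ι] [DecidableEq ι] [Field R] [Field S] (r : R →+* S) (P : Matrix ι ι S) (hP : IsUnit P.det) :
    Matrix.SpecialLinearGroup ι R →* Matrix.SpecialLinearGroup ι S where
  toFun g := ⟨P⁻¹ * (g.1.map r) * P, by
    rw [det_mul, det_mul, mul_comm, ← mul_assoc, ← det_mul, Matrix.mul_nonsing_inv P hP, det_one, one_mul]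
    have := congrArg r g.2
    rw [RingHom.map_det, map_one] at this
    exact this⟩
  map_one' := by
    apply Subtype.ext
    change P⁻¹ * ((1 : Matrix ι ι R).map r) * P = 1
    rw [Matrix.map_one _ (map_zero r) (map_one r), Matrix.mul_one, Matrix.nonsing_inv_mul P hP]
  map_mul' g h := by
    apply Subtype.ext
    change P⁻¹ * ((g.1 * h.1).map r) * P = (P⁻¹ * (g.1.map r) * P) * (P⁻¹ * (h.1.map r) * P)
    rw [Matrix.map_mul]
    calc P⁻¹ * (g.1.map r * h.1.map r) * P = P⁻¹ * g.1.map r * 1 * h.1.map r * P := by simp only [Matrix.mul_assoc, Matrix.one_mul]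
      _ = P⁻¹ * g.1.map r * (P * P⁻¹) * h.1.map r * P := by rw [Matrix.mul_nonsing_inv P hP]
      _ = _ := by simp only [Matrix.mul_assoc]

theorem conjHom_injective {ι R S : Type*} [Fintype ι] [DecidableEq ι] [Field R] [Field S] (r : R →+* S) (P : Matrix ι ι S) (hP : IsUnit P.det) :
    Function.Injective (conjHom r P hP) := by
  intro g h he
  have h1 : P⁻¹ * (g.1.map r) * P = P⁻¹ * (h.1.map r) * P := congrArg Subtype.val he
  have h2 : g.1.map r = h.1.map r := by
    have := congrArg (fun M => P * M * P⁻¹) h1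
    simp only [Matrix.mul_assoc, Matrix.mul_nonsing_inv P hP, Matrix.mul_one] at this
    simpa only [← Matrix.mul_assoc, Matrix.mul_nonsing_inv P hP, Matrix.one_mul] using this
  apply Subtype.ext
  ext i j
  exact r.injective (congrFun (congrFun h2 i) j)

theorem G0_equiv {F K : Type*} [Field F] [Fintype F] [Field K] [Fintype K] {q : ℕ} (hF : Fintype.card F = q) (hK : Fintype.card K = q ^ 2)
    {a b : F} [Fact (∀ r : F, r ^ 2 ≠ -b + a * r)] (hab : Aniso a b) : Nonempty (G0 a b ≃* Cfsg.SU 4 K q) := by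
  let _ : Fintype (H7.AnisoPlane.K a b) := Fintype.ofFinite _
  have hq := H7.QuadExt.one_lt_q hK
  have hcard : Fintype.card (H7.AnisoPlane.K a b) = Fintype.card K := by
    rw [H7.AnisoPlane.card_K, hF, hK]
  let r : H7.AnisoPlane.K a b ≃+* K := FiniteField.ringEquivOfCardEq hcard
  obtain ⟨φ, hφ⟩ := H7.QuadExt.exists_conj hK
  have hr : ∀ z, r (star z) = φ (r z) := by
    intro z
    rw [H7.AnisoPlane.star_eq_pow, map_pow, hφ, hF]
  obtain ⟨x, hx⟩ := H7.SmallField.exists_not_fixed hK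
  obtain ⟨θ, hθ⟩ := H7.QuadExt.exists_norm_eq (c := (-1 : K)) hK (by rw [H7.QuadExt.neg_pow_q hK, one_pow])
  have hθ' : θ * φ θ = -1 := by rw [hφ, mul_comm, ← pow_succ]; exact hθ
  set s : K := x - φ x with hs
  have hs0 : s ≠ 0 := fun h => hx (by rw [← hφ]; exact (sub_eq_zero.1 h).symm)
  have hφφ : ∀ z, φ (φ z) = z := fun z => by rw [hφ, hφ, H7.QuadExt.pow_q_pow_q hK]
  let P : Matrix (Fin 2 ⊕ Fin 2) (Fin 2 ⊕ Fin 2) K := fromBlocks (x • 1) ((φ x * θ) • 1) 1 (θ • 1)
  have hPφ : P.map φ = fromBlocks (φ x • 1) ((x * φ θ) • 1) 1 (φ θ • 1) := by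
    ext1 i j
    rcases i with i | i <;> rcases j with j | j <;> fin_cases i <;> fin_cases j <;> simp [P, hφφ]
  have h1 : P * (P.map φ)ᵀ = (-s) • toA 0 0 0 0 (-1) (-1) := by
    rw [hPφ, toA, fromBlocks_transpose, fromBlocks_multiply, fromBlocks_smul]
    simp only [transpose_smul, transpose_one]
    congr 1 <;> (ext1 i j; fin_cases i <;> fin_cases j <;> simp [hs])
    all_goals first
      | linear_combination (x * φ x) * hθ'
      | linear_combination (φ x) * hθ'
      | linear_combination x * hθ'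
      | linear_combination hθ'
  have hP : IsUnit P.det := by
    refine Matrix.isUnit_det_of_right_inverse (B := (P.map φ)ᵀ * (s⁻¹ • toA 0 0 0 0 (-1) (-1))) ?_
    rw [← Matrix.mul_assoc, h1, Matrix.mul_smul, Matrix.smul_mul, smul_smul]
    have hJJ : toA (0 : K) 0 0 0 (-1) (-1) * toA 0 0 0 0 (-1) (-1) = -1 := by
      rw [toA, fromBlocks_multiply, ← fromBlocks_one, fromBlocks_neg]
      congr 1 <;> (ext1 i j; fin_cases i <;> fin_cases j <;> simp)
    rw [hJJ, smul_neg, mul_neg, inv_mul_cancel₀ hs0, neg_smul, neg_neg, one_smul]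
  let ψ : Matrix.SpecialLinearGroup (Fin 2 ⊕ Fin 2) (H7.AnisoPlane.K a b) →* Matrix.SpecialLinearGroup (Fin 4) K :=
    (slReindex finSumFinEquiv).toMonoidHom.comp (conjHom r.toRingHom P hP)
  have hψ : Function.Injective ψ := (slReindex finSumFinEquiv).injective.comp (conjHom_injective _ P hP)
  have hrJ : (toA (0 : H7.AnisoPlane.K a b) 0 0 0 (-1) (-1)).map r = toA 0 0 0 0 (-1) (-1) := by
    simp only [toA, fromBlocks_map, map2]
    simp
  have key : ∀ g : Matrix.SpecialLinearGroup (Fin 2 ⊕ Fin 2) (H7.AnisoPlane.K a b),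
      g.1 * toA 0 0 0 0 (-1) (-1) * (g.1.map star)ᵀ = toA 0 0 0 0 (-1) (-1) → ψ g ∈ Cfsg.SU 4 K q := by
    intro g hg
    refine (H7.UnitSU.mem_SU_iff hK _).2 ?_
    have h2 : (g.1.map r) * ((-s) • toA 0 0 0 0 (-1) (-1)) * ((g.1.map r).map φ)ᵀ = (-s) • toA 0 0 0 0 (-1) (-1) := by
      rw [Matrix.mul_smul, Matrix.smul_mul]
      congr 1
      have h3 := congrArg (fun M : Matrix (Fin 2 ⊕ Fin 2) (Fin 2 ⊕ Fin 2) (H7.AnisoPlane.K a b) => M.map r) hg
      simp only [Matrix.map_mul, hrJ] at h3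
      refine Eq.trans ?_ h3
      congr 1
      ext1 i j
      exact (hr _).symm
    have h4 := unit_conj φ hP h1 h2
    have e1 : ((ψ g : Matrix.SpecialLinearGroup (Fin 4) K) : Matrix (Fin 4) (Fin 4) K) = Matrix.reindex finSumFinEquiv finSumFinEquiv (P⁻¹ * g.1.map r * P) := rfl
    have e2 : H7.UnitSU.bar q ((ψ g : Matrix.SpecialLinearGroup (Fin 4) K) : Matrix (Fin 4) (Fin 4) K) =
        Matrix.reindex finSumFinEquiv finSumFinEquiv ((P⁻¹ * g.1.map r * P).map φ) := by
      rw [e1]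
      ext i j
      simp only [H7.UnitSU.bar, Matrix.map_apply, Matrix.reindex_apply, Matrix.submatrix_apply, hφ]
    rw [e2, e1, Matrix.reindex_apply, Matrix.reindex_apply, Matrix.transpose_submatrix, Matrix.submatrix_mul_equiv, h4,
      Matrix.submatrix_one_equiv]
  have hle : (G0 a b).map ψ ≤ Cfsg.SU 4 K q := by
    rw [Subgroup.map_le_iff_le_comap]
    unfold G0
    rw [Subgroup.closure_le]
    rintro g (⟨w, rfl⟩ | ⟨w, rfl⟩)
    · exact key _ (up_J _ _ _)
    · exact key _ (lo_J _ _ _)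
  have hcardG : Nat.card ((G0 a b).map ψ) = Nat.card (G0 a b) :=
    (Nat.card_congr ((G0 a b).equivMapOfInjective ψ hψ).toEquiv).symm
  have heq : (G0 a b).map ψ = Cfsg.SU 4 K q := by
    apply Subgroup.eq_of_le_of_card_ge hle
    rw [hcardG]
    refine le_trans (le_of_eq ?_) (card_G0 (a := a) (b := b))
    -- order of `Ω`
    obtain ⟨e⟩ := ((H7.HypStd.minus_succ (F := F) 1 a b).trans (hyp_congr (H7.HypStd.minus_succ (F := F) 0 a b))).trans
      (hyp_congr (hyp_congr (equivalent_qN a b)))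
    have hf : ∀ v, hyp (hyp (qN a b)) (e.toLinearEquiv v) = Cfsg.quadFormMinus 2 F a b v := by
      intro v
      rw [← H48.QuadStd.coe_qMinus]
      exact e.map_app v
    have hfin : Module.Finite F (H7.AnisoPlane.K a b) := Module.Finite.of_finite
    have hOm : Nat.card (Cfsg.Omega F (Cfsg.quadFormMinus 2 F a b)) = Nat.card (Om (hyp (qN a b))) :=
      Nat.card_congr (omegaEquiv (tr (ι := (Fin 2 ⊕ Fin 2) ⊕ Fin 2) e.toLinearEquiv hf) (commutator_eq_two (nd_qN hab))).toEquiv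
    have hO := Cfsg.Agent.S0288.result hF 3 (by norm_num) a b hab
    have hidx := (Cfsg.Omega F (Cfsg.quadFormMinus 2 F a b)).card_mul_index
    change Nat.card (Cfsg.isometryGroup F (Cfsg.quadFormMinus 2 F a b)) = _ at hO
    rw [hO, hOm] at hidx
    have hnd := ND.nondegenerate (H7.MinusOrd.nd_minus (F := F) 2 hab)
    have hSU := H7.UnitSU.card_SU hK 4 (by norm_num)
    have e1 : ∏ i ∈ Finset.range 4, (if Even i then q ^ (i + 1) + 1 else q ^ (i + 1) - 1) = (q + 1) * ((q ^ 2 - 1) * (q ^ 3 + 1) * (q ^ 4 - 1)) := by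
      simp [Finset.prod_range_succ, Nat.even_iff]
      ring
    have e2 : ∏ i ∈ Finset.range (3 - 1), (q ^ (2 * (i + 1)) - 1) = (q ^ 2 - 1) * (q ^ 4 - 1) := by
      simp [Finset.prod_range_succ]
    rw [e1] at hSU
    rw [e2] at hidx
    have hSU' : Nat.card (Cfsg.SU 4 K q) = q ^ 6 * ((q ^ 2 - 1) * (q ^ 3 + 1) * (q ^ 4 - 1)) := by
      apply Nat.eq_of_mul_eq_mul_left (show 0 < q + 1 by omega)
      rw [hSU]
      have : 4 * (4 - 1) / 2 = 6 := rfl
      rw [this]; ring
    have e3 : 2 * q ^ (3 * (3 - 1)) * (q ^ 3 + 1) * ((q ^ 2 - 1) * (q ^ 4 - 1)) = 2 * Nat.card (Cfsg.SU 4 K q) := by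
      rw [hSU']
      have : 3 * (3 - 1) = 6 := rfl
      rw [this]; ring
    rw [e3] at hidx
    split_ifs with h2
    · have : CharP F 2 := by rw [← h2]; exact ringChar.charP F
      have hi : (Cfsg.Omega F (Cfsg.quadFormMinus 2 F a b)).index = 2 := by
        rw [← H48.QuadStd.coe_qMinus]
        exact (H17.DicksonInv.main_even hnd (by simp) (Or.inr (by simp))).1
      rw [hi] at hidx
      omega
    · have h2' : (2 : F) ≠ 0 := fun h => h2 (CharP.ringChar_of_prime_eq_zero Nat.prime_two (by exact_mod_cast h))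
      have hi : (Cfsg.Omega F (Cfsg.quadFormMinus 2 F a b)).index = 4 := by
        rw [← H48.QuadStd.coe_qMinus]
        exact H17.OrthTrans2.index_Omega h2' (by simp) _ hnd
      rw [hi] at hidx
      omega
  exact ⟨((G0 a b).equivMapOfInjective ψ hψ).trans (MulEquiv.subgroupCongr heq)⟩

end H7.LowRank
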