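import Mathlib

/-!
Elements of alternating groups with prescribed conjugation relations.
-/

set_option autoImplicit false

namespace H7.AltElt

open Equiv

/-- The embedding `Perm (Fin k) → Perm (Fin r)`, `k ≤ r`. -/
noncomputable def emb {k r : ℕ} (h : k ≤ r) : Perm (Fin k) →* Perm (Fin r) :=
  Perm.viaEmbeddingHom (Fin.castLEEmb h)

theorem emb_injective {k r : ℕ} (h : k ≤ r) : Function.Injective (emb h) :=
  Perm.viaEmbeddingHom_injective _

theorem sign_emb {k r : ℕ} (h : k ≤ r) (σ : Perm (Fin k)) : Perm.sign (emb h σ) = Perm.sign σ := by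
  classical
  unfold emb
  rw [Perm.viaEmbeddingHom_apply]
  unfold Perm.viaEmbedding
  convert Perm.sign_extendDomain σ (Equiv.ofInjective _ (Fin.castLEEmb h).injective) <;> rfl

/-- The embedding of alternating groups. -/
noncomputable def embA {k r : ℕ} (h : k ≤ r) : alternatingGroup (Fin k) →* alternatingGroup (Fin r) :=
  ((emb h).comp (alternatingGroup (Fin k)).subtype).codRestrict _ (fun x => by
    rw [Perm.mem_alternatingGroup]
    exact (sign_emb h _).trans (Perm.mem_alternatingGroup.1 x.2))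

theorem embA_injective {k r : ℕ} (h : k ≤ r) : Function.Injective (embA h) := by
  intro x y e
  apply Subtype.ext
  apply emb_injective h
  exact congrArg Subtype.val e

/-- transport of a relation from `A_k` to `A_r` -/
theorem rel {k r : ℕ} (h : k ≤ r) {p c : ℕ} (σ τ : alternatingGroup (Fin k)) (hσ : orderOf σ = p)
    (hc : τ * σ * τ⁻¹ = σ ^ c) :
    ∃ σ' τ' : alternatingGroup (Fin r), orderOf σ' = p ∧ τ' * σ' * τ'⁻¹ = σ' ^ c := by
  refine ⟨embA h σ, embA h τ, ?_, ?_⟩
  · rw [← hσ]; exact orderOf_injective _ (embA_injective h) σ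
  · rw [← map_inv, ← map_mul, ← map_mul, hc, map_pow]

/-- `7 : 3` in `A_7` -/
theorem seven {r : ℕ} (h : 7 ≤ r) :
    ∃ σ' τ' : alternatingGroup (Fin r), orderOf σ' = 7 ∧ τ' * σ' * τ'⁻¹ = σ' ^ 2 := by
  have : Fact (Nat.Prime 7) := ⟨by norm_num⟩
  refine rel h ⟨finRotate 7, Perm.mem_alternatingGroup.2 (by decide)⟩
    ⟨(⟨fun i => 2 * i, fun i => 4 * i, by decide, by decide⟩ : Perm (Fin 7)), Perm.mem_alternatingGroup.2 (by decide)⟩ ?_ ?_
  · rw [orderOf_eq_prime_iff]
    refine ⟨?_, ?_⟩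
    · apply Subtype.ext; decide
    · intro e
      have := congrArg (fun x : alternatingGroup (Fin 7) => (x : Perm (Fin 7)) 0) e
      revert this; decide
  · apply Subtype.ext; decide

/-- `5 : 4` in `A_7` -/
theorem five {r : ℕ} (h : 7 ≤ r) :
    ∃ σ' τ' : alternatingGroup (Fin r), orderOf σ' = 5 ∧ τ' * σ' * τ'⁻¹ = σ' ^ 2 := by
  have : Fact (Nat.Prime 5) := ⟨by norm_num⟩
  refine rel h
    ⟨(⟨![1, 2, 3, 4, 0, 5, 6], ![4, 0, 1, 2, 3, 5, 6], by decide, by decide⟩ : Perm (Fin 7)), Perm.mem_alternatingGroup.2 (by decide)⟩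
    ⟨(⟨![0, 2, 4, 1, 3, 6, 5], ![0, 3, 1, 4, 2, 6, 5], by decide, by decide⟩ : Perm (Fin 7)), Perm.mem_alternatingGroup.2 (by decide)⟩ ?_ ?_
  · rw [orderOf_eq_prime_iff]
    refine ⟨?_, ?_⟩
    · apply Subtype.ext; decide
    · intro e
      have := congrArg (fun x : alternatingGroup (Fin 7) => (x : Perm (Fin 7)) 0) e
      revert this; decide
  · apply Subtype.ext; decide

/-- `11 : 5` in `A_11` -/
theorem eleven {r : ℕ} (h : 11 ≤ r) :
    ∃ σ' τ' : alternatingGroup (Fin r), orderOf σ' = 11 ∧ τ' * σ' * τ'⁻¹ = σ' ^ 3 := by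
  have : Fact (Nat.Prime 11) := ⟨by norm_num⟩
  refine rel h ⟨finRotate 11, Perm.mem_alternatingGroup.2 (by decide +kernel)⟩
    ⟨(⟨fun i => 3 * i, fun i => 4 * i, by decide, by decide⟩ : Perm (Fin 11)), Perm.mem_alternatingGroup.2 (by decide +kernel)⟩ ?_ ?_
  · rw [orderOf_eq_prime_iff]
    refine ⟨?_, ?_⟩
    · apply Subtype.ext; decide +kernel
    · intro e
      have := congrArg (fun x : alternatingGroup (Fin 11) => (x : Perm (Fin 11)) 0) e
      revert this; decide +kernel
  · apply Subtype.ext; decide +kernel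

end H7.AltElt
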