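import Cfsg.Agent.Lib.H7.A8Loc
import Cfsg.Agent.Lib.H7.AltElt

/-!
The Sylow 3-configuration in the alternating group of degree 8.
-/

set_option autoImplicit false
set_option linter.unusedVariables false
set_option linter.style.haveILetI false

namespace H7.A8Loc

section gen

variable {X : Type*} [Group X]

/-- The subgroup of all `a ^ i * b ^ j`. -/
def twoGen (a b : X) (hab : a * b = b * a) (ha : a ^ 3 = 1) (hb : b ^ 3 = 1) : Subgroup X where
  carrier := {x | ∃ i j : ℕ, x = a ^ i * b ^ j}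
  one_mem' := ⟨0, 0, by simp⟩
  mul_mem' := by
    rintro _ _ ⟨i, j, rfl⟩ ⟨k, l, rfl⟩
    refine ⟨i + k, j + l, ?_⟩
    have h : Commute a b := hab
    have h1 : b ^ j * a ^ k = a ^ k * b ^ j := ((h.pow_pow k j).eq).symm
    calc a ^ i * b ^ j * (a ^ k * b ^ l) = a ^ i * (b ^ j * a ^ k) * b ^ l := by group
      _ = a ^ i * (a ^ k * b ^ j) * b ^ l := by rw [h1]
      _ = a ^ (i + k) * b ^ (j + l) := by rw [pow_add, pow_add]; group
  inv_mem' := by
    rintro _ ⟨i, j, rfl⟩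
    refine ⟨2 * i, 2 * j, ?_⟩
    have h : Commute a b := hab
    have h1 : b ^ (2 * j) * a ^ (2 * i) = a ^ (2 * i) * b ^ (2 * j) := ((h.pow_pow _ _).eq).symm
    rw [← h1, inv_eq_iff_mul_eq_one]
    calc a ^ i * b ^ j * (b ^ (2 * j) * a ^ (2 * i)) = a ^ i * (b ^ (j + 2 * j)) * a ^ (2 * i) := by
          rw [pow_add b]; group
      _ = a ^ i * a ^ (2 * i) := by
          rw [show j + 2 * j = 3 * j by ring, pow_mul, hb, one_pow, mul_one]
      _ = 1 := by rw [← pow_add, show i + 2 * i = 3 * i by ring, pow_mul, ha, one_pow]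

variable {a b : X} (hab : a * b = b * a) (ha : a ^ 3 = 1) (hb : b ^ 3 = 1)

theorem mem_twoGen {x : X} : x ∈ twoGen a b hab ha hb ↔ ∃ i j : ℕ, x = a ^ i * b ^ j := Iff.rfl

include hab ha hb in
theorem mem_fin {x : X} (hx : x ∈ twoGen a b hab ha hb) : ∃ i < 3, ∃ j < 3, x = a ^ i * b ^ j := by
  obtain ⟨i, j, rfl⟩ := hx
  refine ⟨i % 3, Nat.mod_lt _ (by norm_num), j % 3, Nat.mod_lt _ (by norm_num), ?_⟩
  rw [← pow_mod_orderOf a (i % 3), ← pow_mod_orderOf b (j % 3), ← pow_mod_orderOf a i, ← pow_mod_orderOf b j]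
  have h1 : orderOf a ∣ 3 := orderOf_dvd_of_pow_eq_one ha
  have h2 : orderOf b ∣ 3 := orderOf_dvd_of_pow_eq_one hb
  rw [Nat.mod_mod_of_dvd _ h1, Nat.mod_mod_of_dvd _ h2]

/-- The configuration from conjugation relations. -/
theorem conf {ρ g1 g2 g3 g4 : X} (hρa : ρ * a * ρ⁻¹ = b) (hρb : ρ * b * ρ⁻¹ = a ^ 2)
    (h1a : g1 * a * g1⁻¹ = a) (h1b : g1 * b * g1⁻¹ = b ^ 2)
    (h2a : g2 * a * g2⁻¹ = a ^ 2) (h2b : g2 * b * g2⁻¹ = b)
    (h3a : g3 * a * g3⁻¹ = b) (h3b : g3 * b * g3⁻¹ = a)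
    (h4a : g4 * a * g4⁻¹ = b ^ 2) (h4b : g4 * b * g4⁻¹ = a ^ 2)
    (hind : ∀ i < 3, ∀ j < 3, a ^ i * b ^ j = 1 → i = 0 ∧ j = 0) [IsSimpleGroup X] :
    Conf (twoGen a b hab ha hb) a b ρ := by
  have hcomm : ∀ x ∈ twoGen a b hab ha hb, ∀ y ∈ twoGen a b hab ha hb, x * y = y * x := by
    rintro _ ⟨i, j, rfl⟩ _ ⟨k, l, rfl⟩
    have h : Commute a b := hab
    have h1 : Commute (a ^ i * b ^ j) (a ^ k * b ^ l) := by
      apply Commute.mul_left
      · exact ((Commute.refl a).pow_pow i k).mul_right (h.pow_pow i l)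
      · exact ((h.symm.pow_pow j k)).mul_right ((Commute.refl b).pow_pow j l)
    exact h1.eq
  have haS : a ∈ twoGen a b hab ha hb := ⟨1, 0, by simp⟩
  have hbS : b ∈ twoGen a b hab ha hb := ⟨0, 1, by simp⟩
  have hle : ∀ K : Subgroup X, a ∈ K → b ∈ K → twoGen a b hab ha hb ≤ K := by
    rintro K h1 h2 _ ⟨i, j, rfl⟩
    exact K.mul_mem (K.pow_mem h1 i) (K.pow_mem h2 j)
  have hconj : ∀ g x y : X, ∀ i j : ℕ, g * a * g⁻¹ = x → g * b * g⁻¹ = y →
      g * (a ^ i * b ^ j) * g⁻¹ = x ^ i * y ^ j := by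
    intro g x y i j hx hy
    rw [← hx, ← hy, conj_pow, conj_pow]; group
  have hnorm : ∀ g x y : X, g * a * g⁻¹ = x → g * b * g⁻¹ = y → x ∈ twoGen a b hab ha hb →
      y ∈ twoGen a b hab ha hb → ∀ s ∈ twoGen a b hab ha hb, g * s * g⁻¹ ∈ twoGen a b hab ha hb := by
    rintro g x y hx hy hxS hyS _ ⟨i, j, rfl⟩
    rw [hconj g x y i j hx hy]
    exact Subgroup.mul_mem _ (Subgroup.pow_mem _ hxS i) (Subgroup.pow_mem _ hyS j)
  have haS2 : a ^ 2 ∈ twoGen a b hab ha hb := Subgroup.pow_mem _ haS 2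
  have hbS2 : b ^ 2 ∈ twoGen a b hab ha hb := Subgroup.pow_mem _ hbS 2
  have ha1 : a ≠ 1 := by
    intro e
    have := (hind 1 (by norm_num) 0 (by norm_num) (by rw [e]; simp)).1
    omega
  have hb1 : b ≠ 1 := by
    intro e
    have := (hind 0 (by norm_num) 1 (by norm_num) (by rw [e]; simp)).2
    omega
  have hba : ∀ i j : ℕ, b ^ i * a ^ j = a ^ j * b ^ i := fun i j =>
    (((show Commute a b from hab).pow_pow j i).eq).symm
  have hinv : ∀ i j : ℕ, (a ^ i * b ^ j)⁻¹ = a ^ (2 * i) * b ^ (2 * j) := by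
    intro i j
    rw [inv_eq_iff_mul_eq_one]
    calc a ^ i * b ^ j * (a ^ (2 * i) * b ^ (2 * j)) = a ^ i * (b ^ j * a ^ (2 * i)) * b ^ (2 * j) := by group
      _ = a ^ (i + 2 * i) * b ^ (j + 2 * j) := by rw [hba, pow_add, pow_add]; group
      _ = 1 := by
        rw [show i + 2 * i = 3 * i by ring, show j + 2 * j = 3 * j by ring, pow_mul, pow_mul, ha, hb]
        simp
  have hmul : ∀ i j k l : ℕ, (a ^ i * b ^ j) * (a ^ k * b ^ l) = a ^ (i + k) * b ^ (j + l) := by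
    intro i j k l
    calc a ^ i * b ^ j * (a ^ k * b ^ l) = a ^ i * (b ^ j * a ^ k) * b ^ l := by group
      _ = a ^ (i + k) * b ^ (j + l) := by rw [hba, pow_add, pow_add]; group
  have hpow : ∀ i j n : ℕ, (a ^ i * b ^ j) ^ n = a ^ (i * n) * b ^ (j * n) := by
    intro i j n
    rw [(((show Commute a b from hab).pow_pow i j)).mul_pow, ← pow_mul, ← pow_mul]
  have hred : ∀ i j i' j' : ℕ, i % 3 = i' % 3 → j % 3 = j' % 3 → a ^ i * b ^ j = a ^ i' * b ^ j' := by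
    intro i j i' j' h1 h2
    have e1 : ∀ n : ℕ, a ^ n = a ^ (n % 3) := by
      intro n
      conv_lhs => rw [← Nat.div_add_mod n 3, pow_add, pow_mul, ha, one_pow, one_mul]
    have e2 : ∀ n : ℕ, b ^ n = b ^ (n % 3) := by
      intro n
      conv_lhs => rw [← Nat.div_add_mod n 3, pow_add, pow_mul, hb, one_pow, one_mul]
    rw [e1 i, e1 i', e2 j, e2 j', h1, h2]
  -- closure of a subgroup containing two independent elements
  have hgen2 : ∀ K : Subgroup X, ∀ i j k l : ℕ, a ^ i * b ^ j ∈ K → a ^ k * b ^ l ∈ K →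
      (∃ m n m' n' : Fin 3, (i * (m : ℕ) + k * (n : ℕ)) % 3 = 1 ∧ (j * (m : ℕ) + l * (n : ℕ)) % 3 = 0 ∧
        (i * (m' : ℕ) + k * (n' : ℕ)) % 3 = 0 ∧ (j * (m' : ℕ) + l * (n' : ℕ)) % 3 = 1) → a ∈ K ∧ b ∈ K := by
    rintro K i j k l h1 h2 ⟨m, n, m', n', e1, e2, e3, e4⟩
    constructor
    · have := K.mul_mem (K.pow_mem h1 m) (K.pow_mem h2 n)
      rw [hpow, hpow, hmul, hred _ _ 1 0 (by rw [e1]) (by rw [e2])] at this
      simpa using this
    · have := K.mul_mem (K.pow_mem h1 m') (K.pow_mem h2 n')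
      rw [hpow, hpow, hmul, hred _ _ 0 1 (by rw [e3]) (by rw [e4])] at this
      simpa using this
  refine ⟨haS, hbS, hcomm, ?_, ?_, ha1, hnorm ρ _ _ hρa hρb hbS haS2, ?_, ?_, ?_, ?_, ?_⟩
  · rintro _ ⟨i, j, rfl⟩
    rw [hpow, hred (i * 3) (j * 3) 0 0 (by simp) (by simp)]; simp
  · -- card
    have hbij : Function.Bijective (fun ij : Fin 3 × Fin 3 =>
        (⟨a ^ (ij.1 : ℕ) * b ^ (ij.2 : ℕ), ⟨_, _, rfl⟩⟩ : twoGen a b hab ha hb)) := by
      constructor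
      · rintro ⟨i, j⟩ ⟨k, l⟩ e
        have e' : a ^ (i : ℕ) * b ^ (j : ℕ) = a ^ (k : ℕ) * b ^ (l : ℕ) := congrArg Subtype.val e
        have e2 : a ^ ((i + 2 * k) % 3 : ℕ) * b ^ ((j + 2 * l) % 3 : ℕ) = 1 := by
          rw [hred ((i + 2 * k) % 3 : ℕ) ((j + 2 * l) % 3 : ℕ) (i + 2 * k) (j + 2 * l) (by simp) (by simp),
            ← hmul, ← hinv, e', mul_inv_cancel]
        have h5 := hind _ (Nat.mod_lt _ (by norm_num)) _ (Nat.mod_lt _ (by norm_num)) e2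
        have i3 := i.2; have j3 := j.2; have k3 := k.2; have l3 := l.2
        refine Prod.ext (Fin.ext ?_) (Fin.ext ?_) <;> simp only <;> omega
      · rintro ⟨x, hx⟩
        obtain ⟨i, hi, j, hj, rfl⟩ := mem_fin hab ha hb hx
        exact ⟨(⟨i, hi⟩, ⟨j, hj⟩), rfl⟩
    rw [← Nat.card_congr (Equiv.ofBijective _ hbij)]
    simp
  · rintro _ ⟨i, j, rfl⟩
    rw [hconj ρ _ _ i j hρa hρb, ← pow_mul, hba, hconj ρ _ _ _ _ hρa hρb, ← pow_mul, hba, hinv]
  · intro K s hs hs1 h1 h2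
    obtain ⟨i, hi, j, hj, rfl⟩ := mem_fin hab ha hb hs
    rw [hconj ρ _ _ i j hρa hρb, ← pow_mul, hba] at h2
    have h5 : a ∈ K ∧ b ∈ K := by
      refine hgen2 K _ _ _ _ h1 h2 ?_
      interval_cases i <;> interval_cases j
      · exact absurd (by simp) hs1
      · exact (by decide)
      · exact (by decide)
      · exact (by decide)
      · exact (by decide)
      · exact (by decide)
      · exact (by decide)
      · exact (by decide)
      · exact (by decide)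
    exact hle K h5.1 h5.2
  · intro s hs hs1
    obtain ⟨i, hi, j, hj, rfl⟩ := mem_fin hab ha hb hs
    have key : ∀ (g x y : X) (k l : ℕ), g * a * g⁻¹ = x → g * b * g⁻¹ = y →
        x ∈ twoGen a b hab ha hb → y ∈ twoGen a b hab ha hb →
        x ^ i * y ^ j = a ^ i * b ^ j → x ^ k * y ^ l = a ^ (2 * k) * b ^ (2 * l) →
        (∃ m n m' n' : Fin 3, (i * (m : ℕ) + k * (n : ℕ)) % 3 = 1 ∧ (j * (m : ℕ) + l * (n : ℕ)) % 3 = 0 ∧
          (i * (m' : ℕ) + k * (n' : ℕ)) % 3 = 0 ∧ (j * (m' : ℕ) + l * (n' : ℕ)) % 3 = 1) →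
        ∃ g : X, (∀ s ∈ twoGen a b hab ha hb, g * s * g⁻¹ ∈ twoGen a b hab ha hb) ∧
          g * (a ^ i * b ^ j) * g⁻¹ = a ^ i * b ^ j ∧ ∃ t ∈ twoGen a b hab ha hb, g * t * g⁻¹ = t⁻¹ ∧
          ∀ K : Subgroup X, a ^ i * b ^ j ∈ K → t ∈ K → twoGen a b hab ha hb ≤ K := by
      intro g x y k l hx hy hxS hyS e1 e2 hm
      refine ⟨g, hnorm g x y hx hy hxS hyS, ?_, a ^ k * b ^ l, ⟨k, l, rfl⟩, ?_, ?_⟩
      · rw [hconj g x y i j hx hy, e1]
      · rw [hconj g x y k l hx hy, e2, hinv]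
      · intro K h1 h2
        have h5 := hgen2 K _ _ _ _ h1 h2 hm
        exact hle K h5.1 h5.2
    interval_cases i <;> interval_cases j
    · exact absurd (by simp) hs1
    · refine key g2 _ _ 1 0 h2a h2b haS2 hbS (by simp) (by simp) (by decide)
    · refine key g2 _ _ 1 0 h2a h2b haS2 hbS (by simp) (by simp) (by decide)
    · refine key g1 _ _ 0 1 h1a h1b haS hbS2 (by simp) (by simp) (by decide)
    · refine key g3 _ _ 1 2 h3a h3b hbS haS ?_ ?_ (by decide)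
      · simp only [pow_one]; exact hab.symm
      · rw [pow_one, show b * a ^ 2 = b ^ 1 * a ^ 2 by rw [pow_one], hba]
        exact hred 2 1 (2 * 1) (2 * 2) (by norm_num) (by norm_num)
    · refine key g4 _ _ 1 1 h4a h4b hbS2 haS2 ?_ ?_ (by decide)
      · rw [← pow_mul, ← pow_mul, hba]
        exact hred _ _ 1 2 (by norm_num) (by norm_num)
      · rw [pow_one, pow_one, hba]
    · refine key g1 _ _ 0 1 h1a h1b haS hbS2 (by simp) (by simp) (by decide)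
    · refine key g4 _ _ 1 1 h4a h4b hbS2 haS2 ?_ ?_ (by decide)
      · rw [← pow_mul, ← pow_mul, hba]
        exact hred _ _ 2 1 (by norm_num) (by norm_num)
      · rw [pow_one, pow_one, hba]
    · refine key g3 _ _ 1 2 h3a h3b hbS haS ?_ ?_ (by decide)
      · exact hba 2 2
      · rw [pow_one, show b * a ^ 2 = b ^ 1 * a ^ 2 by rw [pow_one], hba]
        exact hred 2 1 (2 * 1) (2 * 2) (by norm_num) (by norm_num)
  · intro K hK
    exact (IsSimpleGroup.eq_bot_or_eq_top_of_normal K hK)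
  · rintro K rfl
    refine ⟨a, b, ?_, ?_, ?_, ?_⟩ <;> rw [Subgroup.mem_bot]
    · exact ha1
    · exact hb1
    · intro e
      have := (hind 1 (by norm_num) 1 (by norm_num) (by rw [pow_one, pow_one]; exact e)).1
      omega
    · intro e
      have hb2 : b⁻¹ = b ^ 2 := by
        rw [inv_eq_iff_mul_eq_one, ← pow_succ']; exact hb
      have := (hind 1 (by norm_num) 2 (by norm_num) (by rw [pow_one, ← hb2]; exact e)).1
      omega

end gen

section concrete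

open Equiv

/-- permutation of 8 points from tables -/
def pa : Perm (Fin 8) := ⟨![1, 2, 0, 3, 4, 5, 6, 7], ![2, 0, 1, 3, 4, 5, 6, 7], by decide, by decide⟩
/-- permutation -/
def pb : Perm (Fin 8) := ⟨![0, 1, 2, 4, 5, 3, 6, 7], ![0, 1, 2, 5, 3, 4, 6, 7], by decide, by decide⟩
/-- permutation -/
def pρ : Perm (Fin 8) := ⟨![3, 4, 5, 0, 2, 1, 6, 7], ![3, 5, 4, 0, 1, 2, 6, 7], by decide, by decide⟩
/-- permutation -/
def p1 : Perm (Fin 8) := ⟨![0, 1, 2, 3, 5, 4, 7, 6], ![0, 1, 2, 3, 5, 4, 7, 6], by decide, by decide⟩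
/-- permutation -/
def p2 : Perm (Fin 8) := ⟨![0, 2, 1, 3, 4, 5, 7, 6], ![0, 2, 1, 3, 4, 5, 7, 6], by decide, by decide⟩
/-- permutation -/
def p3 : Perm (Fin 8) := ⟨![3, 4, 5, 0, 1, 2, 7, 6], ![3, 4, 5, 0, 1, 2, 7, 6], by decide, by decide⟩
/-- permutation -/
def p4 : Perm (Fin 8) := ⟨![3, 5, 4, 0, 2, 1, 7, 6], ![3, 5, 4, 0, 2, 1, 7, 6], by decide, by decide⟩

theorem confA8 : ∃ (S : Subgroup (alternatingGroup (Fin 8))) (a b ρ : alternatingGroup (Fin 8)),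
    Conf S a b ρ := by
  haveI : IsSimpleGroup (alternatingGroup (Fin 8)) := alternatingGroup.isSimpleGroup (by simp)
  let a : alternatingGroup (Fin 8) := ⟨pa, Perm.mem_alternatingGroup.2 (by decide +kernel)⟩
  let b : alternatingGroup (Fin 8) := ⟨pb, Perm.mem_alternatingGroup.2 (by decide +kernel)⟩
  let ρ : alternatingGroup (Fin 8) := ⟨pρ, Perm.mem_alternatingGroup.2 (by decide +kernel)⟩
  let g1 : alternatingGroup (Fin 8) := ⟨p1, Perm.mem_alternatingGroup.2 (by decide +kernel)⟩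
  let g2 : alternatingGroup (Fin 8) := ⟨p2, Perm.mem_alternatingGroup.2 (by decide +kernel)⟩
  let g3 : alternatingGroup (Fin 8) := ⟨p3, Perm.mem_alternatingGroup.2 (by decide +kernel)⟩
  let g4 : alternatingGroup (Fin 8) := ⟨p4, Perm.mem_alternatingGroup.2 (by decide +kernel)⟩
  refine ⟨twoGen a b ?_ ?_ ?_, a, b, ρ, conf _ _ _ (g1 := g1) (g2 := g2) (g3 := g3) (g4 := g4)
    ?_ ?_ ?_ ?_ ?_ ?_ ?_ ?_ ?_ ?_ ?_⟩
  · apply Subtype.ext; show pa * pb = pb * pa; decide +kernel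
  · apply Subtype.ext; show pa ^ 3 = 1; decide +kernel
  · apply Subtype.ext; show pb ^ 3 = 1; decide +kernel
  · apply Subtype.ext; show pρ * pa * pρ⁻¹ = pb; decide +kernel
  · apply Subtype.ext; show pρ * pb * pρ⁻¹ = pa ^ 2; decide +kernel
  · apply Subtype.ext; show p1 * pa * p1⁻¹ = pa; decide +kernel
  · apply Subtype.ext; show p1 * pb * p1⁻¹ = pb ^ 2; decide +kernel
  · apply Subtype.ext; show p2 * pa * p2⁻¹ = pa ^ 2; decide +kernel
  · apply Subtype.ext; show p2 * pb * p2⁻¹ = pb; decide +kernel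
  · apply Subtype.ext; show p3 * pa * p3⁻¹ = pb; decide +kernel
  · apply Subtype.ext; show p3 * pb * p3⁻¹ = pa; decide +kernel
  · apply Subtype.ext; show p4 * pa * p4⁻¹ = pb ^ 2; decide +kernel
  · apply Subtype.ext; show p4 * pb * p4⁻¹ = pa ^ 2; decide +kernel
  · intro i hi j hj e
    have e' : pa ^ i * pb ^ j = 1 := congrArg Subtype.val e
    have key : ∀ i : Fin 3, ∀ j : Fin 3, pa ^ (i : ℕ) * pb ^ (j : ℕ) = 1 → (i : ℕ) = 0 ∧ (j : ℕ) = 0 := by
      decide +kernel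
    exact key ⟨i, hi⟩ ⟨j, hj⟩ e'

end concrete

section wrap

variable {Γ : Type*} [Group Γ] [Finite Γ] (T T1 : Subgroup Γ)
    (hTc : ∀ x ∈ T, ∀ y ∈ T, x * y = y * x)
    (hn : ∀ y ∈ T1, ∀ t ∈ T, y * t * y⁻¹ ∈ T)
    (h3 : ∀ y ∈ T1, y ∉ T → ∀ x ∈ T1, x ∈ T ∨ x * y⁻¹ ∈ T ∨ x * y ∈ T)
    (hidx : ¬ 3 ∣ T1.index)
    (hfix : ∀ (P : Subgroup Γ), P ≤ T → ∀ g : Γ, (∀ x ∈ P, g * x * g⁻¹ ∈ P) →
      ∀ x ∈ P, g ^ 6 * x * (g ^ 6)⁻¹ = x)
    (hC : ∀ y ∈ T1, y ∉ T → ∀ K : Subgroup Γ, K ≤ T → (∀ t ∈ K, t * y = y * t) → Nat.card K ≤ 3)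
    (h4 : ∀ z ∈ T, z ≠ 1 → ∀ y ∈ T1, y ∉ T → z * y = y * z → z ^ 3 = 1 → y ^ 3 = 1 →
      (∃ g : Γ, g * z * g⁻¹ = z ∧ g * y * g⁻¹ = y⁻¹) →
      (∃ g : Γ, g * z * g⁻¹ ∈ T1 ∧ g * z * g⁻¹ ∉ T) →
      ∃ x : Γ, x * z * x⁻¹ ∈ T ∧ x * y * x⁻¹ ∈ T)

include hTc hn h3 hidx hfix hC h4 in
theorem no_sect {X H : Type*} [Group X] [Group H] {S : Subgroup X} {a b ρ : X} (F : Conf S a b ρ)
    (ι : H →* Γ) (hι : Function.Injective ι) (φ : H →* X) (hφ : Function.Surjective φ) : False := by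
  haveI : Fact (Nat.Prime 3) := ⟨by norm_num⟩
  haveI : Finite H := Finite.of_injective ι hι
  obtain ⟨P, hP, hPS, hPidx, hlift⟩ := exists_sylow_lift φ hφ S F.comm F.exp
  obtain ⟨u, hu⟩ := H7.TorSect.conj_into T1 hidx (P.map ι) (hP.map ι)
  obtain ⟨j, hj⟩ : ∃ j : H →* Γ, j = (MulAut.conj u).toMonoidHom.comp ι := ⟨_, rfl⟩
  have hji : Function.Injective j := by
    rw [hj]; exact (MulAut.conj u).injective.comp hι
  have hjP : P ≤ T1.comap j := by
    intro x hx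
    rw [hj]
    exact hu (ι x) ⟨x, hx, rfl⟩
  have tor : ∀ v : Γ, (∀ x ∈ P, v * j x * v⁻¹ ∈ T) → False := by
    intro v hv
    refine not_toral φ hφ F hP hPS hPidx hlift ?_
    intro g hg x hx
    obtain ⟨Q, hQ⟩ : ∃ Q : Subgroup Γ, Q = (P.map j).map (MulAut.conj v).toMonoidHom := ⟨_, rfl⟩
    have h5 := hfix Q (by
      rw [hQ]; rintro _ ⟨_, ⟨x, hx, rfl⟩, rfl⟩; exact hv x hx) (v * j g * v⁻¹) (by
      rw [hQ]; rintro _ ⟨_, ⟨x, hx, rfl⟩, rfl⟩
      refine ⟨j (g * x * g⁻¹), ⟨_, hg x hx, rfl⟩, ?_⟩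
      show v * j (g * x * g⁻¹) * v⁻¹ = v * j g * v⁻¹ * (v * j x * v⁻¹) * (v * j g * v⁻¹)⁻¹
      rw [map_mul, map_mul, map_inv]; group) (v * j x * v⁻¹) (by
      rw [hQ]; exact ⟨j x, ⟨x, hx, rfl⟩, rfl⟩)
    rw [conj_pow] at h5
    apply hji
    rw [map_mul, map_mul, map_inv, map_pow]
    have h6 : v * (j g ^ 6 * j x * (j g ^ 6)⁻¹) * v⁻¹ = v * j x * v⁻¹ := by
      rw [← h5]; group
    exact mul_left_cancel (mul_right_cancel h6)
  by_cases hPT : P ≤ T.comap j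
  · exact tor 1 (fun x hx => by simpa using hPT hx)
  · refine nontoral φ hφ F hP hPS hPidx hlift (T.comap j) (T1.comap j) ?_ ?_ ?_ hjP hPT ?_ ?_
    · intro x hx y hy
      apply hji
      rw [map_mul, map_mul]; exact hTc _ hx _ hy
    · intro y hy t ht
      rw [Subgroup.mem_comap, map_mul, map_mul, map_inv]; exact hn _ hy _ ht
    · intro y hy hyT x hx
      rcases h3 _ hy hyT _ hx with h | h | h
      · exact Or.inl h
      · refine Or.inr (Or.inl ?_)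
        rw [Subgroup.mem_comap, map_mul, map_inv]; exact h
      · refine Or.inr (Or.inr ?_)
        rw [Subgroup.mem_comap, map_mul]; exact h
    · intro y hy hyT K hK hKy
      have h5 := hC _ hy hyT (K.map j) (by
        rintro _ ⟨x, hx, rfl⟩; exact hK hx) (by
        rintro _ ⟨x, hx, rfl⟩
        rw [← map_mul, ← map_mul, hKy x hx])
      rwa [Subgroup.card_map_of_injective hji] at h5
    · rintro z hzP hzT hz1 y hyP hyT hzy hz3 hy3 ⟨g, hg1, hg2⟩ ⟨g', hg'1, hg'2⟩ hgen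
      obtain ⟨x, hx1, hx2⟩ := h4 (j z) hzT (by
        intro e; exact hz1 (hji (by rw [e, map_one]))) (j y) (hjP hyP) hyT
        (by rw [← map_mul, ← map_mul, hzy]) (by rw [← map_pow, hz3, map_one])
        (by rw [← map_pow, hy3, map_one])
        ⟨j g, by rw [← map_inv, ← map_mul, ← map_mul, hg1], by
          rw [← map_inv, ← map_mul, ← map_mul, hg2, map_inv]⟩
        ⟨j g', by rw [← map_inv, ← map_mul, ← map_mul]; exact hg'1, by
          rw [← map_inv, ← map_mul, ← map_mul]; exact hg'2⟩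
      refine tor x ?_
      have h5 : P ≤ T.comap ((MulAut.conj x).toMonoidHom.comp j) := hgen _ hx1 hx2
      intro w hw
      exact h5 hw

include hTc hn h3 hidx hfix hC h4 in
theorem no_alt {H : Type*} [Group H] {r : ℕ} (hr : 8 ≤ r)
    (ι : H →* Γ) (hι : Function.Injective ι) (φ : H →* alternatingGroup (Fin r))
    (hφ : Function.Surjective φ) : False := by
  obtain ⟨S, a, b, ρ, F⟩ := confA8
  obtain ⟨L, hL⟩ : ∃ L : Subgroup H, L = (H7.AltElt.embA hr).range.comap φ := ⟨_, rfl⟩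
  subst hL
  let L := (H7.AltElt.embA hr).range.comap φ
  have hinj := H7.AltElt.embA_injective hr
  let e := MonoidHom.ofInjective hinj
  let φ' : L →* (H7.AltElt.embA hr).range := (φ.comp L.subtype).codRestrict _ (fun x => x.2)
  refine no_sect T T1 hTc hn h3 hidx hfix hC h4 F (ι.comp L.subtype)
    (hι.comp Subtype.coe_injective) (e.symm.toMonoidHom.comp φ') ?_
  refine e.symm.surjective.comp ?_
  rintro ⟨x, hx⟩
  obtain ⟨h, rfl⟩ := hφ x
  exact ⟨⟨h, hx⟩, rfl⟩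

end wrap

end H7.A8Loc
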