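import Cfsg.Agent.Lib.H7.TorSect

/-!
Excluding the alternating group of degree 8 as a section: the 3-local argument.
-/

set_option autoImplicit false
set_option linter.unusedVariables false
set_option linter.unusedSectionVars false
set_option linter.style.haveILetI false

namespace H7.A8Loc

/-- Frattini argument for a Sylow subgroup of the preimage of a subgroup. -/
theorem frat {H X : Type*} [Group H] [Finite H] [Group X] {p : ℕ} [Fact p.Prime] (φ : H →* X)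
    (S : Subgroup X) (P : Subgroup H) (hP : IsPGroup p P) (hPS : P ≤ S.comap φ)
    (hidx : ¬ p ∣ P.relIndex (S.comap φ)) {g : H} (hg : ∀ s ∈ S, φ g * s * (φ g)⁻¹ ∈ S) :
    ∃ m : H, φ m ∈ S ∧ ∀ x ∈ P, (m * g) * x * (m * g)⁻¹ ∈ P := by
  obtain ⟨M, hM⟩ : ∃ M : Subgroup H, M = S.comap φ := ⟨_, rfl⟩
  rw [← hM] at hPS hidx
  have hPs : IsPGroup p (P.subgroupOf M) := hP.comap_of_injective _ Subtype.coe_injective
  let Q1 : Sylow p M := hPs.toSylow hidx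
  obtain ⟨P', hP'⟩ : ∃ P' : Subgroup H, P' = P.map (MulAut.conj g).toMonoidHom := ⟨_, rfl⟩
  have hP'M : P' ≤ M := by
    rw [hP']
    rintro _ ⟨x, hx, rfl⟩
    have h1 := hPS hx
    rw [hM, Subgroup.mem_comap] at h1 ⊢
    show φ (g * x * g⁻¹) ∈ S
    rw [map_mul, map_mul, map_inv]
    exact hg _ h1
  have hP'p : IsPGroup p P' := by rw [hP']; exact hP.map _
  have hP's : IsPGroup p (P'.subgroupOf M) := hP'p.comap_of_injective _ Subtype.coe_injective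
  have hcard : Nat.card P' = Nat.card P := by
    rw [hP']
    exact Subgroup.card_map_of_injective (MulAut.conj g).injective
  have hidx' : ¬ p ∣ (P'.subgroupOf M).index := by
    have h1 : Nat.card (P.subgroupOf M) * (P.subgroupOf M).index = Nat.card M :=
      Subgroup.card_mul_index _
    have h2 : Nat.card (P'.subgroupOf M) * (P'.subgroupOf M).index = Nat.card M :=
      Subgroup.card_mul_index _
    rw [Nat.card_congr (Subgroup.subgroupOfEquivOfLe hPS).toEquiv] at h1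
    rw [Nat.card_congr (Subgroup.subgroupOfEquivOfLe hP'M).toEquiv, hcard] at h2
    have h3 : (P'.subgroupOf M).index = (P.subgroupOf M).index := by
      have : 0 < Nat.card P := Nat.card_pos
      exact Nat.eq_of_mul_eq_mul_left this (h2.trans h1.symm)
    rw [h3]; exact hidx
  let Q2 : Sylow p M := hP's.toSylow hidx'
  obtain ⟨m, hm⟩ := MulAction.exists_smul_eq M Q2 Q1
  have hmS : (m : H) ∈ S.comap φ := by rw [← hM]; exact m.2
  refine ⟨m, hmS, ?_⟩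
  intro x hx
  have h1 : g * x * g⁻¹ ∈ P' := by rw [hP']; exact ⟨x, hx, rfl⟩
  have h2 : (⟨g * x * g⁻¹, hP'M h1⟩ : M) ∈ (Q2 : Subgroup M) := by
    show _ ∈ P'.subgroupOf M
    rw [Subgroup.mem_subgroupOf]; exact h1
  have h3 : m * (⟨g * x * g⁻¹, hP'M h1⟩ : M) * m⁻¹ ∈ (Q1 : Subgroup M) := by
    rw [← hm]
    exact ⟨_, h2, rfl⟩
  have h4 : ((m * (⟨g * x * g⁻¹, hP'M h1⟩ : M) * m⁻¹ : M) : H) ∈ P := by
    have : m * (⟨g * x * g⁻¹, hP'M h1⟩ : M) * m⁻¹ ∈ P.subgroupOf M := h3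
    rw [Subgroup.mem_subgroupOf] at this
    exact this
  have h5 : ((m * (⟨g * x * g⁻¹, hP'M h1⟩ : M) * m⁻¹ : M) : H) = ((m : H) * g) * x * ((m : H) * g)⁻¹ := by
    show (m : H) * (g * x * g⁻¹) * (m : H)⁻¹ = _
    group
  rw [h5] at h4
  exact h4

/-- lifting elements of an abelian `p`-subgroup to a Sylow subgroup of the preimage -/
theorem exists_sylow_lift {H X : Type*} [Group H] [Finite H] [Group X] {p : ℕ} [Fact p.Prime]
    (φ : H →* X) (hφ : Function.Surjective φ) (S : Subgroup X)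
    (hS : ∀ x ∈ S, ∀ y ∈ S, x * y = y * x) (hSp : ∀ s ∈ S, s ^ p = 1) :
    ∃ P : Subgroup H, IsPGroup p P ∧ P ≤ S.comap φ ∧ ¬ p ∣ P.relIndex (S.comap φ) ∧
      ∀ s ∈ S, ∃ x ∈ P, φ x = s := by
  have hp : p.Prime := Fact.out
  obtain ⟨M, hM⟩ : ∃ M : Subgroup H, M = S.comap φ := ⟨_, rfl⟩
  rw [← hM]
  obtain ⟨P₀⟩ : Nonempty (Sylow p M) := inferInstance
  refine ⟨(P₀ : Subgroup M).map M.subtype, P₀.isPGroup'.map _, ?_, ?_, ?_⟩
  · rintro _ ⟨x, _, rfl⟩; exact x.2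
  · have h1 : ((P₀ : Subgroup M).map M.subtype).relIndex M = (P₀ : Subgroup M).index := by
      unfold Subgroup.relIndex
      congr 1
      exact Subgroup.comap_map_eq_self_of_injective Subtype.coe_injective _
    rw [h1]
    exact P₀.not_dvd_index
  · intro s hs
    by_cases hs1 : s = 1
    · exact ⟨1, Subgroup.one_mem _, by rw [hs1, map_one]⟩
    have hord : orderOf s = p := orderOf_eq_prime (hSp s hs) hs1
    obtain ⟨x, hx, k, hk⟩ := H7.TorSect.exists_p_elem φ hφ hord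
    have hxM : x ∈ M := by rw [hM, Subgroup.mem_comap, hx]; exact hs
    have hpx : IsPGroup p (Subgroup.zpowers (⟨x, hxM⟩ : M)) := by
      apply IsPGroup.of_card (n := k)
      rw [Nat.card_zpowers]
      rw [← hk]
      exact (Subgroup.orderOf_coe (⟨x, hxM⟩ : M)).symm
    obtain ⟨Q, hQ⟩ := hpx.exists_le_sylow
    obtain ⟨m, hm⟩ := MulAction.exists_smul_eq M Q P₀
    have h1 : m * (⟨x, hxM⟩ : M) * m⁻¹ ∈ (P₀ : Subgroup M) := by
      rw [← hm]
      exact ⟨_, hQ (Subgroup.mem_zpowers _), rfl⟩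
    refine ⟨((m * (⟨x, hxM⟩ : M) * m⁻¹ : M) : H), ⟨_, h1, rfl⟩, ?_⟩
    show φ ((m : H) * x * (m : H)⁻¹) = s
    have hmS' : (m : H) ∈ S.comap φ := by rw [← hM]; exact m.2
    have hmS : φ (m : H) ∈ S := hmS'
    rw [map_mul, map_mul, map_inv, hx, hS _ hmS _ hs]
    simp


/-- The configuration inside the alternating group of degree 8: `S` is a Sylow 3-subgroup. -/
structure Conf {X : Type*} [Group X] (S : Subgroup X) (a b ρ : X) : Prop where
  ha : a ∈ S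
  hb : b ∈ S
  comm : ∀ x ∈ S, ∀ y ∈ S, x * y = y * x
  exp : ∀ s ∈ S, s ^ 3 = 1
  card : Nat.card S = 9
  a1 : a ≠ 1
  ρS : ∀ s ∈ S, ρ * s * ρ⁻¹ ∈ S
  ρρ : ∀ s ∈ S, ρ * (ρ * s * ρ⁻¹) * ρ⁻¹ = s⁻¹
  gen : ∀ K : Subgroup X, ∀ s ∈ S, s ≠ 1 → s ∈ K → ρ * s * ρ⁻¹ ∈ K → S ≤ K
  refl : ∀ s ∈ S, s ≠ 1 → ∃ g : X, (∀ s ∈ S, g * s * g⁻¹ ∈ S) ∧ g * s * g⁻¹ = s ∧ ∃ t ∈ S,
    g * t * g⁻¹ = t⁻¹ ∧ ∀ K : Subgroup X, s ∈ K → t ∈ K → S ≤ K
  simple : ∀ K : Subgroup X, K.Normal → K = ⊥ ∨ K = ⊤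
  big : ∀ K : Subgroup X, K = ⊥ → ∃ x y : X, x ∉ K ∧ y ∉ K ∧ x * y ∉ K ∧ x * y⁻¹ ∉ K

section core

variable {H X : Type*} [Group H] [Finite H] [Group X] (φ : H →* X) (hφ : Function.Surjective φ)
  {S : Subgroup X} {a b ρ : X} (F : Conf S a b ρ) {P : Subgroup H} (hP : IsPGroup 3 P)
  (hPS : P ≤ S.comap φ) (hidx : ¬ 3 ∣ P.relIndex (S.comap φ))
  (hlift : ∀ s ∈ S, ∃ x ∈ P, φ x = s)

include hφ F hP hPS hidx in
/-- lifting elements normalising `S` to elements normalising `P` -/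
theorem lift_norm {g : X} (hg : ∀ s ∈ S, g * s * g⁻¹ ∈ S) :
    ∃ h : H, (∀ x ∈ P, h * x * h⁻¹ ∈ P) ∧ ∀ x ∈ P, φ (h * x * h⁻¹) = g * φ x * g⁻¹ := by
  haveI : Fact (Nat.Prime 3) := ⟨by norm_num⟩
  obtain ⟨g', rfl⟩ := hφ g
  obtain ⟨m, hm, h⟩ := frat φ S P hP hPS hidx hg
  refine ⟨m * g', h, fun x hx => ?_⟩
  have h1 : φ x ∈ S := hPS hx
  rw [map_mul, map_mul, map_inv, map_mul]
  calc φ m * φ g' * φ x * (φ m * φ g')⁻¹ = φ m * (φ g' * φ x * (φ g')⁻¹) * (φ m)⁻¹ := by group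
    _ = φ g' * φ x * (φ g')⁻¹ := by
      rw [F.comm _ hm _ (hg _ h1)]; simp

include hφ F hP hPS hidx hlift in
/-- `P` is not contained in an abelian subgroup where normalising elements have a trivial sixth power -/
theorem not_toral (hfix : ∀ g : H, (∀ x ∈ P, g * x * g⁻¹ ∈ P) → ∀ x ∈ P, g ^ 6 * x * (g ^ 6)⁻¹ = x) :
    False := by
  obtain ⟨h, h1, h2⟩ := lift_norm φ hφ F hP hPS hidx F.ρS
  obtain ⟨x, hx, hxa⟩ := hlift a F.ha
  have key : ∀ y ∈ P, φ (h * (h * y * h⁻¹) * h⁻¹) = (φ y)⁻¹ := by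
    intro y hy
    rw [h2 _ (h1 _ hy), h2 _ hy, F.ρρ _ (hPS hy)]
  have e := hfix h h1 x hx
  have e2 : h ^ 6 * x * (h ^ 6)⁻¹ = h * (h * (h * (h * (h * (h * x * h⁻¹) * h⁻¹) * h⁻¹) * h⁻¹) * h⁻¹) * h⁻¹ := by
    rw [show (6 : ℕ) = 1 + 1 + 1 + 1 + 1 + 1 from rfl]
    simp only [pow_add, pow_one]
    group
  have h3 := h1 _ hx
  have h4 := h1 _ h3
  have h5 := h1 _ h4
  have h6 := h1 _ h5
  have e3 := congrArg φ e
  rw [e2, key _ h6, key _ h4, key _ hx, hxa, inv_inv] at e3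
  have h7 := F.exp a F.ha
  apply F.a1
  have h8 : a * a = 1 := by
    calc a * a = a⁻¹ * a := by rw [e3]
      _ = 1 := by simp
  calc a = a ^ 3 * (a * a)⁻¹ := by group
    _ = 1 := by rw [h7, h8]; simp


theorem inv_norm {P : Subgroup H} {g : H} (hg : ∀ x ∈ P, g * x * g⁻¹ ∈ P) : ∀ x ∈ P, g⁻¹ * x * g ∈ P := by
  have heq : P.map (MulAut.conj g).toMonoidHom = P := by
    apply Subgroup.eq_of_le_of_card_ge
    · rintro _ ⟨x, hx, rfl⟩; exact hg x hx
    · exact (Subgroup.card_map_of_injective (MulAut.conj g).injective).ge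
  intro x hx
  rw [← heq] at hx
  obtain ⟨y, hy, e⟩ := hx
  have e' : g * y * g⁻¹ = x := e
  rw [← e']
  have : g⁻¹ * (g * y * g⁻¹) * g = y := by group
  rw [this]; exact hy

theorem card_mul_relIndex' {A B : Subgroup H} (h : A ≤ B) : Nat.card A * A.relIndex B = Nat.card B := by
  unfold Subgroup.relIndex
  rw [← Subgroup.card_mul_index (A.subgroupOf B), Nat.card_congr (Subgroup.subgroupOfEquivOfLe h).toEquiv]

theorem relIndex_ker {M : Subgroup H} {K : Subgroup H} [K.Normal] {P : Subgroup H} (hPM : P ≤ M)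
    (hKM : K ≤ M) : P.relIndex K ∣ P.relIndex M := by
  have h1 : P.relIndex (P ⊔ K) * (P ⊔ K).relIndex M = P.relIndex M :=
    Subgroup.relIndex_mul_relIndex _ _ _ le_sup_left (sup_le hPM hKM)
  have h2 : K.relIndex (P ⊔ K) = K.relIndex P := Subgroup.relIndex_sup_right _ _
  have e1 : Nat.card (P ⊓ K : Subgroup H) * P.relIndex K = Nat.card K := by
    rw [← Subgroup.inf_relIndex_right]
    exact card_mul_relIndex' inf_le_right
  have e2 : Nat.card (K ⊓ P : Subgroup H) * K.relIndex P = Nat.card P := by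
    rw [← Subgroup.inf_relIndex_right]
    exact card_mul_relIndex' inf_le_right
  have e3 : Nat.card K * K.relIndex (P ⊔ K) = Nat.card (P ⊔ K : Subgroup H) :=
    card_mul_relIndex' le_sup_right
  have e4 : Nat.card P * P.relIndex (P ⊔ K) = Nat.card (P ⊔ K : Subgroup H) :=
    card_mul_relIndex' le_sup_left
  have h3 : P.relIndex (P ⊔ K) = P.relIndex K := by
    rw [inf_comm] at e2
    have hp : 0 < Nat.card P := Nat.card_pos
    have hi : 0 < Nat.card (P ⊓ K : Subgroup H) := Nat.card_pos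
    apply Nat.eq_of_mul_eq_mul_left (Nat.mul_pos hp hi)
    calc Nat.card P * Nat.card (P ⊓ K : Subgroup H) * P.relIndex (P ⊔ K) =
        Nat.card (P ⊓ K : Subgroup H) * (Nat.card P * P.relIndex (P ⊔ K)) := by ring
      _ = Nat.card (P ⊓ K : Subgroup H) * (Nat.card K * K.relIndex (P ⊔ K)) := by rw [e4, e3]
      _ = (Nat.card (P ⊓ K : Subgroup H) * K.relIndex P) * Nat.card K := by rw [h2]; ring
      _ = Nat.card P * (Nat.card (P ⊓ K : Subgroup H) * P.relIndex K) := by rw [e2, e1]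
      _ = _ := by ring
  rw [← h3]
  exact Dvd.intro _ h1

include hφ F hP hPS hidx hlift in
theorem nontoral (T T1 : Subgroup H) (hTc : ∀ x ∈ T, ∀ y ∈ T, x * y = y * x)
    (hn : ∀ y ∈ T1, ∀ t ∈ T, y * t * y⁻¹ ∈ T)
    (h3 : ∀ y ∈ T1, y ∉ T → ∀ x ∈ T1, x ∈ T ∨ x * y⁻¹ ∈ T ∨ x * y ∈ T)
    (hPT : P ≤ T1) (hnt : ¬ P ≤ T)
    (hC : ∀ y ∈ T1, y ∉ T → ∀ K : Subgroup H, K ≤ T → (∀ t ∈ K, t * y = y * t) → Nat.card K ≤ 3)
    (h4 : ∀ z ∈ P, z ∈ T → z ≠ 1 → ∀ y ∈ P, y ∉ T → z * y = y * z → z ^ 3 = 1 → y ^ 3 = 1 →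
      (∃ g : H, g * z * g⁻¹ = z ∧ g * y * g⁻¹ = y⁻¹) →
      (∃ g : H, g * z * g⁻¹ ∈ T1 ∧ g * z * g⁻¹ ∉ T) →
      (∀ K : Subgroup H, z ∈ K → y ∈ K → P ≤ K) → False) : False := by
  haveI : Fact (Nat.Prime 3) := ⟨by norm_num⟩
  obtain ⟨y0, hy0P, hy0T⟩ := SetLike.not_le_iff_exists.1 hnt
  -- an element of `P ∩ T` outside the kernel
  have hi : ∃ x ∈ P, x ∈ T ∧ φ x ≠ 1 := by
    by_contra hcon
    push Not at hcon
    have hsub : (S : Set X) ⊆ {1, φ y0, (φ y0)⁻¹} := by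
      intro s hs
      obtain ⟨x, hx, rfl⟩ := hlift s hs
      rcases h3 y0 (hPT hy0P) hy0T x (hPT hx) with h | h | h
      · rw [hcon x hx h]; simp
      · have := hcon _ (P.mul_mem hx (P.inv_mem hy0P)) h
        rw [map_mul, map_inv, mul_inv_eq_one] at this
        rw [this]; simp
      · have := hcon _ (P.mul_mem hx hy0P) h
        rw [map_mul, mul_eq_one_iff_eq_inv] at this
        rw [this]; simp
    have h1 : (S : Set X).ncard ≤ 3 := by
      refine (Set.ncard_le_ncard hsub (Set.toFinite _)).trans ?_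
      refine (Set.ncard_insert_le _ _).trans ?_
      have := Set.ncard_insert_le (φ y0) {(φ y0)⁻¹}
      rw [Set.ncard_singleton] at this
      omega
    have h2 : (S : Set X).ncard = 9 := F.card
    omega
  -- the whole of `P` from `S`-generation
  have hfull : ∀ K : Subgroup H, (∀ x ∈ P, φ x = 1 → x ∈ K) → S ≤ (K ⊓ P).map φ → P ≤ K := by
    intro K hK hS x hx
    obtain ⟨k, ⟨hk, hkP⟩, e⟩ := hS (hPS hx)
    have h1 : x * k⁻¹ ∈ K := hK _ (P.mul_mem hx (P.inv_mem hkP)) (by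
      rw [map_mul, map_inv, mul_inv_eq_one]; exact e.symm)
    have h2 := K.mul_mem h1 hk
    rwa [inv_mul_cancel_right] at h2
  by_cases hRT : ∀ x ∈ P, φ x = 1 → x ∈ T
  swap
  · -- the kernel part is not in `T`
    push Not at hRT
    obtain ⟨y, hyP, hy1, hyT⟩ := hRT
    obtain ⟨P0, hP0⟩ : ∃ P0 : Subgroup H, P0 = P ⊓ T := ⟨_, rfl⟩
    have hP0P : P0 ≤ P := by rw [hP0]; exact inf_le_left
    have hP0T : P0 ≤ T := by rw [hP0]; exact inf_le_right
    have hconj : ∀ x ∈ P0, y * x * y⁻¹ ∈ P0 := by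
      intro x hx
      rw [hP0]
      exact ⟨P.mul_mem (P.mul_mem hyP (hP0P hx)) (P.inv_mem hyP), hn y (hPT hyP) x (hP0T hx)⟩
    let κ : P0 →* H := MonoidHom.mk' (fun x => (x : H) * (y * (x : H) * y⁻¹)⁻¹) (by
      intro x x'
      show ((x * x' : P0) : H) * (y * ((x * x' : P0) : H) * y⁻¹)⁻¹ = _
      rw [Subgroup.coe_mul]
      have c1 := hTc _ (hP0T x'.2) _ (T.inv_mem (hP0T (hconj _ x.2)))
      have c2 := hTc _ (T.inv_mem (hP0T (hconj _ x.2))) _ (T.inv_mem (hP0T (hconj _ x'.2)))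
      calc (x : H) * x' * (y * ((x : H) * x') * y⁻¹)⁻¹ =
          (x : H) * ((x' : H) * ((y * (x' : H) * y⁻¹)⁻¹ * (y * (x : H) * y⁻¹)⁻¹)) := by group
        _ = (x : H) * ((x' : H) * ((y * (x : H) * y⁻¹)⁻¹ * (y * (x' : H) * y⁻¹)⁻¹)) := by rw [c2]
        _ = (x : H) * (((x' : H) * (y * (x : H) * y⁻¹)⁻¹) * (y * (x' : H) * y⁻¹)⁻¹) := by group
        _ = (x : H) * (((y * (x : H) * y⁻¹)⁻¹ * (x' : H)) * (y * (x' : H) * y⁻¹)⁻¹) := by rw [c1]
        _ = _ := by group)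
    have hκ : ∀ x : P0, κ x = (x : H) * (y * (x : H) * y⁻¹)⁻¹ := fun _ => rfl
    let ψ : P0 →* X := φ.comp P0.subtype
    have hr : κ.range ≤ ψ.ker.map P0.subtype := by
      rintro _ ⟨x, rfl⟩
      have hmem : κ x ∈ P0 := by
        rw [hκ]; exact P0.mul_mem x.2 (P0.inv_mem (hconj _ x.2))
      refine ⟨⟨κ x, hmem⟩, ?_, rfl⟩
      rw [SetLike.mem_coe, MonoidHom.mem_ker]
      show φ (κ x) = 1
      rw [hκ, map_mul, map_inv, map_mul, map_mul, map_inv, hy1]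
      simp
    have hk3 : Nat.card κ.ker ≤ 3 := by
      have h1 := hC y (hPT hyP) hyT (κ.ker.map P0.subtype) (by
        rintro _ ⟨x, _, rfl⟩; exact hP0T x.2) (by
        rintro _ ⟨x, hx, rfl⟩
        rw [SetLike.mem_coe, MonoidHom.mem_ker, hκ, mul_inv_eq_one] at hx
        show (x : H) * y = y * x
        calc (x : H) * y = (y * (x : H) * y⁻¹) * y := by rw [← hx]
          _ = y * x := by group)
      rwa [Subgroup.card_map_of_injective Subtype.coe_injective] at h1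
    have hrange : ψ.range = S := by
      apply le_antisymm
      · rintro _ ⟨x, rfl⟩; exact hPS (hP0P x.2)
      · intro s hs
        obtain ⟨x, hx, rfl⟩ := hlift s hs
        rcases h3 y (hPT hyP) hyT x (hPT hx) with h | h | h
        · exact ⟨⟨x, by rw [hP0]; exact ⟨hx, h⟩⟩, rfl⟩
        · refine ⟨⟨x * y⁻¹, by rw [hP0]; exact ⟨P.mul_mem hx (P.inv_mem hyP), h⟩⟩, ?_⟩
          show φ (x * y⁻¹) = φ x
          rw [map_mul, map_inv, hy1]; simp
        · refine ⟨⟨x * y, by rw [hP0]; exact ⟨P.mul_mem hx hyP, h⟩⟩, ?_⟩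
          show φ (x * y) = φ x
          rw [map_mul, hy1]; simp
    have c1 : Nat.card κ.ker * Nat.card κ.range = Nat.card P0 := by
      rw [← Subgroup.index_ker]; exact Subgroup.card_mul_index _
    have c2 : Nat.card ψ.ker * Nat.card ψ.range = Nat.card P0 := by
      rw [← Subgroup.index_ker]; exact Subgroup.card_mul_index _
    rw [hrange, F.card] at c2
    have c3 : Nat.card κ.range ≤ Nat.card ψ.ker := by
      have := Subgroup.card_le_of_le hr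
      rwa [Subgroup.card_map_of_injective Subtype.coe_injective] at this
    have c4 : 0 < Nat.card ψ.ker := Nat.card_pos
    have c5 : Nat.card κ.ker * Nat.card κ.range ≤ 3 * Nat.card ψ.ker := Nat.mul_le_mul hk3 c3
    omega
  by_cases hcent : ∃ y ∈ P, y ∉ T ∧ ∀ r ∈ P, φ r = 1 → r * y = y * r
  swap
  · -- `P ∩ T` is normalised
    push Not at hcent
    obtain ⟨g, hg, hgφ⟩ := lift_norm φ hφ F hP hPS hidx F.ρS
    obtain ⟨x, hxP, hxT, hx1⟩ := hi
    have hgx : g * x * g⁻¹ ∈ T := by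
      by_contra hcon
      obtain ⟨r, hrP, hr1, hr⟩ := hcent _ (hg x hxP) hcon
      apply hr
      have h1 : g⁻¹ * r * g ∈ P := inv_norm hg r hrP
      have h2 : φ (g⁻¹ * r * g) = 1 := by rw [map_mul, map_mul, hr1]; simp
      have h5 := hTc _ (hRT _ h1 h2) _ hxT
      calc r * (g * x * g⁻¹) = g * ((g⁻¹ * r * g) * x) * g⁻¹ := by group
        _ = g * (x * (g⁻¹ * r * g)) * g⁻¹ := by rw [h5]
        _ = g * x * g⁻¹ * r := by group
    have hS : S ≤ (T ⊓ P).map φ := by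
      refine F.gen _ (φ x) (hPS hxP) hx1 ⟨x, ⟨hxT, hxP⟩, rfl⟩ ?_
      exact ⟨_, ⟨hgx, hg x hxP⟩, hgφ x hxP⟩
    exact hnt (hfull T hRT hS)
  obtain ⟨y, hyP, hyT, hyR⟩ := hcent
  obtain ⟨R, hR⟩ : ∃ R : Subgroup H, R = P ⊓ φ.ker := ⟨_, rfl⟩
  have hRmem : ∀ x, x ∈ R ↔ x ∈ P ∧ φ x = 1 := by
    intro x; rw [hR, Subgroup.mem_inf, MonoidHom.mem_ker]
  have hR3 : Nat.card R ≤ 3 := hC y (hPT hyP) hyT R (by
    intro x hx; rw [hRmem] at hx; exact hRT x hx.1 hx.2) (by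
    intro t ht; rw [hRmem] at ht; exact hyR t ht.1 ht.2)
  have hRcent : ∀ r ∈ R, ∀ p ∈ P, r * p = p * r := by
    intro r hr p hp
    rw [hRmem] at hr
    have hrT := hRT r hr.1 hr.2
    have hry := hyR r hr.1 hr.2
    rcases h3 y (hPT hyP) hyT p (hPT hp) with h | h | h
    · exact hTc _ hrT _ h
    · have h1 := hTc _ hrT _ h
      calc r * p = (r * (p * y⁻¹)) * y := by group
        _ = (p * y⁻¹) * (r * y) := by rw [h1]; group
        _ = (p * y⁻¹) * (y * r) := by rw [hry]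
        _ = p * r := by group
    · have h1 := hTc _ hrT _ h
      have hry' : r * y⁻¹ = y⁻¹ * r := by
        calc r * y⁻¹ = y⁻¹ * (y * r) * y⁻¹ := by group
          _ = y⁻¹ * (r * y) * y⁻¹ := by rw [hry]
          _ = y⁻¹ * r := by group
      calc r * p = (r * (p * y)) * y⁻¹ := by group
        _ = (p * y) * (r * y⁻¹) := by rw [h1]; group
        _ = (p * y) * (y⁻¹ * r) := by rw [hry']
        _ = p * r := by group
  obtain ⟨z, hzP, hzT, hz1⟩ := hi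
  by_cases hRbot : R = ⊥
  · -- `φ` is injective on `P`
    have hinj : ∀ x ∈ P, ∀ x' ∈ P, φ x = φ x' → x = x' := by
      intro x hx x' hx' e
      have : x * x'⁻¹ ∈ R := by
        rw [hRmem]
        exact ⟨P.mul_mem hx (P.inv_mem hx'), by rw [map_mul, map_inv, e]; simp⟩
      rw [hRbot, Subgroup.mem_bot, mul_inv_eq_one] at this
      exact this
    have hK : ∀ K : Subgroup H, S ≤ (K ⊓ P).map φ → P ≤ K := by
      intro K hS
      refine hfull K ?_ hS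
      intro x hx e
      have : x ∈ R := (hRmem x).2 ⟨hx, e⟩
      rw [hRbot, Subgroup.mem_bot] at this
      rw [this]; exact K.one_mem
    obtain ⟨g₀, hg₀S, hg₀s, t, ht, hg₀t, hgen⟩ := F.refl (φ z) (hPS hzP) hz1
    obtain ⟨y', hy'P, rfl⟩ := hlift t ht
    have hy'T : y' ∉ T := by
      intro h
      exact hnt (hK T (hgen _ ⟨z, ⟨hzT, hzP⟩, rfl⟩ ⟨y', ⟨h, hy'P⟩, rfl⟩))
    obtain ⟨g, hg, hgφ⟩ := lift_norm φ hφ F hP hPS hidx hg₀S
    obtain ⟨g1, hg1, hg1φ⟩ := lift_norm φ hφ F hP hPS hidx F.ρS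
    refine h4 z hzP hzT (by rintro rfl; exact hz1 (map_one φ)) y' hy'P hy'T ?_ ?_ ?_ ⟨g, ?_, ?_⟩
      ⟨g1, hPT (hg1 _ hzP), ?_⟩ ?_
    · apply hinj _ (P.mul_mem hzP hy'P) _ (P.mul_mem hy'P hzP)
      rw [map_mul, map_mul, F.comm _ (hPS hzP) _ (hPS hy'P)]
    · apply hinj _ (P.pow_mem hzP 3) _ P.one_mem
      rw [map_pow, map_one, F.exp _ (hPS hzP)]
    · apply hinj _ (P.pow_mem hy'P 3) _ P.one_mem
      rw [map_pow, map_one, F.exp _ (hPS hy'P)]
    · apply hinj _ (hg _ hzP) _ hzP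
      rw [hgφ _ hzP, hg₀s]
    · apply hinj _ (hg _ hy'P) _ (P.inv_mem hy'P)
      rw [hgφ _ hy'P, hg₀t, map_inv]
    · intro h
      refine hnt (hK T (F.gen _ (φ z) (hPS hzP) hz1 ⟨z, ⟨hzT, hzP⟩, rfl⟩ ⟨_, ⟨h, hg1 _ hzP⟩, ?_⟩))
      exact hg1φ _ hzP
    · intro K hzK hyK
      exact hK K (hgen _ ⟨z, ⟨hzK, hzP⟩, rfl⟩ ⟨y', ⟨hyK, hy'P⟩, rfl⟩)
  -- the extraspecial case
  obtain ⟨g₀, hg₀S, hg₀a, t, ht, hg₀t, hgen⟩ := F.refl a F.ha F.a1
  obtain ⟨p1, hp1, hp1a⟩ := hlift a F.ha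
  obtain ⟨p2, hp2, rfl⟩ := hlift t ht
  obtain ⟨c, hc⟩ : ∃ c, c = p1 * p2 * p1⁻¹ * p2⁻¹ := ⟨_, rfl⟩
  have hcR : c ∈ R := by
    rw [hRmem, hc]
    refine ⟨P.mul_mem (P.mul_mem (P.mul_mem hp1 hp2) (P.inv_mem hp1)) (P.inv_mem hp2), ?_⟩
    rw [map_mul, map_mul, map_mul, map_inv, map_inv, F.comm _ (hPS hp1) _ (hPS hp2)]
    simp
  -- centralisers inside `P`
  have hc1 : c ≠ 1 := by
    intro e
    have hcomm : p1 * p2 = p2 * p1 := by
      calc p1 * p2 = (p1 * p2 * p1⁻¹ * p2⁻¹) * (p2 * p1) := by group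
        _ = p2 * p1 := by rw [← hc, e, one_mul]
    have hcen : ∀ u : H, (∀ r ∈ P, φ r = 1 → r * u = u * r) → p1 * u = u * p1 → p2 * u = u * p2 →
        ∀ x ∈ P, x * u = u * x := by
      intro u hu h1 h2 x hx
      have h5 : P ≤ Subgroup.centralizer {u} := by
        refine hfull _ ?_ (hgen _ ⟨p1, ⟨?_, hp1⟩, hp1a⟩ ⟨p2, ⟨?_, hp2⟩, rfl⟩)
        · intro x hx e
          rw [Subgroup.mem_centralizer_singleton_iff]; exact hu x hx e
        · show p1 ∈ Subgroup.centralizer {u}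
          rw [Subgroup.mem_centralizer_singleton_iff]; exact h1
        · show p2 ∈ Subgroup.centralizer {u}
          rw [Subgroup.mem_centralizer_singleton_iff]; exact h2
      have h6 := h5 hx
      rw [Subgroup.mem_centralizer_singleton_iff] at h6
      exact h6
    have hPp1 : ∀ x ∈ P, x * p1 = p1 * x := hcen p1 (fun r hr e => hRcent r ((hRmem r).2 ⟨hr, e⟩) p1 hp1)
      rfl hcomm.symm
    have hPp2 : ∀ x ∈ P, x * p2 = p2 * x := hcen p2 (fun r hr e => hRcent r ((hRmem r).2 ⟨hr, e⟩) p2 hp2)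
      hcomm rfl
    have hPab : ∀ u ∈ P, ∀ x ∈ P, x * u = u * x := by
      intro u hu
      exact hcen u (fun r hr e => hRcent r ((hRmem r).2 ⟨hr, e⟩) u hu) (hPp1 u hu).symm (hPp2 u hu).symm
    have h5 : Nat.card (P ⊓ T : Subgroup H) ≤ 3 := hC y (hPT hyP) hyT _ inf_le_right
      (fun t ht => hPab y hyP t ht.1)
    have hlt : R < P ⊓ T := by
      rw [lt_iff_le_and_ne]
      refine ⟨?_, ?_⟩
      · intro x hx
        rw [hRmem] at hx
        exact ⟨hx.1, hRT x hx.1 hx.2⟩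
      · intro e
        have : z ∈ R := by rw [e]; exact ⟨hzP, hzT⟩
        rw [hRmem] at this
        exact hz1 this.2
    have h6 : Nat.card R * R.relIndex (P ⊓ T) = Nat.card (P ⊓ T : Subgroup H) := card_mul_relIndex' hlt.le
    have h7 : 2 ≤ Nat.card R := by
      have := (Subgroup.one_lt_card_iff_ne_bot R).2 hRbot
      omega
    have h8 : 2 ≤ R.relIndex (P ⊓ T) := by
      have h9 : R.relIndex (P ⊓ T) ≠ 1 := by
        rw [Ne, Subgroup.relIndex_eq_one]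
        exact not_le_of_gt hlt
      have h10 : R.relIndex (P ⊓ T) ≠ 0 := by
        intro h0; rw [h0, mul_zero] at h6
        have : 0 < Nat.card (P ⊓ T : Subgroup H) := Nat.card_pos
        omega
      omega
    have h11 : 2 * 2 ≤ Nat.card R * R.relIndex (P ⊓ T) := Nat.mul_le_mul h7 h8
    omega
  have hcentral : ∀ p ∈ P, c * p = p * c := hRcent c hcR
  -- the subgroup `R` is `{1, c, c⁻¹}`
  have hcinv : c ≠ c⁻¹ := by
    intro e
    have h5 : c ^ 2 = 1 := by rw [pow_two]; nth_rewrite 1 [e]; simp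
    obtain ⟨k, hk⟩ := hP ⟨c, ((hRmem c).1 hcR).1⟩
    have h6 : c ^ 3 ^ k = 1 := congrArg Subtype.val hk
    have h7 : orderOf c ∣ Nat.gcd 2 (3 ^ k) := Nat.dvd_gcd (orderOf_dvd_of_pow_eq_one h5)
      (orderOf_dvd_of_pow_eq_one h6)
    have h8 : Nat.gcd 2 (3 ^ k) = 1 := Nat.Coprime.pow_right k (by norm_num)
    rw [h8, Nat.dvd_one, orderOf_eq_one_iff] at h7
    exact hc1 h7
  have hRthree : ∀ x ∈ R, x = 1 ∨ x = c ∨ x = c⁻¹ := by
    intro x hx
    by_contra hcon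
    push Not at hcon
    have hsub : ({1, c, c⁻¹, x} : Set H) ⊆ R := by
      rintro u (rfl | rfl | rfl | rfl)
      · exact R.one_mem
      · exact hcR
      · exact R.inv_mem hcR
      · exact hx
    have h5 : ({1, c, c⁻¹, x} : Set H).ncard = 4 := by
      rw [Set.ncard_insert_of_notMem, Set.ncard_insert_of_notMem, Set.ncard_insert_of_notMem,
        Set.ncard_singleton]
      · rw [Set.mem_singleton_iff]; exact fun h => hcon.2.2 h.symm
      · rw [Set.mem_insert_iff, Set.mem_singleton_iff]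
        rintro (h | h)
        · exact hcinv h
        · exact hcon.2.1 h.symm
      · rw [Set.mem_insert_iff, Set.mem_insert_iff, Set.mem_singleton_iff]
        rintro (h | h | h)
        · exact hc1 h.symm
        · exact hc1 (by rw [← inv_inv c, ← h, inv_one])
        · exact hcon.1 h.symm
    have h6 := Set.ncard_le_ncard hsub (Set.toFinite _)
    rw [h5] at h6
    have h7 : (R : Set H).ncard = Nat.card R := rfl
    omega
  -- normaliser of `R`
  obtain ⟨NR, hNR⟩ : ∃ NR : Subgroup H, NR = Subgroup.normalizer (R : Set H) := ⟨_, rfl⟩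
  have hNRmem : ∀ g : H, (∀ x ∈ R, g * x * g⁻¹ ∈ R) → g ∈ NR := by
    intro g hg
    rw [hNR, Subgroup.mem_normalizer_iff]
    intro u
    constructor
    · exact hg u
    · intro h
      have := inv_norm hg _ h
      have e : g⁻¹ * (g * u * g⁻¹) * g = u := by group
      rwa [e] at this
  have hNRc : ∀ g ∈ NR, ∀ x ∈ R, g * x * g⁻¹ ∈ R := by
    intro g hg x hx
    rw [hNR, Subgroup.mem_normalizer_iff] at hg
    exact (hg x).1 hx
  have hcover : ∀ x : X, ∃ g ∈ NR, φ g = x := by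
    intro x
    obtain ⟨g, rfl⟩ := hφ x
    have hRker : R ≤ (⊥ : Subgroup X).comap φ := by
      intro u hu
      rw [Subgroup.mem_comap, Subgroup.mem_bot]
      exact ((hRmem u).1 hu).2
    have hbot : (⊥ : Subgroup X).comap φ = φ.ker := rfl
    have hRp : IsPGroup 3 R := hP.to_le (by rw [hR]; exact inf_le_left)
    have hid : ¬ 3 ∣ R.relIndex ((⊥ : Subgroup X).comap φ) := by
      rw [hbot]
      have h5 : R.relIndex φ.ker = P.relIndex φ.ker := by rw [hR, Subgroup.inf_relIndex_right]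
      rw [h5]
      intro h6
      exact hidx (h6.trans (relIndex_ker hPS (by
        intro u hu
        rw [Subgroup.mem_comap, MonoidHom.mem_ker.1 hu]; exact S.one_mem)))
    obtain ⟨m, hm, h5⟩ := frat φ ⊥ R hRp hRker hid (g := g) (by
      intro s hs
      rw [Subgroup.mem_bot] at hs ⊢
      rw [hs]; simp)
    rw [Subgroup.mem_bot] at hm
    exact ⟨m * g, hNRmem _ h5, by rw [map_mul, hm, one_mul]⟩
  obtain ⟨C, hCd⟩ : ∃ C : Subgroup H, C = NR ⊓ Subgroup.centralizer {c} := ⟨_, rfl⟩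
  have hCmem : ∀ g, g ∈ C ↔ g ∈ NR ∧ g * c = c * g := by
    intro g; rw [hCd, Subgroup.mem_inf, Subgroup.mem_centralizer_singleton_iff]
  have htwo : ∀ g ∈ NR, g * c * g⁻¹ = c ∨ g * c * g⁻¹ = c⁻¹ := by
    intro g hg
    rcases hRthree _ (hNRc g hg c hcR) with h | h | h
    · exfalso; apply hc1
      calc c = g⁻¹ * (g * c * g⁻¹) * g := by group
        _ = 1 := by rw [h]; simp
    · exact Or.inl h
    · exact Or.inr h
  have hCC : ∀ g ∈ NR, g * c * g⁻¹ = c → g ∈ C := by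
    intro g hg h
    rw [hCmem]
    refine ⟨hg, ?_⟩
    calc g * c = (g * c * g⁻¹) * g := by group
      _ = c * g := by rw [h]
  have hCtop : C.map φ = ⊤ := by
    have hCn : (C.map φ).Normal := by
      constructor
      rintro _ ⟨u, hu, rfl⟩ x
      obtain ⟨g, hg, rfl⟩ := hcover x
      refine ⟨g * u * g⁻¹, ?_, by rw [map_mul, map_mul, map_inv]⟩
      rw [SetLike.mem_coe, hCmem] at hu
      apply hCC
      · exact NR.mul_mem (NR.mul_mem hg hu.1) (NR.inv_mem hg)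
      · have hu2 : u * c⁻¹ = c⁻¹ * u := by
          calc u * c⁻¹ = c⁻¹ * (c * u) * c⁻¹ := by group
            _ = c⁻¹ * (u * c) * c⁻¹ := by rw [hu.2]
            _ = c⁻¹ * u := by group
        rcases htwo _ (NR.inv_mem hg) with h | h
        · rw [inv_inv] at h
          calc g * u * g⁻¹ * c * (g * u * g⁻¹)⁻¹ = g * (u * (g⁻¹ * c * g)) * u⁻¹ * g⁻¹ := by group
            _ = g * (u * c) * u⁻¹ * g⁻¹ := by rw [h]
            _ = g * (c * u) * u⁻¹ * g⁻¹ := by rw [hu.2]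
            _ = g * c * g⁻¹ := by group
            _ = g * (g⁻¹ * c * g) * g⁻¹ := by rw [h]
            _ = c := by group
        · rw [inv_inv] at h
          calc g * u * g⁻¹ * c * (g * u * g⁻¹)⁻¹ = g * (u * (g⁻¹ * c * g)) * u⁻¹ * g⁻¹ := by group
            _ = g * (u * c⁻¹) * u⁻¹ * g⁻¹ := by rw [h]
            _ = g * (c⁻¹ * u) * u⁻¹ * g⁻¹ := by rw [hu2]
            _ = g * c⁻¹ * g⁻¹ := by group
            _ = g * (g⁻¹ * c * g) * g⁻¹ := by rw [h]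
            _ = c := by group
    rcases F.simple _ hCn with h | h
    · exfalso
      obtain ⟨x1, x2, h5, h6, h7, h8⟩ := F.big _ h
      obtain ⟨g1, hg1, rfl⟩ := hcover x1
      obtain ⟨g2, hg2, rfl⟩ := hcover x2
      have i1 : g1 * c * g1⁻¹ = c⁻¹ := by
        rcases htwo g1 hg1 with h' | h'
        · exact absurd ⟨g1, hCC g1 hg1 h', rfl⟩ h5
        · exact h'
      have i2 : g2 * c * g2⁻¹ = c⁻¹ := by
        rcases htwo g2 hg2 with h' | h'
        · exact absurd ⟨g2, hCC g2 hg2 h', rfl⟩ h6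
        · exact h'
      apply h7
      refine ⟨g1 * g2, hCC _ (NR.mul_mem hg1 hg2) ?_, map_mul _ _ _⟩
      calc g1 * g2 * c * (g1 * g2)⁻¹ = g1 * (g2 * c * g2⁻¹) * g1⁻¹ := by group
        _ = (g1 * c * g1⁻¹)⁻¹ := by rw [i2]; group
        _ = c := by rw [i1, inv_inv]
    · exact h
  -- adjust inside `C`
  have hPC : P ≤ C := by
    intro u hu
    rw [hCmem]
    refine ⟨hNRmem u ?_, (hcentral u hu).symm⟩
    intro x hx
    rw [← hRcent x hx u hu, mul_inv_cancel_right]; exact hx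
  obtain ⟨gg, hggC, hgg⟩ : g₀ ∈ C.map φ := by rw [hCtop]; exact Subgroup.mem_top _
  have hPCp : IsPGroup 3 (P.subgroupOf C) := hP.comap_of_injective _ Subtype.coe_injective
  have hid2 : ¬ 3 ∣ (P.subgroupOf C).relIndex (S.comap (φ.comp C.subtype)) := by
    have e1 : S.comap (φ.comp C.subtype) = (S.comap φ ⊓ C).subgroupOf C := by
      rw [Subgroup.inf_subgroupOf_right]; rfl
    rw [e1, Subgroup.relIndex_subgroupOf inf_le_right]
    intro h5
    apply hidx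
    refine h5.trans ?_
    rw [← Subgroup.relIndex_mul_relIndex P (S.comap φ ⊓ C) (S.comap φ) (le_inf hPS hPC) inf_le_left]
    exact Dvd.intro _ rfl
  obtain ⟨m, hm, h5⟩ := frat (φ.comp C.subtype) S (P.subgroupOf C) hPCp (by
    intro u hu
    exact hPS hu) hid2 (g := ⟨gg, hggC⟩) (by
    intro s hs
    show φ gg * s * (φ gg)⁻¹ ∈ S
    rw [hgg]; exact hg₀S s hs)
  obtain ⟨g, hg⟩ : ∃ g : H, g = m * gg := ⟨_, rfl⟩
  have hgC : g ∈ C := by rw [hg]; exact C.mul_mem m.2 hggC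
  have hgP : ∀ x ∈ P, g * x * g⁻¹ ∈ P := by
    intro x hx
    have h6 := h5 ⟨x, hPC hx⟩ (by rw [Subgroup.mem_subgroupOf]; exact hx)
    rw [Subgroup.mem_subgroupOf] at h6
    rw [hg]
    exact h6
  have hgφ : ∀ x ∈ P, φ (g * x * g⁻¹) = g₀ * φ x * g₀⁻¹ := by
    intro x hx
    have h6 : φ x ∈ S := hPS hx
    have hm' : φ (m : H) ∈ S := hm
    rw [hg, map_mul, map_mul, map_inv, map_mul, hgg]
    calc φ (m : H) * g₀ * φ x * (φ (m : H) * g₀)⁻¹ = φ (m : H) * (g₀ * φ x * g₀⁻¹) * (φ (m : H))⁻¹ := by group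
      _ = g₀ * φ x * g₀⁻¹ := by
        rw [F.comm _ hm' _ (hg₀S _ h6)]; simp
  have hgc : g * c * g⁻¹ = c := by
    rw [((hCmem g).1 hgC).2, mul_inv_cancel_right]
  obtain ⟨r1, hr1⟩ : ∃ r1, r1 = p1⁻¹ * (g * p1 * g⁻¹) := ⟨_, rfl⟩
  obtain ⟨r2, hr2⟩ : ∃ r2, r2 = p2 * (g * p2 * g⁻¹) := ⟨_, rfl⟩
  have hr1R : r1 ∈ R := by
    rw [hRmem, hr1]
    refine ⟨P.mul_mem (P.inv_mem hp1) (hgP _ hp1), ?_⟩
    rw [map_mul, hgφ _ hp1, hp1a, hg₀a, map_inv, hp1a, inv_mul_cancel]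
  have hr2R : r2 ∈ R := by
    rw [hRmem, hr2]
    refine ⟨P.mul_mem hp2 (hgP _ hp2), ?_⟩
    rw [map_mul, hgφ _ hp2, hg₀t, mul_inv_cancel]
  have q1 : g * p1 * g⁻¹ = p1 * r1 := by rw [hr1]; group
  have q2 : g * p2 * g⁻¹ = p2⁻¹ * r2 := by rw [hr2]; group
  have q3 : g * c * g⁻¹ = p1 * p2⁻¹ * p1⁻¹ * p2 := by
    have k1 := hRcent r1 hr1R _ (P.inv_mem hp2)
    have k2 := hRcent r2 hr2R _ (P.inv_mem hp1)
    have k3 := hRcent r1 hr1R _ ((hRmem r2).1 hr2R).1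
    calc g * c * g⁻¹ = (g * p1 * g⁻¹) * (g * p2 * g⁻¹) * (g * p1 * g⁻¹)⁻¹ * (g * p2 * g⁻¹)⁻¹ := by
          rw [hc]; group
      _ = (p1 * r1) * (p2⁻¹ * r2) * (p1 * r1)⁻¹ * (p2⁻¹ * r2)⁻¹ := by rw [q1, q2]
      _ = p1 * (r1 * p2⁻¹) * (r2 * r1⁻¹) * p1⁻¹ * r2⁻¹ * p2 := by group
      _ = p1 * (p2⁻¹ * r1) * (r2 * r1⁻¹) * p1⁻¹ * r2⁻¹ * p2 := by rw [k1]
      _ = p1 * p2⁻¹ * ((r1 * r2) * r1⁻¹) * p1⁻¹ * r2⁻¹ * p2 := by group
      _ = p1 * p2⁻¹ * ((r2 * r1) * r1⁻¹) * p1⁻¹ * r2⁻¹ * p2 := by rw [k3]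
      _ = p1 * p2⁻¹ * (r2 * p1⁻¹) * r2⁻¹ * p2 := by group
      _ = p1 * p2⁻¹ * (p1⁻¹ * r2) * r2⁻¹ * p2 := by rw [k2]
      _ = p1 * p2⁻¹ * p1⁻¹ * p2 := by group
  apply hcinv
  have k4 := hcentral p2 hp2
  calc c = p1 * p2⁻¹ * p1⁻¹ * p2 := by rw [← q3, hgc]
    _ = p2⁻¹ * (p2 * p1 * p2⁻¹ * p1⁻¹) * p2 := by group
    _ = p2⁻¹ * c⁻¹ * p2 := by rw [hc]; group
    _ = p2⁻¹ * (c⁻¹ * (c * p2) * c⁻¹) := by rw [k4]; group
    _ = c⁻¹ := by group

end core

end H7.A8Loc
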