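import Cfsg.Agent.Lib.H7.A8Conf

/-!
Excluding the alternating group of degree 8 as a section in groups with a rank 2 system of root
subgroups (3-local analysis in the normaliser of the torus).
-/

set_option autoImplicit false
set_option linter.unusedVariables false
set_option linter.unusedSectionVars false
set_option linter.style.haveILetI false

namespace H7.A8Sys

open H22.RGD H22.RGD.Sys

theorem mem_zpowers_three {G : Type*} [Group G] {w : G} (hw3 : w ^ 3 = 1) {u : G}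
    (hu : u ∈ Subgroup.zpowers w) : u = 1 ∨ u = w ∨ u = w⁻¹ := by
  obtain ⟨k, rfl⟩ := Subgroup.mem_zpowers_iff.1 hu
  have h1 : w ^ k = w ^ (k % 3) := by
    conv_lhs => rw [← Int.mul_ediv_add_emod k 3, zpow_add, zpow_mul]
    have : w ^ (3 : ℤ) = 1 := by exact_mod_cast hw3
    rw [this, one_zpow, one_mul]
  rw [h1]
  have h2 := Int.emod_nonneg k (by norm_num : (3 : ℤ) ≠ 0)
  have h3 := Int.emod_lt_of_pos k (by norm_num : (0 : ℤ) < 3)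
  obtain ⟨j, hj⟩ : ∃ j, k % 3 = j := ⟨_, rfl⟩
  rw [hj] at h2 h3 ⊢
  interval_cases j
  · left; simp
  · right; left; simp
  · right; right
    rw [eq_inv_iff_mul_eq_one]
    have : w ^ (2 : ℤ) * w = w ^ 3 := by
      rw [show (2 : ℤ) = ((2 : ℕ) : ℤ) by rfl, zpow_natCast, ← pow_succ]
    rw [this, hw3]

variable {G : Type*} [Group G] {Φ I : Type*} {C : RootComb Φ I} (S : Sys G C) [Finite Φ]
  (w3 : Equiv.Perm Φ)

/-- the preimage in `N` of the group generated by `w3` -/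
noncomputable def T1 : Subgroup G := ((Subgroup.zpowers w3).comap S.toW).map S.N.subtype

theorem mem_T1 {x : G} : x ∈ T1 S w3 ↔ ∃ h : x ∈ S.N, S.toW ⟨x, h⟩ ∈ Subgroup.zpowers w3 := by
  constructor
  · rintro ⟨y, hy, rfl⟩
    exact ⟨y.2, hy⟩
  · rintro ⟨h, h'⟩
    exact ⟨⟨x, h⟩, h', rfl⟩

theorem mem_H_iff {x : G} (h : x ∈ S.N) : x ∈ S.H ↔ S.toW ⟨x, h⟩ = 1 := by
  rw [← MonoidHom.mem_ker, S.toW_ker, Subgroup.mem_subgroupOf]

theorem H_le_T1 : S.H ≤ T1 S w3 := by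
  intro x hx
  rw [mem_T1]
  refine ⟨S.H_le_N hx, ?_⟩
  rw [(mem_H_iff S (S.H_le_N hx)).1 hx]
  exact Subgroup.one_mem _

theorem T1_le_N : T1 S w3 ≤ S.N := by
  rintro _ ⟨y, _, rfl⟩; exact y.2

variable {w3} (hw : w3 ∈ C.W) (hw3 : w3 ^ 3 = 1) (hw1 : w3 ≠ 1)

include hw hw3 hw1 in
theorem relIndex_T1 : S.H.relIndex (T1 S w3) = 3 := by
  have e1 : S.H = (S.toW.ker).map S.N.subtype := by
    rw [S.toW_ker, Subgroup.subgroupOf_map_subtype]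
    exact (inf_eq_left.2 S.H_le_N).symm
  have e2 : S.H.relIndex (T1 S w3) = S.toW.ker.relIndex ((Subgroup.zpowers w3).comap S.toW) := by
    conv_lhs => rw [e1]
    unfold T1
    exact Subgroup.relIndex_map_map_of_injective _ _ Subtype.coe_injective
  rw [e2, Subgroup.relIndex_ker, Subgroup.map_comap_eq, S.toW_range,
    inf_eq_right.2 (by rw [Subgroup.zpowers_le]; exact hw)]
  rw [Nat.card_zpowers]
  exact orderOf_eq_prime hw3 hw1

include hw hw3 hw1 in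
theorem no_alt (K : Subgroup G) [Finite K] (hK : S.Γ = K)
    (hab : ∀ x ∈ S.H, ∀ y ∈ S.H, x * y = y * x) (he : ∀ w ∈ C.W, w ^ 6 = 1)
    (hidx : ¬ 9 ∣ S.H.relIndex K)
    (hC : ∀ y (hy : y ∈ S.N), (S.toW ⟨y, hy⟩ = w3 ∨ S.toW ⟨y, hy⟩ = w3⁻¹) → ∀ L : Subgroup G, L ≤ S.H →
      (∀ t ∈ L, t * y = y * t) → Nat.card L ≤ 3)
    (h4 : ∀ z ∈ S.H, z ≠ 1 → ∀ y (hy : y ∈ S.N), (S.toW ⟨y, hy⟩ = w3 ∨ S.toW ⟨y, hy⟩ = w3⁻¹) →
      z * y = y * z → z ^ 3 = 1 → y ^ 3 = 1 →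
      (∃ g ∈ S.Γ, g * z * g⁻¹ = z ∧ g * y * g⁻¹ = y⁻¹) →
      (∃ g ∈ S.Γ, ∃ h : g * z * g⁻¹ ∈ S.N, S.toW ⟨g * z * g⁻¹, h⟩ = w3 ∨
        S.toW ⟨g * z * g⁻¹, h⟩ = w3⁻¹) →
      ∃ x ∈ S.Γ, x * z * x⁻¹ ∈ S.H ∧ x * y * x⁻¹ ∈ S.H)
    {H : Type*} [Group H] {r : ℕ} (hr : 8 ≤ r)
    (ι : H →* K) (hι : Function.Injective ι) (φ : H →* alternatingGroup (Fin r))
    (hφ : Function.Surjective φ) : False := by
  have hHK : S.H ≤ K := by rw [← hK]; exact S.H_le_N.trans S.N_le_Γ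
  have hTK : T1 S w3 ≤ K := by rw [← hK]; exact (T1_le_N S w3).trans S.N_le_Γ
  have key : ∀ y : K, y ∈ (T1 S w3).subgroupOf K → y ∉ S.H.subgroupOf K →
      ∃ hy : (y : G) ∈ S.N, S.toW ⟨y, hy⟩ = w3 ∨ S.toW ⟨y, hy⟩ = w3⁻¹ := by
    intro y hy hyT
    rw [Subgroup.mem_subgroupOf, mem_T1] at hy
    obtain ⟨h, h'⟩ := hy
    refine ⟨h, ?_⟩
    rcases mem_zpowers_three hw3 h' with h5 | h5
    · exfalso; apply hyT
      rw [Subgroup.mem_subgroupOf, mem_H_iff S h]; exact h5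
    · exact h5
  refine H7.A8Loc.no_alt (S.H.subgroupOf K) ((T1 S w3).subgroupOf K) ?_ ?_ ?_ ?_ ?_ ?_ ?_ hr ι hι φ hφ
  · intro x hx y hy
    apply Subtype.ext
    exact hab _ hx _ hy
  · intro y hy t ht
    rw [Subgroup.mem_subgroupOf] at hy ht ⊢
    exact S.N_conj_H (T1_le_N S w3 hy) ht
  · intro y hy hyT x hx
    obtain ⟨hyN, hyw⟩ := key y hy hyT
    rw [Subgroup.mem_subgroupOf, mem_T1] at hx
    obtain ⟨hxN, hx'⟩ := hx
    have hxy : (x * y⁻¹ : K) ∈ S.H.subgroupOf K ↔ S.toW ⟨x, hxN⟩ * (S.toW ⟨y, hyN⟩)⁻¹ = 1 := by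
      rw [Subgroup.mem_subgroupOf, ← map_inv, ← map_mul]
      exact mem_H_iff S (S.N.mul_mem hxN (S.N.inv_mem hyN))
    have hxy' : (x * y : K) ∈ S.H.subgroupOf K ↔ S.toW ⟨x, hxN⟩ * S.toW ⟨y, hyN⟩ = 1 := by
      rw [Subgroup.mem_subgroupOf, ← map_mul]
      exact mem_H_iff S (S.N.mul_mem hxN hyN)
    have hx1 : x ∈ S.H.subgroupOf K ↔ S.toW ⟨x, hxN⟩ = 1 := by
      rw [Subgroup.mem_subgroupOf]; exact mem_H_iff S hxN
    rw [hxy, hxy', hx1]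
    rcases mem_zpowers_three hw3 hx' with h5 | h5 | h5 <;> rcases hyw with h6 | h6 <;> rw [h5, h6] <;> simp
  · intro h5
    apply hidx
    have e1 : S.H.relIndex (T1 S w3) * (T1 S w3).relIndex K = S.H.relIndex K :=
      Subgroup.relIndex_mul_relIndex _ _ _ (H_le_T1 S w3) hTK
    rw [← e1, relIndex_T1 S hw hw3 hw1]
    exact mul_dvd_mul_left 3 h5
  · intro P hP g hg x hx
    have h1 := H7.TorSect.fix_pow S hab he (P := (Subtype.val '' (P : Set K))) (g := (g : G)) (by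
      rintro _ ⟨z, hz, rfl⟩; exact hP hz) (by rw [hK]; exact g.2) (by
      rintro _ ⟨z, hz, rfl⟩; exact ⟨_, hg z hz, rfl⟩) (x : G) ⟨x, hx, rfl⟩
    apply Subtype.ext
    exact h1
  · intro y hy hyT L hL hLy
    obtain ⟨hyN, hyw⟩ := key y hy hyT
    have h5 := hC y hyN hyw (L.map K.subtype) (by
      rintro _ ⟨t, ht, rfl⟩; exact hL ht) (by
      rintro _ ⟨t, ht, rfl⟩; exact congrArg Subtype.val (hLy t ht))
    rwa [Subgroup.card_map_of_injective Subtype.coe_injective] at h5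
  · rintro z hz hz1 y hy hyT hzy hz3 hy3 ⟨g, hg1, hg2⟩ ⟨g', hg'1, hg'2⟩
    obtain ⟨hyN, hyw⟩ := key y hy hyT
    obtain ⟨h5, h6⟩ := key _ hg'1 hg'2
    obtain ⟨x, hx, hx1, hx2⟩ := h4 z hz (fun e => hz1 (Subtype.ext e)) y hyN hyw
      (congrArg Subtype.val hzy) (congrArg Subtype.val hz3) (congrArg Subtype.val hy3)
      ⟨g, by rw [hK]; exact g.2, congrArg Subtype.val hg1, congrArg Subtype.val hg2⟩
      ⟨g', by rw [hK]; exact g'.2, h5, h6⟩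
    exact ⟨⟨x, by rw [← hK]; exact hx⟩, hx1, hx2⟩

end H7.A8Sys
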