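import Cfsg.Agent.Lib.H7.AltElt

/-!
More elements of alternating groups.
-/

set_option autoImplicit false

namespace H7.AltElt2

open Equiv H7.AltElt

/-- commuting cycles of lengths 5 and 7 with an element normalising both, in `A_12` -/
theorem thirtyfive {r : ℕ} (h : 12 ≤ r) :
    ∃ s5 s7 τ : alternatingGroup (Fin r), orderOf s5 = 5 ∧ orderOf s7 = 7 ∧ s5 * s7 = s7 * s5 ∧
      τ * s5 * τ⁻¹ = s5 ^ 2 ∧ τ * s7 * τ⁻¹ = s7 ^ 3 := by
  have : Fact (Nat.Prime 5) := ⟨by norm_num⟩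
  have : Fact (Nat.Prime 7) := ⟨by norm_num⟩
  let a : alternatingGroup (Fin 12) := ⟨(⟨![0, 1, 2, 3, 4, 5, 6, 8, 9, 10, 11, 7],
    ![0, 1, 2, 3, 4, 5, 6, 11, 7, 8, 9, 10], by decide, by decide⟩ : Perm (Fin 12)),
    Perm.mem_alternatingGroup.2 (by decide +kernel)⟩
  let b : alternatingGroup (Fin 12) := ⟨(⟨![1, 2, 3, 4, 5, 6, 0, 7, 8, 9, 10, 11],
    ![6, 0, 1, 2, 3, 4, 5, 7, 8, 9, 10, 11], by decide, by decide⟩ : Perm (Fin 12)),
    Perm.mem_alternatingGroup.2 (by decide +kernel)⟩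
  let t : alternatingGroup (Fin 12) := ⟨(⟨![0, 3, 6, 2, 5, 1, 4, 7, 9, 11, 8, 10],
    ![0, 5, 3, 1, 6, 4, 2, 7, 10, 8, 11, 9], by decide, by decide⟩ : Perm (Fin 12)),
    Perm.mem_alternatingGroup.2 (by decide +kernel)⟩
  have ha : orderOf a = 5 := by
    rw [orderOf_eq_prime_iff]
    refine ⟨?_, ?_⟩
    · apply Subtype.ext; decide +kernel
    · intro e
      have := congrArg (fun x : alternatingGroup (Fin 12) => (x : Perm (Fin 12)) 7) e
      revert this; decide +kernel
  have hb : orderOf b = 7 := by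
    rw [orderOf_eq_prime_iff]
    refine ⟨?_, ?_⟩
    · apply Subtype.ext; decide +kernel
    · intro e
      have := congrArg (fun x : alternatingGroup (Fin 12) => (x : Perm (Fin 12)) 0) e
      revert this; decide +kernel
  have hab : a * b = b * a := by apply Subtype.ext; decide +kernel
  have h5 : t * a * t⁻¹ = a ^ 2 := by apply Subtype.ext; decide +kernel
  have h7 : t * b * t⁻¹ = b ^ 3 := by apply Subtype.ext; decide +kernel
  refine ⟨embA h a, embA h b, embA h t, ?_, ?_, ?_, ?_, ?_⟩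
  · rw [← ha]; exact orderOf_injective _ (embA_injective h) a
  · rw [← hb]; exact orderOf_injective _ (embA_injective h) b
  · rw [← map_mul, ← map_mul, hab]
  · rw [← map_inv, ← map_mul, ← map_mul, h5, map_pow]
  · rw [← map_inv, ← map_mul, ← map_mul, h7, map_pow]

end H7.AltElt2
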