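import Cfsg.Agent.Lib.H7.A8Loc

/-!
Excluding sections containing a cyclic group of order 35 with a large automiser.
-/

set_option autoImplicit false
set_option linter.unusedVariables false
set_option linter.unusedSectionVars false
set_option linter.style.haveILetI false

namespace H7.C35

open H7.TorSect H7.A8Loc

/-- Frattini argument for a subgroup normalised by an element. -/
theorem frat2 {H : Type*} [Group H] [Finite H] {p : ℕ} [Fact p.Prime] (M : Subgroup H)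
    (P : Subgroup H) (hP : IsPGroup p P) (hPM : P ≤ M)
    (hidx : ¬ p ∣ P.relIndex M) {g : H} (hg : ∀ s ∈ M, g * s * g⁻¹ ∈ M) :
    ∃ m ∈ M, ∀ x ∈ P, (m * g) * x * (m * g)⁻¹ ∈ P := by
  have hPs : IsPGroup p (P.subgroupOf M) := hP.comap_of_injective _ Subtype.coe_injective
  let Q1 : Sylow p M := hPs.toSylow hidx
  obtain ⟨P', hP'⟩ : ∃ P' : Subgroup H, P' = P.map (MulAut.conj g).toMonoidHom := ⟨_, rfl⟩
  have hP'M : P' ≤ M := by
    rw [hP']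
    rintro _ ⟨x, hx, rfl⟩
    exact hg _ (hPM hx)
  have hP'p : IsPGroup p P' := by rw [hP']; exact hP.map _
  have hP's : IsPGroup p (P'.subgroupOf M) := hP'p.comap_of_injective _ Subtype.coe_injective
  have hcard : Nat.card P' = Nat.card P := by
    rw [hP']
    exact Subgroup.card_map_of_injective (MulAut.conj g).injective
  have hidx' : ¬ p ∣ (P'.subgroupOf M).index := by
    have h1 : Nat.card P * P.relIndex M = Nat.card M := card_mul_relIndex' hPM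
    have h2 : Nat.card P' * P'.relIndex M = Nat.card M := card_mul_relIndex' hP'M
    have h3 : P'.relIndex M = P.relIndex M := by
      have : 0 < Nat.card P := Nat.card_pos
      rw [hcard] at h2
      exact Nat.eq_of_mul_eq_mul_left this (h2.trans h1.symm)
    show ¬ p ∣ P'.relIndex M
    rw [h3]; exact hidx
  let Q2 : Sylow p M := hP's.toSylow hidx'
  obtain ⟨m, hm⟩ := MulAction.exists_smul_eq M Q2 Q1
  refine ⟨m, m.2, ?_⟩
  intro x hx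
  have h1 : g * x * g⁻¹ ∈ P' := by rw [hP']; exact ⟨x, hx, rfl⟩
  have h2 : (⟨g * x * g⁻¹, hP'M h1⟩ : M) ∈ (Q2 : Subgroup M) := by
    show _ ∈ P'.subgroupOf M
    rw [Subgroup.mem_subgroupOf]; exact h1
  have h3 : m * (⟨g * x * g⁻¹, hP'M h1⟩ : M) * m⁻¹ ∈ (Q1 : Subgroup M) := by
    rw [← hm]
    exact ⟨_, h2, rfl⟩
  have h4 : ((m * (⟨g * x * g⁻¹, hP'M h1⟩ : M) * m⁻¹ : M) : H) ∈ P := by
    have : m * (⟨g * x * g⁻¹, hP'M h1⟩ : M) * m⁻¹ ∈ P.subgroupOf M := h3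
    rw [Subgroup.mem_subgroupOf] at this
    exact this
  have h5 : ((m * (⟨g * x * g⁻¹, hP'M h1⟩ : M) * m⁻¹ : M) : H) = ((m : H) * g) * x * ((m : H) * g)⁻¹ := by
    show (m : H) * (g * x * g⁻¹) * (m : H)⁻¹ = _
    group
  rw [h5] at h4
  exact h4

/-- a Sylow subgroup of a subgroup `M` lifting an element of order `p` -/
theorem exists_sylow {H X : Type*} [Group H] [Finite H] [Group X] {p : ℕ} [Fact p.Prime]
    (φ : H →* X) {s : X} (hs : orderOf s = p) (C : Subgroup H) {y : H} (hyC : y ∈ C) (hy : φ y = s) :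
    ∃ P : Subgroup H, IsPGroup p P ∧ P ≤ C ⊓ (Subgroup.zpowers s).comap φ ∧
      ¬ p ∣ P.relIndex (C ⊓ (Subgroup.zpowers s).comap φ) ∧ ∃ x ∈ P, φ x = s := by
  have hp : p.Prime := Fact.out
  obtain ⟨M, hM⟩ : ∃ M : Subgroup H, M = C ⊓ (Subgroup.zpowers s).comap φ := ⟨_, rfl⟩
  rw [← hM]
  have hyM : y ∈ M := by
    rw [hM]; exact Subgroup.mem_inf.2 ⟨hyC, by rw [Subgroup.mem_comap, hy]; exact Subgroup.mem_zpowers s⟩
  -- a `p`-element of `M` above `s`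
  let φM : M →* Subgroup.zpowers s := (φ.comp M.subtype).codRestrict _ (fun x => by
    have h1 : (x : H) ∈ C ⊓ (Subgroup.zpowers s).comap φ := hM ▸ x.2
    exact h1.2)
  have hsur : Function.Surjective φM := by
    rintro ⟨z, hz⟩
    obtain ⟨k, rfl⟩ := Subgroup.mem_zpowers_iff.1 hz
    refine ⟨⟨y, hyM⟩ ^ k, ?_⟩
    apply Subtype.ext
    show φ (((⟨y, hyM⟩ : M) ^ k : M) : H) = s ^ k
    rw [Subgroup.coe_zpow, map_zpow, hy]
  have hso : orderOf (⟨s, Subgroup.mem_zpowers s⟩ : Subgroup.zpowers s) = p := by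
    rw [← hs]; exact (Subgroup.orderOf_coe (⟨s, Subgroup.mem_zpowers s⟩ : Subgroup.zpowers s)).symm
  obtain ⟨x, hx, k, hk⟩ := exists_p_elem φM hsur hso
  have hpx : IsPGroup p (Subgroup.zpowers x) := by
    apply IsPGroup.of_card (n := k)
    rw [Nat.card_zpowers, hk]
  obtain ⟨P₀, hP₀⟩ := hpx.exists_le_sylow
  refine ⟨(P₀ : Subgroup M).map M.subtype, P₀.isPGroup'.map _, ?_, ?_, ?_⟩
  · rintro _ ⟨x, _, rfl⟩; exact x.2
  · have h1 : ((P₀ : Subgroup M).map M.subtype).relIndex M = (P₀ : Subgroup M).index := by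
      unfold Subgroup.relIndex
      congr 1
      exact Subgroup.comap_map_eq_self_of_injective Subtype.coe_injective _
    rw [h1]
    exact P₀.not_dvd_index
  · refine ⟨x, ⟨x, hP₀ (Subgroup.mem_zpowers _), rfl⟩, ?_⟩
    exact congrArg Subtype.val hx

theorem main {Γ : Type*} [Group Γ] [Finite Γ] (T : Subgroup Γ)
    (hTc : ∀ x ∈ T, ∀ y ∈ T, x * y = y * x) (h5 : ¬ 5 ∣ T.index) (h7 : ¬ 7 ∣ T.index)
    (hfix : ∀ P : Set Γ, P ⊆ T → ∀ g : Γ, (∀ x ∈ P, g * x * g⁻¹ ∈ P) →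
      (∀ x ∈ P, g ^ 8 * x * (g ^ 8)⁻¹ = x) ∨ (∀ x ∈ P, g ^ 6 * x * (g ^ 6)⁻¹ = x) ∨
      (∀ x ∈ P, (g ^ 4 * x * (g ^ 4)⁻¹) * x = g ^ 2 * x * (g ^ 2)⁻¹))
    (hfix24 : ∀ P : Set Γ, P ⊆ T → ∀ g : Γ, (∀ x ∈ P, g * x * g⁻¹ ∈ P) →
      ∀ x ∈ P, g ^ 24 * x * (g ^ 24)⁻¹ = x)
    {X H : Type*} [Group X] [Group H] (ι : H →* Γ) (hι : Function.Injective ι) (φ : H →* X)
    (hφ : Function.Surjective φ) {s5 s7 τ : X} (hs5 : orderOf s5 = 5) (hs7 : orderOf s7 = 7)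
    (hcomm : s5 * s7 = s7 * s5) (hτ5 : τ * s5 * τ⁻¹ = s5 ^ 2) (hτ7 : τ * s7 * τ⁻¹ = s7 ^ 3) : False := by
  haveI : Fact (Nat.Prime 5) := ⟨by norm_num⟩
  haveI : Fact (Nat.Prime 7) := ⟨by norm_num⟩
  haveI : Finite H := Finite.of_injective ι hι
  have hc : Commute s5 s7 := hcomm
  -- step 1
  obtain ⟨y7, hy7⟩ := hφ s7
  obtain ⟨P7, hP7, hP7M, hP7i, x7, hx7, hx7s⟩ := exists_sylow φ hs7 ⊤ (Subgroup.mem_top y7) hy7
  obtain ⟨u, hu⟩ := conj_into T h7 (P7.map ι) (hP7.map ι)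
  obtain ⟨j, hj⟩ : ∃ j : H →* Γ, j = (MulAut.conj u).toMonoidHom.comp ι := ⟨_, rfl⟩
  have hji : Function.Injective j := by
    rw [hj]; exact (MulAut.conj u).injective.comp hι
  have hjP : ∀ x ∈ P7, j x ∈ T := by
    intro x hx
    rw [hj]
    exact hu (ι x) ⟨x, hx, rfl⟩
  have conjS : ∀ {s τ' : X} {c : ℕ}, τ' * s * τ'⁻¹ = s ^ c → ∀ z ∈ Subgroup.zpowers s,
      τ' * z * τ'⁻¹ ∈ Subgroup.zpowers s := by
    intro s τ' c h z hz
    obtain ⟨k, rfl⟩ := Subgroup.mem_zpowers_iff.1 hz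
    rw [← conj_zpow, h]
    exact Subgroup.zpow_mem _ (Subgroup.pow_mem _ (Subgroup.mem_zpowers s) _) _
  -- step 2
  obtain ⟨g1, hg1⟩ := hφ s5
  obtain ⟨m1, hm1, hm1P⟩ := frat2 (⊤ ⊓ (Subgroup.zpowers s7).comap φ) P7 hP7 hP7M hP7i (g := g1) (by
    intro x hx'
    obtain ⟨_, hx⟩ := Subgroup.mem_inf.1 hx'
    refine Subgroup.mem_inf.2 ⟨Subgroup.mem_top _, ?_⟩
    rw [Subgroup.mem_comap] at hx ⊢
    rw [map_mul, map_mul, map_inv, hg1]
    exact conjS (c := 1) (by rw [pow_one, hcomm, mul_inv_cancel_right]) _ hx)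
  obtain ⟨h, hh⟩ : ∃ h, h = (m1 * g1) ^ 336 := ⟨_, rfl⟩
  have hhC : h ∈ Subgroup.centralizer (P7 : Set H) := by
    rw [Subgroup.mem_centralizer_iff]
    intro x hx
    have h1 := hfix24 (j '' (P7 : Set H)) (by rintro _ ⟨x, hx, rfl⟩; exact hjP x hx) (j (m1 * g1)) (by
      rintro _ ⟨x, hx, rfl⟩
      exact ⟨_, hm1P x hx, by rw [map_mul, map_mul, map_inv]⟩) (j x) ⟨x, hx, rfl⟩
    have h2 : (m1 * g1) ^ 24 * x * ((m1 * g1) ^ 24)⁻¹ = x := by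
      apply hji
      rw [map_mul, map_mul, map_inv, map_pow]; exact h1
    have h3 : Commute ((m1 * g1) ^ 24) x := by
      show (m1 * g1) ^ 24 * x = x * (m1 * g1) ^ 24
      calc (m1 * g1) ^ 24 * x = ((m1 * g1) ^ 24 * x * ((m1 * g1) ^ 24)⁻¹) * (m1 * g1) ^ 24 := by group
        _ = x * (m1 * g1) ^ 24 := by rw [h2]
    have h4 : h = ((m1 * g1) ^ 24) ^ 14 := by rw [hh, ← pow_mul]
    rw [h4]
    exact (h3.pow_left 14).eq.symm
  have hhφ : φ h = s5 := by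
    obtain ⟨k, hk⟩ := Subgroup.mem_zpowers_iff.1 hm1.2
    rw [hh, map_pow, map_mul, hg1, ← hk]
    have c1 : Commute (s7 ^ k) s5 := (hc.symm).zpow_left k
    rw [c1.mul_pow, ← zpow_natCast, ← zpow_mul, mul_comm k, zpow_mul]
    have e7 : s7 ^ ((336 : ℕ) : ℤ) = 1 := by
      rw [zpow_natCast, show (336 : ℕ) = 7 * 48 by norm_num, pow_mul, ← hs7, pow_orderOf_eq_one, one_pow]
    have e5 : s5 ^ 336 = s5 := by
      rw [show (336 : ℕ) = 5 * 67 + 1 by norm_num, pow_succ, pow_mul, ← hs5, pow_orderOf_eq_one,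
        one_pow, one_mul]
    rw [e7, one_zpow, one_mul, e5]
  -- step 3
  obtain ⟨C1, hC1⟩ : ∃ C1 : Subgroup H, C1 = Subgroup.centralizer (P7 : Set H) := ⟨_, rfl⟩
  rw [← hC1] at hhC
  obtain ⟨P5, hP5, hP5M, hP5i, x5, hx5, hx5s⟩ := exists_sylow φ hs5 C1 hhC hhφ
  -- step 4
  obtain ⟨Γ7, hΓ7⟩ : ∃ Γ7 : Subgroup Γ, Γ7 = Subgroup.centralizer (j '' (P7 : Set H)) := ⟨_, rfl⟩
  have hTΓ : T ≤ Γ7 := by
    intro t ht
    rw [hΓ7, Subgroup.mem_centralizer_iff]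
    rintro _ ⟨x, hx, rfl⟩
    exact hTc _ (hjP x hx) _ ht
  have hP5Γ : P5.map j ≤ Γ7 := by
    rintro _ ⟨x, hx, rfl⟩
    rw [hΓ7, Subgroup.mem_centralizer_iff]
    rintro _ ⟨z, hz, rfl⟩
    have h1 : x ∈ C1 := (Subgroup.mem_inf.1 (hP5M hx)).1
    rw [hC1, Subgroup.mem_centralizer_iff] at h1
    rw [← map_mul, ← map_mul, h1 z hz]
  obtain ⟨y, hy⟩ := conj_into (p := 5) (T.subgroupOf Γ7) (by
    intro h1
    apply h5
    have h2 : T.relIndex Γ7 * Γ7.index = T.index := Subgroup.relIndex_mul_index hTΓ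
    rw [← h2]
    exact Dvd.dvd.mul_right h1 _) ((P5.map j).subgroupOf Γ7)
    ((hP5.map j).comap_of_injective _ Subtype.coe_injective)
  obtain ⟨j2, hj2⟩ : ∃ j2 : H →* Γ, j2 = (MulAut.conj (y : Γ)).toMonoidHom.comp j := ⟨_, rfl⟩
  have hj2i : Function.Injective j2 := by
    rw [hj2]; exact (MulAut.conj (y : Γ)).injective.comp hji
  have hj7 : ∀ x ∈ P7, j2 x ∈ T := by
    intro x hx
    rw [hj2]
    show (y : Γ) * j x * (y : Γ)⁻¹ ∈ T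
    have h1 := y.2
    have h2 : (y : Γ) ∈ Subgroup.centralizer (j '' (P7 : Set H)) := hΓ7 ▸ y.2
    rw [Subgroup.mem_centralizer_iff] at h2
    rw [← h2 (j x) ⟨x, hx, rfl⟩, mul_inv_cancel_right]
    exact hjP x hx
  have hj5 : ∀ x ∈ P5, j2 x ∈ T := by
    intro x hx
    rw [hj2]
    have h1 := hy ⟨j x, hP5Γ ⟨x, hx, rfl⟩⟩ (by
      rw [Subgroup.mem_subgroupOf]; exact ⟨x, hx, rfl⟩)
    rw [Subgroup.mem_subgroupOf] at h1
    exact h1
  -- step 5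
  obtain ⟨g0, hg0⟩ := hφ τ
  obtain ⟨m0, hm0, hm0P⟩ := frat2 (⊤ ⊓ (Subgroup.zpowers s7).comap φ) P7 hP7 hP7M hP7i (g := g0) (by
    intro x hx'
    obtain ⟨_, hx⟩ := Subgroup.mem_inf.1 hx'
    refine Subgroup.mem_inf.2 ⟨Subgroup.mem_top _, ?_⟩
    rw [Subgroup.mem_comap] at hx ⊢
    rw [map_mul, map_mul, map_inv, hg0]
    exact conjS hτ7 _ hx)
  obtain ⟨k0, hk0⟩ := Subgroup.mem_zpowers_iff.1 hm0.2
  have c0 : Commute (s7 ^ k0) s5 := (hc.symm).zpow_left k0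
  have hg0' : ∀ c : ℕ, ∀ s : X, Commute (s7 ^ k0) (s ^ c) → τ * s * τ⁻¹ = s ^ c →
      φ (m0 * g0) * s * (φ (m0 * g0))⁻¹ = s ^ c := by
    intro c s h1 h2
    rw [map_mul, ← hk0, hg0]
    calc s7 ^ k0 * τ * s * (s7 ^ k0 * τ)⁻¹ = s7 ^ k0 * (τ * s * τ⁻¹) * (s7 ^ k0)⁻¹ := by group
      _ = s7 ^ k0 * s ^ c * (s7 ^ k0)⁻¹ := by rw [h2]
      _ = s ^ c := by rw [h1.eq, mul_inv_cancel_right]
  have hq5 : φ (m0 * g0) * s5 * (φ (m0 * g0))⁻¹ = s5 ^ 2 := hg0' 2 s5 (c0.pow_right 2) hτ5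
  have hq7 : φ (m0 * g0) * s7 * (φ (m0 * g0))⁻¹ = s7 ^ 3 :=
    hg0' 3 s7 (((Commute.refl s7).zpow_left k0).pow_right 3) hτ7
  obtain ⟨m, hm, hmP⟩ := frat2 (C1 ⊓ (Subgroup.zpowers s5).comap φ) P5 hP5 hP5M hP5i (g := m0 * g0) (by
    intro x hx'
    obtain ⟨hxC, hx⟩ := Subgroup.mem_inf.1 hx'
    refine Subgroup.mem_inf.2 ⟨?_, ?_⟩
    · rw [hC1, Subgroup.mem_centralizer_iff] at hxC ⊢
      intro z hz
      have h1 := hxC _ (inv_norm hm0P z hz)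
      calc z * (m0 * g0 * x * (m0 * g0)⁻¹) = m0 * g0 * (((m0 * g0)⁻¹ * z * (m0 * g0)) * x) * (m0 * g0)⁻¹ := by
            group
        _ = m0 * g0 * (x * ((m0 * g0)⁻¹ * z * (m0 * g0))) * (m0 * g0)⁻¹ := by rw [h1]
        _ = _ := by group
    · rw [Subgroup.mem_comap] at hx ⊢
      rw [map_mul, map_mul, map_inv]
      exact conjS hq5 _ hx)
  obtain ⟨g, hg⟩ : ∃ g, g = m * (m0 * g0) := ⟨_, rfl⟩
  obtain ⟨k1, hk1⟩ := Subgroup.mem_zpowers_iff.1 hm.2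
  have hgφ : φ g = s5 ^ k1 * φ (m0 * g0) := by rw [hg, map_mul, ← hk1]
  have hr : ∀ c : ℕ, ∀ s : X, Commute (s5 ^ k1) (s ^ c) → φ (m0 * g0) * s * (φ (m0 * g0))⁻¹ = s ^ c →
      φ g * s * (φ g)⁻¹ = s ^ c := by
    intro c s h1 h2
    rw [hgφ]
    calc s5 ^ k1 * φ (m0 * g0) * s * (s5 ^ k1 * φ (m0 * g0))⁻¹ =
        s5 ^ k1 * (φ (m0 * g0) * s * (φ (m0 * g0))⁻¹) * (s5 ^ k1)⁻¹ := by group
      _ = s5 ^ k1 * s ^ c * (s5 ^ k1)⁻¹ := by rw [h2]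
      _ = s ^ c := by rw [h1.eq, mul_inv_cancel_right]
  have hr5 : φ g * s5 * (φ g)⁻¹ = s5 ^ 2 := hr 2 s5 (((Commute.refl s5).zpow_left k1).pow_right 2) hq5
  have hr7 : φ g * s7 * (φ g)⁻¹ = s7 ^ 3 := hr 3 s7 ((hc.zpow_left k1).pow_right 3) hq7
  have hgP7 : ∀ x ∈ P7, g * x * g⁻¹ ∈ P7 := by
    intro x hx
    have h1 := hm0P x hx
    have h2 := (Subgroup.mem_inf.1 hm).1
    rw [hC1, Subgroup.mem_centralizer_iff] at h2
    have h3 := h2 _ h1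
    have h4 : g * x * g⁻¹ = m * (m0 * g0 * x * (m0 * g0)⁻¹) * m⁻¹ := by rw [hg]; group
    rw [h4, ← h3, mul_inv_cancel_right]
    exact h1
  have hgP5 : ∀ x ∈ P5, g * x * g⁻¹ ∈ P5 := by
    intro x hx; rw [hg]; exact hmP x hx
  -- step 6
  have hfin := hfix (j2 '' ((P5 : Set H) ∪ P7)) (by
    rintro _ ⟨x, hx | hx, rfl⟩
    · exact hj5 x hx
    · exact hj7 x hx) (j2 g) (by
    rintro _ ⟨x, hx | hx, rfl⟩
    · exact ⟨_, Or.inl (hgP5 x hx), by rw [map_mul, map_mul, map_inv]⟩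
    · exact ⟨_, Or.inr (hgP7 x hx), by rw [map_mul, map_mul, map_inv]⟩)
  have back : ∀ (k : ℕ) (x : H), j2 g ^ k * j2 x * (j2 g ^ k)⁻¹ = j2 (g ^ k * x * (g ^ k)⁻¹) := by
    intro k x; rw [map_mul, map_mul, map_inv, map_pow]
  rcases hfin with h1 | h1 | h1
  · have h2 := h1 (j2 x7) ⟨x7, Or.inr hx7, rfl⟩
    rw [back] at h2
    have h3 := congrArg φ (hj2i h2)
    rw [map_mul, map_mul, map_inv, map_pow, hx7s, conj_pow_of hr7 8] at h3
    have h4 : s7 ^ (3 ^ 8) = s7 ^ 1 := by rw [h3, pow_one]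
    rw [pow_eq_pow_iff_modEq, hs7] at h4
    revert h4; decide
  · have h2 := h1 (j2 x5) ⟨x5, Or.inl hx5, rfl⟩
    rw [back] at h2
    have h3 := congrArg φ (hj2i h2)
    rw [map_mul, map_mul, map_inv, map_pow, hx5s, conj_pow_of hr5 6] at h3
    have h4 : s5 ^ (2 ^ 6) = s5 ^ 1 := by rw [h3, pow_one]
    rw [pow_eq_pow_iff_modEq, hs5] at h4
    revert h4; decide
  · have h2 := h1 (j2 x5) ⟨x5, Or.inl hx5, rfl⟩
    rw [back, back, ← map_mul] at h2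
    have h3 := congrArg φ (hj2i h2)
    rw [map_mul, map_mul, map_mul, map_inv, map_pow, hx5s, conj_pow_of hr5 4, map_mul, map_mul, map_inv,
      map_pow, hx5s, conj_pow_of hr5 2, ← pow_succ] at h3
    rw [pow_eq_pow_iff_modEq, hs5] at h3
    revert h3; decide

end H7.C35
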