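import Cfsg.Agent.Lib.H22.ChevOrder
import Cfsg.Agent.Lib.H22.ChevAll
import Cfsg.Agent.Lib.H22.ChevField
import Cfsg.Agent.Lib.H22.ChevSolv

/-!
The torus of a Chevalley group: characters, action of the monomial subgroup, traces.
-/

set_option autoImplicit false
set_option linter.unusedVariables false
set_option linter.unusedSectionVars false
set_option linter.style.haveILetI false
set_option linter.unusedSimpArgs false

namespace H7.ChevTor

open H22.RGD H22.Coord H22.RCCheck H22.RCComb H22.ChevTri H22.ChevRel H22.ChevSys H22.ChevMain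
open H22.ChevStd H22.ChevTorus H22.ChevTorusCard H22.Poincare
open Cfsg.Lie (ChevalleyDatum)
open scoped MatrixGroups Matrix

/-- words acting on root indices -/
def wn (D : ChevalleyDatum) (L : List ℕ) (s : ℕ) : ℕ := L.foldr (fun i t => D.reflectRoot i t) s

theorem wn_eq {D : ChevalleyDatum} (X : RCX D) (L : List (Fin D.rank)) (s : Fin D.nroots) :
    (((comb X).w L s : Fin D.nroots) : ℕ) = wn D (L.map Fin.val) s := by
  induction L with
  | nil => simp [wn]
  | cons i L ih =>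
    rw [RootComb.w_cons, Equiv.Perm.mul_apply, comb_refl_val, ih]
    rfl

/-- every element of `W` is a word from a complete list -/
theorem exists_word_of {D : ChevalleyDatum} (X : RCX D) (Ls : List (List ℕ)) (h0 : [] ∈ Ls)
    (h : ∀ i < D.rank, ∀ L ∈ Ls, ∃ L' ∈ Ls, ∀ s < D.nroots, wn D (i :: L) s = wn D L' s)
    {w : Equiv.Perm (Fin D.nroots)} (hw : w ∈ (comb X).W) :
    ∃ L' ∈ Ls, ∀ s : Fin D.nroots, ((w s : Fin D.nroots) : ℕ) = wn D L' s := by
  obtain ⟨L, rfl⟩ := (comb X).exists_word hw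
  induction L with
  | nil => exact ⟨[], h0, fun s => by simp [wn]⟩
  | cons i L ih =>
    obtain ⟨L', hL', e⟩ := ih ((comb X).w_mem L)
    obtain ⟨L'', hL'', e'⟩ := h i i.2 L' hL'
    refine ⟨L'', hL'', fun s => ?_⟩
    rw [RootComb.w_cons, Equiv.Perm.mul_apply, comb_refl_val, e, ← e' s s.2]
    rfl

section torus

variable {D : ChevalleyDatum} {F : Type*} [Field F] (R : Rel D F) (X : RCX D)

/-- diagonal entry at a root -/
def ent (t : GL D.Idx F) (s : Fin D.nroots) : F := (t : Matrix D.Idx D.Idx F) (Sum.inr s) (Sum.inr s)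

include R X in
theorem ent_spec {t : GL D.Idx F} (ht : t ∈ D.diagonalSubgroup F) :
    (t : Matrix D.Idx D.Idx F) = Matrix.diagonal (Sum.elim (fun _ => (1 : F)) (fun s : Fin D.nroots => ent t s)) ∧
    (∀ s, ent t s ≠ 0) ∧
    ∀ s : Fin D.nroots, ∀ u : F, t * xg R s u * t⁻¹ = xg R s (ent t s * u) := by
  rw [diagonalSubgroup_eq R X] at ht
  obtain ⟨χ, h1, h2, h3⟩ := Hs_char R X.rc ht
  have e : ∀ s : Fin D.nroots, ent t s = χ s := by
    intro s; unfold ent; rw [h2]; simp
  refine ⟨?_, fun s => by rw [e]; exact h1 s, fun s u => by rw [e]; exact h3 s s.2 u⟩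
  rw [h2]
  congr 1
  funext x
  rcases x with x | x
  · rfl
  · simp [e]

include R X in
theorem ent_prod {t : GL D.Idx F} (ht : t ∈ D.diagonalSubgroup F) :
    ∃ c : Fin D.rank → Fˣ, ∀ s : Fin D.nroots, ent t s = ((∏ i, c i ^ (D.cartan i s) : Fˣ) : F) := by
  rw [diagonalSubgroup_eq_range R X] at ht
  obtain ⟨c, rfl⟩ := ht
  refine ⟨c, fun s => ?_⟩
  unfold ent
  rw [MonoidHom.comp_apply, dg_val]
  simp [chi]

include R X in
theorem ent_ext {t t' : GL D.Idx F} (ht : t ∈ D.diagonalSubgroup F) (ht' : t' ∈ D.diagonalSubgroup F)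
    (h : ∀ s, ent t s = ent t' s) : t = t' := by
  apply Units.ext
  rw [(ent_spec R X ht).1, (ent_spec R X ht').1]
  congr 2
  funext s; exact h s

include R X in
theorem diag_comm {t t' : GL D.Idx F} (ht : t ∈ D.diagonalSubgroup F) (ht' : t' ∈ D.diagonalSubgroup F) :
    t * t' = t' * t := by
  rw [diagonalSubgroup_eq R X] at ht ht'
  exact H22.ChevSolv.Hs_comm R X.rc ht ht'

/-- elements of `N` act linearly on the root subgroups -/
theorem N_linear {y : GL D.Idx F} (hy : y ∈ (chevSys R X).N) (s : Fin D.nroots) :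
    ∃ c : F, c ≠ 0 ∧ ∀ u : F, y * xg R s u * y⁻¹ = xg R ((chevSys R X).toW ⟨y, hy⟩ s : Fin D.nroots) (c * u) := by
  obtain ⟨L, h, hh, e⟩ := (chevSys R X).exists_word hy
  have hrep : (chevSys R X).Rep y ((comb X).w L) := by
    rw [e]; simpa using ((chevSys R X).rep_nw L).mul ((chevSys R X).rep_H hh)
  have hw : (chevSys R X).toW ⟨y, hy⟩ = (comb X).w L := (chevSys R X).toW_eq hrep
  rw [hw]
  obtain ⟨ε, h1, h2⟩ := exists_sign_word R X L
  have h3 := ent_spec R X (t := h) hh
  refine ⟨ε s * ent h s, mul_ne_zero ?_ (h3.2.1 s), fun u => ?_⟩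
  · rcases (h1 s).1 with h' | h' <;> rw [h']
    · exact one_ne_zero
    · exact neg_ne_zero.2 one_ne_zero
  · rw [e, ← nsw_eq_nw]
    calc nsw R L * h * xg R s u * (nsw R L * h)⁻¹ = nsw R L * (h * xg R s u * h⁻¹) * (nsw R L)⁻¹ := by
          simp [mul_assoc]
      _ = nsw R L * xg R s (ent h s * u) * (nsw R L)⁻¹ := by rw [h3.2.2]
      _ = xg R ((comb X).w L s : Fin D.nroots) (ε s * (ent h s * u)) := h2 s _
      _ = _ := by rw [mul_assoc]

theorem ent_conj {y : GL D.Idx F} (hy : y ∈ (chevSys R X).N) {t : GL D.Idx F}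
    (ht : t ∈ D.diagonalSubgroup F) (s : Fin D.nroots) :
    ent (y * t * y⁻¹) ((chevSys R X).toW ⟨y, hy⟩ s) = ent t s := by
  obtain ⟨c, hc, h⟩ := N_linear R X hy s
  have hyt : y * t * y⁻¹ ∈ D.diagonalSubgroup F := (chevSys R X).N_conj_H hy ht
  have h1 := (ent_spec R X hyt).2.2 ((chevSys R X).toW ⟨y, hy⟩ s) (c * 1)
  rw [← h 1] at h1
  have h2 : y * t * y⁻¹ * (y * xg R s 1 * y⁻¹) * (y * t * y⁻¹)⁻¹ =
      y * (t * xg R s 1 * t⁻¹) * y⁻¹ := by simp [mul_assoc]
  rw [h2, (ent_spec R X ht).2.2, h] at h1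
  have h3 := xg_inj R X.rc ((chevSys R X).toW ⟨y, hy⟩ s).2 h1
  have h4 : c * ent t s = c * ent (y * t * y⁻¹) ((chevSys R X).toW ⟨y, hy⟩ s) := by
    calc c * ent t s = c * (ent t s * 1) := by rw [mul_one]
      _ = _ := h3
      _ = _ := by ring
  exact (mul_left_cancel₀ hc h4).symm

theorem ent_comm {y : GL D.Idx F} (hy : y ∈ (chevSys R X).N) {t : GL D.Idx F}
    (ht : t ∈ D.diagonalSubgroup F) (h : t * y = y * t) (s : Fin D.nroots) :
    ent t ((chevSys R X).toW ⟨y, hy⟩ s) = ent t s := by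
  have h1 := ent_conj R X hy ht s
  have h2 : y * t * y⁻¹ = t := by rw [← h, mul_inv_cancel_right]
  rw [h2] at h1; exact h1

end torus

section trace

variable {D : ChevalleyDatum} {F : Type*} [Field F] (R : Rel D F) (X : RCX D)

/-- block monomial form -/
def Mo (M : Matrix D.Idx D.Idx F) (A : Matrix (Fin D.rank) (Fin D.rank) ℤ) (w : ℕ → ℕ) : Prop :=
  (∀ i j, M (Sum.inl i) (Sum.inl j) = ((A i j : ℤ) : F)) ∧ (∀ i s, M (Sum.inl i) (Sum.inr s) = 0) ∧
  (∀ s i, M (Sum.inr s) (Sum.inl i) = 0) ∧ ∀ s' s : Fin D.nroots, (s' : ℕ) ≠ w s → M (Sum.inr s') (Sum.inr s) = 0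

/-- reflection on the Cartan subalgebra -/
def cm (D : ChevalleyDatum) (i : ℕ) : Matrix (Fin D.rank) (Fin D.rank) ℤ :=
  Matrix.of fun j' j => (if j' = j then 1 else 0) - (if (j' : ℕ) = i then D.cartan j (D.simple i) else 0)

/-- product over a word -/
def cmw (D : ChevalleyDatum) (L : List ℕ) : Matrix (Fin D.rank) (Fin D.rank) ℤ :=
  L.foldr (fun i A => cm D i * A) 1

include R in
theorem mo_ns (i : Fin D.rank) : Mo ((ns R i : GL D.Idx F) : Matrix D.Idx D.Idx F) (cm D i) (D.reflectRoot i) := by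
  obtain ⟨η, _, _, _, _, h⟩ := R.mono i i.2
  have hn : ((ns R i : GL D.Idx F) : Matrix D.Idx D.Idx F) = D.nMat F (D.simple i) 1 := ng_val R _ _
  rw [hn, h]
  refine ⟨?_, ?_, ?_, ?_⟩
  · intro j' j
    simp only [Matrix.of_apply, Sum.elim_inl, cm]
    push_cast
    split_ifs <;> simp
  · intro j s; simp
  · intro s j; simp
  · intro s' s hs; simp [hs]

theorem mo_mul {M M' : Matrix D.Idx D.Idx F} {A A' : Matrix (Fin D.rank) (Fin D.rank) ℤ} {w w' : ℕ → ℕ}
    (h : Mo M A w) (h' : Mo M' A' w') (hw' : ∀ s < D.nroots, w' s < D.nroots) :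
    Mo (M * M') (A * A') (fun s => w (w' s)) := by
  obtain ⟨a1, a2, a3, a4⟩ := h
  obtain ⟨b1, b2, b3, b4⟩ := h'
  refine ⟨?_, ?_, ?_, ?_⟩
  · intro i j
    rw [Matrix.mul_apply, Fintype.sum_sum_type, Matrix.mul_apply]
    have e1 : ∑ s : Fin D.nroots, M (Sum.inl i) (Sum.inr s) * M' (Sum.inr s) (Sum.inl j) = 0 :=
      Finset.sum_eq_zero fun s _ => by rw [a2, zero_mul]
    rw [e1, add_zero]
    push_cast
    exact Finset.sum_congr rfl fun k _ => by rw [a1, b1]
  · intro i s
    rw [Matrix.mul_apply, Fintype.sum_sum_type]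
    rw [Finset.sum_eq_zero fun k _ => by rw [b2, mul_zero], Finset.sum_eq_zero fun k _ => by rw [a2, zero_mul],
      add_zero]
  · intro s i
    rw [Matrix.mul_apply, Fintype.sum_sum_type]
    rw [Finset.sum_eq_zero fun k _ => by rw [a3, zero_mul], Finset.sum_eq_zero fun k _ => by rw [b3, mul_zero],
      add_zero]
  · intro s' s hs
    rw [Matrix.mul_apply, Fintype.sum_sum_type]
    rw [Finset.sum_eq_zero fun k _ => by rw [a3, zero_mul], zero_add]
    refine Finset.sum_eq_zero fun k _ => ?_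
    by_cases hk : (k : ℕ) = w' s
    · rw [a4 s' k (by rw [hk]; exact hs), zero_mul]
    · rw [b4 k s hk, mul_zero]

include R X in
theorem mo_nsw (L : List (Fin D.rank)) : Mo ((nsw R L : GL D.Idx F) : Matrix D.Idx D.Idx F)
    (cmw D (L.map Fin.val)) (wn D (L.map Fin.val)) := by
  induction L with
  | nil =>
    refine ⟨?_, ?_, ?_, ?_⟩
    · intro i j
      simp only [nsw, cmw, List.map_nil, List.prod_nil, Units.val_one, List.foldr_nil, Matrix.one_apply]
      by_cases h : i = j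
      · subst h; simp
      · have : (Sum.inl i : D.Idx) ≠ Sum.inl j := fun e => h (Sum.inl_injective e)
        simp [h]
    · intro i s; simp [nsw, Matrix.one_apply]
    · intro i s; simp [nsw, Matrix.one_apply]
    · intro s' s hs
      have : s' ≠ s := by rintro rfl; exact hs rfl
      simp [nsw, Matrix.one_apply, this]
  | cons i L ih =>
    rw [nsw_cons, Units.val_mul]
    refine mo_mul (w := D.reflectRoot i) (w' := wn D (L.map Fin.val)) (mo_ns R i) ih ?_
    intro s hs
    have h1 := wn_eq X L ⟨s, hs⟩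
    simp only at h1
    rw [← h1]
    exact Fin.is_lt _

include R X in
/-- the trace of an element of `N` -/
theorem trace_N {h : GL D.Idx F} (hh : h ∈ D.diagonalSubgroup F) (L : List (Fin D.rank))
    (hL : ∀ s < D.nroots, wn D (L.map Fin.val) s ≠ s) :
    Matrix.trace ((h * nsw R L : GL D.Idx F) : Matrix D.Idx D.Idx F) =
      ((∑ i, cmw D (L.map Fin.val) i i : ℤ) : F) := by
  obtain ⟨b1, b2, b3, b4⟩ := mo_nsw R X L
  have e := (ent_spec R X hh).1
  rw [Matrix.trace, Fintype.sum_sum_type]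
  have e1 : ∀ x : D.Idx, Matrix.diag ((h * nsw R L : GL D.Idx F) : Matrix D.Idx D.Idx F) x =
      (Sum.elim (fun _ => (1 : F)) (fun s : Fin D.nroots => ent h s)) x *
        ((nsw R L : GL D.Idx F) : Matrix D.Idx D.Idx F) x x := by
    intro x
    rw [Matrix.diag_apply, Units.val_mul, e, Matrix.diagonal_mul]
  have e2 : ∑ s : Fin D.nroots, Matrix.diag ((h * nsw R L : GL D.Idx F) : Matrix D.Idx D.Idx F) (Sum.inr s) = 0 :=
    Finset.sum_eq_zero fun s _ => by
      rw [e1, b4 s s (hL s s.2).symm, mul_zero]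
  rw [e2, add_zero, Int.cast_sum]
  refine Finset.sum_congr rfl fun i _ => ?_
  rw [e1, b1]; simp

include R X in
/-- the trace of an element of the torus -/
theorem trace_H {h : GL D.Idx F} (hh : h ∈ D.diagonalSubgroup F) :
    Matrix.trace (h : Matrix D.Idx D.Idx F) = D.rank + ∑ s : Fin D.nroots, ent h s := by
  rw [Matrix.trace, Fintype.sum_sum_type]
  have e := (ent_spec R X hh).1
  congr 1
  · have : ∀ i : Fin D.rank, Matrix.diag (h : Matrix D.Idx D.Idx F) (Sum.inl i) = 1 := by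
      intro i; rw [Matrix.diag_apply, e]; simp
    rw [Finset.sum_congr rfl fun i _ => this i]; simp

end trace

end H7.ChevTor
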