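import Cfsg.Agent.Lib.H7.D4Tw2

/-!
Alternating sections of the twisted groups of type D₄.
-/

set_option autoImplicit false
set_option linter.unusedVariables false
set_option linter.unusedSectionVars false
set_option linter.style.haveILetI false
set_option linter.unusedSimpArgs false

namespace H7.D4Tw

open H22.RGD H22.Coord H22.RCCheck H22.RCComb H22.ChevTri H22.ChevRel H22.ChevSys H22.ChevMain
open H22.ChevStd H22.ChevSolv H22.ChevUni H22.St H22.TwChev H22.TwSt H22.RCPack H22.TwTab H22.TwX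
open H22.TwDat H22.TwAut H22.ChevTorus H22.TwThm H22.TwD4 H7.D4Mod H7.ChevTor
open Cfsg.Lie (ChevalleyDatum)
open scoped MatrixGroups Matrix

local notation "D4" => Cfsg.Lie.chevD4
local notation "X4" => H22.PoinD4.rcxD4
local notation "G2X" => H22.PoinG2.rcxG2
local notation "Z4" => H22.ChevLex.lexD4
local notation "W4" => certD4'
local notation "C2" => comb G2X

section fin

variable {K : Type*} [Field K] [Fintype K] {q : ℕ} (hq : IsPrimePow q) (hK : Fintype.card K = q ^ 3)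

include hq hK in
theorem setup : ∃ (φ : K →+* K) (hφ : Function.Surjective φ), (∀ t, φ t = t ^ q) ∧ (∀ t, φ (φ (φ t)) = t) ∧
    (SS φ hφ).Γ = Cfsg.Lie.twistedD4 K q ∧
    (SS φ hφ).H.relIndex (Cfsg.Lie.twistedD4 K q) =
      q ^ 12 * ((1 + q ^ 3) * (1 + q + q ^ 4 + q ^ 5 + q ^ 8 + q ^ 9)) ∧
    ∀ x ∈ (SS φ hφ).H, ∀ y ∈ (SS φ hφ).H, x * y = y * x := by
  have hK' : Nat.card K = q ^ 3 := by rw [Nat.card_eq_fintype_card]; exact hK
  have hq1 : 1 < q := hq.one_lt
  obtain ⟨φ, hφ, hφq⟩ := exists_frob hq (by norm_num : (3 : ℕ) ≠ 0) hK'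
  have h3 : ∀ t : K, φ (φ (φ t)) = t := by
    intro t
    rw [hφq, hφq, hφq, ← pow_mul, ← pow_mul]
    have := FiniteField.pow_card t
    rwa [hK, show q ^ 3 = q * (q * q) by ring] at this
  have hG := Γ_eq (RR K) (hmul_all _ memD4) φ hφ h3 hφq
  obtain ⟨h1, h2⟩ := card_all (RR K) (hmul_all _ memD4) φ hφ h3 hq1 hK' hφq hG
  refine ⟨φ, hφ, hφq, h3, hG, ?_, ?_⟩
  · have hle : (SS φ hφ).H ≤ Cfsg.Lie.twistedD4 K q := by
      rw [← hG]
      exact (SS φ hφ).H_le_N.trans (SS φ hφ).N_le_Γ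
    have h5 := H7.A8Loc.card_mul_relIndex' hle
    have hpos : 0 < Nat.card (SS φ hφ).H := Nat.card_pos
    have h2' : Nat.card (SS φ hφ).H = (q ^ 3 - 1) * (q - 1) := h2
    apply Nat.eq_of_mul_eq_mul_left hpos
    rw [h5, h1, h2']; ring
  · intro x hx y hy
    obtain ⟨c, _, rfl⟩ := theta_H φ hφ h3 hx
    obtain ⟨d, _, rfl⟩ := theta_H φ hφ h3 hy
    rw [← map_mul, ← map_mul, ← map_mul, ← map_mul, mul_comm]

include hq hK in
theorem no8 (h2 : (2 : K) ≠ 0) (h3 : (3 : K) ≠ 0) (hq3 : q % 3 = 1) {H : Type*} [Group H] {r : ℕ}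
    (hr : 8 ≤ r) (ι : H →* Cfsg.Lie.twistedD4 K q) (hι : Function.Injective ι) (φ : H →* alternatingGroup (Fin r))
    (hφ : Function.Surjective φ) : False := by
  obtain ⟨f, hf, hfq, hf3, hG, hidx, hab⟩ := setup hq hK
  refine H7.A8LocB.sys_no_alt (SS f hf) ((comb G2X).w_mem H7.G2Alt.L3) H7.G2Alt.w3_cube H7.G2Alt.w3_ne
    (Cfsg.Lie.twistedD4 K q) hG hab H7.G2Alt.exp6 ?_ ?_ (h4 f hf hf3 hfq hq3 h2 h3) hr ι hι φ hφ
  · rw [hidx, Nat.dvd_iff_mod_eq_zero]
    have h9 : q % 9 = 1 ∨ q % 9 = 4 ∨ q % 9 = 7 := by omega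
    rcases h9 with h | h | h <;> simp [Nat.mul_mod, Nat.pow_mod, Nat.add_mod, h]
  · intro y hy hw L hL hLp hLy
    exact card_le f hf hf3 hfq hq3 hy hw L hL hLp hLy

include hq hK in
theorem no7 (hq5 : q % 5 = 1) {H : Type*} [Group H] {r : ℕ}
    (hr : 7 ≤ r) (ι : H →* Cfsg.Lie.twistedD4 K q) (hι : Function.Injective ι) (φ : H →* alternatingGroup (Fin r))
    (hφ : Function.Surjective φ) : False := by
  haveI : Fact (Nat.Prime 5) := ⟨by norm_num⟩
  obtain ⟨σ, τ, hσ, hc⟩ := H7.AltElt.five hr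
  obtain ⟨f, hf, hfq, hf3, hG, hidx, hab⟩ := setup hq hK
  have := H7.TorSect.sys_sect (SS f hf) (Cfsg.Lie.twistedD4 K q) hG hab H7.G2Alt.exp6 (p := 5) (by
    rw [hidx, Nat.dvd_iff_mod_eq_zero]
    simp [Nat.mul_mod, Nat.pow_mod, Nat.add_mod, hq5]) ι hι φ hφ hσ hc (by norm_num)
  revert this; decide

end fin

/-- extension of the field -/
theorem emb {K L : Type*} [Field K] [Fintype K] [Field L] (f : K →+* L) {q : ℕ} (hK : Fintype.card K = q ^ 3) :
    ∃ ι : Cfsg.Lie.twistedD4 K q →* Cfsg.Lie.twistedD4 L (q ^ 4), Function.Injective ι := by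
  have hpow : ∀ t : K, t ^ q ^ 4 = t ^ q := by
    intro t
    have h := FiniteField.pow_card t
    rw [hK] at h
    rw [show q ^ 4 = q ^ 3 * q by ring, pow_mul, h]
  have hpow2 : ∀ t : K, t ^ (q ^ 4) ^ 2 = t ^ q ^ 2 := by
    intro t
    rw [pow_two (q ^ 4), pow_mul, hpow, hpow, ← pow_mul, ← pow_two]
  have hle : Cfsg.Lie.twistedD4 K q ≤ (Cfsg.Lie.twistedD4 L (q ^ 4)).comap (Matrix.GeneralLinearGroup.map f) := by
    unfold Cfsg.Lie.twistedD4 ChevalleyDatum.genSubgroup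
    rw [Subgroup.closure_le]
    rintro g ⟨w, hw, hg⟩
    rw [SetLike.mem_coe, Subgroup.mem_comap]
    apply Subgroup.subset_closure
    refine ⟨w.map fun p => (p.1, f p.2), ?_, ?_⟩
    · rcases hw with ⟨t, ht, r, hr, rfl⟩ | ⟨t, rs, hrs, rfl⟩
      · refine Or.inl ⟨f t, ?_, r, hr, rfl⟩
        rw [← map_pow, hpow, ht]
      · refine Or.inr ⟨f t, rs, hrs, ?_⟩
        rw [← map_pow, ← map_pow, hpow, hpow2]
        rfl
    · show ((g : Matrix (D4).Idx (D4).Idx K)).map f = _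
      rw [hg]
      unfold ChevalleyDatum.wordMat
      clear hw hg
      induction w with
      | nil =>
        simp only [List.map_nil, List.prod_nil]
        exact Matrix.map_one f (map_zero f) (map_one f)
      | cons p w ih =>
        simp only [List.map_cons, List.prod_cons]
        rw [Matrix.map_mul, H22.ChevField.x_map, ih]
  refine ⟨((Matrix.GeneralLinearGroup.map f).comp (Cfsg.Lie.twistedD4 K q).subtype).codRestrict _ (fun x => hle x.2), ?_⟩
  intro x y e
  apply Subtype.ext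
  apply Units.ext
  have h1 : ((x : GL (D4).Idx K) : Matrix (D4).Idx (D4).Idx K).map f = ((y : GL (D4).Idx K) : Matrix (D4).Idx (D4).Idx K).map f :=
    congrArg (fun g : Cfsg.Lie.twistedD4 L (q ^ 4) => ((g : GL (D4).Idx L) : Matrix (D4).Idx (D4).Idx L)) e
  ext i j
  exact f.injective (congrFun (congrFun h1 i) j)

theorem main {K : Type*} [Field K] [Fintype K] (p a : ℕ) [Fact p.Prime] [CharP K p]
    (ha : 1 ≤ a) (hK : Fintype.card K = (p ^ a) ^ 3) (r : ℕ) (H : Subgroup ↥(Cfsg.Lie.twistedD4 K (p ^ a)))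
    (N : Subgroup ↥H) [N.Normal] (h : Nonempty (↥H ⧸ N ≃* ↥(alternatingGroup (Fin r)))) :
    r ≤ 6 + (if p = 5 then 1 else 0) := by
  obtain ⟨f⟩ := h
  have hp : p.Prime := Fact.out
  have hs : Function.Surjective (f.toMonoidHom.comp (QuotientGroup.mk' N)) :=
    f.surjective.comp (QuotientGroup.mk'_surjective N)
  haveI : NeZero 4 := ⟨by norm_num⟩
  let F' := FiniteField.Extension K p 4
  haveI : Fintype F' := Fintype.ofFinite _
  haveI : CharP F' p := charP_of_injective_algebraMap (algebraMap K F').injective p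
  obtain ⟨ι, hι⟩ := emb (algebraMap K F') hK
  have hc : Fintype.card F' = ((p ^ a) ^ 4) ^ 3 := by
    rw [← Nat.card_eq_fintype_card, FiniteField.natCard_extension, Nat.card_eq_fintype_card, hK]
    ring
  have hq : IsPrimePow ((p ^ a) ^ 4) := by
    rw [← pow_mul]
    exact hp.isPrimePow.pow (by omega)
  by_contra hcon
  by_cases hp5 : p = 5
  · subst hp5
    rw [if_pos rfl] at hcon
    refine no8 hq hc ?_ ?_ ?_ (r := r) (by omega) (ι.comp H.subtype) (hι.comp Subtype.coe_injective) _ hs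
    · intro h2
      have h3 : ((2 : ℕ) : F') = 0 := by exact_mod_cast h2
      rw [CharP.cast_eq_zero_iff F' 5] at h3
      omega
    · intro h2
      have h3 : ((3 : ℕ) : F') = 0 := by exact_mod_cast h2
      rw [CharP.cast_eq_zero_iff F' 5] at h3
      omega
    · have h5 : 5 ^ a % 3 = 1 ∨ 5 ^ a % 3 = 2 := by
        have : ∀ k : ℕ, 5 ^ k % 3 = 1 ∨ 5 ^ k % 3 = 2 := by
          intro k
          induction k with
          | zero => left; norm_num
          | succ k ih => rw [pow_succ]; omega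
        exact this _
      rcases h5 with h | h <;> simp [Nat.pow_mod, h]
  · rw [if_neg hp5] at hcon
    refine no7 hq hc ?_ (r := r) (by omega) (ι.comp H.subtype) (hι.comp Subtype.coe_injective) _ hs
    have h5 : ¬ 5 ∣ p ^ a := by
      intro h
      have := Nat.Prime.dvd_of_dvd_pow (by norm_num : Nat.Prime 5) h
      exact hp5 ((Nat.prime_dvd_prime_iff_eq (by norm_num) hp).1 this).symm
    have h6 : (p ^ a) % 5 = 1 ∨ (p ^ a) % 5 = 2 ∨ (p ^ a) % 5 = 3 ∨ (p ^ a) % 5 = 4 := by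
      omega
    rcases h6 with h | h | h | h <;> simp [Nat.pow_mod, h]

end H7.D4Tw
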