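import Cfsg.Agent.Lib.H7.D4Mod2

/-!
A determinant computation in dimension 8.
-/

set_option autoImplicit false
set_option linter.unusedVariables false
set_option linter.unusedSectionVars false
set_option linter.style.haveILetI false
set_option linter.unusedSimpArgs false

namespace H7.D4Mod

open scoped Matrix

section det

variable {F : Type*} [Field F]

/-- splitting of the index set -/
def ff : (Fin 3 ⊕ Fin 3) ⊕ Fin 2 → Fin 8 :=
  Sum.elim (Sum.elim ![0, 5, 6] ![4, 1, 2]) ![3, 7]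

theorem ff_bij : Function.Bijective ff := by
  constructor
  · decide
  · decide

/-- the eigenvalues -/
def zz (a : Fˣ) : Fin 8 → F := ![a, (a⁻¹ : Fˣ), (a⁻¹ : Fˣ), 1, (a⁻¹ : Fˣ), a, a, 1]

theorem JZ_ff : JZ.submatrix ff ff = Matrix.fromBlocks (Matrix.fromBlocks 0 1 1 0) 0 0 !![0, 1; 1, 0] := by
  decide +kernel

theorem final (h2 : (2 : F) ≠ 0) {a : Fˣ} (ha : a ≠ 1) (ha3 : a ^ 3 = 1) {G : Matrix (Fin 8) (Fin 8) F}
    (hdet : G.det = 1) (hform : G.transpose * J F * G = J F)
    (hcomm : G * Matrix.diagonal (zz a) = Matrix.diagonal (zz a) * G) (h33 : G 3 3 = 0) (h77 : G 7 7 = 0) : False := by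
  have ha2 : (a : F) ≠ (a⁻¹ : Fˣ) := by
    intro h
    have h1 : a = a⁻¹ := Units.ext h
    apply ha
    have h2 : a * a = 1 := by
      nth_rewrite 1 [h1]; simp
    calc a = a ^ 3 * (a * a)⁻¹ := by group
      _ = 1 := by rw [ha3, h2]; simp
  have ha1 : (a : F) ≠ 1 := fun h => ha (Units.ext h)
  have hai : ((a⁻¹ : Fˣ) : F) ≠ 1 := fun h => ha (by
    have : a⁻¹ = 1 := Units.ext h
    rwa [inv_eq_one] at this)
  have hz : ∀ i j, zz a i ≠ zz a j → G i j = 0 := by
    intro i j hij
    have h := congrFun (congrFun hcomm i) j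
    rw [Matrix.mul_diagonal, Matrix.diagonal_mul] at h
    have h5 : G i j * (zz a j - zz a i) = 0 := by linear_combination h
    rcases mul_eq_zero.1 h5 with h6 | h6
    · exact h6
    · exact absurd (sub_eq_zero.1 h6).symm hij
  obtain ⟨B, hB⟩ : ∃ B : Matrix (Fin 3) (Fin 3) F, B = G.submatrix ![0, 5, 6] ![0, 5, 6] := ⟨_, rfl⟩
  obtain ⟨C, hC⟩ : ∃ C : Matrix (Fin 3) (Fin 3) F, C = G.submatrix ![4, 1, 2] ![4, 1, 2] := ⟨_, rfl⟩
  obtain ⟨A, hA⟩ : ∃ A : Matrix (Fin 2) (Fin 2) F, A = G.submatrix ![3, 7] ![3, 7] := ⟨_, rfl⟩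
  have z1 : ∀ k : Fin 3, zz a (![0, 5, 6] k) = a := by intro k; fin_cases k <;> rfl
  have z2 : ∀ k : Fin 3, zz a (![4, 1, 2] k) = (a⁻¹ : Fˣ) := by intro k; fin_cases k <;> rfl
  have z3 : ∀ k : Fin 2, zz a (![3, 7] k) = 1 := by intro k; fin_cases k <;> rfl
  have hM : G.submatrix ff ff = Matrix.fromBlocks (Matrix.fromBlocks B 0 0 C) 0 0 A := by
    ext i j
    rcases i with (i | i) | i <;> rcases j with (j | j) | j
    · rw [hB]; rfl
    · show G (![0, 5, 6] i) (![4, 1, 2] j) = 0
      apply hz; rw [z1, z2]; exact ha2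
    · show G (![0, 5, 6] i) (![3, 7] j) = 0
      apply hz; rw [z1, z3]; exact ha1
    · show G (![4, 1, 2] i) (![0, 5, 6] j) = 0
      apply hz; rw [z1, z2]; exact ha2.symm
    · rw [hC]; rfl
    · show G (![4, 1, 2] i) (![3, 7] j) = 0
      apply hz; rw [z2, z3]; exact hai
    · show G (![3, 7] i) (![0, 5, 6] j) = 0
      apply hz; rw [z1, z3]; exact ha1.symm
    · show G (![3, 7] i) (![4, 1, 2] j) = 0
      apply hz; rw [z2, z3]; exact hai.symm
    · rw [hA]; rfl
  have hJ : (J F).submatrix ff ff = Matrix.fromBlocks (Matrix.fromBlocks 0 1 1 0) 0 0 !![0, 1; 1, 0] := by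
    have h := congrArg (fun M : Matrix ((Fin 3 ⊕ Fin 3) ⊕ Fin 2) ((Fin 3 ⊕ Fin 3) ⊕ Fin 2) ℤ => M.map (Int.cast : ℤ → F)) JZ_ff
    have h' : (J F).submatrix ff ff = (JZ.submatrix ff ff).map (Int.cast : ℤ → F) := rfl
    rw [h']
    refine h.trans ?_
    ext i j
    rcases i with (i | i) | i <;> rcases j with (j | j) | j
    · simp
    · simp [Matrix.one_apply]
    · simp
    · simp [Matrix.one_apply]
    · simp
    · simp
    · simp
    · simp
    · fin_cases i <;> fin_cases j <;> simp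
  let e8 := Equiv.ofBijective ff ff_bij
  have hdet' : (G.submatrix ff ff).det = 1 := by
    rw [← hdet]; exact Matrix.det_submatrix_equiv_self e8 G
  have hform' : (G.submatrix ff ff).transpose * (J F).submatrix ff ff * G.submatrix ff ff = (J F).submatrix ff ff := by
    have h := congrArg (fun M : Matrix (Fin 8) (Fin 8) F => M.submatrix ff ff) hform
    have e1 : (G.transpose * J F * G).submatrix ff ff = (G.transpose * J F).submatrix ff ff * G.submatrix ff ff :=
      (Matrix.submatrix_mul_equiv _ _ _ e8 _).symm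
    have e2 : (G.transpose * J F).submatrix ff ff = G.transpose.submatrix ff ff * (J F).submatrix ff ff :=
      (Matrix.submatrix_mul_equiv _ _ _ e8 _).symm
    simp only [e1, e2] at h
    rw [Matrix.transpose_submatrix]
    exact h
  rw [hM, hJ, Matrix.fromBlocks_transpose, Matrix.fromBlocks_multiply, Matrix.fromBlocks_multiply, Matrix.fromBlocks_inj] at hform'
  obtain ⟨k1, _, _, k4⟩ := hform'
  rw [Matrix.fromBlocks_transpose] at k1
  simp only [Matrix.transpose_zero, Matrix.mul_zero, Matrix.zero_mul, add_zero, zero_add,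
    Matrix.fromBlocks_multiply, Matrix.mul_one, Matrix.one_mul] at k1 k4
  rw [Matrix.fromBlocks_inj] at k1
  obtain ⟨_, k2, _, _⟩ := k1
  rw [hM, Matrix.det_fromBlocks_zero₂₁, Matrix.det_fromBlocks_zero₂₁] at hdet'
  have hBC : B.det * C.det = 1 := by
    have := congrArg Matrix.det k2
    rwa [Matrix.det_mul, Matrix.det_transpose, Matrix.det_one] at this
  rw [hBC, one_mul, Matrix.det_fin_two] at hdet'
  have a00 : A 0 0 = 0 := by rw [hA]; exact h33
  have a11 : A 1 1 = 0 := by rw [hA]; exact h77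
  have k5 := congrFun (congrFun k4 0) 1
  simp [Matrix.mul_apply, Fin.sum_univ_two, Matrix.transpose_apply, a00, a11] at k5
  rw [a00, zero_mul, zero_sub] at hdet'
  apply h2
  linear_combination -hdet' - k5

end det

end H7.D4Mod
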