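import Cfsg.Agent.Lib.H7.D4Det

/-!
The final matrix contradiction in dimension 8.
-/

set_option autoImplicit false
set_option linter.unusedVariables false
set_option linter.unusedSectionVars false
set_option linter.style.haveILetI false
set_option linter.unusedSimpArgs false

namespace H7.D4Mod

open scoped Matrix

/-- the shape of the permutations -/
def W3 (w : Fin 8 → Fin 8) : Prop := w 3 = 3 ∧ w 7 = 7 ∧ (∀ j, w j = 3 → j = 3) ∧ (∀ j, w j = 7 → j = 7) ∧
  ∀ k, k ≠ 3 → k ≠ 7 → w k ≠ k ∧ w (w k) ≠ k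

section mat

variable {F : Type*} [Field F]

theorem trace_pat {M : Matrix (Fin 8) (Fin 8) F} {w : Fin 8 → Fin 8} (h : Pat F M w)
    (hw : ∀ k, k ≠ 3 → k ≠ 7 → w k ≠ k) : M.trace = M 3 3 + M 7 7 := by
  unfold Matrix.trace
  have e : ∀ k : Fin 8, k ≠ 3 → k ≠ 7 → M.diag k = 0 := by
    intro k h1 h2
    exact h k k (hw k h1 h2).symm
  rw [Finset.sum_eq_add (3 : Fin 8) 7 (by decide)]
  · rfl
  · intro k _ hk
    exact e k hk.1 hk.2
  · intro h; exact absurd (Finset.mem_univ _) h
  · intro h; exact absurd (Finset.mem_univ _) h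

theorem mul_pp {M N : Matrix (Fin 8) (Fin 8) F} {w : Fin 8 → Fin 8} (p : Fin 8) (h : Pat F N w) (hw : w p = p) :
    ∀ i, (M * N) i p = M i p * N p p := by
  intro i
  rw [Matrix.mul_apply, Finset.sum_eq_single p]
  · intro k _ hk
    rw [h k p (by rw [hw]; exact hk), mul_zero]
  · intro h; exact absurd (Finset.mem_univ _) h

theorem pp_mul {M N : Matrix (Fin 8) (Fin 8) F} {w : Fin 8 → Fin 8} (p : Fin 8) (h : Pat F M w)
    (hw : ∀ j, w j = p → j = p) : ∀ j, (M * N) p j = M p p * N p j := by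
  intro j
  rw [Matrix.mul_apply, Finset.sum_eq_single p]
  · intro k _ hk
    rw [h p k (fun e => hk (hw k e.symm)), zero_mul]
  · intro h; exact absurd (Finset.mem_univ _) h

theorem trace_zz {a : Fˣ} (ha : a ≠ 1) (ha3 : a ^ 3 = 1) : (Matrix.diagonal (zz a)).trace = -1 := by
  have h1 : (a : F) ^ 2 + a + 1 = 0 := by
    have e : ((a : F) - 1) * ((a : F) ^ 2 + a + 1) = 0 := by
      have : (a : F) ^ 3 = 1 := by rw [← Units.val_pow_eq_pow_val, ha3, Units.val_one]
      linear_combination this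
    rcases mul_eq_zero.1 e with h | h
    · exfalso; apply ha; apply Units.ext; rw [Units.val_one]; exact sub_eq_zero.1 h
    · exact h
  have h2 : ((a⁻¹ : Fˣ) : F) = (a : F) ^ 2 := by
    have : a⁻¹ = a ^ 2 := by
      rw [inv_eq_iff_mul_eq_one, ← pow_succ', ha3]
    rw [this, Units.val_pow_eq_pow_val]
  rw [Matrix.trace_diagonal, Fin.sum_univ_eight]
  show (a : F) + (a⁻¹ : Fˣ) + (a⁻¹ : Fˣ) + 1 + (a⁻¹ : Fˣ) + a + a + 1 = -1
  rw [h2]
  linear_combination 3 * h1

theorem J_entry (M : Matrix (Fin 8) (Fin 8) F) (p q : Fin 8) : (M.transpose * J F * M) p q =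
    ∑ k : Fin 8, M k p * M (pJ k) q := by
  rw [Matrix.mul_assoc, Matrix.mul_apply]
  refine Finset.sum_congr rfl fun k _ => ?_
  rw [Matrix.transpose_apply]
  congr 1
  rw [Matrix.mul_apply, Finset.sum_eq_single (pJ k)]
  · have : (J F) k (pJ k) = 1 := by
      unfold J
      rw [Matrix.map_apply]
      have h : ∀ k : Fin 8, JZ k (pJ k) = 1 := by decide
      rw [h]; simp
    rw [this, one_mul]
  · intro b _ hb
    have : (J F) k b = 0 := by
      unfold J
      rw [Matrix.map_apply]
      have h6 : ∀ k : Fin 8, ((pJ k : Fin 8) : ℕ) = ((k : ℕ) + 4) % 8 := by decide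
      have h : JZ k b = 0 := by
        unfold JZ
        rw [Matrix.of_apply, if_neg]
        intro h; exact hb (Fin.ext (by rw [h, h6]))
      rw [h]; simp
    rw [this, zero_mul]
  · intro h; exact absurd (Finset.mem_univ _) h

theorem contra (h2 : (2 : F) ≠ 0) (h3 : (3 : F) ≠ 0) {a : Fˣ} (ha : a ≠ 1) (ha3 : a ^ 3 = 1)
    {Y G : Matrix (Fin 8) (Fin 8) F} {w : Fin 8 → Fin 8} (hw : W3 w) (hY : Pat F Y w)
    (hYf : Y.transpose * J F * Y = J F) {ε : F} (hε : ε = 1 ∨ ε = -1) (hY3 : Y * Y * Y = ε • 1)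
    (hdet : G.det = 1) (hGf : G.transpose * J F * G = J F)
    {ε1 : F} (h1 : G * Matrix.diagonal (zz a) = ε1 • (Matrix.diagonal (zz a) * G))
    (htr1 : (Matrix.diagonal (zz a)).trace = ε1 * (Matrix.diagonal (zz a)).trace)
    {ε2 : F} (hε2 : ε2 = 1 ∨ ε2 = -1) (hYGY : Y * G * Y = ε2 • G) {i j : ℕ} (hj : j = 1 ∨ j = 2)
    {ε3 : F} (hε3 : ε3 = 1 ∨ ε3 = -1)
    (htr : (Matrix.diagonal (zz a)).trace = ε3 * (Matrix.diagonal (zz a) ^ i * Y ^ j).trace) : False := by
  obtain ⟨w3, w7, wi3, wi7, wf⟩ := hw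
  have hε1 : ε1 = 1 := by
    rw [trace_zz ha ha3] at htr1
    linear_combination htr1
  rw [hε1, one_smul] at h1
  -- the entries of `Y`
  have hee : Y 3 3 * Y 7 7 = 1 := by
    have h := congrFun (congrFun hYf 3) 7
    rw [J_entry, Finset.sum_eq_single 3] at h
    · have e : pJ 3 = 7 := rfl
      rw [e] at h
      rw [h]
      unfold J; rw [Matrix.map_apply]
      have : JZ 3 7 = 1 := by decide
      rw [this]; simp
    · intro k _ hk
      rw [hY k 3 (by rw [w3]; exact hk), zero_mul]
    · intro h; exact absurd (Finset.mem_univ _) h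
  have he3 : Y 3 3 ^ 3 = ε := by
    have h := congrFun (congrFun hY3 3) 3
    rw [mul_pp 3 hY w3, mul_pp 3 hY w3, Matrix.smul_apply, Matrix.one_apply_eq, smul_eq_mul, mul_one] at h
    rw [← h]; ring
  obtain ⟨e, he⟩ : ∃ e, e = Y 3 3 := ⟨_, rfl⟩
  obtain ⟨e', he'⟩ : ∃ e', e' = Y 7 7 := ⟨_, rfl⟩
  rw [← he, ← he'] at hee
  rw [← he] at he3
  have hZ33 : ∀ i : ℕ, (Matrix.diagonal (zz a) ^ i) 3 3 = 1 ∧ (Matrix.diagonal (zz a) ^ i) 7 7 = 1 := by
    intro i
    rw [Matrix.diagonal_pow]
    constructor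
    · rw [Matrix.diagonal_apply_eq]
      show (zz a 3) ^ i = 1
      have : zz a 3 = 1 := rfl
      rw [this, one_pow]
    · rw [Matrix.diagonal_apply_eq]
      show (zz a 7) ^ i = 1
      have : zz a 7 = 1 := rfl
      rw [this, one_pow]
  have hZp : ∀ i : ℕ, Pat F (Matrix.diagonal (zz a) ^ i) (fun j => j) := by
    intro i; rw [Matrix.diagonal_pow]; exact Pat.diag _
  rw [trace_zz ha ha3] at htr
  have he2 : e ^ 2 ≠ 1 := by
    intro hc
    have hee' : e' = e := by
      calc e' = e ^ 2 * e' := by rw [hc, one_mul]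
        _ = e * (e * e') := by ring
        _ = e := by rw [hee, mul_one]
    have hsq : ε3 ^ 2 = 1 := by rcases hε3 with h | h <;> rw [h] <;> norm_num
    apply h3
    rcases hj with rfl | rfl
    · rw [pow_one, trace_pat ((hZp i).mul hY) (fun k h h' => (wf k h h').1), mul_pp 3 hY w3, mul_pp 7 hY w7,
        (hZ33 i).1, (hZ33 i).2, one_mul, one_mul, ← he, ← he', hee'] at htr
      have h5 : (1 : F) = 4 := by
        calc (1 : F) = (-1) * (-1) := by ring
          _ = (ε3 * (e + e)) * (ε3 * (e + e)) := by rw [← htr]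
          _ = ε3 ^ 2 * (4 * e ^ 2) := by ring
          _ = 4 := by rw [hsq, hc]; ring
      linear_combination -h5
    · have hYY : Pat F (Y ^ 2) (fun j => w (w j)) := by rw [pow_two]; exact hY.mul hY
      have q3 : (Y ^ 2) 3 3 = e ^ 2 := by rw [pow_two, mul_pp 3 hY w3, ← he, pow_two]
      have q7 : (Y ^ 2) 7 7 = e' ^ 2 := by rw [pow_two, mul_pp 7 hY w7, ← he', pow_two]
      rw [trace_pat ((hZp i).mul hYY) (fun k h h' => (wf k h h').2), mul_pp 3 hYY (by rw [w3, w3]), mul_pp 7 hYY (by rw [w7, w7]),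
        (hZ33 i).1, (hZ33 i).2, one_mul, one_mul, q3, q7, hee', hc] at htr
      have h5 : (1 : F) = 4 := by
        calc (1 : F) = (-1) * (-1) := by ring
          _ = (ε3 * (1 + 1)) * (ε3 * (1 + 1)) := by rw [← htr]
          _ = ε3 ^ 2 * 4 := by ring
          _ = 4 := by rw [hsq]; ring
      linear_combination -h5
  have he2' : e' ^ 2 ≠ 1 := by
    intro hc
    apply he2
    calc e ^ 2 = e ^ 2 * e' ^ 2 := by rw [hc, mul_one]
      _ = (e * e') ^ 2 := by ring
      _ = 1 := by rw [hee, one_pow]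
  have g33 : e * G 3 3 * e = ε2 * G 3 3 := by
    have h := congrFun (congrFun hYGY 3) 3
    rw [mul_pp 3 hY w3, pp_mul 3 hY wi3, Matrix.smul_apply, smul_eq_mul, ← he] at h
    exact h
  have g77 : e' * G 7 7 * e' = ε2 * G 7 7 := by
    have h := congrFun (congrFun hYGY 7) 7
    rw [mul_pp 7 hY w7, pp_mul 7 hY wi7, Matrix.smul_apply, smul_eq_mul, ← he'] at h
    exact h
  have g37 : e * G 3 7 * e' = ε2 * G 3 7 := by
    have h := congrFun (congrFun hYGY 3) 7
    rw [mul_pp 7 hY w7, pp_mul 3 hY wi3, Matrix.smul_apply, smul_eq_mul, ← he, ← he'] at h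
    exact h
  rcases hε2 with h5 | h5
  · rw [h5, one_mul] at g33 g77
    refine final h2 ha ha3 hdet hGf h1 ?_ ?_
    · have : (e ^ 2 - 1) * G 3 3 = 0 := by linear_combination g33
      rcases mul_eq_zero.1 this with h | h
      · exact absurd (sub_eq_zero.1 h) he2
      · exact h
    · have : (e' ^ 2 - 1) * G 7 7 = 0 := by linear_combination g77
      rcases mul_eq_zero.1 this with h | h
      · exact absurd (sub_eq_zero.1 h) he2'
      · exact h
  · rw [h5] at g33 g37
    have k37 : G 3 7 = 0 := by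
      have : 2 * G 3 7 = 0 := by
        have h6 : e * G 3 7 * e' = G 3 7 := by
          calc e * G 3 7 * e' = (e * e') * G 3 7 := by ring
            _ = G 3 7 := by rw [hee, one_mul]
        rw [h6] at g37
        linear_combination g37
      rcases mul_eq_zero.1 this with h | h
      · exact absurd h h2
      · exact h
    have k33 : G 3 3 = 0 := by
      have : (e ^ 2 + 1) * G 3 3 = 0 := by linear_combination g33
      rcases mul_eq_zero.1 this with h | h
      · exfalso
        have h6 : e ^ 2 = -1 := eq_neg_of_add_eq_zero_left h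
        have h7 : ε ^ 2 = 1 := by rcases hε with h | h <;> rw [h] <;> norm_num
        apply h2
        have h8 : (e ^ 3) ^ 2 = (e ^ 2) ^ 3 := by ring
        rw [he3, h7, h6] at h8
        linear_combination h8
      · exact h
    have hrow : ∀ j, G 3 j = 0 := by
      have ha1 : (a : F) ≠ 1 := fun h => ha (Units.ext h)
      have hai : ((a⁻¹ : Fˣ) : F) ≠ 1 := fun h => ha (by
        have : a⁻¹ = 1 := Units.ext h
        rwa [inv_eq_one] at this)
      have hz : ∀ j, zz a j ≠ 1 → G 3 j = 0 := by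
        intro j hij
        have h := congrFun (congrFun h1 3) j
        rw [Matrix.mul_diagonal, Matrix.diagonal_mul] at h
        have e3 : zz a 3 = 1 := rfl
        rw [e3, one_mul] at h
        have h5 : G 3 j * (zz a j - 1) = 0 := by linear_combination h
        rcases mul_eq_zero.1 h5 with h6 | h6
        · exact h6
        · exact absurd (sub_eq_zero.1 h6) hij
      intro j
      fin_cases j
      · exact hz 0 ha1
      · exact hz 1 hai
      · exact hz 2 hai
      · exact k33
      · exact hz 4 hai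
      · exact hz 5 ha1
      · exact hz 6 ha1
      · exact k37
    rw [Matrix.det_eq_zero_of_row_eq_zero 3 hrow] at hdet
    exact zero_ne_one hdet

end mat

end H7.D4Mod
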