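import Cfsg.Agent.Lib.H22.TwD4b
import Cfsg.Agent.Lib.H22.StThm
import Cfsg.Agent.Lib.H23.MinuD4

/-!
The 8-dimensional module of the Steinberg group of type D₄: form, determinant, torus, monomial elements.
-/

set_option autoImplicit false
set_option linter.unusedVariables false
set_option linter.unusedSectionVars false
set_option linter.style.haveILetI false
set_option linter.unusedSimpArgs false

namespace H7.D4Mod

open H22.RGD H22.Coord H22.RCCheck H22.RCComb H22.ChevTri H22.ChevRel H22.ChevSys H22.ChevMain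
open H22.ChevStd H22.ChevTorus H22.ChevTorusCard H22.St H23.Minu H23.ChevExc
open Cfsg.Lie (ChevalleyDatum)
open scoped MatrixGroups Matrix

local notation "D4" => Cfsg.Lie.chevD4
local notation "X4" => H22.PoinD4.rcxD4
local notation "Z4" => H22.ChevLex.lexD4
local notation "W4" => H22.TwD4.certD4'

/-- the integral matrix of a root element -/
def AZ (r : ℕ) : Matrix (Fin 8) (Fin 8) ℤ := Matrix.of fun i j =>
  (((listD4.getD r []).filter fun a => Nat.beq a.1 i && Nat.beq a.2.1 j).map fun a => a.2.2).sum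

section field

variable (F : Type*) [Field F]

theorem e_apply {r : ℕ} (hr : r < (D4).nroots) : e minD4 F r = (AZ r).map (Int.cast : ℤ → F) := by
  ext i j
  rw [Matrix.map_apply]
  unfold e AZ
  have hE : minD4.E r = listD4.getD r [] := rfl
  rw [hE, Matrix.of_apply]
  generalize listD4.getD r [] = A
  induction A with
  | nil => simp [toM_nil]
  | cons a A ih =>
    rw [toM_cons, Matrix.add_apply]
    have h1 : (toM minD4.n F A) i j = (((A.filter fun a => Nat.beq a.1 i && Nat.beq a.2.1 j).map fun a => a.2.2).sum : ℤ) := ih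
    rw [h1, List.filter_cons]
    have h2 : (sg minD4.n F a.1 a.2.1 (a.2.2 : F)) i j = if (Nat.beq a.1 i && Nat.beq a.2.1 j) = true then ((a.2.2 : ℤ) : F) else 0 := by
      unfold sg
      by_cases h : a.1 = (i : ℕ) ∧ a.2.1 = (j : ℕ)
      · have h' : a.1 < 8 ∧ a.2.1 < 8 := ⟨h.1 ▸ i.2, h.2 ▸ j.2⟩
        have e1 : (⟨a.1, h'.1⟩ : Fin 8) = i := Fin.ext h.1
        have e2 : (⟨a.2.1, h'.2⟩ : Fin 8) = j := Fin.ext h.2
        rw [dif_pos h', e1, e2, h.1, h.2]
        simp
      · have hb : (Nat.beq a.1 i && Nat.beq a.2.1 j) = false := by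
          rw [Bool.and_eq_false_iff]
          by_contra hc
          push Not at hc
          rw [Bool.ne_false_iff, Bool.ne_false_iff, Nat.beq_eq, Nat.beq_eq] at hc
          exact h hc
        rw [hb, if_neg Bool.false_ne_true]
        split_ifs with h'
        · rw [Matrix.single_apply_of_ne]
          rintro ⟨rfl, rfl⟩
          exact h ⟨rfl, rfl⟩
        · rfl
    rw [h2]
    split_ifs <;> simp

/-- the Steinberg group -/
noncomputable def S4 : StG (H22.TwD4.RR F) ((D4).SteinbergGroup F) :=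
  stGof (H22.TwD4.RR F) (θ₀ (H22.TwD4.RR F) (X4).rc (hmul_all _ H22.TwD4.memD4)) (θ₀_gen (H22.TwD4.RR F) (X4).rc (hmul_all _ H22.TwD4.memD4))

theorem exists_rho : ∃ φ : (D4).SteinbergGroup F →* GL (Fin 8) F, ∀ r < (D4).nroots, ∀ t,
    φ ((S4 F).xb r t) = y easyD4 F r t :=
  exists_lift (stR easyD4 pairsD4 F) (fun r hr => neg_lt easyD4 hr)
    (fun r hr s hs h1 h2 => ct easyD4 pairsD4 hr hs h1 h2)

/-- the 8-dimensional representation -/
noncomputable def rho : (D4).SteinbergGroup F →* GL (Fin 8) F := Classical.choose (exists_rho F)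

theorem rho_x {r : ℕ} (hr : r < (D4).nroots) (t : F) :
    ((rho F ((S4 F).xb r t) : GL (Fin 8) F) : Matrix (Fin 8) (Fin 8) F) = 1 + t • (AZ r).map (Int.cast : ℤ → F) := by
  have h1 : rho F ((S4 F).xb r t) = y easyD4 F r t := Classical.choose_spec (exists_rho F) r hr t
  rw [h1]
  have h2 := y_val easyD4 F hr t
  rw [h2]
  congr 2
  exact e_apply F hr

/-- the form -/
def JZ : Matrix (Fin 8) (Fin 8) ℤ := Matrix.of fun i j => if (j : ℕ) = ((i : ℕ) + 4) % 8 then 1 else 0
/-- the form -/
def J : Matrix (Fin 8) (Fin 8) F := (JZ).map (Int.cast : ℤ → F)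

theorem chk_form : ∀ r < 24, (AZ r).transpose * JZ + JZ * AZ r = 0 ∧ (AZ r).transpose * JZ * AZ r = 0 := by
  decide +kernel

theorem form (s : (D4).SteinbergGroup F) :
    ((rho F s : GL (Fin 8) F) : Matrix (Fin 8) (Fin 8) F).transpose * J F * (rho F s : GL (Fin 8) F) = J F := by
  have hs : s ∈ Subgroup.closure {g | ∃ (r : ℕ) (t : F), r < (D4).nroots ∧ g = (S4 F).xb r t} := by
    rw [(S4 F).gen]; exact Subgroup.mem_top _
  induction hs using Subgroup.closure_induction with
  | mem x hx =>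
    obtain ⟨r, t, hr, rfl⟩ := hx
    rw [rho_x F hr]
    obtain ⟨h1, h2⟩ := chk_form r hr
    have hm : ∀ A B : Matrix (Fin 8) (Fin 8) ℤ, (A * B).map (Int.cast : ℤ → F) = A.map (Int.cast : ℤ → F) * B.map (Int.cast : ℤ → F) :=
      fun A B => Matrix.map_mul (f := Int.castRingHom F)
    have hz : (0 : Matrix (Fin 8) (Fin 8) ℤ).map (Int.cast : ℤ → F) = 0 := by ext; simp
    have k1 : ((AZ r).map (Int.cast : ℤ → F)).transpose * J F + J F * (AZ r).map (Int.cast : ℤ → F) = 0 := by
      have := congrArg (fun M : Matrix (Fin 8) (Fin 8) ℤ => M.map (Int.cast : ℤ → F)) h1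
      rw [Matrix.map_add _ (by intro a b; push_cast; ring), hm, hm, hz] at this
      exact this
    have k2 : ((AZ r).map (Int.cast : ℤ → F)).transpose * J F * (AZ r).map (Int.cast : ℤ → F) = 0 := by
      have := congrArg (fun M : Matrix (Fin 8) (Fin 8) ℤ => M.map (Int.cast : ℤ → F)) h2
      rw [hm, hm, hz] at this
      exact this
    rw [Matrix.transpose_add, Matrix.transpose_one, Matrix.transpose_smul]
    generalize (AZ r).map (Int.cast : ℤ → F) = A at k1 k2
    have e : (1 + t • A.transpose) * J F * (1 + t • A) = J F + t • (A.transpose * J F + J F * A) +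
        (t * t) • (A.transpose * J F * A) := by
      simp only [add_mul, mul_add, one_mul, mul_one, Matrix.smul_mul, Matrix.mul_smul, smul_smul, smul_add]
      abel
    rw [e, k1, k2, smul_zero, smul_zero, add_zero, add_zero]
  | one => rw [map_one]; simp
  | mul a b _ _ ha hb =>
    rw [map_mul, Units.val_mul, Matrix.transpose_mul]
    have e : ∀ A B M : Matrix (Fin 8) (Fin 8) F, B.transpose * A.transpose * M * (A * B) =
        B.transpose * (A.transpose * M * A) * B := by
      intro A B M; simp only [Matrix.mul_assoc]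
    rw [e, ha, hb]
  | inv a _ ha =>
    rw [map_inv]
    obtain ⟨A, hA⟩ : ∃ A : GL (Fin 8) F, A = rho F a := ⟨_, rfl⟩
    rw [← hA] at ha ⊢
    have h1 : (A : Matrix (Fin 8) (Fin 8) F) * ((A⁻¹ : GL (Fin 8) F) : Matrix (Fin 8) (Fin 8) F) = 1 := A.mul_inv
    have h2 : ((A⁻¹ : GL (Fin 8) F) : Matrix (Fin 8) (Fin 8) F).transpose * (A : Matrix (Fin 8) (Fin 8) F).transpose = 1 := by
      rw [← Matrix.transpose_mul, h1, Matrix.transpose_one]
    calc ((A⁻¹ : GL (Fin 8) F) : Matrix (Fin 8) (Fin 8) F).transpose * J F * ((A⁻¹ : GL (Fin 8) F) : Matrix (Fin 8) (Fin 8) F) =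
        ((A⁻¹ : GL (Fin 8) F) : Matrix (Fin 8) (Fin 8) F).transpose *
          ((A : Matrix (Fin 8) (Fin 8) F).transpose * J F * A) * ((A⁻¹ : GL (Fin 8) F) : Matrix (Fin 8) (Fin 8) F) := by rw [ha]
      _ = (((A⁻¹ : GL (Fin 8) F) : Matrix (Fin 8) (Fin 8) F).transpose * (A : Matrix (Fin 8) (Fin 8) F).transpose) * J F *
          ((A : Matrix (Fin 8) (Fin 8) F) * ((A⁻¹ : GL (Fin 8) F) : Matrix (Fin 8) (Fin 8) F)) := by
        simp only [Matrix.mul_assoc]
      _ = J F := by rw [h1, h2, one_mul, mul_one]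

/-- the permutation of the form -/
def pJ : Equiv.Perm (Fin 8) := ⟨![4, 5, 6, 7, 0, 1, 2, 3], ![4, 5, 6, 7, 0, 1, 2, 3], by decide, by decide⟩

theorem det_JZ : JZ.det = 1 := by
  have e1 : JZ = (1 : Matrix (Fin 8) (Fin 8) ℤ).submatrix pJ id := by decide +kernel
  rw [e1, Matrix.det_permute, Matrix.det_one, mul_one]
  decide +kernel

theorem det_rho (h2 : (2 : F) ≠ 0) (s : (D4).SteinbergGroup F) :
    ((rho F s : GL (Fin 8) F) : Matrix (Fin 8) (Fin 8) F).det = 1 := by
  have hJ : (J F).det = 1 := by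
    unfold J
    have : (JZ.map (Int.cast : ℤ → F)).det = ((JZ.det : ℤ) : F) := (Int.cast_det JZ).symm
    rw [this, det_JZ, Int.cast_one]
  have hsq : ∀ s : (D4).SteinbergGroup F, ((rho F s : GL (Fin 8) F) : Matrix (Fin 8) (Fin 8) F).det *
      ((rho F s : GL (Fin 8) F) : Matrix (Fin 8) (Fin 8) F).det = 1 := by
    intro s
    have h := congrArg Matrix.det (form F s)
    rw [Matrix.det_mul, Matrix.det_mul, Matrix.det_transpose, hJ, mul_one] at h
    exact h
  have hs : s ∈ Subgroup.closure {g | ∃ (r : ℕ) (t : F), r < (D4).nroots ∧ g = (S4 F).xb r t} := by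
    rw [(S4 F).gen]; exact Subgroup.mem_top _
  induction hs using Subgroup.closure_induction with
  | mem x hx =>
    obtain ⟨r, t, hr, rfl⟩ := hx
    have e : (S4 F).xb r t = (S4 F).xb r (t / 2) * (S4 F).xb r (t / 2) := by
      rw [(S4 F).add r hr]; congr 1; field_simp; norm_num
    rw [e, map_mul, Units.val_mul, Matrix.det_mul]
    exact hsq _
  | one => rw [map_one]; simp
  | mul a b _ _ ha hb => rw [map_mul, Units.val_mul, Matrix.det_mul, ha, hb, mul_one]
  | inv a _ ha =>
    have h1 : rho F a * (rho F a)⁻¹ = 1 := mul_inv_cancel _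
    have h3 := congrArg (fun g : GL (Fin 8) F => (g : Matrix (Fin 8) (Fin 8) F).det) h1
    simp only [Units.val_mul, Matrix.det_mul, ha, one_mul, Units.val_one, Matrix.det_one] at h3
    rw [map_inv]; exact h3

end field

end H7.D4Mod
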