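import Cfsg.Agent.Lib.H7.D4Mod

/-!
The 8-dimensional module of the Steinberg group of type D₄: torus and monomial elements, centre.
-/

set_option autoImplicit false
set_option linter.unusedVariables false
set_option linter.unusedSectionVars false
set_option linter.style.haveILetI false
set_option linter.unusedSimpArgs false

namespace H7.D4Mod

open H22.RGD H22.Coord H22.RCCheck H22.RCComb H22.ChevTri H22.ChevRel H22.ChevSys H22.ChevMain
open H22.ChevStd H22.ChevTorus H22.ChevTorusCard H22.St H23.Minu H23.ChevExc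
open Cfsg.Lie (ChevalleyDatum)
open scoped MatrixGroups Matrix

local notation "D4" => Cfsg.Lie.chevD4
local notation "X4" => H22.PoinD4.rcxD4
local notation "Z4" => H22.ChevLex.lexD4
local notation "W4" => H22.TwD4.certD4'

section field

variable (F : Type*) [Field F]

/-- cast of an integral matrix -/
def AF (r : ℕ) : Matrix (Fin 8) (Fin 8) F := (AZ r).map (Int.cast : ℤ → F)

theorem AF_eq {r : ℕ} (hr : r < (D4).nroots) : e minD4 F r = AF F r := e_apply F hr

theorem nb_val {r : ℕ} (hr : r < (D4).nroots) {t : F} (ht : t ≠ 0) :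
    ((rho F ((S4 F).nb r t) : GL (Fin 8) F) : Matrix (Fin 8) (Fin 8) F) =
      1 - (AF F r * AF F ((D4).neg r) + AF F ((D4).neg r) * AF F r) + t • AF F r - t⁻¹ • AF F ((D4).neg r) := by
  have hr' : (D4).neg r < (D4).nroots := neg_lt easyD4 hr
  have h1 := e_sq easyD4 F hr
  have h2 := e_efe easyD4 F hr
  rw [AF_eq F hr] at h1
  rw [AF_eq F hr, AF_eq F hr'] at h2
  rw [(S4 F).nb_def, map_mul, map_mul, Units.val_mul, Units.val_mul, rho_x F hr, rho_x F hr']
  change (1 + t • AF F r) * (1 + -t⁻¹ • AF F ((D4).neg r)) * (1 + t • AF F r) = _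
  generalize AF F r = a at h1 h2
  generalize AF F ((D4).neg r) = b at h2
  have e1 : (1 + t • a) * (1 + -t⁻¹ • b) * (1 + t • a) = 1 + t • a - t⁻¹ • b - (t * t⁻¹) • (a * b) + t • a + (t * t) • (a * a)
      - (t⁻¹ * t) • (b * a) - (t * t⁻¹ * t) • (a * b * a) := by
    simp only [add_mul, mul_add, one_mul, mul_one, smul_mul_smul_comm, neg_smul, mul_neg, neg_mul, smul_neg]
    abel
  rw [e1, h1, h2, mul_inv_cancel₀ ht, inv_mul_cancel₀ ht]
  simp only [one_smul, smul_zero, one_mul]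
  abel

theorem hb_val {r : ℕ} (hr : r < (D4).nroots) {t : F} (ht : t ≠ 0) :
    ((rho F ((S4 F).hb r t) : GL (Fin 8) F) : Matrix (Fin 8) (Fin 8) F) =
      1 - (AF F r * AF F ((D4).neg r) + AF F ((D4).neg r) * AF F r) + t • (AF F r * AF F ((D4).neg r)) +
        t⁻¹ • (AF F ((D4).neg r) * AF F r) := by
  have hr' : (D4).neg r < (D4).nroots := neg_lt easyD4 hr
  have h1 := e_sq easyD4 F hr
  have h2 := e_efe easyD4 F hr
  have h1' := e_sq easyD4 F hr'
  have h2' := e_efe easyD4 F hr'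
  have hnn : (D4).neg ((D4).neg r) = r := neg_neg' easyD4 hr
  rw [hnn] at h2'
  rw [AF_eq F hr] at h1
  rw [AF_eq F hr, AF_eq F hr'] at h2
  rw [AF_eq F hr'] at h1'
  rw [AF_eq F hr', AF_eq F hr] at h2'
  rw [(S4 F).hb_def, map_mul, Units.val_mul, nb_val F hr ht, nb_val F hr (neg_ne_zero.2 one_ne_zero)]
  generalize AF F r = a at h1 h2 h2'
  generalize AF F ((D4).neg r) = b at h2 h1' h2'
  have a1 : a * (a * b) = 0 := by rw [← mul_assoc, h1, zero_mul]
  have a2 : a * (b * a) = a := by rw [← mul_assoc, h2]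
  have a3 : b * (a * b) = b := by rw [← mul_assoc, h2']
  have a4 : b * (b * a) = 0 := by rw [← mul_assoc, h1', zero_mul]
  have a5 : a * b * a = a := h2
  have a6 : b * a * b = b := h2'
  have a7 : a * b * (a * b) = a * b := by rw [← mul_assoc, h2]
  have a8 : a * b * (b * a) = 0 := by rw [mul_assoc, a4, mul_zero]
  have a9 : b * a * (a * b) = 0 := by rw [mul_assoc, a1, mul_zero]
  have a10 : b * a * (b * a) = b * a := by rw [← mul_assoc, h2']
  have a11 : b * a * a = 0 := by rw [mul_assoc, h1, mul_zero]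
  have a12 : a * b * b = 0 := by rw [mul_assoc, h1', mul_zero]
  have i1 : (-1 : F)⁻¹ = -1 := by norm_num
  rw [i1]
  simp only [sub_mul, mul_sub, add_mul, mul_add, one_mul, mul_one, smul_mul_assoc, mul_smul_comm, neg_smul, one_smul, mul_neg,
    neg_mul, smul_neg, h1, h1', a1, a2, a3, a4, a5, a6, a7, a8, a9, a10, a11, a12, smul_zero, neg_zero, add_zero, zero_add,
    sub_zero, neg_neg, sub_neg_eq_add]
  abel

/-- matrices supported on a map -/
def Pat (M : Matrix (Fin 8) (Fin 8) F) (w : Fin 8 → Fin 8) : Prop := ∀ i j, i ≠ w j → M i j = 0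

variable {F}

theorem Pat.mul {M M' : Matrix (Fin 8) (Fin 8) F} {w w' : Fin 8 → Fin 8} (h : Pat F M w) (h' : Pat F M' w') :
    Pat F (M * M') (fun j => w (w' j)) := by
  intro i j hij
  rw [Matrix.mul_apply]
  refine Finset.sum_eq_zero fun k _ => ?_
  by_cases hk : k = w' j
  · rw [h i k (by rw [hk]; exact hij), zero_mul]
  · rw [h' k j hk, mul_zero]

theorem Pat.smul {M : Matrix (Fin 8) (Fin 8) F} {w : Fin 8 → Fin 8} (h : Pat F M w) (c : F) :
    Pat F (c • M) w := by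
  intro i j hij
  rw [Matrix.smul_apply, h i j hij, smul_zero]

theorem Pat.diag (d : Fin 8 → F) : Pat F (Matrix.diagonal d) (fun j => j) := by
  intro i j hij
  exact Matrix.diagonal_apply_ne _ hij

variable (F)

/-- reflections on the weights -/
def sN (i : ℕ) : Fin 8 → Fin 8 := (([![1, 0, 2, 3, 5, 4, 6, 7], ![0, 2, 1, 3, 4, 6, 5, 7],
  ![0, 1, 3, 2, 4, 5, 7, 6], ![0, 1, 7, 6, 4, 5, 3, 2]] : List (Fin 8 → Fin 8)).getD i (fun j => j))

/-- the weights -/
def wt8 (i : ℕ) : Fin 8 → ℤ := (([![1, -1, 0, 0, -1, 1, 0, 0], ![0, 1, -1, 0, 0, -1, 1, 0],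
  ![0, 0, 1, -1, 0, 0, -1, 1], ![0, 0, 1, 1, 0, 0, -1, -1]] : List (Fin 8 → ℤ)).getD i (fun j => 0))

/-- part of the reflection -/
def NZ (i : ℕ) : Matrix (Fin 8) (Fin 8) ℤ :=
  1 - (AZ ((D4).simple i) * AZ ((D4).neg ((D4).simple i)) + AZ ((D4).neg ((D4).simple i)) * AZ ((D4).simple i))

theorem chk_n : ∀ i : Fin 4, ∀ b a : Fin 8, a = sN i b ∨ (NZ i a b = 0 ∧
    AZ ((D4).simple i) a b = 0 ∧ AZ ((D4).neg ((D4).simple i)) a b = 0) := by decide +kernel

theorem chk_h : ∀ i : Fin 4,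
    AZ ((D4).simple i) * AZ ((D4).neg ((D4).simple i)) = Matrix.diagonal (fun k => if wt8 i k = 1 then 1 else 0) ∧
    AZ ((D4).neg ((D4).simple i)) * AZ ((D4).simple i) = Matrix.diagonal (fun k => if wt8 i k = -1 then 1 else 0) ∧
    ∀ k, wt8 i k = 1 ∨ wt8 i k = -1 ∨ wt8 i k = 0 := by decide +kernel

theorem cast_mul' (A B : Matrix (Fin 8) (Fin 8) ℤ) :
    (A * B).map (Int.cast : ℤ → F) = A.map (Int.cast : ℤ → F) * B.map (Int.cast : ℤ → F) :=
  Matrix.map_mul (f := Int.castRingHom F)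

theorem nb_pat (i : Fin 4) {t : F} (ht : t ≠ 0) :
    Pat F ((rho F ((S4 F).nb ((D4).simple i) t) : GL (Fin 8) F) : Matrix (Fin 8) (Fin 8) F) (sN i) := by
  have hr : (D4).simple i < (D4).nroots := (X4).rc.simple_lt i i.2
  intro a b hab
  obtain ⟨h1, h2, h3⟩ := (chk_n i b a).resolve_left hab
  rw [nb_val F hr ht]
  have e1 : (1 - (AF F ((D4).simple i) * AF F ((D4).neg ((D4).simple i)) +
      AF F ((D4).neg ((D4).simple i)) * AF F ((D4).simple i)) : Matrix (Fin 8) (Fin 8) F) =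
      (NZ i).map (Int.cast : ℤ → F) := by
    unfold AF NZ
    rw [← cast_mul', ← cast_mul']
    ext a b
    simp [Matrix.one_apply]
  rw [e1, Matrix.sub_apply, Matrix.add_apply, Matrix.map_apply, h1, Matrix.smul_apply, Matrix.smul_apply]
  unfold AF
  rw [Matrix.map_apply, Matrix.map_apply, h2, h3]
  simp

theorem hb_diag (i : Fin 4) (c : Fˣ) :
    ((rho F ((S4 F).hb ((D4).simple i) c) : GL (Fin 8) F) : Matrix (Fin 8) (Fin 8) F) =
      Matrix.diagonal (fun k => ((c ^ wt8 i k : Fˣ) : F)) := by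
  have hr : (D4).simple i < (D4).nroots := (X4).rc.simple_lt i i.2
  obtain ⟨h1, h2, h3⟩ := chk_h i
  rw [hb_val F hr c.ne_zero]
  have e1 : AF F ((D4).simple i) * AF F ((D4).neg ((D4).simple i)) =
      Matrix.diagonal (fun k => if wt8 i k = 1 then 1 else 0) := by
    unfold AF
    rw [← cast_mul', h1]
    ext a b
    rw [Matrix.map_apply, Matrix.diagonal_apply, Matrix.diagonal_apply]
    split_ifs <;> simp
  have e2 : AF F ((D4).neg ((D4).simple i)) * AF F ((D4).simple i) =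
      Matrix.diagonal (fun k => if wt8 i k = -1 then 1 else 0) := by
    unfold AF
    rw [← cast_mul', h2]
    ext a b
    rw [Matrix.map_apply, Matrix.diagonal_apply, Matrix.diagonal_apply]
    split_ifs <;> simp
  rw [e1, e2]
  ext a b
  simp only [Matrix.sub_apply, Matrix.add_apply, Matrix.smul_apply, Matrix.one_apply, Matrix.diagonal_apply]
  by_cases hab : a = b
  · subst hab
    rcases h3 a with h | h | h
    · simp [h]
    · simp [h]
    · simp [h]
  · simp [hab]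

/-- diagonal matrices -/
def dg8 : (Fin 8 → Fˣ) →* GL (Fin 8) F where
  toFun c :=
    { val := Matrix.diagonal (fun k => (c k : F))
      inv := Matrix.diagonal (fun k => ((c k)⁻¹ : Fˣ))
      val_inv := by
        rw [Matrix.diagonal_mul_diagonal, ← Matrix.diagonal_one]
        congr 1; funext x; simp
      inv_val := by
        rw [Matrix.diagonal_mul_diagonal, ← Matrix.diagonal_one]
        congr 1; funext x; simp }
  map_one' := by
    apply Units.ext
    simp
  map_mul' c d := by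
    apply Units.ext
    simp [Matrix.diagonal_mul_diagonal]

theorem dg8_val (c : Fin 8 → Fˣ) : ((dg8 F c : GL (Fin 8) F) : Matrix (Fin 8) (Fin 8) F) =
    Matrix.diagonal (fun k => (c k : F)) := rfl

/-- the weights as a homomorphism -/
def wt8Hom : (Fin (D4).rank → Fˣ) →* (Fin 8 → Fˣ) where
  toFun c := fun k => ∏ i : Fin (D4).rank, (c i) ^ wt8 i k
  map_one' := by funext k; simp
  map_mul' c d := by
    funext k
    simp only [Pi.mul_apply, mul_zpow, Finset.prod_mul_distrib]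

theorem rho_psi (c : Fin (D4).rank → Fˣ) : rho F ((S4 F).psi X4 Z4 W4 c) = dg8 F (wt8Hom F c) := by
  have h2 : c ∈ MonoidHom.eqLocus ((rho F).comp ((S4 F).psi X4 Z4 W4)) ((dg8 F).comp (wt8Hom F)) := by
    apply Subgroup.pi_mem_of_mulSingle_mem
    intro i
    show rho F ((S4 F).psi X4 Z4 W4 (Pi.mulSingle i (c i))) = dg8 F (wt8Hom F (Pi.mulSingle i (c i)))
    rw [(S4 F).psi_single]
    apply Units.ext
    rw [dg8_val]
    refine (hb_diag F i (c i)).trans ?_
    congr 1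
    funext k
    congr 1
    show _ = ∏ i' : Fin (D4).rank, (Pi.mulSingle i (c i) : Fin (D4).rank → Fˣ) i' ^ wt8 i' k
    rw [Finset.prod_eq_single i]
    · simp
    · intro b _ hb; simp [Pi.mulSingle_eq_of_ne hb]
    · intro h; exact absurd (Finset.mem_univ _) h
  exact h2

theorem wt8_val (c : Fin (D4).rank → Fˣ) (k : Fin 8) : wt8Hom F c k =
    c H22.TwD4.j0 ^ wt8 0 k * c H22.TwD4.j1 ^ wt8 1 k * c H22.TwD4.j2 ^ wt8 2 k * c H22.TwD4.j3 ^ wt8 3 k := by
  exact Fin.prod_univ_four (fun i : Fin 4 => (c i) ^ wt8 i k)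

theorem rho_ker [Finite F] {s : (D4).SteinbergGroup F} (hs : (S4 F).θ s = 1) :
    ∃ ε : F, (ε = 1 ∨ ε = -1) ∧ ((rho F s : GL (Fin 8) F) : Matrix (Fin 8) (Fin 8) F) = ε • 1 := by
  have h1 : s ∈ Subgroup.center ((D4).SteinbergGroup F) := by
    rw [← (S4 F).ker_eq_center X4 Z4 W4]; exact hs
  rw [(S4 F).center_eq X4 Z4 W4] at h1
  obtain ⟨c, hc, rfl⟩ := h1
  obtain ⟨k1, k0, k2, k3, k4⟩ := H22.TwD4.kerfacts hc
  have e0 : (c H22.TwD4.j0)⁻¹ = c H22.TwD4.j0 := inv_eq_of_mul_eq_one_left k0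
  have e2 : (c H22.TwD4.j2)⁻¹ = c H22.TwD4.j2 := inv_eq_of_mul_eq_one_left k2
  have e3 : (c H22.TwD4.j3)⁻¹ = c H22.TwD4.j3 := inv_eq_of_mul_eq_one_left k3
  have e4 : c H22.TwD4.j2 * c H22.TwD4.j3 = c H22.TwD4.j0 := by
    have : c H22.TwD4.j2 * c H22.TwD4.j3 = (c H22.TwD4.j0)⁻¹ := by
      rw [eq_inv_iff_mul_eq_one, ← k4]; 
      rw [mul_comm, mul_assoc]
    rw [this, e0]
  refine ⟨(c H22.TwD4.j0 : Fˣ), ?_, ?_⟩
  · have h : ((c H22.TwD4.j0 : Fˣ) : F) * (c H22.TwD4.j0 : Fˣ) = 1 := by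
      rw [← Units.val_mul, k0, Units.val_one]
    exact mul_self_eq_one_iff.1 h
  · rw [rho_psi, dg8_val]
    have key : ∀ k : Fin 8, wt8Hom F c k = c H22.TwD4.j0 := by
      intro k
      rw [wt8_val, k1]
      fin_cases k
      · simp [wt8]
      · simp [wt8, e0]
      · simp [wt8, e4]
      · simp [wt8, e2, e4]
      · simp [wt8, e0]
      · simp [wt8]
      · simp [wt8, e2, e3, e4]
      · simp [wt8, e3, e4]
    ext a b
    rw [Matrix.diagonal_apply, Matrix.smul_apply, Matrix.one_apply, key]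
    split_ifs <;> simp

theorem rho_eq [Finite F] {s s' : (D4).SteinbergGroup F} (hs : (S4 F).θ s = (S4 F).θ s') :
    ∃ ε : F, (ε = 1 ∨ ε = -1) ∧ ((rho F s : GL (Fin 8) F) : Matrix (Fin 8) (Fin 8) F) =
      ε • ((rho F s' : GL (Fin 8) F) : Matrix (Fin 8) (Fin 8) F) := by
  obtain ⟨ε, h1, h2⟩ := rho_ker F (s := s * s'⁻¹) (by rw [map_mul, map_inv, hs, mul_inv_cancel])
  refine ⟨ε, h1, ?_⟩
  have e : s = (s * s'⁻¹) * s' := by simp
  conv_lhs => rw [e]
  rw [map_mul, Units.val_mul, h2, Matrix.smul_mul, one_mul]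

end field

end H7.D4Mod
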