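import Cfsg.Agent.Lib.H7.ChevTor
import Cfsg.Agent.Lib.H7.A8Sys

/-!
Alternating sections of the groups of type G₂.
-/

set_option autoImplicit false
set_option linter.unusedVariables false
set_option linter.unusedSectionVars false
set_option linter.style.haveILetI false
set_option linter.unusedSimpArgs false

namespace H7.G2Alt

open H22.RGD H22.Coord H22.RCCheck H22.RCComb H22.ChevTri H22.ChevRel H22.ChevSys H22.ChevMain
open H22.ChevStd H22.ChevTorus H22.ChevTorusCard H22.Poincare H22.ChevOrder H7.ChevTor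
open Cfsg.Lie (ChevalleyDatum)
open scoped MatrixGroups Matrix

local notation "G2" => Cfsg.Lie.chevG2
local notation "X2" => H22.PoinG2.rcxG2

theorem RG (F : Type*) [Field F] : Rel G2 F := H22.ChevAll.rel _ (by simp) F

/-- all elements of the Weyl group as words -/
def Lw : List (List ℕ) := [[],[0],[1],[0,1],[1,0],[0,1,0],[1,0,1],[0,1,0,1],[1,0,1,0],[0,1,0,1,0],[1,0,1,0,1],[0,1,0,1,0,1]]

theorem chk1 : ∀ i < 2, ∀ L ∈ Lw, ∃ L' ∈ Lw, ∀ s < 12, wn G2 (i :: L) s = wn G2 L' s := by decide +kernel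

theorem chk2 : ∀ L ∈ Lw, ∀ s < 12, (wn G2 L)^[6] s = s := by decide +kernel

theorem pow_val {n : ℕ} {w : Equiv.Perm (Fin n)} {f : ℕ → ℕ} (h : ∀ s : Fin n, ((w s : Fin n) : ℕ) = f s)
    (k : ℕ) (s : Fin n) : (((w ^ k) s : Fin n) : ℕ) = f^[k] s := by
  induction k generalizing s with
  | zero => simp
  | succ k ih =>
    rw [pow_succ, Equiv.Perm.mul_apply, ih, Function.iterate_succ_apply, h]

theorem exp6 : ∀ w ∈ (comb X2).W, w ^ 6 = 1 := by
  intro w hw
  obtain ⟨L, hL, e⟩ := exists_word_of X2 Lw (by decide) chk1 hw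
  ext s
  rw [pow_val e]
  exact chk2 L hL s s.2

/-- the rotation of order 3 -/
def L3 : List (Fin (G2).rank) := [⟨0, by decide⟩, ⟨1, by decide⟩, ⟨0, by decide⟩, ⟨1, by decide⟩]
/-- its inverse -/
def L3' : List (Fin (G2).rank) := [⟨1, by decide⟩, ⟨0, by decide⟩, ⟨1, by decide⟩, ⟨0, by decide⟩]

theorem L3v : L3.map Fin.val = [0, 1, 0, 1] := rfl
theorem L3v' : L3'.map Fin.val = [1, 0, 1, 0] := rfl

theorem w3_cube : (comb X2).w L3 ^ 3 = 1 := by
  have key : ∀ s < 12, (wn G2 [0, 1, 0, 1])^[3] s = s := by decide +kernel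
  ext s
  rw [pow_val (f := wn G2 [0, 1, 0, 1]) (fun s => by rw [wn_eq, L3v])]
  exact key s s.2

theorem w3_ne : (comb X2).w L3 ≠ 1 := by
  intro h
  have h1 : ((comb X2).w L3 (⟨0, by decide⟩ : Fin (G2).nroots) : ℕ) = wn G2 [0, 1, 0, 1] 0 := by
    rw [wn_eq, L3v]
  rw [h] at h1
  have h2 : wn G2 [0, 1, 0, 1] 0 ≠ 0 := by decide +kernel
  exact h2 h1.symm

theorem w3_inv : (comb X2).w L3' = ((comb X2).w L3)⁻¹ := by
  have key : ∀ s < 12, wn G2 [1, 0, 1, 0] (wn G2 [0, 1, 0, 1] s) = s := by decide +kernel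
  rw [eq_inv_iff_mul_eq_one]
  ext s
  rw [Equiv.Perm.mul_apply, wn_eq, wn_eq, L3v, L3v']
  exact key s s.2

section field

variable {F : Type*} [Field F]

/-- abbreviation for the root at an index -/
def rt (k : ℕ) (h : k < 12 := by decide) : Fin (G2).nroots := ⟨k, h⟩

theorem w3_rt {k l : ℕ} (hk : k < 12) (hl : l < 12) (h : wn G2 [0, 1, 0, 1] k = l) :
    (comb X2).w L3 (rt k hk) = rt l hl := by
  apply Fin.ext
  rw [wn_eq, L3v]; exact h

/-- the torus elements fixed by the rotation -/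
theorem fixed_form {t : GL (G2).Idx F} (ht : t ∈ (G2).diagonalSubgroup F)
    (h : ∀ s, ent t ((comb X2).w L3 s) = ent t s) :
    ∃ c : Fˣ, c ^ 3 = 1 ∧ ent t (rt 9) = c ∧ ∀ s : Fin (G2).nroots, ent t s = ((c ^ ((G2).cartan 0 s) : Fˣ) : F) := by
  obtain ⟨c, hc⟩ := ent_prod (RG F) X2 ht
  let c0 : Fˣ := c (⟨0, by decide⟩ : Fin (G2).rank)
  let c1 : Fˣ := c (⟨1, by decide⟩ : Fin (G2).rank)
  have hc' : ∀ s : Fin (G2).nroots, ent t s = ((c0 ^ ((G2).cartan 0 s) * c1 ^ ((G2).cartan 1 s) : Fˣ) : F) := by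
    intro s
    rw [hc s]
    congr 1
    exact Fin.prod_univ_two (fun i : Fin 2 => c i ^ ((G2).cartan i s))
  have v2 := hc' (rt 2)
  have v7 := hc' (rt 7)
  have v8 := hc' (rt 8)
  have e72 : ent t (rt 7) = ent t (rt 2) := by
    rw [← h (rt 2), w3_rt (k := 2) (l := 7) (by decide) (by decide) (by decide +kernel)]
  have e87 : ent t (rt 8) = ent t (rt 7) := by
    rw [← h (rt 7), w3_rt (k := 7) (l := 8) (by decide) (by decide) (by decide +kernel)]
  have a2 : (G2).cartan 0 (rt 2 : Fin (G2).nroots) = -1 ∧ (G2).cartan 1 (rt 2 : Fin (G2).nroots) = 0 := by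
    constructor <;> decide +kernel
  have a7 : (G2).cartan 0 (rt 7 : Fin (G2).nroots) = 2 ∧ (G2).cartan 1 (rt 7 : Fin (G2).nroots) = -1 := by
    constructor <;> decide +kernel
  have a8 : (G2).cartan 0 (rt 8 : Fin (G2).nroots) = -1 ∧ (G2).cartan 1 (rt 8 : Fin (G2).nroots) = 1 := by
    constructor <;> decide +kernel
  rw [a2.1, a2.2] at v2
  rw [a7.1, a7.2] at v7
  rw [a8.1, a8.2] at v8
  have f1 : c0 ^ (-1 : ℤ) * c1 ^ (1 : ℤ) = c0 ^ (-1 : ℤ) * c1 ^ (0 : ℤ) := by
    apply Units.ext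
    rw [← v8, e87, e72, v2]
  have f2 : c0 ^ (2 : ℤ) * c1 ^ (-1 : ℤ) = c0 ^ (-1 : ℤ) * c1 ^ (0 : ℤ) := by
    apply Units.ext
    rw [← v7, e72, v2]
  have g1 : c1 = 1 := by
    have := mul_left_cancel f1
    simpa using this
  have g2 : c0 ^ 3 = 1 := by
    rw [g1, one_zpow, one_zpow, mul_one, mul_one] at f2
    have : c0 ^ (3 : ℤ) = 1 := by
      rw [show (3 : ℤ) = 2 - (-1) by norm_num, zpow_sub, f2, mul_inv_cancel]
    exact_mod_cast this
  refine ⟨c0, g2, ?_, ?_⟩
  · rw [hc' (rt 9), g1, one_zpow, mul_one]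
    have : (G2).cartan 0 (rt 9 : Fin (G2).nroots) = 1 := by decide +kernel
    rw [this, zpow_one]
  · intro s
    rw [hc', g1, one_zpow, mul_one]

theorem wcase {y : GL (G2).Idx F} (hy : y ∈ (chevSys (RG F) X2).N)
    (hw : (chevSys (RG F) X2).toW ⟨y, hy⟩ = (comb X2).w L3 ∨ (chevSys (RG F) X2).toW ⟨y, hy⟩ = ((comb X2).w L3)⁻¹)
    {t : GL (G2).Idx F} (ht : t ∈ (G2).diagonalSubgroup F) (h : t * y = y * t) :
    ∀ s, ent t ((comb X2).w L3 s) = ent t s := by
  have h1 := ent_comm (RG F) X2 hy ht h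
  intro s
  rcases hw with hw | hw
  · rw [← hw]; exact h1 s
  · have h2 := h1 ((comb X2).w L3 s)
    have h3 : ((comb X2).w L3)⁻¹ ((comb X2).w L3 s) = s := ((comb X2).w L3).symm_apply_apply s
    rw [hw, h3] at h2
    exact h2.symm

theorem card_fixed {y : GL (G2).Idx F} (hy : y ∈ (chevSys (RG F) X2).N)
    (hw : (chevSys (RG F) X2).toW ⟨y, hy⟩ = (comb X2).w L3 ∨ (chevSys (RG F) X2).toW ⟨y, hy⟩ = ((comb X2).w L3)⁻¹)
    (L : Subgroup (GL (G2).Idx F)) (hL : L ≤ (G2).diagonalSubgroup F) (hLy : ∀ t ∈ L, t * y = y * t) :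
    Nat.card L ≤ 3 := by
  classical
  have key : ∀ t : L, ent (t : GL (G2).Idx F) (rt 9) ∈ (Polynomial.nthRoots 3 (1 : F)).toFinset := by
    intro t
    obtain ⟨c, hc, h9, _⟩ := fixed_form (hL t.2) (wcase hy hw (hL t.2) (hLy t t.2))
    rw [Multiset.mem_toFinset, Polynomial.mem_nthRoots (by norm_num), h9]
    exact congrArg Units.val hc
  have hinj : Function.Injective (fun t : L => (⟨ent (t : GL (G2).Idx F) (rt 9), key t⟩ :
      (Polynomial.nthRoots 3 (1 : F)).toFinset)) := by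
    intro t t' e
    have e' : ent (t : GL (G2).Idx F) (rt 9) = ent (t' : GL (G2).Idx F) (rt 9) := congrArg Subtype.val e
    obtain ⟨c, _, h9, hs⟩ := fixed_form (hL t.2) (wcase hy hw (hL t.2) (hLy t t.2))
    obtain ⟨c', _, h9', hs'⟩ := fixed_form (hL t'.2) (wcase hy hw (hL t'.2) (hLy t' t'.2))
    have hcc : c = c' := by
      apply Units.ext
      rw [← h9, ← h9', e']
    apply Subtype.ext
    refine ent_ext (RG F) X2 (hL t.2) (hL t'.2) fun s => ?_
    rw [hs, hs', hcc]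
  have h1 := Nat.card_le_card_of_injective _ hinj
  refine h1.trans ?_
  rw [Nat.card_eq_fintype_card, Fintype.card_coe]
  exact (Multiset.toFinset_card_le _).trans (Polynomial.card_nthRoots 3 (1 : F))

theorem trace_z {t : GL (G2).Idx F} (ht : t ∈ (G2).diagonalSubgroup F) (ht1 : t ≠ 1)
    (h : ∀ s, ent t ((comb X2).w L3 s) = ent t s) : Matrix.trace (t : Matrix (G2).Idx (G2).Idx F) = 5 := by
  obtain ⟨c, hc3, h9, hs⟩ := fixed_form ht h
  have hc1 : c ≠ 1 := by
    rintro rfl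
    apply ht1
    refine ent_ext (RG F) X2 ht (Subgroup.one_mem _) fun s => ?_
    rw [hs, one_zpow]
    unfold ent; simp
  have h1 : (c : F) ^ 2 + c + 1 = 0 := by
    have e : ((c : F) - 1) * ((c : F) ^ 2 + c + 1) = 0 := by
      have : (c : F) ^ 3 = 1 := by rw [← Units.val_pow_eq_pow_val, hc3, Units.val_one]
      linear_combination this
    rcases mul_eq_zero.1 e with h | h
    · exfalso; apply hc1; apply Units.ext; rw [Units.val_one]; exact sub_eq_zero.1 h
    · exact h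
  have hm1 : c ^ (-1 : ℤ) = c ^ 2 := by
    rw [zpow_neg, zpow_one, inv_eq_iff_mul_eq_one, ← pow_succ']; exact hc3
  have hm2 : c ^ (-2 : ℤ) = c := by
    rw [zpow_neg, inv_eq_iff_mul_eq_one]
    rw [show (2 : ℤ) = ((2 : ℕ) : ℤ) by rfl, zpow_natCast, ← pow_succ]; exact hc3
  have hm3 : c ^ (-3 : ℤ) = 1 := by
    rw [zpow_neg, show (3 : ℤ) = ((3 : ℕ) : ℤ) by rfl, zpow_natCast, hc3, inv_one]
  have h3 : c ^ (3 : ℤ) = 1 := by
    rw [show (3 : ℤ) = ((3 : ℕ) : ℤ) by rfl, zpow_natCast, hc3]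
  have h2 : c ^ (2 : ℤ) = c ^ 2 := by
    rw [show (2 : ℤ) = ((2 : ℕ) : ℤ) by rfl, zpow_natCast]
  rw [trace_H (RG F) X2 ht]
  have e1 : ∑ s : Fin (G2).nroots, ent t s = ∑ s ∈ Finset.range 12, ((c ^ ((G2).cartan 0 s) : Fˣ) : F) := by
    rw [Finset.sum_congr rfl fun s _ => hs s]
    exact (Finset.sum_range (fun s : ℕ => ((c ^ ((G2).cartan 0 s) : Fˣ) : F))).symm
  rw [e1]
  simp only [Finset.sum_range_succ, Finset.sum_range_zero]
  have k0 : (G2).cartan 0 0 = 0 := by decide +kernel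
  have k1 : (G2).cartan 0 1 = -3 := by decide +kernel
  have k2 : (G2).cartan 0 2 = -1 := by decide +kernel
  have k3 : (G2).cartan 0 3 = 1 := by decide +kernel
  have k4 : (G2).cartan 0 4 = -2 := by decide +kernel
  have k5 : (G2).cartan 0 5 = 3 := by decide +kernel
  have k6 : (G2).cartan 0 6 = -3 := by decide +kernel
  have k7 : (G2).cartan 0 7 = 2 := by decide +kernel
  have k8 : (G2).cartan 0 8 = -1 := by decide +kernel
  have k9 : (G2).cartan 0 9 = 1 := by decide +kernel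
  have k10 : (G2).cartan 0 10 = 3 := by decide +kernel
  have k11 : (G2).cartan 0 11 = 0 := by decide +kernel
  rw [k0, k1, k2, k3, k4, k5, k6, k7, k8, k9, k10, k11, hm1, hm2, hm3, h3, h2, zpow_zero, zpow_one]
  have hr : (((G2).rank : ℕ) : F) = 2 := by
    have : (G2).rank = 2 := rfl
    rw [this]; norm_num
  rw [hr]
  push_cast
  linear_combination 3 * h1

theorem trace_y {y : GL (G2).Idx F} (hy : y ∈ (chevSys (RG F) X2).N)
    (hw : (chevSys (RG F) X2).toW ⟨y, hy⟩ = (comb X2).w L3 ∨ (chevSys (RG F) X2).toW ⟨y, hy⟩ = ((comb X2).w L3)⁻¹) :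
    Matrix.trace (y : Matrix (G2).Idx (G2).Idx F) = -1 := by
  have key : ∀ L : List (Fin (G2).rank), (chevSys (RG F) X2).toW ⟨y, hy⟩ = (comb X2).w L →
      (∀ s < (G2).nroots, wn G2 (L.map Fin.val) s ≠ s) → (∑ i, cmw G2 (L.map Fin.val) i i : ℤ) = -1 →
      Matrix.trace (y : Matrix (G2).Idx (G2).Idx F) = -1 := by
    intro L hL h1 h2
    obtain ⟨h, hh⟩ : ∃ h, h = y * (nsw (RG F) L)⁻¹ := ⟨_, rfl⟩
    have hhH : h ∈ (G2).diagonalSubgroup F := by
      have hn : nsw (RG F) L ∈ (chevSys (RG F) X2).N := by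
        rw [nsw_eq_nw (RG F) X2]; exact (chevSys (RG F) X2).nw_mem_N L
      have h3 : h ∈ (chevSys (RG F) X2).N := by
        rw [hh]; exact (chevSys (RG F) X2).N.mul_mem hy ((chevSys (RG F) X2).N.inv_mem hn)
      have h4 : (chevSys (RG F) X2).toW ⟨nsw (RG F) L, hn⟩ = (comb X2).w L := by
        apply (chevSys (RG F) X2).toW_eq
        show (chevSys (RG F) X2).Rep (nsw (RG F) L) _
        rw [nsw_eq_nw (RG F) X2]; exact (chevSys (RG F) X2).rep_nw L
      have h5 : (chevSys (RG F) X2).toW ⟨h, h3⟩ = 1 := by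
        have e : (⟨h, h3⟩ : (chevSys (RG F) X2).N) = ⟨y, hy⟩ * (⟨nsw (RG F) L, hn⟩)⁻¹ := Subtype.ext hh
        rw [e, map_mul, map_inv, hL, h4, mul_inv_cancel]
      exact (H7.A8Sys.mem_H_iff (chevSys (RG F) X2) h3).2 h5
    have e : y = h * nsw (RG F) L := by rw [hh, inv_mul_cancel_right]
    rw [e, trace_N (RG F) X2 hhH L h1, h2]
    simp
  rcases hw with hw | hw
  · refine key L3 hw ?_ ?_
    · rw [L3v]
      have : ∀ s < 12, wn G2 [0, 1, 0, 1] s ≠ s := by decide +kernel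
      exact this
    · rw [L3v]; decide +kernel
  · refine key L3' (by rw [hw, w3_inv]) ?_ ?_
    · rw [L3v']
      have : ∀ s < 12, wn G2 [1, 0, 1, 0] s ≠ s := by decide +kernel
      exact this
    · rw [L3v']; decide +kernel

end field

section fin

variable {F : Type*} [Field F] [Fintype F]

theorem relIndex_eq {q : ℕ} (hq : Fintype.card F = q) : ((G2).diagonalSubgroup F).relIndex ((G2).group F) =
    q ^ 6 * (evalP [1, 1, 1, 1, 1, 1] q * evalP [1, 1] q) := by
  have h1 := card_group (RG F) X2 hq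
  have hle : (G2).diagonalSubgroup F ≤ (G2).group F := by
    rw [← chevSys_Γ (RG F) X2]
    exact (chevSys (RG F) X2).H_le_N.trans (chevSys (RG F) X2).N_le_Γ
  have h2 : Nat.card ((G2).diagonalSubgroup F) * ((G2).diagonalSubgroup F).relIndex ((G2).group F) =
      Nat.card ((G2).group F) := H7.A8Loc.card_mul_relIndex' hle
  have hP : P (comb X2) (G2).rank q = evalP [1, 1, 1, 1, 1, 1] q * evalP [1, 1] q :=
    H22.PoinG2.poincare q
  have hh : (X2).rc.half = 6 := rfl
  rw [hP, hh] at h1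
  have hpos : 0 < Nat.card ((G2).diagonalSubgroup F) := Nat.card_pos
  apply Nat.eq_of_mul_eq_mul_left hpos
  rw [h2, h1]; ring

theorem no8 [CharP F 5] {q : ℕ} (hq : Fintype.card F = q) (hq3 : q % 3 = 1) {H : Type*} [Group H] {r : ℕ}
    (hr : 8 ≤ r) (ι : H →* (G2).group F) (hι : Function.Injective ι) (φ : H →* alternatingGroup (Fin r))
    (hφ : Function.Surjective φ) : False := by
  refine H7.A8Sys.no_alt (chevSys (RG F) X2) ((comb X2).w_mem L3) w3_cube w3_ne ((G2).group F)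
    (chevSys_Γ (RG F) X2) ?_ exp6 ?_ ?_ ?_ hr ι hι φ hφ
  · intro x hx y hy
    exact diag_comm (RG F) X2 hx hy
  · show ¬ 9 ∣ ((G2).diagonalSubgroup F).relIndex ((G2).group F)
    rw [relIndex_eq hq, Nat.dvd_iff_mod_eq_zero]
    have h9 : q % 9 = 1 ∨ q % 9 = 4 ∨ q % 9 = 7 := by omega
    rcases h9 with h | h | h <;> simp [evalP, Nat.mul_mod, Nat.pow_mod, Nat.add_mod, h]
  · intro y hy hw L hL hLy
    exact card_fixed hy hw L hL hLy
  · rintro z hz hz1 y hy hw hzy hz3 hy3 _ ⟨g, hg, hn, hgw⟩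
    exfalso
    have h1 := trace_z hz hz1 (wcase hy hw hz hzy)
    have h2 := trace_y hn hgw
    have h3 : Matrix.trace ((g * z * g⁻¹ : GL (G2).Idx F) : Matrix (G2).Idx (G2).Idx F) =
        Matrix.trace (z : Matrix (G2).Idx (G2).Idx F) := by
      rw [Units.val_mul, Units.val_mul, Matrix.trace_mul_comm, ← mul_assoc, ← Units.val_mul, inv_mul_cancel,
        Units.val_one, one_mul]
    rw [h2, h1] at h3
    have h5 : (5 : F) = 0 := by
      have := CharP.cast_eq_zero F 5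
      exact_mod_cast this
    rw [h5] at h3
    exact one_ne_zero (neg_eq_zero.1 h3)

theorem no7 {q : ℕ} (hq : Fintype.card F = q) (hq5 : q % 5 = 1) {H : Type*} [Group H] {r : ℕ}
    (hr : 7 ≤ r) (ι : H →* (G2).group F) (hι : Function.Injective ι) (φ : H →* alternatingGroup (Fin r))
    (hφ : Function.Surjective φ) : False := by
  haveI : Fact (Nat.Prime 5) := ⟨by norm_num⟩
  obtain ⟨σ, τ, hσ, hc⟩ := H7.AltElt.five hr
  have := H7.TorSect.sys_sect (chevSys (RG F) X2) ((G2).group F) (chevSys_Γ (RG F) X2)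
    (fun x hx y hy => diag_comm (RG F) X2 hx hy) exp6 (p := 5) (by
    show ¬ 5 ∣ ((G2).diagonalSubgroup F).relIndex ((G2).group F)
    rw [relIndex_eq hq, Nat.dvd_iff_mod_eq_zero]
    simp [evalP, Nat.mul_mod, Nat.pow_mod, Nat.add_mod, hq5]) ι hι φ hφ hσ hc (by norm_num)
  revert this; decide

end fin

theorem fieldHom_injective {D : ChevalleyDatum} {F K : Type*} [Field F] [Field K] (f : F →+* K) :
    Function.Injective (H22.ChevField.fieldHom D f) := by
  intro g h e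
  apply Subtype.ext
  apply Units.ext
  have h1 : ((g : GL D.Idx F) : Matrix D.Idx D.Idx F).map f = ((h : GL D.Idx F) : Matrix D.Idx D.Idx F).map f := by
    rw [← H22.ChevField.fieldHom_val, ← H22.ChevField.fieldHom_val, e]
  ext i j
  exact f.injective (congrFun (congrFun h1 i) j)

theorem main {F : Type*} [Field F] [Fintype F] (p : ℕ) [Fact p.Prime] [CharP F p]
    (r : ℕ) (H : Subgroup ↥((G2).group F)) (K : Subgroup ↥H) [K.Normal]
    (h : Nonempty (↥H ⧸ K ≃* ↥(alternatingGroup (Fin r)))) :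
    r ≤ 6 + (if p = 5 then 1 else 0) := by
  obtain ⟨f⟩ := h
  have hp : p.Prime := Fact.out
  have hs : Function.Surjective (f.toMonoidHom.comp (QuotientGroup.mk' K)) :=
    f.surjective.comp (QuotientGroup.mk'_surjective K)
  obtain ⟨n, _, hn⟩ := FiniteField.card F p
  by_contra hcon
  by_cases hp5 : p = 5
  · subst hp5
    rw [if_pos rfl] at hcon
    haveI : NeZero 2 := ⟨by norm_num⟩
    let F' := FiniteField.Extension F 5 2
    haveI : Fintype F' := Fintype.ofFinite _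
    haveI : CharP F' 5 := charP_of_injective_algebraMap (algebraMap F F').injective 5
    have hc : Fintype.card F' = (5 ^ (n : ℕ)) ^ 2 := by
      rw [← Nat.card_eq_fintype_card, FiniteField.natCard_extension, Nat.card_eq_fintype_card, hn]
    refine no8 hc ?_ (r := r) (by omega) ((H22.ChevField.fieldHom G2 (algebraMap F F')).comp H.subtype)
      ((fieldHom_injective _).comp Subtype.coe_injective) _ hs
    have h5 : 5 ^ (n : ℕ) % 3 = 1 ∨ 5 ^ (n : ℕ) % 3 = 2 := by
      have : ∀ k : ℕ, 5 ^ k % 3 = 1 ∨ 5 ^ k % 3 = 2 := by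
        intro k
        induction k with
        | zero => left; norm_num
        | succ k ih => rw [pow_succ]; omega
      exact this _
    rcases h5 with h | h <;> simp [Nat.pow_mod, h]
  · rw [if_neg hp5] at hcon
    haveI : NeZero 4 := ⟨by norm_num⟩
    let F' := FiniteField.Extension F p 4
    haveI : Fintype F' := Fintype.ofFinite _
    have hc : Fintype.card F' = (p ^ (n : ℕ)) ^ 4 := by
      rw [← Nat.card_eq_fintype_card, FiniteField.natCard_extension, Nat.card_eq_fintype_card, hn]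
    refine no7 hc ?_ (r := r) (by omega) ((H22.ChevField.fieldHom G2 (algebraMap F F')).comp H.subtype)
      ((fieldHom_injective _).comp Subtype.coe_injective) _ hs
    have h5 : ¬ 5 ∣ p ^ (n : ℕ) := by
      intro h
      have := Nat.Prime.dvd_of_dvd_pow (by norm_num : Nat.Prime 5) h
      exact hp5 ((Nat.prime_dvd_prime_iff_eq (by norm_num) hp).1 this).symm
    have h6 : (p ^ (n : ℕ)) % 5 = 1 ∨ (p ^ (n : ℕ)) % 5 = 2 ∨ (p ^ (n : ℕ)) % 5 = 3 ∨ (p ^ (n : ℕ)) % 5 = 4 := by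
      omega
    rcases h6 with h | h | h | h <;> simp [Nat.pow_mod, h]

end H7.G2Alt
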