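import Cfsg.Agent.Lib.H7.D4Fin
import Cfsg.Agent.Lib.H7.A8LocB
import Cfsg.Agent.Lib.H7.G2Alt

/-!
The twisted groups of type D₄ and their 8-dimensional module.
-/

set_option autoImplicit false
set_option linter.unusedVariables false
set_option linter.unusedSectionVars false
set_option linter.style.haveILetI false
set_option linter.unusedSimpArgs false

namespace H7.D4Tw

open H22.RGD H22.Coord H22.RCCheck H22.RCComb H22.ChevTri H22.ChevRel H22.ChevSys H22.ChevMain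
open H22.ChevStd H22.ChevSolv H22.ChevUni H22.St H22.TwChev H22.TwSt H22.RCPack H22.TwTab H22.TwX
open H22.TwDat H22.TwAut H22.ChevTorus H22.TwThm H22.TwD4 H7.D4Mod H7.ChevTor
open Cfsg.Lie (ChevalleyDatum)
open scoped MatrixGroups Matrix

local notation "D4" => Cfsg.Lie.chevD4
local notation "X4" => H22.PoinD4.rcxD4
local notation "G2X" => H22.PoinG2.rcxG2
local notation "Z4" => H22.ChevLex.lexD4
local notation "W4" => certD4'
local notation "C2" => comb G2X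

/-- composition of reflections on the weights -/
def pat (L : List ℕ) : Fin 8 → Fin 8 := L.foldr (fun i f => fun j => sN i (f j)) (fun j => j)

/-- the words -/
def fl1 : List ℕ := [0, 2, 3, 1, 0, 2, 3, 1]
/-- the words -/
def fl2 : List ℕ := [1, 0, 2, 3, 1, 0, 2, 3]

theorem W3_fl1 : W3 (pat fl1) := by unfold W3; decide
theorem W3_fl2 : W3 (pat fl2) := by unfold W3; decide

theorem wn_fl1 : wn D4 fl1 20 = 10 ∧ wn D4 fl1 7 = 20 := by decide +kernel
theorem wn_fl2 : wn D4 fl2 20 = 7 ∧ wn D4 fl2 10 = 20 := by decide +kernel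

/-- flattening a word -/
def flw (L : List (Fin (Cfsg.Lie.chevG2).rank)) : List ℕ :=
  L.flatMap (fun J : Fin (Cfsg.Lie.chevG2).rank => ttD4.words.getD (J : ℕ) [])

section fin

variable {K : Type*} [Field K] [Finite K] (φ : K →+* K) (hφ : Function.Surjective φ)

theorem hm (K : Type*) [Field K] : ∀ r < (D4).nroots, ∀ c d : K, c ≠ 0 → d ≠ 0 →
      (D4).hMat K r c * (D4).hMat K r d = (D4).hMat K r (c * d) := hmul_all _ memD4

/-- the twisted system -/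
noncomputable abbrev TT : Tw ((St (RR K) (hm K)).stSys X4 Z4 W4) C2 := (T (RR K) (hm K) φ hφ).tw

/-- the twisted system in the matrix group -/
noncomputable abbrev SS : Sys (GL (D4).Idx K) C2 := M (TT φ hφ)

/-- the words of the classes -/
noncomputable abbrev wdd (J : Fin (Cfsg.Lie.chevG2).rank) : List (Fin (D4).rank) := (E (RR K) (hm K) φ hφ).wd J

theorem nw_theta (L : List (Fin (D4).rank)) :
    ((((St (RR K) (hm K)).stSys X4 Z4 W4).nw L : (D4).group K) : GL (D4).Idx K) =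
      (S4 K).θ (((S4 K).stSys X4 Z4 W4).nw L) := by
  induction L with
  | nil => simp
  | cons i L ih =>
    rw [Sys.nw_cons, Sys.nw_cons, Subgroup.coe_mul, map_mul, ih]
    congr 1
    have h1 := (St (RR K) (hm K)).θ_nb (X4).rc ((X4).rc.simple_lt i i.2) 1
    have h2 := (S4 K).θ_nb (X4).rc ((X4).rc.simple_lt i i.2) 1
    exact h1.trans h2.symm

theorem nw_tw (L : List (Fin (Cfsg.Lie.chevG2).rank)) : (TT φ hφ).sys.nw L =
    ((St (RR K) (hm K)).stSys X4 Z4 W4).nw (L.flatMap (wdd φ hφ)) := by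
  induction L with
  | nil => simp
  | cons i L ih =>
    rw [Sys.nw_cons, List.flatMap_cons, Sys.nw_append, ih]
    rfl

theorem M_nw (L : List (Fin (Cfsg.Lie.chevG2).rank)) : (SS φ hφ).nw L = (((TT φ hφ).sys.nw L : (D4).group K) : GL (D4).Idx K) := by
  induction L with
  | nil => simp
  | cons i L ih =>
    rw [Sys.nw_cons, Sys.nw_cons, Subgroup.coe_mul, ih]
    rfl

theorem pat_nw (L : List (Fin (D4).rank)) :
    Pat K ((rho K (((S4 K).stSys X4 Z4 W4).nw L) : GL (Fin 8) K) : Matrix (Fin 8) (Fin 8) K) (pat (L.map Fin.val)) := by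
  induction L with
  | nil =>
    rw [Sys.nw_nil, map_one, Units.val_one]
    intro i j hij
    exact Matrix.one_apply_ne hij
  | cons i L ih =>
    rw [Sys.nw_cons, map_mul, Units.val_mul]
    have h1 : Pat K ((rho K ((S4 K).nb ((D4).simple i) 1) : GL (Fin 8) K) : Matrix (Fin 8) (Fin 8) K) (sN i) :=
      nb_pat K i one_ne_zero
    exact h1.mul ih

theorem flat_val (L : List (Fin (Cfsg.Lie.chevG2).rank)) : (L.flatMap (wdd φ hφ)).map Fin.val = flw L := by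
  rw [List.map_flatMap]
  exact congrArg (fun f => L.flatMap f) (funext fun J => (E (RR K) (hm K) φ hφ).wd_val J)

variable (h3 : ∀ t : K, φ (φ (φ t)) = t)

include h3 in
theorem theta_H {h : GL (D4).Idx K} (hh : h ∈ (SS φ hφ).H) :
    ∃ c, (A (RR K) (hm K) φ hφ).τ c = c ∧ h = (S4 K).θ ((S4 K).psi X4 Z4 W4 c) := by
  obtain ⟨g, hg, rfl⟩ := hh
  have hg' : g ∈ (St (RR K) (hm K)).Hb ⊓ fx (A (RR K) (hm K) φ hφ).σ := hg
  rw [(A (RR K) (hm K) φ hφ).fixed_torus Z4 W4 (lift (RR K) (hm K) φ hφ h3)] at hg'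
  obtain ⟨c, hc, rfl⟩ := hg'
  refine ⟨c, hc, ?_⟩
  rw [(S4 K).θ_psi]
  exact (St (RR K) (hm K)).θ_psi X4 Z4 W4 c

include h3 in
theorem theta_N {y : GL (D4).Idx K} (hy : y ∈ (SS φ hφ).N) (L : List (Fin (Cfsg.Lie.chevG2).rank))
    (hw : (SS φ hφ).toW ⟨y, hy⟩ = (C2).w L) : ∃ s : (D4).SteinbergGroup K, (S4 K).θ s = y ∧
      Pat K ((rho K s : GL (Fin 8) K) : Matrix (Fin 8) (Fin 8) K) (pat (flw L)) ∧
      (chevSys (RR K) X4).Rep y ((comb X4).w (L.flatMap (wdd φ hφ))) := by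
  obtain ⟨h, hh⟩ : ∃ h, h = ((SS φ hφ).nw L)⁻¹ * y := ⟨_, rfl⟩
  have hn := (SS φ hφ).nw_mem_N L
  have hhH : h ∈ (SS φ hφ).H := by
    have h3 : h ∈ (SS φ hφ).N := by
      rw [hh]; exact (SS φ hφ).N.mul_mem ((SS φ hφ).N.inv_mem hn) hy
    have h4 : (SS φ hφ).toW ⟨(SS φ hφ).nw L, hn⟩ = (C2).w L := (SS φ hφ).toW_eq ((SS φ hφ).rep_nw L)
    have h5 : (SS φ hφ).toW ⟨h, h3⟩ = 1 := by
      have e : (⟨h, h3⟩ : (SS φ hφ).N) = (⟨(SS φ hφ).nw L, hn⟩)⁻¹ * ⟨y, hy⟩ := Subtype.ext hh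
      rw [e, map_mul, map_inv, hw, h4, inv_mul_cancel]
    exact (H7.A8Sys.mem_H_iff (SS φ hφ) h3).2 h5
  have ey : y = (SS φ hφ).nw L * h := by rw [hh]; simp
  obtain ⟨c, hc, ec⟩ := theta_H φ hφ h3 hhH
  rw [M_nw, nw_tw, nw_theta, ec, ← map_mul] at ey
  refine ⟨_, ey.symm, ?_, ?_⟩
  · rw [map_mul, Units.val_mul, rho_psi, dg8_val, ← flat_val φ hφ]
    exact (pat_nw _).mul (Pat.diag _)
  · rw [ey]
    have h5 : ((S4 K).stSys X4 Z4 W4).Rep (((S4 K).stSys X4 Z4 W4).nw (L.flatMap (wdd φ hφ)) * (S4 K).psi X4 Z4 W4 c)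
        ((comb X4).w (L.flatMap (wdd φ hφ)) * 1) := by
      refine (((S4 K).stSys X4 Z4 W4).rep_nw _).mul (((S4 K).stSys X4 Z4 W4).rep_H ?_)
      show _ ∈ (S4 K).Hb
      rw [← (S4 K).psi_range X4 Z4 W4]
      exact ⟨c, rfl⟩
    rw [mul_one] at h5
    exact (S4 K).rep_map X4 Z4 W4 h5

theorem psi_diag (c : Fin (D4).rank → Kˣ) : (S4 K).θ ((S4 K).psi X4 Z4 W4 c) ∈ (D4).diagonalSubgroup K := by
  rw [diagonalSubgroup_eq (RR K) X4]
  apply (S4 K).map_Hb (X4).rc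
  refine ⟨_, ?_, rfl⟩
  rw [SetLike.mem_coe, ← (S4 K).psi_range X4 Z4 W4]
  exact ⟨c, rfl⟩

theorem ent_psi (c : Fin (D4).rank → Kˣ) (s : Fin (D4).nroots) :
    ent ((S4 K).θ ((S4 K).psi X4 Z4 W4 c)) s = (chi D4 K c s : K) := by
  unfold ent
  rw [(S4 K).θ_psi, dg_val]
  simp

theorem chi_psi (c : Fin (D4).rank → Kˣ) {s : ℕ} (hs : s < (D4).nroots) (m : Fin 4 → ℤ)
    (hm : ∀ i : Fin 4, (D4).cartan i s = m i) : chi D4 K c ⟨s, hs⟩ = c j0 ^ m 0 * c j1 ^ m 1 * c j2 ^ m 2 * c j3 ^ m 3 := by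
  have h1 : chi D4 K c ⟨s, hs⟩ = ∏ i : Fin (D4).rank, c i ^ (D4).cartan i s := rfl
  rw [h1]
  refine (Fin.prod_univ_four (fun i : Fin 4 => c i ^ (D4).cartan i s)).trans ?_
  rw [hm 0, hm 1, hm 2, hm 3]

/-- invariance under `y` -/
theorem chi_inv {y : GL (D4).Idx K} {w : Equiv.Perm (Fin (D4).nroots)} (hy : (chevSys (RR K) X4).Rep y w)
    {c : Fin (D4).rank → Kˣ}
    (h : (S4 K).θ ((S4 K).psi X4 Z4 W4 c) * y = y * (S4 K).θ ((S4 K).psi X4 Z4 W4 c)) (s : Fin (D4).nroots) :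
    chi D4 K c (w s) = chi D4 K c s := by
  have h1 := ent_comm (RR K) X4 hy.1 (psi_diag c) h s
  have h2 : (chevSys (RR K) X4).toW ⟨y, hy.1⟩ = w := (chevSys (RR K) X4).toW_eq hy
  rw [h2, ent_psi, ent_psi] at h1
  exact Units.ext h1

/-- the special torus elements -/
def cc (a : Kˣ) : Fin (D4).rank → Kˣ := (![a, 1, a, a] : Fin 4 → Kˣ)

theorem rho_cc {a : Kˣ} (ha3 : a ^ 3 = 1) :
    ((rho K ((S4 K).psi X4 Z4 W4 (cc a)) : GL (Fin 8) K) : Matrix (Fin 8) (Fin 8) K) = Matrix.diagonal (zz a) := by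
  rw [rho_psi, dg8_val]
  congr 1
  have h2 : a * a = a⁻¹ := by
    rw [eq_inv_iff_mul_eq_one, ← pow_two, ← pow_succ]; exact ha3
  have h2' : a⁻¹ * a⁻¹ = a := by
    rw [← mul_inv, h2, inv_inv]
  have key : ∀ k : Fin 8, (wt8Hom K (cc a) k : K) = zz a k := by
    intro k
    rw [wt8_val]
    have e0 : cc a j0 = a := rfl
    have e1 : cc a j1 = 1 := rfl
    have e2 : cc a j2 = a := rfl
    have e3 : cc a j3 = a := rfl
    rw [e0, e1, e2, e3]
    fin_cases k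
    · simp [wt8, zz]
    · simp [wt8, zz]
    · have : a ^ (0 : ℤ) * 1 ^ (-1 : ℤ) * a ^ (1 : ℤ) * a ^ (1 : ℤ) = a⁻¹ := by
        rw [zpow_zero, one_zpow, one_mul, one_mul, zpow_one, h2]
      exact congrArg Units.val this
    · simp [wt8, zz]
    · simp [wt8, zz]
    · simp [wt8, zz]
    · have : a ^ (0 : ℤ) * 1 ^ (1 : ℤ) * a ^ (-1 : ℤ) * a ^ (-1 : ℤ) = a := by
        rw [zpow_zero, one_zpow, one_mul, one_mul, zpow_neg, zpow_one, h2']
      exact congrArg Units.val this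
    · simp [wt8, zz]
  funext k
  exact key k

end fin

end H7.D4Tw
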