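import Cfsg.Agent.Lib.H7.D4Tw

/-!
The twisted groups of type D₄: no alternating sections of degree 8 in characteristic 5.
-/

set_option autoImplicit false
set_option linter.unusedVariables false
set_option linter.unusedSectionVars false
set_option linter.style.haveILetI false
set_option linter.unusedSimpArgs false

namespace H7.D4Tw

open H22.RGD H22.Coord H22.RCCheck H22.RCComb H22.ChevTri H22.ChevRel H22.ChevSys H22.ChevMain
open H22.ChevStd H22.ChevSolv H22.ChevUni H22.St H22.TwChev H22.TwSt H22.RCPack H22.TwTab H22.TwX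
open H22.TwDat H22.TwAut H22.ChevTorus H22.TwThm H22.TwD4 H7.D4Mod H7.ChevTor
open Cfsg.Lie (ChevalleyDatum)
open scoped MatrixGroups Matrix

local notation "D4" => Cfsg.Lie.chevD4
local notation "X4" => H22.PoinD4.rcxD4
local notation "G2X" => H22.PoinG2.rcxG2
local notation "Z4" => H22.ChevLex.lexD4
local notation "W4" => certD4'
local notation "C2" => comb G2X

theorem cg {G : Type*} [CommGroup G] (a b c : G) : a * b * c = (a * b⁻¹ * c) * (b * b) := by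
  rw [mul_right_comm a b⁻¹ c, mul_assoc (a * c) b⁻¹ (b * b), inv_mul_cancel_left, mul_right_comm]

theorem flw_L3 : flw H7.G2Alt.L3 = fl1 := rfl
theorem flw_L3' : flw H7.G2Alt.L3' = fl2 := rfl

section fin

variable {K : Type*} [Field K] [Finite K] (φ : K →+* K) (hφ : Function.Surjective φ)
variable (h3 : ∀ t : K, φ (φ (φ t)) = t)

include h3 in
/-- data attached to an element over the rotation -/
theorem ovr {y : GL (D4).Idx K} (hy : y ∈ (SS φ hφ).N)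
    (hw : (SS φ hφ).toW ⟨y, hy⟩ = (C2).w H7.G2Alt.L3 ∨ (SS φ hφ).toW ⟨y, hy⟩ = ((C2).w H7.G2Alt.L3)⁻¹) :
    ∃ (s : (D4).SteinbergGroup K) (w : Fin 8 → Fin 8) (v : Equiv.Perm (Fin (D4).nroots)), (S4 K).θ s = y ∧
      Pat K ((rho K s : GL (Fin 8) K) : Matrix (Fin 8) (Fin 8) K) w ∧ W3 w ∧ (chevSys (RR K) X4).Rep y v ∧
      ∀ c : Fin (D4).rank → Kˣ, (∀ s, chi D4 K c (v s) = chi D4 K c s) →
        c j1 = 1 ∧ c j0 * c j2 * c j3 = 1 := by
  have c20 : ∀ c : Fin (D4).rank → Kˣ, chi D4 K c ⟨20, by decide⟩ = c j0 ^ (1 : ℤ) * c j1 ^ (0 : ℤ) * c j2 ^ (-1 : ℤ) * c j3 ^ (1 : ℤ) :=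
    fun c => chi_psi c (by decide) ![1, 0, -1, 1] (by decide +kernel)
  have c7 : ∀ c : Fin (D4).rank → Kˣ, chi D4 K c ⟨7, by decide⟩ = c j0 ^ (1 : ℤ) * c j1 ^ (-1 : ℤ) * c j2 ^ (-1 : ℤ) * c j3 ^ (1 : ℤ) :=
    fun c => chi_psi c (by decide) ![1, -1, -1, 1] (by decide +kernel)
  have c10 : ∀ c : Fin (D4).rank → Kˣ, chi D4 K c ⟨10, by decide⟩ = c j0 ^ (0 : ℤ) * c j1 ^ (1 : ℤ) * c j2 ^ (-2 : ℤ) * c j3 ^ (0 : ℤ) :=
    fun c => chi_psi c (by decide) ![0, 1, -2, 0] (by decide +kernel)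
  have fin : ∀ c : Fin (D4).rank → Kˣ, chi D4 K c ⟨20, by decide⟩ = chi D4 K c ⟨7, by decide⟩ →
      chi D4 K c ⟨20, by decide⟩ = chi D4 K c ⟨10, by decide⟩ → c j1 = 1 ∧ c j0 * c j2 * c j3 = 1 := by
    intro c e1 e2
    rw [c20, c7] at e1
    rw [c20, c10] at e2
    have h1 : c j1 = 1 := by
      simp only [zpow_one, zpow_zero, mul_one, zpow_neg] at e1
      have := mul_right_cancel (mul_right_cancel e1)
      have h5 : (c j1)⁻¹ = 1 := by
        have h6 : c j0 * 1 = c j0 * (c j1)⁻¹ := by rw [mul_one]; exact this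
        exact (mul_left_cancel h6).symm
      exact inv_eq_one.1 h5
    refine ⟨h1, ?_⟩
    rw [h1] at e2
    simp only [zpow_one, zpow_zero, mul_one, one_mul, zpow_neg, one_zpow] at e2
    calc c j0 * c j2 * c j3 = (c j0 * (c j2)⁻¹ * c j3) * (c j2 * c j2) := cg _ _ _
      _ = 1 := by
        rw [e2, show ((2 : ℤ)) = ((2 : ℕ) : ℤ) by rfl, zpow_natCast, pow_two, inv_mul_cancel]
  rcases hw with hw | hw
  · obtain ⟨s, hs1, hs2, hs3⟩ := theta_N φ hφ h3 hy _ hw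
    rw [flw_L3] at hs2
    refine ⟨s, _, _, hs1, hs2, W3_fl1, hs3, ?_⟩
    intro c hc
    have hv : ∀ (k l : ℕ) (hk : k < (D4).nroots) (hl : l < (D4).nroots), wn D4 fl1 k = l →
        (comb X4).w (H7.G2Alt.L3.flatMap (wdd φ hφ)) ⟨k, hk⟩ = ⟨l, hl⟩ := by
      intro k l hk hl h
      apply Fin.ext
      rw [wn_eq, flat_val φ hφ, flw_L3]; exact h
    have e1 := hc ⟨20, by decide⟩
    have e2 := hc ⟨7, by decide⟩
    rw [hv 20 10 (by decide) (by decide) wn_fl1.1] at e1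
    rw [hv 7 20 (by decide) (by decide) wn_fl1.2] at e2
    exact fin c e2 e1.symm
  · rw [← H7.G2Alt.w3_inv] at hw
    obtain ⟨s, hs1, hs2, hs3⟩ := theta_N φ hφ h3 hy _ hw
    rw [flw_L3'] at hs2
    refine ⟨s, _, _, hs1, hs2, W3_fl2, hs3, ?_⟩
    intro c hc
    have hv : ∀ (k l : ℕ) (hk : k < (D4).nroots) (hl : l < (D4).nroots), wn D4 fl2 k = l →
        (comb X4).w (H7.G2Alt.L3'.flatMap (wdd φ hφ)) ⟨k, hk⟩ = ⟨l, hl⟩ := by
      intro k l hk hl h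
      apply Fin.ext
      rw [wn_eq, flat_val φ hφ, flw_L3']; exact h
    have e1 := hc ⟨20, by decide⟩
    have e2 := hc ⟨10, by decide⟩
    rw [hv 20 7 (by decide) (by decide) wn_fl2.1] at e1
    rw [hv 10 20 (by decide) (by decide) wn_fl2.2] at e2
    exact fin c e1.symm e2

variable {q : ℕ} (hq : ∀ t, φ t = t ^ q) (hq3 : q % 3 = 1)

include h3 hq hq3 in
/-- the elements of 3-power order of the torus commuting with an element over the rotation -/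
theorem torus_form {y : GL (D4).Idx K} (hy : y ∈ (SS φ hφ).N)
    (hw : (SS φ hφ).toW ⟨y, hy⟩ = (C2).w H7.G2Alt.L3 ∨ (SS φ hφ).toW ⟨y, hy⟩ = ((C2).w H7.G2Alt.L3)⁻¹)
    {t : GL (D4).Idx K} (ht : t ∈ (SS φ hφ).H) {k : ℕ} (htk : t ^ 3 ^ k = 1) (hty : t * y = y * t) :
    ∃ a : Kˣ, a ^ 3 = 1 ∧ t = (S4 K).θ ((S4 K).psi X4 Z4 W4 (cc a)) := by
  obtain ⟨s, w, v, hs1, hs2, hs3, hs4, hs5⟩ := ovr φ hφ h3 hy hw
  obtain ⟨c, hc, rfl⟩ := theta_H φ hφ h3 ht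
  obtain ⟨c1, c2⟩ := hs5 c (chi_inv hs4 hty)
  obtain ⟨f2, f3, f0, f1⟩ := τ_fixed (RR K) (hm K) φ hφ hc
  -- 3-power order
  have h5 : c ^ 3 ^ k = 1 := by
    have h6 : c ^ 3 ^ k ∈ ((St (RR K) (hm K)).psi X4 Z4 W4).ker := by
      rw [MonoidHom.mem_ker, map_pow]
      apply Subtype.ext
      rw [Subgroup.coe_pow]
      rw [← map_pow, ← map_pow, (S4 K).θ_psi] at htk
      have e := (St (RR K) (hm K)).θ_psi X4 Z4 W4 (c ^ 3 ^ k)
      rw [← Subgroup.coe_pow, ← map_pow]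
      exact e.trans htk
    refine ker_inf (RR K) (hm K) φ hφ _ h6 ?_ hq
    rw [map_pow, hc]
  have ha : c j0 ^ 3 ^ k = 1 := by
    have := congrFun h5 j0
    rwa [Pi.pow_apply, Pi.one_apply] at this
  have e2 : c j2 = c j0 ^ q := by
    apply Units.ext; rw [f2, hq, Units.val_pow_eq_pow_val]
  have e3 : c j3 = c j0 ^ q ^ 2 := by
    apply Units.ext; rw [f3, hq, e2, Units.val_pow_eq_pow_val, Units.val_pow_eq_pow_val, ← pow_mul, pow_two]
  have hN : c j0 ^ (1 + q + q ^ 2) = 1 := by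
    rw [pow_add, pow_add, pow_one, ← e2, ← e3]; exact c2
  have ha3 : c j0 ^ 3 = 1 := by
    have h6 : orderOf (c j0) ∣ 3 ^ k := orderOf_dvd_of_pow_eq_one ha
    obtain ⟨j, _, hj⟩ := (Nat.dvd_prime_pow (by norm_num : Nat.Prime 3)).1 h6
    have h7 : orderOf (c j0) ∣ 1 + q + q ^ 2 := orderOf_dvd_of_pow_eq_one hN
    rw [hj] at h7
    have h8 : j ≤ 1 := by
      by_contra hcon
      have h9 : 3 ^ 2 ∣ 1 + q + q ^ 2 := (pow_dvd_pow 3 (by omega)).trans h7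
      rw [Nat.dvd_iff_mod_eq_zero] at h9
      have h10 : q % 9 = 1 ∨ q % 9 = 4 ∨ q % 9 = 7 := by omega
      rcases h10 with h | h | h <;> simp [Nat.pow_mod, Nat.add_mod, h] at h9
    rw [← orderOf_dvd_iff_pow_eq_one, hj]
    exact (pow_dvd_pow 3 h8).trans (by norm_num)
  have hpow : ∀ n : ℕ, n % 3 = 1 → c j0 ^ n = c j0 := by
    intro n hn
    rw [← Nat.div_add_mod n 3, hn, pow_add, pow_mul, ha3, one_pow, one_mul, pow_one]
  refine ⟨c j0, ha3, ?_⟩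
  have hcc : c = cc (c j0) := by
    have key : ∀ i : Fin 4, c (i : Fin (D4).rank) = cc (c j0) (i : Fin (D4).rank) := by
      intro i
      fin_cases i
      · rfl
      · exact c1
      · exact e2.trans (hpow q hq3)
      · exact e3.trans (hpow _ (by rw [Nat.pow_mod, hq3]))
    exact funext key
  rw [← hcc]

include h3 hq hq3 in
theorem card_le {y : GL (D4).Idx K} (hy : y ∈ (SS φ hφ).N)
    (hw : (SS φ hφ).toW ⟨y, hy⟩ = (C2).w H7.G2Alt.L3 ∨ (SS φ hφ).toW ⟨y, hy⟩ = ((C2).w H7.G2Alt.L3)⁻¹)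
    (L : Subgroup (GL (D4).Idx K)) (hL : L ≤ (SS φ hφ).H) (hLp : IsPGroup 3 L) (hLy : ∀ t ∈ L, t * y = y * t) :
    Nat.card L ≤ 3 := by
  have hsub : (L : Set (GL (D4).Idx K)) ⊆ (fun a : Kˣ => (S4 K).θ ((S4 K).psi X4 Z4 W4 (cc a))) '' (rootsOfUnity 3 K : Set Kˣ) := by
    intro t ht
    obtain ⟨k, hk⟩ := hLp ⟨t, ht⟩
    obtain ⟨a, ha, rfl⟩ := torus_form φ hφ h3 hq hq3 hy hw (hL ht) (k := k) (congrArg Subtype.val hk) (hLy t ht)
    exact ⟨a, (mem_rootsOfUnity 3 a).2 ha, rfl⟩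
  have h1 := Set.ncard_le_ncard hsub (Set.toFinite _)
  have h2 := Set.ncard_image_le (f := fun a : Kˣ => (S4 K).θ ((S4 K).psi X4 Z4 W4 (cc a))) (Set.toFinite (rootsOfUnity 3 K : Set Kˣ))
  have h4 : (rootsOfUnity 3 K : Set Kˣ).ncard = Nat.card (rootsOfUnity 3 K) := rfl
  have h5 : Nat.card (rootsOfUnity 3 K) ≤ 3 := card_rootsOfUnity K 3
  have h6 : (L : Set (GL (D4).Idx K)).ncard = Nat.card L := rfl
  omega

/-- products in a subgroup generated by two commuting elements of order three -/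
theorem closure_pair {G : Type*} [Group G] {z y : G} (hzy : z * y = y * z) (hz : z ^ 3 = 1) (hy : y ^ 3 = 1)
    {x : G} (hx : x ∈ Subgroup.closure {z, y}) : ∃ i j : ℕ, x = z ^ i * y ^ j := by
  have hc : Commute z y := hzy
  induction hx using Subgroup.closure_induction with
  | mem x hx =>
    rcases hx with rfl | hx
    · exact ⟨1, 0, by simp⟩
    · rw [Set.mem_singleton_iff] at hx
      exact ⟨0, 1, by simp [hx]⟩
  | one => exact ⟨0, 0, by simp⟩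
  | mul a b _ _ ha hb =>
    obtain ⟨i, j, rfl⟩ := ha
    obtain ⟨i', j', rfl⟩ := hb
    refine ⟨i + i', j + j', ?_⟩
    have h1 : y ^ j * z ^ i' = z ^ i' * y ^ j := (hc.pow_pow i' j).eq.symm
    calc z ^ i * y ^ j * (z ^ i' * y ^ j') = z ^ i * (y ^ j * z ^ i') * y ^ j' := by simp only [mul_assoc]
      _ = z ^ i * (z ^ i' * y ^ j) * y ^ j' := by rw [h1]
      _ = _ := by rw [pow_add, pow_add]; simp only [mul_assoc]
  | inv a _ ha =>
    obtain ⟨i, j, rfl⟩ := ha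
    refine ⟨2 * i, 2 * j, ?_⟩
    have h1 : (z ^ i) ^ 3 = 1 := by rw [← pow_mul, mul_comm, pow_mul, hz, one_pow]
    have h2 : (y ^ j) ^ 3 = 1 := by rw [← pow_mul, mul_comm, pow_mul, hy, one_pow]
    have h3 : (z ^ i)⁻¹ = z ^ (2 * i) := by
      rw [inv_eq_iff_mul_eq_one, mul_comm 2 i, pow_mul, ← pow_succ']; exact h1
    have h4 : (y ^ j)⁻¹ = y ^ (2 * j) := by
      rw [inv_eq_iff_mul_eq_one, mul_comm 2 j, pow_mul, ← pow_succ']; exact h2
    rw [mul_inv_rev, h3, h4]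
    exact (hc.pow_pow (2 * i) (2 * j)).eq.symm

theorem theta_surj {g : GL (D4).Idx K} (hg : g ∈ (SS φ hφ).Γ) : ∃ s, (S4 K).θ s = g := by
  have h1 : (SS φ hφ).Γ ≤ (D4).group K := by
    refine (le_of_eq (M_Γ (TT φ hφ))).trans ?_
    rintro _ ⟨x, _, rfl⟩
    exact x.2
  have h2 := h1 hg
  rw [← (S4 K).range_θ (X4).rc] at h2
  exact h2

include h3 hq hq3 in
theorem h4 (h2 : (2 : K) ≠ 0) (h3' : (3 : K) ≠ 0) : ∀ z ∈ (SS φ hφ).H, z ≠ 1 → ∀ y (hy : y ∈ (SS φ hφ).N),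
      ((SS φ hφ).toW ⟨y, hy⟩ = (C2).w H7.G2Alt.L3 ∨ (SS φ hφ).toW ⟨y, hy⟩ = ((C2).w H7.G2Alt.L3)⁻¹) →
      z * y = y * z → z ^ 3 = 1 → y ^ 3 = 1 →
      (∃ g ∈ (SS φ hφ).Γ, g * z * g⁻¹ = z ∧ g * y * g⁻¹ = y⁻¹) →
      (∃ g ∈ (SS φ hφ).Γ, g * z * g⁻¹ ∈ Subgroup.closure {z, y} ∧ g * z * g⁻¹ ∉ (SS φ hφ).H) → False := by
  rintro z hz hz1 y hy hw hzy hz3 hy3 ⟨g, hg, hg1, hg2⟩ ⟨g', hg', hg'1, hg'2⟩
  obtain ⟨a, ha3, rfl⟩ := torus_form φ hφ h3 hq hq3 hy hw hz (k := 1) (by rw [pow_one]; exact hz3) hzy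
  have ha1 : a ≠ 1 := by
    rintro rfl
    apply hz1
    have : (cc (1 : Kˣ)) = 1 := by
      have key : ∀ i : Fin 4, cc (1 : Kˣ) (i : Fin (D4).rank) = 1 := by
        intro i; fin_cases i <;> rfl
      exact funext key
    rw [this, map_one, map_one]
  obtain ⟨sy, w, v, hs1, hs2, hs3, hs4, hs5⟩ := ovr φ hφ h3 hy hw
  obtain ⟨sg, hsg⟩ := theta_surj φ hφ hg
  obtain ⟨sg', hsg'⟩ := theta_surj φ hφ hg'
  obtain ⟨sz, hsz⟩ : ∃ sz, sz = (S4 K).psi X4 Z4 W4 (cc a) := ⟨_, rfl⟩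
  rw [← hsz] at hg1 hg'1 hg'2 hzy hz3
  have hrz : ((rho K sz : GL (Fin 8) K) : Matrix (Fin 8) (Fin 8) K) = Matrix.diagonal (zz a) := by
    rw [hsz]; exact rho_cc ha3
  obtain ⟨i, j, hij⟩ := closure_pair hzy hz3 hy3 hg'1
  have hj0 : j % 3 ≠ 0 := by
    intro hj
    apply hg'2
    rw [hij]
    have : y ^ j = 1 := by
      rw [← Nat.div_add_mod j 3, hj, add_zero, pow_mul, hy3, one_pow]
    rw [this, mul_one]
    rw [hsz]
    exact (SS φ hφ).H.pow_mem hz i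
  have hij' : g' * (S4 K).θ sz * g'⁻¹ = (S4 K).θ sz ^ i * y ^ (j % 3) := by
    rw [hij]
    congr 1
    conv_lhs => rw [← Nat.div_add_mod j 3, pow_add, pow_mul, hy3, one_pow, one_mul]
  obtain ⟨j', hj'⟩ : ∃ j', j' = j % 3 := ⟨_, rfl⟩
  rw [← hj'] at hij' hj0
  have hj12 : j' = 1 ∨ j' = 2 := by omega
  -- the relations
  obtain ⟨ε, hε, hεe⟩ := rho_ker K (s := sy * sy * sy) (by
    rw [map_mul, map_mul, hs1, ← pow_two, ← pow_succ]; exact hy3)
  obtain ⟨ε1, hε1, hε1e⟩ := rho_eq K (s := sg * sz * sg⁻¹) (s' := sz) (by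
    rw [map_mul, map_mul, map_inv, hsg]; exact hg1)
  obtain ⟨ε2, hε2, hε2e⟩ := rho_eq K (s := sy * sg * sy) (s' := sg) (by
    rw [map_mul, map_mul, hs1, hsg]
    calc y * g * y = y * (g * y * g⁻¹) * g := by group
      _ = g := by rw [hg2]; group)
  obtain ⟨ε3, hε3, hε3e⟩ := rho_eq K (s := sg' * sz * sg'⁻¹) (s' := sz ^ i * sy ^ j') (by
    rw [map_mul, map_mul, map_inv, hsg', map_mul, map_pow, map_pow, hs1]; exact hij')
  have htrc : ∀ s : (D4).SteinbergGroup K, ((rho K (s * sz * s⁻¹) : GL (Fin 8) K) : Matrix (Fin 8) (Fin 8) K).trace =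
      (Matrix.diagonal (zz a)).trace := by
    intro s
    rw [map_mul, map_mul, map_inv, Units.val_mul, Units.val_mul, Matrix.trace_mul_comm, ← mul_assoc, ← Units.val_mul,
      inv_mul_cancel, Units.val_one, one_mul, hrz]
  refine contra h2 h3' ha1 ha3 (Y := ((rho K sy : GL (Fin 8) K) : Matrix (Fin 8) (Fin 8) K))
    (G := ((rho K sg : GL (Fin 8) K) : Matrix (Fin 8) (Fin 8) K)) hs3 hs2 (form K sy) hε ?_
    (det_rho K h2 sg) (form K sg) (ε1 := ε1) ?_ ?_ (ε2 := ε2) hε2 ?_ (i := i) (j := j') hj12 (ε3 := ε3) hε3 ?_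
  · rw [← hεe, map_mul, map_mul, Units.val_mul, Units.val_mul]
  · rw [hrz, map_mul, map_inv] at hε1e
    have h5 : (rho K (sg * sz)).val = (ε1 • Matrix.diagonal (zz a)) * (rho K sg).val := by
      rw [← hε1e, ← Units.val_mul, inv_mul_cancel_right]
    rw [map_mul, Units.val_mul, hrz] at h5
    rw [h5, Matrix.smul_mul]
  · have h5 := congrArg Matrix.trace hε1e
    rw [htrc, hrz, Matrix.trace_smul, smul_eq_mul] at h5
    exact h5
  · rw [map_mul, map_mul, Units.val_mul, Units.val_mul] at hε2e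
    exact hε2e
  · have h5 := congrArg Matrix.trace hε3e
    rw [htrc, Matrix.trace_smul, smul_eq_mul, map_mul, map_pow, map_pow, Units.val_mul, Units.val_pow_eq_pow_val,
      Units.val_pow_eq_pow_val, hrz] at h5
    exact h5

end fin

end H7.D4Tw
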