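import Cfsg.Agent.Lib.H95.OSie

set_option autoImplicit false
set_option linter.unusedSectionVars false

/-!
Quadratic spaces of small dimension (at least four) over finite fields of odd characteristic.
-/

namespace H7.OLow

open Module QuadraticMap H48.QuadSplit H95.OGeo H17.OrthAbs H95.OSie
open scoped commutatorElement

variable {F V : Type*} [Field F] [AddCommGroup V] [Module F V] {Q : QuadraticForm F V}

lemma two_reps [Finite F] (h2 : (2 : F) ≠ 0) {a b : F} (ha : a ≠ 0) (hb : b ≠ 0) (c : F) :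
    ∃ x y : F, x * x * a + y * y * b = c := by
  have := Fintype.ofFinite F
  have hodd : Fintype.card F % 2 = 1 := by
    apply FiniteField.odd_card_of_char_ne_two
    intro h
    apply h2
    have := ringChar.Nat.cast_ringChar (R := F)
    rw [h] at this
    exact_mod_cast this
  obtain ⟨x, y, h⟩ := FiniteField.exists_root_sum_quadratic (R := F)
    (f := Polynomial.C a * Polynomial.X ^ 2 + Polynomial.C 0 * Polynomial.X + Polynomial.C (-c))
    (g := Polynomial.C b * Polynomial.X ^ 2 + Polynomial.C 0 * Polynomial.X + Polynomial.C 0)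
    (Polynomial.degree_quadratic ha) (Polynomial.degree_quadratic hb) hodd
  refine ⟨x, y, ?_⟩
  simp at h
  linear_combination h

variable [FiniteDimensional F V]

lemma exists_ns (hQ : ND Q) {S : Submodule F V} (hS : ¬ orth Q S ≤ S) : ∃ e ∈ orth Q S, Q e ≠ 0 := by
  by_contra hcon
  push Not at hcon
  apply hS
  intro x hx
  rw [← orth_orth hQ S, mem_orth]
  intro y hy
  have h1 := hcon _ ((orth Q S).add_mem hy hx)
  rw [Q_add, hcon x hx, hcon y hy, add_zero, zero_add] at h1
  exact h1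

lemma finrank_range_le {k : ℕ} (l : Fin k → V) : finrank F (Submodule.span F (Set.range l)) ≤ k := by
  have := finrank_range_le_card (R := F) l
  rw [Fintype.card_fin] at this
  exact this

lemma mem_orth_range {k : ℕ} {l : Fin k → V} {x : V} :
    x ∈ orth Q (Submodule.span F (Set.range l)) ↔ ∀ i, polar Q x (l i) = 0 := by
  rw [mem_orth]
  constructor
  · intro h i
    rw [p_comm]
    exact h _ (Submodule.subset_span ⟨i, rfl⟩)
  · intro h u hu
    induction hu using Submodule.span_induction with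
    | mem x hx =>
      obtain ⟨i, rfl⟩ := hx
      rw [p_comm]; exact h i
    | zero => rw [p_zero]
    | add x y _ _ h1 h2 => rw [p_add, h1, h2, add_zero]
    | smul a x _ h1 => rw [p_smul, h1, mul_zero]

/-- a nonsingular vector orthogonal to one vector -/
lemma ns1 (hQ : ND Q) (hn : 3 ≤ finrank F V) (v : V) : ∃ e, polar Q e v = 0 ∧ Q e ≠ 0 := by
  obtain ⟨e, he, he'⟩ := exists_ns hQ (S := Submodule.span F (Set.range ![v])) (by
    intro hle
    have h1 := Submodule.finrank_mono hle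
    have h2 := finrank_orth hQ (Submodule.span F (Set.range ![v]))
    have h3 := finrank_range_le (F := F) ![v]
    omega)
  rw [mem_orth_range] at he
  exact ⟨e, he 0, he'⟩

/-- a nonsingular vector orthogonal to two vectors -/
lemma ns2 (hQ : ND Q) (h2 : (2 : F) ≠ 0) (hn : 4 ≤ finrank F V) {v w : V}
    (h : Q v ≠ 0 ∨ Q w ≠ 0 ∨ polar Q v w ≠ 0) : ∃ e, polar Q e v = 0 ∧ polar Q e w = 0 ∧ Q e ≠ 0 := by
  obtain ⟨e, he, he'⟩ := exists_ns hQ (S := Submodule.span F (Set.range ![v, w])) (by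
    intro hle
    have h1 := Submodule.finrank_mono hle
    have h3 := finrank_orth hQ (Submodule.span F (Set.range ![v, w]))
    have h4 := finrank_range_le (F := F) ![v, w]
    have h5 := Submodule.eq_of_le_of_finrank_eq hle (by omega)
    have hv : v ∈ orth Q (Submodule.span F (Set.range ![v, w])) := by
      rw [h5]; exact Submodule.subset_span ⟨0, rfl⟩
    have hw : w ∈ orth Q (Submodule.span F (Set.range ![v, w])) := by
      rw [h5]; exact Submodule.subset_span ⟨1, rfl⟩
    rw [mem_orth_range] at hv hw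
    have e1 : polar Q v v = 0 := hv 0
    have e2 : polar Q v w = 0 := hv 1
    have e3 : polar Q w w = 0 := hw 1
    rw [p_self] at e1 e3
    rcases h with h | h | h
    · exact h ((mul_eq_zero.1 e1).resolve_left h2)
    · exact h ((mul_eq_zero.1 e3).resolve_left h2)
    · exact h e2)
  rw [mem_orth_range] at he
  exact ⟨e, he 0, he 1, he'⟩

/-- a nonsingular vector orthogonal to a hyperbolic plane and a nonsingular vector in its complement -/
lemma ns3 (hQ : ND Q) (h2 : (2 : F) ≠ 0) (hn : 4 ≤ finrank F V) {v w e : V} (hv : Q v = 0) (hvw : polar Q v w ≠ 0)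
    (he : Q e ≠ 0) (hev : polar Q e v = 0) (_ : polar Q e w = 0) :
    ∃ e', polar Q e' v = 0 ∧ polar Q e' w = 0 ∧ polar Q e' e = 0 ∧ Q e' ≠ 0 := by
  obtain ⟨e', he', hne⟩ := exists_ns hQ (S := Submodule.span F (Set.range ![v, w, e])) (by
    intro hle
    have h3 := finrank_orth hQ (Submodule.span F (Set.range ![v, w, e]))
    have h4 := finrank_range_le (F := F) ![v, w, e]
    have h5 : orth Q (Submodule.span F (Set.range ![v, w, e])) = ⊥ := by
      rw [Submodule.eq_bot_iff]
      intro x hx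
      have hx' := hle hx
      rw [mem_orth_range] at hx
      rw [Submodule.mem_span_range_iff_exists_fun] at hx'
      obtain ⟨c, hc⟩ := hx'
      rw [Fin.sum_univ_three] at hc
      have hc' : x = c 0 • v + c 1 • w + c 2 • e := hc.symm
      have x1 : polar Q x v = 0 := hx 0
      have x2 : polar Q x w = 0 := hx 1
      have x3 : polar Q x e = 0 := hx 2
      have c1 : c 1 = 0 := by
        rw [hc', p_add, p_add, p_smul, p_smul, p_smul, p_self, hv, hev, mul_zero, mul_zero, mul_zero, zero_add,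
          add_zero, p_comm] at x1
        exact (mul_eq_zero.1 x1).resolve_right hvw
      have c2 : c 2 = 0 := by
        rw [hc', c1, p_add, p_add, p_smul, p_smul, p_smul, p_self, p_comm Q v e, hev, mul_zero, zero_mul, zero_add,
          zero_add] at x3
        exact (mul_eq_zero.1 x3).resolve_right (mul_ne_zero h2 he)
      have c0 : c 0 = 0 := by
        rw [hc', c1, c2, zero_smul, zero_smul, add_zero, add_zero, p_smul] at x2
        exact (mul_eq_zero.1 x2).resolve_right hvw
      rw [hc', c0, c1, c2, zero_smul, zero_smul, zero_smul, add_zero, add_zero]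
    rw [h5, finrank_bot] at h3
    omega)
  rw [mem_orth_range] at he'
  exact ⟨e', he' 0, he' 1, he' 2, hne⟩

variable [Finite F]

/-- universality of the complement of a hyperbolic plane -/
lemma univ (hQ : ND Q) (h2 : (2 : F) ≠ 0) (hn : 4 ≤ finrank F V) {v w : V} (hv : Q v = 0) (hvw : polar Q v w ≠ 0)
    (c : F) : ∃ z, polar Q z v = 0 ∧ polar Q z w = 0 ∧ Q z = c := by
  obtain ⟨e, e1, e2, e3⟩ := ns2 hQ h2 hn (Or.inr (Or.inr hvw))
  obtain ⟨e', f1, f2, f3, f4⟩ := ns3 hQ h2 hn hv hvw e3 e1 e2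
  obtain ⟨x, y, hxy⟩ := two_reps h2 e3 f4 c
  refine ⟨x • e + y • e', ?_, ?_, ?_⟩
  · rw [p_add, p_smul, p_smul, e1, f1, mul_zero, mul_zero, add_zero]
  · rw [p_add, p_smul, p_smul, e2, f2, mul_zero, mul_zero, add_zero]
  · rw [Q_add, Q_smul, Q_smul, p_smul, p_smul', p_comm Q e e', f3, mul_zero, mul_zero, add_zero, hxy]

/-- a singular vector not orthogonal to two given singular vectors -/
lemma both (hQ : ND Q) (h2 : (2 : F) ≠ 0) (hn : 4 ≤ finrank F V) {v w : V} (hv : Q v = 0) (hw : Q w = 0)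
    (hv0 : v ≠ 0) (hw0 : w ≠ 0) : ∃ x, Q x = 0 ∧ polar Q x v ≠ 0 ∧ polar Q x w ≠ 0 := by
  by_cases hvw : polar Q v w = 0
  · obtain ⟨u, u1, u2⟩ : ∃ u, polar Q u v ≠ 0 ∧ polar Q u w ≠ 0 := by
      by_cases hli : LinearIndependent F ![v, w]
      · obtain ⟨u, hu⟩ := dual hQ hli ![1, 1]
        have h1 : polar Q u v = 1 := hu 0
        have h2 : polar Q u w = 1 := hu 1
        exact ⟨u, by rw [h1]; exact one_ne_zero, by rw [h2]; exact one_ne_zero⟩
      · rw [LinearIndependent.pair_iff' hv0] at hli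
        push Not at hli
        obtain ⟨a, rfl⟩ := hli
        have ha : a ≠ 0 := by
          rintro rfl
          exact hw0 (zero_smul _ _)
        obtain ⟨u, hu⟩ : ∃ u, polar Q u v ≠ 0 := by
          by_contra hcon; push Not at hcon
          exact hv0 (hQ v fun x => by rw [p_comm]; exact hcon x)
        exact ⟨u, hu, by rw [p_smul']; exact mul_ne_zero ha hu⟩
    refine ⟨u - (Q u / polar Q u v) • v, ?_, ?_, ?_⟩
    · rw [Q_sub, Q_smul, hv, p_smul']
      field_simp
      ring
    · rw [p_sub, p_smul, p_self, hv, mul_zero, mul_zero, sub_zero]; exact u1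
    · rw [p_sub, p_smul, hvw, mul_zero, sub_zero]; exact u2
  · obtain ⟨z, z1, z2, z3⟩ := univ hQ h2 hn hv hvw (-(polar Q v w))
    refine ⟨v + w + z, ?_, ?_, ?_⟩
    · rw [Q_add, Q_add, hv, hw, p_add, p_comm Q v z, p_comm Q w z, z1, z2, z3]; ring
    · rw [p_add, p_add, p_self, hv, z1, p_comm Q w v]; simpa using hvw
    · rw [p_add, p_add, p_self, hw, z2]; simpa using hvw

lemma exists_sing1 (hQ : ND Q) (hn : 4 ≤ finrank F V) (w : V) : ∃ x, x ≠ 0 ∧ Q x = 0 ∧ polar Q x w = 0 := by
  obtain ⟨x, hx, hx0, hQx⟩ := exists_sing Q (U := orth Q (Submodule.span F (Set.range ![w]))) (by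
    have h3 := finrank_orth hQ (Submodule.span F (Set.range ![w]))
    have h4 := finrank_range_le (F := F) ![w]
    omega)
  rw [mem_orth_range] at hx
  exact ⟨x, hx0, hQx, hx 0⟩

/-- a singular vector orthogonal to a nonsingular one and not to another one -/
lemma sing_move (hQ : ND Q) (hn : 4 ≤ finrank F V) {w y : V} (hw : Q w ≠ 0)
    (h2 : (2 : F) ≠ 0) (hy : ∀ a : F, a • w ≠ y) : ∃ x, Q x = 0 ∧ polar Q x w = 0 ∧ polar Q x y ≠ 0 := by
  obtain ⟨x0, h0, hx0, hx0w⟩ := exists_sing1 hQ hn w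
  by_cases hxy : polar Q x0 y = 0
  · have hli : LinearIndependent F ![w, x0] := by
      rw [LinearIndependent.pair_iff]
      intro a b hab
      have h1 := congrArg (fun z => polar Q z w) hab
      simp only [p_add, p_smul, p_self, hx0w, mul_zero, add_zero, p_zero] at h1
      have ha : a = 0 := (mul_eq_zero.1 h1).resolve_right (mul_ne_zero h2 hw)
      rw [ha, zero_smul, zero_add] at hab
      exact ⟨ha, (smul_eq_zero.1 hab).resolve_right h0⟩
    obtain ⟨u, u1, u2, u3⟩ : ∃ u, polar Q u w = 0 ∧ polar Q u x0 = 1 ∧ polar Q u y ≠ 0 := by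
      by_cases hyc : ∃ a b : F, y = a • w + b • x0
      · obtain ⟨a, b, rfl⟩ := hyc
        have hb : b ≠ 0 := by
          rintro rfl
          exact hy a (by rw [zero_smul, add_zero])
        obtain ⟨u, hu⟩ := dual hQ hli ![0, 1]
        have u1 : polar Q u w = 0 := hu 0
        have u2 : polar Q u x0 = 1 := hu 1
        refine ⟨u, u1, u2, ?_⟩
        rw [p_add', p_smul', p_smul', u1, u2, mul_zero, zero_add, mul_one]
        exact hb
      · push Not at hyc
        have hli3 : LinearIndependent F ![w, x0, y] := by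
          rw [Fintype.linearIndependent_iff]
          intro c hc
          rw [Fin.sum_univ_three] at hc
          simp only [Matrix.cons_val_zero, Matrix.cons_val_one, Matrix.cons_val] at hc
          have hc2 : c 2 = 0 := by
            by_contra hc2
            apply hyc (-(c 0) / c 2) (-(c 1) / c 2)
            have h2 : c 2 • y = -(c 0 • w + c 1 • x0) := by rw [eq_neg_iff_add_eq_zero, add_comm]; exact hc
            have h3 : y = (c 2)⁻¹ • (c 2 • y) := by rw [smul_smul, inv_mul_cancel₀ hc2, one_smul]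
            rw [h3, h2]
            match_scalars <;> ring
          rw [hc2, zero_smul, add_zero] at hc
          obtain ⟨h4, h5⟩ := LinearIndependent.pair_iff.1 hli _ _ hc
          intro i
          fin_cases i
          exacts [h4, h5, hc2]
        obtain ⟨u, hu⟩ := dual hQ hli3 ![0, 1, 1]
        have u3 : polar Q u y = 1 := hu 2
        exact ⟨u, hu 0, hu 1, by rw [u3]; exact one_ne_zero⟩
    refine ⟨u - Q u • x0, ?_, ?_, ?_⟩
    · rw [Q_sub, Q_smul, hx0, p_smul', u2]; ring
    · rw [p_sub, p_smul, hx0w, u1]; ring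
    · rw [p_sub, p_smul, hxy, mul_zero, sub_zero]; exact u3
  · exact ⟨x0, hx0, hx0w, hxy⟩

/-- a pair of reflections moving a vector -/
lemma pair_ab (hQ : ND Q) (h2 : (2 : F) ≠ 0) (hn : 4 ≤ finrank F V) (ht : ∃ t : F, t ≠ 0 ∧ t * t ≠ 1) {v w y z0 : V}
    (hv : Q v = 0) (hvw : polar Q v w ≠ 0) (z1 : polar Q z0 v = 0) (z2 : polar Q z0 w = 0) (z3 : polar Q y z0 ≠ 0) :
    ∃ a b, polar Q a v = 0 ∧ polar Q a w = 0 ∧ polar Q b v = 0 ∧ polar Q b w = 0 ∧ Q a ≠ 0 ∧ Q b ≠ 0 ∧
      polar Q a b ≠ 0 ∧ (∀ c : F, c • a ≠ b) ∧ polar Q y a ≠ 0 := by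
  obtain ⟨e, e1, e2, e3⟩ := ns2 hQ h2 hn (Or.inr (Or.inr hvw))
  obtain ⟨a, a1, a2, a3, a4⟩ : ∃ a, polar Q a v = 0 ∧ polar Q a w = 0 ∧ Q a ≠ 0 ∧ polar Q y a ≠ 0 := by
    by_cases h6 : Q z0 = 0
    swap
    · exact ⟨z0, z1, z2, h6, z3⟩
    by_cases h3 : polar Q y e = 0
    · by_cases h4 : Q (z0 + e) = 0
      · refine ⟨z0 - e, ?_, ?_, ?_, ?_⟩
        · rw [p_sub, z1, e1, sub_zero]
        · rw [p_sub, z2, e2, sub_zero]
        · intro h5
          rw [Q_add] at h4
          rw [Q_sub] at h5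
          apply e3
          have h7 : 2 * Q e = 0 := by linear_combination h4 + h5 - 2 * h6
          exact (mul_eq_zero.1 h7).resolve_left h2
        · rw [p_sub', h3, sub_zero]; exact z3
      · refine ⟨z0 + e, ?_, ?_, h4, ?_⟩
        · rw [p_add, z1, e1, add_zero]
        · rw [p_add, z2, e2, add_zero]
        · rw [p_add', h3, add_zero]; exact z3
    · exact ⟨e, e1, e2, e3, h3⟩
  obtain ⟨e', f1, f2, f3, f4⟩ := ns3 hQ h2 hn hv hvw a3 a1 a2
  have f3' : polar Q a e' = 0 := by rw [p_comm, f3]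
  obtain ⟨t, ht0, ht1⟩ : ∃ t : F, t ≠ 0 ∧ Q a + t * t * Q e' ≠ 0 := by
    by_cases h1 : Q a + Q e' = 0
    · obtain ⟨t, h3, h4⟩ := ht
      refine ⟨t, h3, fun h5 => h4 ?_⟩
      have h6 : Q e' * (t * t - 1) = 0 := by linear_combination h5 - h1
      exact sub_eq_zero.1 ((mul_eq_zero.1 h6).resolve_left f4)
    · exact ⟨1, one_ne_zero, by rw [one_mul, one_mul]; exact h1⟩
  refine ⟨a, a + t • e', a1, a2, ?_, ?_, a3, ?_, ?_, ?_, a4⟩
  · rw [p_add, p_smul, a1, f1, mul_zero, add_zero]
  · rw [p_add, p_smul, a2, f2, mul_zero, add_zero]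
  · rw [Q_add, Q_smul, p_smul', f3', mul_zero, add_zero]; exact ht1
  · rw [p_add', p_smul', p_self, f3', mul_zero, add_zero]; exact mul_ne_zero h2 a3
  · intro c hc
    have h1 := congrArg (fun z => polar Q z e') hc
    simp only [p_add, p_smul, p_self, f3', mul_zero, zero_add] at h1
    exact mul_ne_zero ht0 (mul_ne_zero h2 f4) h1.symm

omit [FiniteDimensional F V] [Finite F] in
/-- the commutator of two reflections -/
lemma comm_move {a b y : V} (ha : Q a ≠ 0) (hb : Q b ≠ 0) (hab : polar Q a b ≠ 0) (hli : ∀ c : F, c • a ≠ b)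
    (hy : polar Q y a ≠ 0) : ⁅refl Q a ha, refl Q b hb⁆ y ≠ y := by
  intro h
  have hrr : ∀ (v : V) (hv : Q v ≠ 0) (x : V), refl Q v hv (refl Q v hv x) = x := by
    intro v hv x
    have := congrArg (fun g : V ≃ₗ[F] V => g x) (refl_sq Q v hv)
    exact this
  have h1 : (refl Q a ha) (refl Q b hb y) = (refl Q b hb) (refl Q a ha y) := by
    rw [commutatorElement_def, refl_inv, refl_inv] at h
    have h2 : refl Q a ha (refl Q b hb (refl Q a ha (refl Q b hb y))) = y := h
    have h3 := congrArg (fun x => refl Q b hb (refl Q a ha x)) h2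
    simp only [hrr] at h3
    exact h3
  rw [refl_apply, refl_apply, refl_apply, refl_apply, p_sub', p_sub', p_smul', p_smul', p_comm Q b a] at h1
  have h2 : ((Q a)⁻¹ * ((Q b)⁻¹ * polar Q b y * polar Q a b)) • a =
      ((Q b)⁻¹ * ((Q a)⁻¹ * polar Q a y * polar Q a b)) • b := by
    rw [← sub_eq_zero]
    rw [← sub_eq_zero] at h1
    rw [← h1]
    module
  have h3 : (Q b)⁻¹ * ((Q a)⁻¹ * polar Q a y * polar Q a b) ≠ 0 := by
    rw [p_comm Q a y]
    exact mul_ne_zero (inv_ne_zero hb) (mul_ne_zero (mul_ne_zero (inv_ne_zero ha) hy) hab)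
  apply hli (((Q b)⁻¹ * ((Q a)⁻¹ * polar Q a y * polar Q a b))⁻¹ * ((Q a)⁻¹ * ((Q b)⁻¹ * polar Q b y * polar Q a b)))
  rw [mul_smul, h2, smul_smul, inv_mul_cancel₀ h3, one_smul]

omit [FiniteDimensional F V] [Finite F] in
lemma comm_fix {a b y : V} (ha : Q a ≠ 0) (hb : Q b ≠ 0) (h1 : polar Q a y = 0) (h2 : polar Q b y = 0) :
    ⁅refl Q a ha, refl Q b hb⁆ y = y := by
  rw [commutatorElement_def, refl_inv, refl_inv]
  show refl Q a ha (refl Q b hb (refl Q a ha (refl Q b hb y))) = y
  rw [refl_fix Q b hb y h2, refl_fix Q a ha y h1, refl_fix Q b hb y h2, refl_fix Q a ha y h1]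

omit [FiniteDimensional F V] [Finite F] in
lemma comm_mem {a b : V} (ha : Q a ≠ 0) (hb : Q b ≠ 0) : ⁅refl Q a ha, refl Q b hb⁆ ∈ ⁅O Q, O Q⁆ :=
  Subgroup.commutator_mem_commutator (refl_mem_O _ _ _) (refl_mem_O _ _ _)

omit [Finite F] in
/-- Siegel elements are commutators -/
lemma sie_mem (hQ : ND Q) (h2 : (2 : F) ≠ 0) {u y : V} (hu : Q u = 0) (huy : polar Q u y = 0) :
    sie Q u y ∈ ⁅O Q, O Q⁆ := by
  by_cases hu0 : u = 0
  · have : sie Q u y = 1 := by
      ext x
      rw [sie_apply hu huy, hu0, p_zero']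
      simp
    rw [this]
    exact Subgroup.one_mem _
  by_cases hli : LinearIndependent F ![u, y]
  · obtain ⟨z, hz⟩ := dual hQ hli ![1, 0]
    have z1 : polar Q z u = 1 := hz 0
    have z2 : polar Q z y = 0 := hz 1
    obtain ⟨v, hv⟩ : ∃ v, v = z - Q z • u := ⟨_, rfl⟩
    have v1 : Q v = 0 := by rw [hv, Q_sub, Q_smul, hu, p_smul', z1]; ring
    have v2 : polar Q v u = 1 := by rw [hv, p_sub, p_smul, p_self, hu, z1]; ring
    have v3 : polar Q v y = 0 := by rw [hv, p_sub, p_smul, huy, z2]; ring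
    have v2' : polar Q u v = 1 := by rw [p_comm, v2]
    have ha : Q (u - v) ≠ 0 := by
      rw [Q_sub, hu, v1, v2', zero_add, zero_sub]; exact neg_ne_zero.2 one_ne_zero
    have hb : Q (u + v) ≠ 0 := by
      rw [Q_add, hu, v1, v2', zero_add, zero_add]; exact one_ne_zero
    obtain ⟨h, hh⟩ : ∃ h, h = refl Q (u - v) ha * refl Q (u + v) hb := ⟨_, rfl⟩
    have hhO : h ∈ O Q := by rw [hh]; exact (O Q).mul_mem (refl_mem_O _ _ _) (refl_mem_O _ _ _)
    have hhu : h u = -u := by
      rw [hh]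
      show refl Q (u - v) ha (refl Q (u + v) hb u) = -u
      have e1 : Q (u + v) = 1 := by rw [Q_add, hu, v1, v2', zero_add, zero_add]
      have e2 : Q (u - v) = -1 := by rw [Q_sub, hu, v1, v2', zero_add, zero_sub]
      have e3 : refl Q (u + v) hb u = -v := by
        rw [refl_apply, e1, p_add, p_self, hu, v2]
        simp
      rw [e3, refl_apply, e2, p_neg', p_sub, p_self, v1, v2']
      simp
      abel
    have hhy : h y = y := by
      rw [hh]
      show refl Q (u - v) ha (refl Q (u + v) hb y) = y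
      rw [refl_fix Q _ hb y (by rw [p_add, huy, v3, add_zero]), refl_fix Q _ ha y (by rw [p_sub, huy, v3, sub_zero])]
    obtain ⟨c, hc⟩ : ∃ c : F, c * (-2) = 1 := ⟨(-2)⁻¹, inv_mul_cancel₀ (neg_ne_zero.2 h2)⟩
    have hcy : polar Q u (c • y) = 0 := by rw [p_smul', huy, mul_zero]
    have hcy' : polar Q u (-(c • y)) = 0 := by rw [p_neg', hcy, neg_zero]
    have key : ⁅h, sie Q u (c • y)⁆ = sie Q u y := by
      rw [commutatorElement_def, sie_conj hu hcy hhO, hhu, map_smul, hhy, sie_inv hu hcy]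
      have e4 : sie Q (-u) (c • y) = sie Q u (-(c • y)) := by
        have := sie_smul hu hcy (-1)
        rwa [neg_one_smul, neg_one_smul] at this
      rw [e4, sie_mul hu hcy' hcy']
      congr 1
      have : y = (c * (-2)) • y := by rw [hc, one_smul]
      conv_rhs => rw [this]
      module
    rw [← key]
    exact Subgroup.commutator_mem_commutator hhO (sie_mem_O _ _ _)
  · rw [LinearIndependent.pair_iff' hu0] at hli
    push Not at hli
    obtain ⟨a, ha⟩ := hli
    have : sie Q u y = 1 := by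
      have h3 := sie_add_u hu (p_zero' Q u) a
      rw [zero_add, ha, sie_zero hu] at h3
      exact h3
    rw [this]
    exact Subgroup.one_mem _

/-- moving singular vectors -/
lemma move1 (hQ : ND Q) (h2 : (2 : F) ≠ 0) (hn : 4 ≤ finrank F V) {v w : V} (hv : Q v = 0) (hw : Q w = 0)
    (hvw : polar Q v w ≠ 0) : ∃ h ∈ ⁅O Q, O Q⁆, h v = w := by
  obtain ⟨z, z1, z2, z3⟩ := univ hQ h2 hn hv hvw (-(polar Q v w)⁻¹)
  obtain ⟨x, hx⟩ : ∃ x, x = (polar Q v w)⁻¹ • (v + w) + z := ⟨_, rfl⟩
  have hQx : Q x = 0 := by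
    rw [hx, Q_add, Q_smul, Q_add, hv, hw, p_smul, p_add, p_comm Q v z, p_comm Q w z, z1, z2, z3]
    field_simp
    ring
  have hvx : polar Q v x = 1 := by
    rw [hx, p_add', p_smul', p_add', p_self, hv, p_comm Q v z, z1, mul_zero, zero_add, add_zero,
      inv_mul_cancel₀ hvw]
  have hwx : polar Q w x = 1 := by
    rw [hx, p_add', p_smul', p_add', p_self, hw, p_comm Q w z, z2, mul_zero, add_zero, add_zero, p_comm Q w v,
      inv_mul_cancel₀ hvw]
  obtain ⟨h3, h4⟩ := sie_move hQx hvx hwx (by rw [hv, hw])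
  exact ⟨_, sie_mem hQ h2 hQx h3, h4⟩

/-- transitivity on singular vectors -/
theorem trans_sing (hQ : ND Q) (h2 : (2 : F) ≠ 0) (hn : 4 ≤ finrank F V) {v w : V} (hv : Q v = 0) (hw : Q w = 0)
    (hv0 : v ≠ 0) (hw0 : w ≠ 0) : ∃ h ∈ ⁅O Q, O Q⁆, h v = w := by
  obtain ⟨x, hx, hxv, hxw⟩ := both hQ h2 hn hv hw hv0 hw0
  obtain ⟨h, hh, hhv⟩ := move1 hQ h2 hn hv hx (by rw [p_comm]; exact hxv)
  obtain ⟨h', hh', hhx⟩ := move1 hQ h2 hn hx hw hxw
  exact ⟨h' * h, Subgroup.mul_mem _ hh' hh, by show h' (h v) = w; rw [hhv, hhx]⟩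

end H7.OLow
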