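import Cfsg.Agent.Lib.H7.ExtF2
import Cfsg.Agent.Lib.H7.OLow

set_option autoImplicit false
set_option linter.unusedSectionVars false

/-!
Overgroups of orthogonal groups over an extension field of prime degree.
-/

namespace H7.ExtO

open Module QuadraticMap H48.QuadSplit H95.OGeo H17.OrthAbs H95.OSie H7.OLow H7.ExtF
open scoped commutatorElement

variable {F K V : Type*} [Field F] [Field K] [Algebra F K] [AddCommGroup V] [Module F V] [Module K V]
  [IsScalarTower F K V]

/-- a quadratic form over the extension field and its trace form -/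
structure OE (R : QuadraticForm K V) (l0 : K →ₗ[F] F) (Q : QuadraticForm F V) : Prop where
  nd : ND R
  l00 : l0 ≠ 0
  hQ : ∀ x, Q x = l0 (R x)

variable {R : QuadraticForm K V} {l0 : K →ₗ[F] F} {Q : QuadraticForm F V}

variable (F K V) in
/-- restriction of scalars -/
def rs : (V ≃ₗ[K] V) →* (V ≃ₗ[F] V) where
  toFun g := g.restrictScalars F
  map_one' := rfl
  map_mul' _ _ := rfl

lemma rs_apply (g : V ≃ₗ[K] V) (x : V) : rs F K V g x = g x := rfl

variable (F) in
/-- the group -/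
def HK (R : QuadraticForm K V) : Subgroup (V ≃ₗ[F] V) := (⁅O R, O R⁆).map (rs F K V)

lemma HK_smul {t : V ≃ₗ[F] V} (ht : t ∈ HK F R) (k : K) (x : V) : t (k • x) = k • t x := by
  obtain ⟨g, hg, rfl⟩ := ht
  exact g.map_smul k x

lemma HK_R {t : V ≃ₗ[F] V} (ht : t ∈ HK F R) (x : V) : R (t x) = R x := by
  obtain ⟨g, hg, rfl⟩ := ht
  exact omega_le_O R hg x

lemma HK_polar {t : V ≃ₗ[F] V} (ht : t ∈ HK F R) (x y : V) : polar R (t x) (t y) = polar R x y := by
  obtain ⟨g, hg, rfl⟩ := ht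
  exact polar_map (omega_le_O R hg) x y

/-- Siegel elements over the large field -/
noncomputable def S (F : Type*) [Field F] [Algebra F K] [Module F V] [IsScalarTower F K V] (R : QuadraticForm K V)
    (v z : V) : V ≃ₗ[F] V := rs F K V (sie R v z)

lemma S_apply {v z : V} (hv : R v = 0) (hvz : polar R v z = 0) (x : V) :
    S F R v z x = x + polar R x v • z - polar R x z • v - (R z * polar R x v) • v := sie_apply hv hvz x

namespace OE

lemma hP (h : OE R l0 Q) (x y : V) : polar Q x y = l0 (polar R x y) := by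
  rw [QuadraticMap.polar, QuadraticMap.polar, h.hQ, h.hQ, h.hQ, map_sub, map_sub]

lemma ext (h : OE R l0 Q) {a : K} (ha : ∀ k : K, l0 (k * a) = 0) : a = 0 := by
  by_contra h0
  apply h.l00
  ext x
  have := ha (x * a⁻¹)
  rwa [inv_mul_cancel_right₀ h0] at this

lemma ext' (h : OE R l0 Q) {a b : K} (ha : ∀ k : K, l0 (k * a) = l0 (k * b)) : a = b := by
  rw [← sub_eq_zero]
  apply h.ext
  intro k
  rw [mul_sub, map_sub, ha, sub_self]

lemma smulP (h : OE R l0 Q) (k : K) (x y : V) : polar Q (k • x) y = l0 (k * polar R x y) := by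
  rw [h.hP, p_smul]

lemma smulP' (h : OE R l0 Q) (k : K) (x y : V) : polar Q x (k • y) = l0 (k * polar R x y) := by
  rw [h.hP, p_smul']

lemma ndQ (h : OE R l0 Q) : ND Q := by
  intro x hx
  apply h.nd
  intro y
  apply h.ext
  intro k
  rw [← h.smulP', hx]

lemma HK_O (h : OE R l0 Q) {t : V ≃ₗ[F] V} (ht : t ∈ HK F R) : t ∈ O Q := by
  intro x
  rw [h.hQ, h.hQ, HK_R ht]

lemma HK_om (h : OE R l0 Q) : HK F R ≤ ⁅O Q, O Q⁆ := by
  rw [HK, Subgroup.map_commutator]
  have h1 : (O R).map (rs F K V) ≤ O Q := by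
    rintro _ ⟨g, hg, rfl⟩ x
    rw [h.hQ, h.hQ, rs_apply]
    rw [hg x]
  exact Subgroup.commutator_mono h1 h1

lemma S_mem (h : OE R l0 Q) [FiniteDimensional K V] (h2 : (2 : K) ≠ 0) {v z : V} (hv : R v = 0)
    (hvz : polar R v z = 0) : S F R v z ∈ HK F R := ⟨_, sie_mem h.nd h2 hv hvz, rfl⟩

lemma S_fix {v z y : V} (hv : R v = 0) (hvz : polar R v z = 0) (h1 : polar R y v = 0) (h2 : polar R y z = 0) :
    S F R v z y = y := by
  rw [S_apply hv hvz, h1, h2, mul_zero, zero_smul, zero_smul, add_zero, sub_zero, sub_zero]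

lemma S_ln {v z y : V} (hv : R v = 0) (hvz : polar R v z = 0) (hy : y ∈ ln F K v) : S F R v z y = y := by
  obtain ⟨k, rfl⟩ := mem_ln.1 hy
  exact S_fix hv hvz (by rw [p_smul, p_self, hv, mul_zero, mul_zero]) (by rw [p_smul, hvz, mul_zero])

lemma li2 {x y : V} (hx : x ≠ 0) (hy : y ∉ ln F K x) : LinearIndependent K ![x, y] := by
  rw [LinearIndependent.pair_iff' hx]
  intro a ha
  exact hy (mem_ln.2 ⟨a, ha⟩)

lemma li3 {x y z : V} (hx : x ≠ 0) (hy : y ∉ ln F K x) (hz : ∀ a b : K, z ≠ a • x + b • y) :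
    LinearIndependent K ![x, y, z] := by
  rw [Fintype.linearIndependent_iff]
  intro c hc
  rw [Fin.sum_univ_three] at hc
  simp only [Matrix.cons_val_zero, Matrix.cons_val_one, Matrix.cons_val] at hc
  have hc2 : c 2 = 0 := by
    by_contra hc2
    apply hz (-(c 0) / c 2) (-(c 1) / c 2)
    have h2 : c 2 • z = -(c 0 • x + c 1 • y) := by rw [eq_neg_iff_add_eq_zero, add_comm]; exact hc
    have h3 : z = (c 2)⁻¹ • (c 2 • z) := by rw [smul_smul, inv_mul_cancel₀ hc2, one_smul]
    rw [h3, h2]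
    match_scalars <;> ring
  rw [hc2, zero_smul, add_zero] at hc
  have h4 := LinearIndependent.pair_iff.1 (li2 hx hy) _ _ hc
  intro i
  fin_cases i
  exacts [h4.1, h4.2, hc2]

variable [FiniteDimensional K V]

lemma val2 (h : OE R l0 Q) {x y : V} (hx : x ≠ 0) (hy : y ∉ ln F K x) (c d : K) :
    ∃ z, polar R z x = c ∧ polar R z y = d := by
  obtain ⟨z, hz⟩ := dual h.nd (li2 hx hy) ![c, d]
  exact ⟨z, hz 0, hz 1⟩

lemma val3 (h : OE R l0 Q) {x y z : V} (hx : x ≠ 0) (hy : y ∉ ln F K x) (hz : ∀ a b : K, z ≠ a • x + b • y)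
    (c d e : K) : ∃ u, polar R u x = c ∧ polar R u y = d ∧ polar R u z = e := by
  obtain ⟨u, hu⟩ := dual h.nd (li3 hx hy hz) ![c, d, e]
  exact ⟨u, hu 0, hu 1, hu 2⟩

/-- a subspace invariant under the pointwise stabiliser of a singular line contains the line -/
lemma ln_le (h : OE R l0 Q) (h2 : (2 : K) ≠ 0) (hn : 4 ≤ finrank K V) {v : V} (hv : R v = 0) (hv0 : v ≠ 0)
    {X : Submodule F V} {x : V} (hx : x ∈ X) (hxv : x ∉ ln F K v)
    (hinv : ∀ t ∈ HK F R, (∀ y ∈ ln F K v, t y = y) → ∀ y ∈ X, t y ∈ X) : ln F K v ≤ X := by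
  have key : ∀ z, polar R z v = 0 → ∀ y ∈ X, S F R v z y - y ∈ X := by
    intro z hz y hy
    have hz' : polar R v z = 0 := by rw [p_comm, hz]
    exact X.sub_mem (hinv _ (h.S_mem h2 hv hz') (fun y hy => S_ln hv hz' hy) y hy) hy
  intro y hy
  obtain ⟨k, rfl⟩ := mem_ln.1 hy
  by_cases hxv' : polar R x v = 0
  · obtain ⟨z, z1, z2⟩ := h.val2 hv0 hxv 0 (-k)
    have h3 := key z z1 x hx
    rw [S_apply hv (by rw [p_comm, z1]), hxv', p_comm R x z, z2] at h3
    convert h3 using 1
    module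
  · obtain ⟨e, e1, e2⟩ := ns1 h.nd (by omega) v
    have e1' : polar R v e = 0 := by rw [p_comm, e1]
    obtain ⟨x1, hx1⟩ : ∃ x1, x1 = S F R v e x - x := ⟨_, rfl⟩
    have h3 : x1 ∈ X := by rw [hx1]; exact key e e1 x hx
    have hx1' : x1 = polar R x v • e - (polar R x e + R e * polar R x v) • v := by
      rw [hx1, S_apply hv e1']; module
    have h4 : polar R x1 v = 0 := by
      rw [hx1', p_sub, p_smul, p_smul, e1, p_self, hv]; ring
    have h5 : polar R x1 e = polar R x v * (2 * R e) := by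
      rw [hx1', p_sub, p_smul, p_smul, e1', p_self]; ring
    obtain ⟨μ, hμ⟩ : ∃ μ : K, μ * (polar R x v * (2 * R e)) = -k :=
      ⟨-k / (polar R x v * (2 * R e)), div_mul_cancel₀ _ (mul_ne_zero hxv' (mul_ne_zero h2 e2))⟩
    have h6 := key (μ • e) (by rw [p_smul, e1, mul_zero]) x1 h3
    rw [S_apply hv (by rw [p_smul', e1', mul_zero]), h4, p_smul', h5, hμ] at h6
    convert h6 using 1
    module

lemma inv_le (h : OE R l0 Q) (h2 : (2 : K) ≠ 0) (hn : 4 ≤ finrank K V) [FiniteDimensional F V] {v : V}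
    (hv : R v = 0) (hv0 : v ≠ 0) (X : Submodule F V) (hX : finrank F X = finrank F K)
    (hinv : ∀ t ∈ HK F R, (∀ y ∈ ln F K v, t y = y) → ∀ y ∈ X, t y ∈ X) : X ≤ ln F K v := by
  intro x hx
  by_contra hxv
  have h1 := h.ln_le h2 hn hv hv0 hx hxv hinv
  have h2 := Submodule.eq_of_le_of_finrank_eq h1 (by rw [finrank_ln hv0, hX])
  exact hxv (by rw [h2]; exact hx)

/-- the second statement in the orthogonal case -/
lemma s2b (h : OE R l0 Q) (h2 : (2 : K) ≠ 0) [FiniteDimensional F V] [FiniteDimensional F K]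
    (hr : (finrank F K).Prime) {v : V} (hv : R v = 0) (hv0 : v ≠ 0) (D : Submodule F V) (hD : D ≤ ln F K v)
    (hD0 : D ≠ ⊥) (hD1 : D ≠ ln F K v) (X : Submodule F V)
    (hw : ∃ w ∈ X, w ∉ ln F K v) (hXD : X ⊓ ln F K v = D) (hX0 : ∀ y ∈ X, polar R y v = 0)
    (hinv : ∀ w ∈ X, w ∉ ln F K v → ∀ t ∈ HK F R, (∀ y ∈ ln F K v, t y = y) → t w - w ∈ D → ∀ y ∈ X, t y ∈ X) :
    finrank F X ≤ finrank F D + 1 := by
  let C : Submodule F K := D.comap ((LinearMap.toSpanSingleton K V v).restrictScalars F)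
  have hC : ∀ c : K, c ∈ C ↔ c • v ∈ D := fun c => Iff.rfl
  have hC0 : C ≠ ⊥ := by
    intro h0
    obtain ⟨d, hd, hd0⟩ := (Submodule.ne_bot_iff D).1 hD0
    obtain ⟨c, rfl⟩ := mem_ln.1 (hD hd)
    have : c ∈ C := (hC c).2 hd
    rw [h0, Submodule.mem_bot] at this
    rw [this, zero_smul] at hd0
    exact hd0 rfl
  have hC1' : ∀ _ : K, (∀ k : K, k • v ∈ D) → False := by
    intro _ h1
    apply hD1
    apply le_antisymm hD
    intro y hy
    obtain ⟨k, rfl⟩ := mem_ln.1 hy
    exact h1 k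
  have hC1 : C ≠ ⊤ := by
    intro h0
    exact hC1' 0 (fun k => (hC k).1 (by rw [h0]; exact Submodule.mem_top))
  suffices hs : ∃ w ∈ X, ∀ y ∈ X, ∃ a : F, y - a • w ∈ D by
    obtain ⟨w, hwX, hy⟩ := hs
    have h1 : X ≤ D ⊔ Submodule.span F {w} := by
      intro y hyX
      obtain ⟨a, ha⟩ := hy y hyX
      rw [Submodule.mem_sup]
      exact ⟨_, ha, a • w, Submodule.mem_span_singleton.2 ⟨a, rfl⟩, by abel⟩
    have h2 := Submodule.finrank_mono h1
    have h3 := Submodule.finrank_add_le_finrank_add_finrank D (Submodule.span F {w})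
    have h4 := finrank_span_le_card (R := F) ({w} : Set V)
    simp at h4
    omega
  obtain ⟨w, hwX, hwL⟩ := hw
  -- the effect of Siegel elements
  have key : ∀ z, polar R z v = 0 → (-(polar R z w)) • v ∈ D → ∀ y ∈ X, (-(polar R z y)) • v ∈ D := by
    intro z z0 z1 y hy
    have z0' : polar R v z = 0 := by rw [p_comm, z0]
    have e1 : ∀ y ∈ X, S F R v z y - y = (-(polar R z y)) • v := by
      intro y hy
      rw [S_apply hv z0', hX0 y hy, p_comm R y z]; module
    have h3 := X.sub_mem (hinv w hwX hwL _ (h.S_mem h2 hv z0') (fun y hy => S_ln hv z0' hy)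
      (by rw [e1 w hwX]; exact z1) y hy) hy
    rw [e1 y hy] at h3
    rw [← hXD]
    exact ⟨h3, smul_mem_ln _ _⟩
  refine ⟨w, hwX, fun y hy => ?_⟩
  have hsp : ∃ a b : K, y = a • v + b • w := by
    by_contra hcon
    push Not at hcon
    apply hC1' 0
    intro k
    obtain ⟨z, z0, z1, z2⟩ := h.val3 hv0 hwL hcon 0 0 (-k)
    have := key z z0 (by rw [z1, neg_zero, zero_smul]; exact D.zero_mem) y hy
    rwa [z2, neg_neg] at this
  obtain ⟨a, b, hab⟩ := hsp
  obtain ⟨f, hf⟩ := stab hr hC0 hC1 (x := b) (by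
    intro c hc
    rw [hC] at hc ⊢
    obtain ⟨z, z0, z1⟩ := h.val2 hv0 hwL 0 (-c)
    have := key z z0 (by rw [z1, neg_neg]; exact hc) y hy
    rw [hab, p_add', p_smul', p_smul', z0, z1] at this
    convert this using 2
    ring)
  refine ⟨f, ?_⟩
  rw [← hXD]
  refine ⟨X.sub_mem hy (X.smul_mem _ hwX), ?_⟩
  rw [hab, ← hf, algebraMap_smul, add_sub_cancel_right]
  exact smul_mem_ln _ _

/-- mixed spaces are impossible -/
lemma lemB (h : OE R l0 Q) (h2 : (2 : K) ≠ 0) (hn : 4 ≤ finrank K V) [FiniteDimensional F V]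
    [FiniteDimensional F K] {v : V} (hv : R v = 0) (hv0 : v ≠ 0) (D : Submodule F V)
    (X : Submodule F V) (hX : finrank F X = finrank F K)
    (hinv : ∀ w ∈ X, w ∉ ln F K v → ∀ t ∈ HK F R, (∀ y ∈ ln F K v, t y = y) → t w - w ∈ D → ∀ y ∈ X, t y ∈ X)
    {w : V} (hw : w ∈ X) (hwv : polar R w v ≠ 0) {y : V} (hy : y ∈ X) (hyv : polar R y v = 0) : y ∈ ln F K v := by
  by_contra hyL
  -- a vector orthogonal to `v` and `y`, not in the line
  obtain ⟨z, z1, z2, z3⟩ : ∃ z, polar R z v = 0 ∧ polar R z y = 0 ∧ z ∉ ln F K v := by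
    by_contra hcon
    push Not at hcon
    have h3 : orth R (Submodule.span K (Set.range ![v, y])) ≤ Submodule.span K {v} := by
      intro z hz
      rw [mem_orth_range] at hz
      exact hcon z (hz 0) (hz 1)
    have h4 := Submodule.finrank_mono h3
    rw [finrank_span_singleton hv0] at h4
    have h5 := finrank_orth h.nd (Submodule.span K (Set.range ![v, y]))
    have h6 := finrank_range_le (F := K) ![v, y]
    omega
  have z1' : polar R v z = 0 := by rw [p_comm, z1]
  obtain ⟨z', f1, f2⟩ := h.val2 hv0 z3 0 1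
  -- the functional
  let φ : X →ₗ[F] K × K :=
    { toFun := fun x => (polar R (x : V) v, polar R (x : V) z')
      map_add' := fun a b => by
        rw [Submodule.coe_add, p_add, p_add]; rfl
      map_smul' := fun a b => by
        rw [Submodule.coe_smul, ← algebraMap_smul K a (b : V), p_smul, p_smul]
        ext
        · show _ = a • polar R (b : V) v
          rw [Algebra.smul_def]
        · show _ = a • polar R (b : V) z'
          rw [Algebra.smul_def] }
  have hφ : ∀ x, φ x = (polar R (x : V) v, polar R (x : V) z') := fun x => rfl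
  have h3 : ∀ k : K, ((0 : K), k) ∈ LinearMap.range φ := by
    intro k
    obtain ⟨μ, hμ⟩ : ∃ μ : K, polar R w v * μ = k := ⟨k / polar R w v, mul_div_cancel₀ _ hwv⟩
    have z4 : polar R v (μ • z) = 0 := by rw [p_smul', z1', mul_zero]
    have hty : S F R v (μ • z) y = y := S_fix hv z4 hyv (by rw [p_smul', p_comm, z2, mul_zero])
    have h5 := X.sub_mem (hinv y hy hyL _ (h.S_mem h2 hv z4) (fun y hy => S_ln hv z4 hy)
      (by rw [hty, sub_self]; exact D.zero_mem) w hw) hw
    refine ⟨⟨_, h5⟩, ?_⟩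
    rw [hφ]
    have h6 : S F R v (μ • z) w - w = (polar R w v * μ) • z - (polar R w (μ • z) + R (μ • z) * polar R w v) • v := by
      rw [S_apply hv z4]; module
    show (polar R (S F R v (μ • z) w - w) v, polar R (S F R v (μ • z) w - w) z') = _
    rw [h6, p_sub, p_sub, p_smul, p_smul, p_smul, p_smul, z1, p_self, hv, p_comm R z z', f2, p_comm R v z', f1, hμ]
    ext
    · show k * 0 - _ * (2 * 0) = 0
      ring
    · show k * 1 - _ * 0 = k
      ring
  have h4 : LinearMap.range (LinearMap.inr F K K) < LinearMap.range φ := by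
    rw [SetLike.lt_iff_le_and_exists]
    refine ⟨?_, ?_⟩
    · rintro _ ⟨k, rfl⟩
      exact h3 k
    · refine ⟨φ ⟨w, hw⟩, ⟨_, rfl⟩, ?_⟩
      rintro ⟨k, hk⟩
      rw [hφ] at hk
      exact hwv (congrArg Prod.fst hk).symm
  have h5 := Submodule.finrank_lt_finrank_of_lt h4
  rw [LinearMap.finrank_range_of_inj LinearMap.inr_injective] at h5
  have h6 := LinearMap.finrank_range_le φ
  omega

end OE

end H7.ExtO
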