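import Cfsg.Agent.Lib.H7.ExtO

set_option autoImplicit false
set_option linter.unusedSectionVars false

/-!
Overgroups of orthogonal groups over an extension field of prime degree: reaching a hyperplane of a line.
-/

namespace H7.ExtO

open Module QuadraticMap H48.QuadSplit H95.OGeo H17.OrthAbs H95.OSie H7.OLow H7.ExtF
open scoped commutatorElement

variable {F K V : Type*} [Field F] [Field K] [Algebra F K] [AddCommGroup V] [Module F V] [Module K V]
  [IsScalarTower F K V]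
variable {R : QuadraticForm K V} {l0 : K →ₗ[F] F} {Q : QuadraticForm F V}

lemma exists_t [Finite K] (hK : 3 < Nat.card K) : ∃ t : K, t ≠ 0 ∧ t * t ≠ 1 := by
  classical
  by_contra hcon
  push Not at hcon
  have : Fintype K := Fintype.ofFinite K
  have h1 : (Finset.univ : Finset K) ⊆ {0, 1, -1} := by
    intro t _
    simp only [Finset.mem_insert, Finset.mem_singleton]
    by_cases ht : t = 0
    · exact Or.inl ht
    · right
      have := hcon t ht
      have h2 : (t - 1) * (t + 1) = 0 := by linear_combination this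
      rcases mul_eq_zero.1 h2 with h3 | h3
      · exact Or.inl (sub_eq_zero.1 h3)
      · exact Or.inr (eq_neg_of_add_eq_zero_left h3)
  have h2 := Finset.card_le_card h1
  have h3 : ({0, 1, -1} : Finset K).card ≤ 3 := Finset.card_le_three
  rw [Finset.card_univ, ← Nat.card_eq_fintype_card] at h2
  omega

namespace OE

variable [FiniteDimensional K V]

lemma not_ln {v w : V} (hv : R v = 0) (hwv : polar R w v ≠ 0) : w ∉ ln F K v := by
  intro h
  obtain ⟨k, rfl⟩ := mem_ln.1 h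
  rw [p_smul, p_self, hv, mul_zero, mul_zero] at hwv
  exact hwv rfl

/-- the space lies in a plane -/
lemma lemC (h : OE R l0 Q) [Finite K] (h2 : (2 : K) ≠ 0) (hn : 4 ≤ finrank K V) (ht : ∃ t : K, t ≠ 0 ∧ t * t ≠ 1)
    [FiniteDimensional F V]
    [FiniteDimensional F K] {v : V} (hv : R v = 0) (hv0 : v ≠ 0) (D : Submodule F V)
    (X : Submodule F V) (hX : finrank F X = finrank F K)
    (hinv : ∀ w ∈ X, w ∉ ln F K v → ∀ t ∈ HK F R, (∀ y ∈ ln F K v, t y = y) → t w - w ∈ D → ∀ y ∈ X, t y ∈ X)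
    {w : V} (hw : w ∈ X) (hwv : polar R w v ≠ 0) {y : V} (hy : y ∈ X) {z : V} (hzv : polar R z v = 0)
    (hzw : polar R z w = 0) : polar R y z = 0 := by
  by_contra hyz
  have hvw : polar R v w ≠ 0 := by rw [p_comm]; exact hwv
  obtain ⟨a, b, a1, a2, b1, b2, ha, hb, hab, hli, hya⟩ := pair_ab h.nd h2 hn ht hv hvw hzv hzw hyz
  obtain ⟨t, htd⟩ : ∃ t, t = rs F K V ⁅H17.OrthAbs.refl R a ha, H17.OrthAbs.refl R b hb⁆ := ⟨_, rfl⟩
  have htm : t ∈ HK F R := ⟨_, comm_mem ha hb, htd.symm⟩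
  have htv : t v = v := by rw [htd, rs_apply]; exact comm_fix ha hb a1 b1
  have htw : t w = w := by rw [htd, rs_apply]; exact comm_fix ha hb a2 b2
  have htl : ∀ y ∈ ln F K v, t y = y := by
    intro y hy
    obtain ⟨k, rfl⟩ := mem_ln.1 hy
    rw [HK_smul htm, htv]
  have h3 := hinv w hw (not_ln hv hwv) t htm htl (by rw [htw, sub_self]; exact D.zero_mem) y hy
  have h4 : polar R (t y - y) v = 0 := by
    rw [p_sub]
    have := HK_polar htm y v
    rw [htv] at this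
    rw [this, sub_self]
  have h5 := h.lemB h2 hn hv hv0 D X hX hinv hw hwv (X.sub_mem h3 hy) h4
  obtain ⟨k, hk⟩ := mem_ln.1 h5
  have h6 : polar R (t y - y) w = 0 := by
    rw [p_sub]
    have := HK_polar htm y w
    rw [htw] at this
    rw [this, sub_self]
  rw [← hk, p_smul] at h6
  have h7 : k = 0 := (mul_eq_zero.1 h6).resolve_right hvw
  rw [h7, zero_smul, eq_comm, sub_eq_zero, htd, rs_apply] at hk
  exact comm_move ha hb hab hli hya hk

/-- getting into the orthogonal case -/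
lemma convert (h : OE R l0 Q) [Finite K] (h2 : (2 : K) ≠ 0) (hn : 4 ≤ finrank K V)
    {M : Subgroup (V ≃ₗ[F] V)} (hHM : HK F R ≤ M) (hMO : M ≤ O Q) {v : V} (hv : R v = 0)
    {D : Submodule F V} (hD : D ≤ ln F K v) (hD0 : D ≠ ⊥) {g : V ≃ₗ[F] V} (hg : g ∈ M) (hgD : ∀ d ∈ D, g d = d)
    {u : V} (hu : u ∈ ln F K v) (hwv : polar R (g u) v ≠ 0)
    (hU : ∀ y ∈ ln F K v, ∀ z, polar R z v = 0 → polar R z (g u) = 0 → polar R (g y) z = 0) :
    ∃ g' ∈ M, (∀ d ∈ D, g' d = d) ∧ g' u ∉ ln F K v ∧ polar R (g' u) v = 0 := by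
  obtain ⟨w, hw⟩ : ∃ w, w = g u := ⟨_, rfl⟩
  rw [← hw] at hwv hU
  obtain ⟨n, hnn⟩ : ∃ n, n = polar R w v := ⟨_, rfl⟩
  have hn0 : n ≠ 0 := by rw [hnn]; exact hwv
  have hvw : polar R v w ≠ 0 := by rw [p_comm]; exact hwv
  obtain ⟨d, hd, hd0⟩ := (Submodule.ne_bot_iff D).1 hD0
  obtain ⟨c, hc⟩ := mem_ln.1 (hD hd)
  have hc0 : c ≠ 0 := by
    rintro rfl
    rw [zero_smul] at hc
    exact hd0 hc.symm
  obtain ⟨z, z1, z2, z3⟩ := univ h.nd h2 hn hv hvw (c / n)
  have z1' : polar R v z = 0 := by rw [p_comm, z1]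
  have hgD' : ∀ d ∈ D, g⁻¹ d = d := fun d hd => by
    conv_lhs => rw [← hgD d hd]
    rw [inv_apply]
  have hginv : ∀ x y, polar Q (g⁻¹ x) y = polar Q x (g y) := fun x y => by
    rw [← polar_map (hMO hg), apply_inv]
  have e1 : polar R (g⁻¹ (n • z)) v = 0 := by
    apply h.ext
    intro k
    rw [← h.smulP', hginv, h.smulP, p_comm R z, hU _ (smul_mem_ln v k) z z1 z2, mul_zero, map_zero]
  have e2 : g⁻¹ (S F R v z w) = u + g⁻¹ (n • z) - c • v := by
    have e3 : S F R v z w = w + n • z - c • v := by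
      rw [S_apply hv z1', p_comm R w z, z2, z3, ← hnn, div_mul_cancel₀ _ hn0, zero_smul, sub_zero]
    rw [e3, map_sub, map_add, hc, hgD' d hd, hw, inv_apply]
  refine ⟨g⁻¹ * S F R v z * g, M.mul_mem (M.mul_mem (M.inv_mem hg) (hHM (h.S_mem h2 hv z1'))) hg, fun d hd => ?_,
    ?_, ?_⟩
  · show g⁻¹ (S F R v z (g d)) = d
    rw [hgD d hd, S_ln hv z1' (hD hd), hgD' d hd]
  · show g⁻¹ (S F R v z (g u)) ∉ _
    rw [← hw, e2]
    intro h3
    have h4 : g⁻¹ (n • z) ∈ ln F K v := by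
      have := Submodule.sub_mem _ (Submodule.add_mem _ h3 (smul_mem_ln v c)) hu
      rwa [sub_add_cancel, add_sub_cancel_left] at this
    have h5 := hU _ h4 z z1 z2
    rw [apply_inv, p_smul, p_self, z3, mul_left_comm, mul_div_cancel₀ _ hn0] at h5
    exact mul_ne_zero h2 hc0 h5
  · show polar R (g⁻¹ (S F R v z (g u))) v = 0
    rw [← hw, e2, p_sub, p_add, e1, p_smul, p_self, hv]
    obtain ⟨k, rfl⟩ := mem_ln.1 hu
    rw [p_smul, p_self, hv]; ring

/-- going up -/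
theorem step (h : OE R l0 Q) [Finite K] (h2 : (2 : K) ≠ 0) (hn : 4 ≤ finrank K V) (ht : ∃ t : K, t ≠ 0 ∧ t * t ≠ 1)
    [FiniteDimensional F V] [FiniteDimensional F K] (hr : (finrank F K).Prime) {M : Subgroup (V ≃ₗ[F] V)}
    (hHM : HK F R ≤ M) (hMO : M ≤ O Q) {v : V} (hv : R v = 0) (hv0 : v ≠ 0) {k : ℕ} (hk : 1 ≤ k)
    (hkr : k + 1 < finrank F K)
    (hP : ∃ D ≤ ln F K v, finrank F D = k ∧ ∃ g ∈ M, (∀ d ∈ D, g d = d) ∧ ∃ u ∈ ln F K v, g u ∉ ln F K v) :
    ∃ D ≤ ln F K v, finrank F D = k + 1 ∧ ∃ g ∈ M, (∀ d ∈ D, g d = d) ∧ ∃ u ∈ ln F K v, g u ∉ ln F K v := by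
  by_contra hcon
  have h0 : ∀ D ≤ ln F K v, finrank F D = k + 1 → ∀ g ∈ M, (∀ d ∈ D, g d = d) → ∀ u ∈ ln F K v, g u ∈ ln F K v := by
    intro D hD hDk g hg hgD u hu
    by_contra hgu
    exact hcon ⟨D, hD, hDk, g, hg, hgD, u, hu, hgu⟩
  obtain ⟨D, hD, hDk, g, hg, hgD, u, hu, hgu⟩ := hP
  have hL := finrank_ln (F := F) (K := K) hv0
  have hD0 : D ≠ ⊥ := by
    rintro rfl
    rw [finrank_bot] at hDk
    omega
  have hD1 : D ≠ ln F K v := by
    rintro rfl
    omega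
  have hXr : ∀ g : V ≃ₗ[F] V, finrank F ((ln F K v).map (g : V →ₗ[F] V)) = finrank F K := fun g => by
    rw [LinearEquiv.finrank_map_eq g, hL]
  have hS1 := fun X hX hinv => h.inv_le h2 hn hv hv0 X hX hinv
  -- the orthogonal case is impossible
  have hb : ∀ g ∈ M, (∀ d ∈ D, g d = d) → ∀ u ∈ ln F K v, g u ∉ ln F K v → ∃ y ∈ ln F K v, polar R (g y) v ≠ 0 := by
    intro g hg hgD u hu hgu
    by_contra hcon
    push Not at hcon
    obtain ⟨h3, h4⟩ := step_inv hHM hv0 hS1 h0 hD hDk hg hgD hu hgu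
    have h5 := h.s2b h2 hr hv hv0 D hD hD0 hD1 ((ln F K v).map (g : V →ₗ[F] V)) ⟨g u, ⟨u, hu, rfl⟩, hgu⟩ h3
      (by rintro _ ⟨x, hx, rfl⟩; exact hcon x hx) h4
    rw [hXr, hDk] at h5
    omega
  obtain ⟨u1, hu1, hwv⟩ := hb g hg hgD u hu hgu
  obtain ⟨h3, h4⟩ := step_inv hHM hv0 hS1 h0 hD hDk hg hgD hu hgu
  obtain ⟨g', hg', hgD', h5, h6⟩ := h.convert h2 hn hHM hMO hv hD hD0 hg hgD hu1 hwv (fun y hy z hz hzw =>
    h.lemC h2 hn ht hv hv0 D _ (hXr g) h4 (w := g u1) ⟨u1, hu1, rfl⟩ hwv (y := g y) ⟨y, hy, rfl⟩ hz hzw)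
  obtain ⟨y, hy, hyv⟩ := hb g' hg' hgD' u1 hu1 h5
  obtain ⟨h7, h8⟩ := step_inv hHM hv0 hS1 h0 hD hDk hg' hgD' hu1 h5
  exact h5 (h.lemB h2 hn hv hv0 D _ (hXr g') h8 (w := g' y) ⟨y, hy, rfl⟩ hyv ⟨u1, hu1, rfl⟩ h6)

/-- an isometry preserving the singular lines is semilinear -/
lemma semilin_of (h : OE R l0 Q) [Finite K] (h2 : (2 : K) ≠ 0) (hn : 4 ≤ finrank K V) [FiniteDimensional F V]
    {g : V ≃ₗ[F] V} (hg : g ∈ O Q) (hs : ∀ v, R v = 0 → ∀ k : K, g (k • v) ∈ ln F K (g v)) (x : V) (k : K) :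
    g (k • x) ∈ ln F K (g x) := by
  obtain ⟨v, hv0, hv, -⟩ := exists_sing1 h.nd hn (0 : V)
  obtain ⟨u, hu⟩ : ∃ u, polar R u v = 1 := by
    obtain ⟨u, hu⟩ : ∃ u, polar R u v ≠ 0 := by
      by_contra hcon; push Not at hcon
      exact hv0 (h.nd v fun x => by rw [p_comm]; exact hcon x)
    exact ⟨(polar R u v)⁻¹ • u, by rw [p_smul, inv_mul_cancel₀ hu]⟩
  obtain ⟨v', hv'⟩ : ∃ v', v' = u - R u • v := ⟨_, rfl⟩
  have w1 : R v' = 0 := by rw [hv', Q_sub, Q_smul, hv, p_smul', hu]; ring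
  have w2 : polar R v' v = 1 := by rw [hv', p_sub, p_smul, p_self, hv, hu]; ring
  have w2' : polar R v v' = 1 := by rw [p_comm, w2]
  have hv'0 : v' ≠ 0 := by
    rintro h0
    rw [h0, p_zero] at w2
    exact zero_ne_one w2
  -- images of lines
  have himg : ∀ v, R v = 0 → v ≠ 0 → ∀ k : K, ∃ y ∈ ln F K v, g y = k • g v := by
    intro v hv hv0 k
    have h3 : (ln F K v).map (g : V →ₗ[F] V) ≤ ln F K (g v) := by
      rintro _ ⟨y, hy, rfl⟩
      obtain ⟨l, rfl⟩ := mem_ln.1 hy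
      exact hs v hv l
    have hgv0 : g v ≠ 0 := fun h0 => hv0 ((LinearEquiv.map_eq_zero_iff g).1 h0)
    have h4 := Submodule.eq_of_le_of_finrank_eq h3 (by
      rw [LinearEquiv.finrank_map_eq g, finrank_ln hv0, finrank_ln hgv0])
    have h5 := smul_mem_ln (F := F) (g v) k
    rw [← h4] at h5
    obtain ⟨y, hy, hyk⟩ := h5
    exact ⟨y, hy, hyk⟩
  have hpm : ∀ x y, polar Q (g x) (g y) = polar Q x y := fun x y => polar_map hg x y
  -- orthogonality is preserved in one direction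
  have horth : ∀ v, R v = 0 → v ≠ 0 → ∀ z, polar R z v = 0 → polar R (g z) (g v) = 0 := by
    intro v hv hv0 z hz
    apply h.ext
    intro k
    obtain ⟨y, hy, hyk⟩ := himg v hv hv0 k
    obtain ⟨l, rfl⟩ := mem_ln.1 hy
    rw [← h.smulP', ← hyk, hpm, h.smulP', hz, mul_zero, map_zero]
  obtain ⟨β, hβ⟩ : ∃ β, β = polar R (g v) (g v') := ⟨_, rfl⟩
  have hα : ∀ k : K, ∃ a : K, g (k • v) = a • g v := fun k => by
    obtain ⟨a, ha⟩ := mem_ln.1 (hs v hv k)
    exact ⟨a, ha.symm⟩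
  choose α hα using hα
  have hγ : ∀ k : K, ∃ a : K, g (k • v') = a • g v' := fun k => by
    obtain ⟨a, ha⟩ := mem_ln.1 (hs v' w1 k)
    exact ⟨a, ha.symm⟩
  choose γ hγ using hγ
  have hβ0 : β ≠ 0 := by
    intro h0
    apply h.l00
    ext k
    have h3 := hpm v (k • v')
    rw [hγ, h.smulP', h.smulP', w2', mul_one, ← hβ, h0, mul_zero, map_zero] at h3
    exact h3.symm
  have hβ' : polar R (g v') (g v) = β := by rw [hβ, p_comm]
  have s1 : polar R (g v) (g v) = 0 := horth v hv hv0 v (by rw [p_self, hv, mul_zero])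
  have s2 : polar R (g v') (g v') = 0 := horth v' w1 hv'0 v' (by rw [p_self, w1, mul_zero])
  have key : ∀ z, polar R z v = 0 → polar R z v' = 0 → ∀ k : K, g (k • z) = α k • g z ∧
      γ (k * R z) = α k * γ (R z) := by
    intro z z1 z2 k
    have z1' : polar R v z = 0 := by rw [p_comm, z1]
    have hsing : R (v + z - R z • v') = 0 := by
      rw [Q_sub, Q_add, Q_smul, hv, w1, p_smul', p_add, w2', z2, z1']; ring
    obtain ⟨θ, hθ⟩ := mem_ln.1 (hs _ hsing k)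
    have e1 : g (k • (v + z - R z • v')) = α k • g v + g (k • z) - γ (k * R z) • g v' := by
      rw [smul_sub, smul_add, smul_smul, map_sub, map_add, hα, hγ]
    have e2 : g (v + z - R z • v') = g v + g z - γ (R z) • g v' := by
      rw [map_sub, map_add, hγ]
    rw [e1, e2] at hθ
    have k1 : polar R (g (k • z)) (g v) = 0 := horth v hv hv0 _ (by rw [p_smul, z1, mul_zero])
    have k2 : polar R (g (k • z)) (g v') = 0 := horth v' w1 hv'0 _ (by rw [p_smul, z2, mul_zero])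
    have k3 : polar R (g z) (g v) = 0 := horth v hv hv0 _ z1
    have k4 : polar R (g z) (g v') = 0 := horth v' w1 hv'0 _ z2
    have h3 := congrArg (fun x => polar R x (g v')) hθ
    simp only [p_smul, p_sub, p_add, k2, k4, s2, mul_zero, sub_zero, add_zero, ← hβ] at h3
    have h4 : θ = α k := mul_right_cancel₀ hβ0 h3
    have h5 := congrArg (fun x => polar R x (g v)) hθ
    simp only [p_smul, p_sub, p_add, k1, k3, s1, mul_zero, add_zero, zero_sub, mul_neg, neg_inj, hβ', h4,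
      ← mul_assoc] at h5
    have h6 := mul_right_cancel₀ hβ0 h5
    refine ⟨?_, h6.symm⟩
    rw [h4, smul_sub, smul_add, smul_smul, h6] at hθ
    have h7 := sub_left_inj.1 hθ
    exact (add_right_inj _).1 h7.symm
  have hγ' : ∀ k s : K, γ (k * s) = α k * γ s := by
    intro k s
    obtain ⟨z, z1, z2, z3⟩ := univ h.nd h2 hn hv (w := v') (by rw [w2']; exact one_ne_zero) s
    have := (key z z1 z2 k).2
    rwa [z3] at this
  have hα' : ∀ k s : K, α (k * s) = α k * α s := by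
    intro k s
    obtain ⟨z, z1, z2, z3⟩ := univ h.nd h2 hn hv (w := v') (by rw [w2']; exact one_ne_zero) (1 : K)
    have hz0 : g z ≠ 0 := by
      intro h0
      rw [LinearEquiv.map_eq_zero_iff] at h0
      rw [h0, map_zero] at z3
      exact zero_ne_one z3
    have e1 := (key z z1 z2 (k * s)).1
    have e2 := (key (s • z) (by rw [p_smul, z1, mul_zero]) (by rw [p_smul, z2, mul_zero]) k).1
    rw [(key z z1 z2 s).1, smul_smul, smul_smul, e1] at e2
    exact smul_left_injective K hz0 e2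
  refine mem_ln.2 ⟨α k, ?_⟩
  obtain ⟨z, hz⟩ : ∃ z, z = x - polar R x v' • v - polar R x v • v' := ⟨_, rfl⟩
  have hx : x = polar R x v' • v + polar R x v • v' + z := by rw [hz]; abel
  have z1 : polar R z v = 0 := by rw [hz, p_sub, p_sub, p_smul, p_smul, p_self, hv, w2]; ring
  have z2 : polar R z v' = 0 := by rw [hz, p_sub, p_sub, p_smul, p_smul, p_self, w1, w2']; ring
  obtain ⟨s, hs'⟩ : ∃ s, s = polar R x v' := ⟨_, rfl⟩
  obtain ⟨s', hs''⟩ : ∃ s', s' = polar R x v := ⟨_, rfl⟩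
  rw [← hs', ← hs''] at hx
  rw [hx, smul_add, smul_add, smul_smul, smul_smul, map_add, map_add, map_add, map_add, hα, hγ, hα, hγ,
    (key z z1 z2 k).1, hα', hγ', smul_add, smul_add, smul_smul, smul_smul]

/-- the first hyperplane -/
lemma first (h : OE R l0 Q) [Finite K] (h2 : (2 : K) ≠ 0) (hn : 4 ≤ finrank K V) [FiniteDimensional F V]
    {M : Subgroup (V ≃ₗ[F] V)} (hHM : HK F R ≤ M) (hMO : M ≤ O Q)
    (hM : ∃ g ∈ M, ∃ x : V, ∃ k : K, g (k • x) ∉ ln F K (g x)) :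
    ∃ v, R v = 0 ∧ v ≠ 0 ∧ ∃ g ∈ M, g v = v ∧ ∃ u ∈ ln F K v, g u ∉ ln F K v := by
  obtain ⟨g, hg, x, k, hgx⟩ := hM
  obtain ⟨v, hv, k, hgk⟩ : ∃ v, R v = 0 ∧ ∃ k : K, g (k • v) ∉ ln F K (g v) := by
    by_contra hcon
    push Not at hcon
    exact hgx (h.semilin_of h2 hn (hMO hg) hcon x k)
  have hv0 : v ≠ 0 := by
    rintro rfl
    rw [smul_zero, map_zero] at hgk
    exact hgk (Submodule.zero_mem _)
  refine ⟨v, hv, hv0, ?_⟩
  by_contra hcon
  have h0 : ∀ g ∈ M, g v = v → ∀ u ∈ ln F K v, g u ∈ ln F K v := by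
    intro g hg hgv u hu
    by_contra hgu
    exact hcon ⟨g, hg, hgv, u, hu, hgu⟩
  obtain ⟨w, hw⟩ : ∃ w, w = g v := ⟨_, rfl⟩
  have hw0 : w ≠ 0 := fun h0 => hv0 ((LinearEquiv.map_eq_zero_iff g).1 (hw ▸ h0))
  obtain ⟨X, hX⟩ : ∃ X, X = (ln F K v).map (g : V →ₗ[F] V) := ⟨_, rfl⟩
  have hXr : finrank F X = finrank F K := by rw [hX, LinearEquiv.finrank_map_eq g, finrank_ln hv0]
  have hwX : w ∈ X := by rw [hX, hw]; exact ⟨v, self_mem_ln v, rfl⟩
  have hinv : ∀ t ∈ HK F R, t w = w → ∀ y ∈ X, t y ∈ X := by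
    intro t ht htw y hy
    rw [hX] at hy ⊢
    obtain ⟨x, hx, rfl⟩ := hy
    have h3 := h0 (g⁻¹ * t * g) (M.mul_mem (M.mul_mem (M.inv_mem hg) (hHM ht)) hg) (by
      show g⁻¹ (t (g v)) = v
      rw [← hw, htw, hw, inv_apply]) x hx
    refine ⟨_, h3, ?_⟩
    show g (g⁻¹ (t (g x))) = t (g x)
    rw [apply_inv]
  have hyX : g (k • v) ∈ X := by rw [hX]; exact ⟨k • v, smul_mem_ln _ _, rfl⟩
  by_cases hRw : R w = 0
  · have h3 := h.inv_le h2 hn hRw hw0 X hXr (fun t ht htl => hinv t ht (htl w (self_mem_ln w)))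
    apply hgk
    rw [← hw]
    exact h3 hyX
  · rw [← hw] at hgk
    obtain ⟨x, x1, x2, x3⟩ := sing_move h.nd hn hRw h2 (y := g (k • v)) (fun a ha => hgk (mem_ln.2 ⟨a, ha⟩))
    have hx0 : x ≠ 0 := by
      rintro rfl
      rw [p_zero] at x3
      exact x3 rfl
    obtain ⟨e, e1, e2, e3⟩ := ns2 h.nd h2 hn (v := w) (w := x) (Or.inl hRw)
    have e2' : polar R x e = 0 := by rw [p_comm, e2]
    have x2' : polar R w x = 0 := by rw [p_comm, x2]
    obtain ⟨y, hy⟩ : ∃ y, y = g (k • v) := ⟨_, rfl⟩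
    rw [← hy] at hyX x3
    have x3' : polar R y x ≠ 0 := by rw [p_comm]; exact x3
    have hk : ∀ z, polar R z x = 0 → polar R z w = 0 → ∀ y ∈ X, S F R x z y - y ∈ X := by
      intro z hz hzw y hy
      have hz' : polar R x z = 0 := by rw [p_comm, hz]
      exact X.sub_mem (hinv _ (h.S_mem h2 x1 hz') (S_fix x1 hz' x2' (by rw [p_comm, hzw])) y hy) hy
    have hle : ln F K x ≤ X := by
      intro x' hx'
      obtain ⟨k, rfl⟩ := mem_ln.1 hx'
      obtain ⟨y1, hy1⟩ : ∃ y1, y1 = S F R x e y - y := ⟨_, rfl⟩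
      have h3 : y1 ∈ X := by rw [hy1]; exact hk e e2 e1 y hyX
      have hy1' : y1 = polar R y x • e - (polar R y e + R e * polar R y x) • x := by
        rw [hy1, S_apply x1 e2']; module
      have h4 : polar R y1 x = 0 := by
        rw [hy1', p_sub, p_smul, p_smul, e2, p_self, x1]; ring
      have h5 : polar R y1 e = polar R y x * (2 * R e) := by
        rw [hy1', p_sub, p_smul, p_smul, e2', p_self]; ring
      obtain ⟨μ, hμ⟩ : ∃ μ : K, μ * (polar R y x * (2 * R e)) = -k :=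
        ⟨-k / (polar R y x * (2 * R e)), div_mul_cancel₀ _ (mul_ne_zero x3' (mul_ne_zero h2 e3))⟩
      have h6 := hk (μ • e) (by rw [p_smul, e2, mul_zero]) (by rw [p_smul, e1, mul_zero]) y1 h3
      rw [S_apply x1 (by rw [p_smul', e2', mul_zero]), h4, p_smul', h5, hμ] at h6
      convert h6 using 1
      module
    have heq := Submodule.eq_of_le_of_finrank_eq hle (by rw [finrank_ln hx0, hXr])
    rw [← heq] at hwX
    obtain ⟨l, hl⟩ := mem_ln.1 hwX
    apply hRw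
    rw [← hl, Q_smul, x1, mul_zero]

lemma hyp_decomp [FiniteDimensional F V] {v u : V} (hv0 : v ≠ 0) {D : Submodule F V} (hD : D ≤ ln F K v)
    (hDr : finrank F D + 1 = finrank F K) (hu : u ∈ ln F K v) (huD : u ∉ D) {y : V} (hy : y ∈ ln F K v) :
    ∃ a : F, y - a • u ∈ D := by
  have h1 : D ⊓ Submodule.span F {u} = ⊥ := by
    rw [Submodule.eq_bot_iff]
    rintro y ⟨hy1, hy2⟩
    obtain ⟨a, rfl⟩ := Submodule.mem_span_singleton.1 hy2
    by_cases ha : a = 0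
    · rw [ha, zero_smul]
    · exact absurd ((Submodule.smul_mem_iff _ ha).1 hy1) huD
  have h2 := Submodule.finrank_sup_add_finrank_inf_eq D (Submodule.span F {u})
  have hu0 : u ≠ 0 := fun h => huD (h ▸ D.zero_mem)
  rw [h1, finrank_bot, add_zero, finrank_span_singleton hu0, hDr] at h2
  have h3 : D ⊔ Submodule.span F {u} = ln F K v := by
    apply Submodule.eq_of_le_of_finrank_eq
    · exact sup_le hD (by rw [Submodule.span_singleton_le_iff_mem]; exact hu)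
    · rw [h2, finrank_ln hv0]
  rw [← h3] at hy
  obtain ⟨d, hd, x, hx, rfl⟩ := Submodule.mem_sup.1 hy
  obtain ⟨a, rfl⟩ := Submodule.mem_span_singleton.1 hx
  exact ⟨a, by rwa [add_sub_cancel_right]⟩

/-- hyperplanes of a line, orthogonal case -/
theorem hyper (h : OE R l0 Q) [Finite K] (h2 : (2 : K) ≠ 0) (hn : 4 ≤ finrank K V)
    (ht : ∃ t : K, t ≠ 0 ∧ t * t ≠ 1)
    [FiniteDimensional F V] [FiniteDimensional F K] (hr : (finrank F K).Prime) {M : Subgroup (V ≃ₗ[F] V)}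
    (hHM : HK F R ≤ M) (hMO : M ≤ O Q)
    (hM : ∃ g ∈ M, ∃ x : V, ∃ k : K, g (k • x) ∉ ln F K (g x)) :
    ∃ v, R v = 0 ∧ v ≠ 0 ∧ ∃ D ≤ ln F K v, finrank F D + 1 = finrank F K ∧
      ∃ g ∈ M, (∀ d ∈ D, g d = d) ∧ ∃ u ∈ ln F K v, g u ∉ ln F K v ∧ polar R (g u) v = 0 := by
  obtain ⟨v, hv, hv0, g, hg, hgv, u, hu, hgu⟩ := h.first h2 hn hHM hMO hM
  have key : ∀ k : ℕ, 1 ≤ k → k < finrank F K →
      ∃ D ≤ ln F K v, finrank F D = k ∧ ∃ g ∈ M, (∀ d ∈ D, g d = d) ∧ ∃ u ∈ ln F K v, g u ∉ ln F K v := by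
    intro k hk
    induction k, hk using Nat.le_induction with
    | base =>
      intro _
      refine ⟨Submodule.span F {v}, by rw [Submodule.span_singleton_le_iff_mem]; exact self_mem_ln v,
        finrank_span_singleton hv0, g, hg, ?_, u, hu, hgu⟩
      intro d hd
      obtain ⟨a, rfl⟩ := Submodule.mem_span_singleton.1 hd
      rw [map_smul, hgv]
    | succ k hk ih =>
      intro hkr
      exact h.step h2 hn ht hr hHM hMO hv hv0 hk hkr (ih (by omega))
  have h3 := hr.two_le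
  obtain ⟨D, hD, hDk, g, hg, hgD, u, hu, hgu⟩ := key (finrank F K - 1) (by omega) (by omega)
  have hD0 : D ≠ ⊥ := by
    rintro rfl
    rw [finrank_bot] at hDk
    omega
  refine ⟨v, hv, hv0, D, hD, by omega, ?_⟩
  by_cases hwv : polar R (g u) v = 0
  · exact ⟨g, hg, hgD, u, hu, hgu, hwv⟩
  · have huD : u ∉ D := fun h => hgu (by rw [hgD u h]; exact hu)
    obtain ⟨g', hg', h5, h6, h7⟩ := h.convert h2 hn hHM hMO hv hD hD0 hg hgD hu hwv (fun y hy z hz hzw => by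
      obtain ⟨a, ha⟩ := hyp_decomp hv0 hD (by omega) hu huD hy
      have h8 : g y = (y - a • u) + a • g u := by
        conv_lhs => rw [show y = (y - a • u) + a • u by abel]
        rw [map_add, hgD _ ha, map_smul]
      obtain ⟨l, hl⟩ := mem_ln.1 (hD ha)
      rw [h8, p_add, ← hl, p_smul, p_comm R v z, hz, ← algebraMap_smul K a (g u), p_smul, p_comm R _ z, hzw]
      ring)
    exact ⟨g', hg', h5, u, hu, h6, h7⟩

end OE

end H7.ExtO
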