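import Cfsg.Agent.Lib.H7.ExtO2
import Cfsg.Agent.Lib.H7.ExtLin2

set_option autoImplicit false
set_option linter.unusedSectionVars false

/-!
Overgroups of orthogonal groups over an extension field of prime degree: root elements.
-/

namespace H7.ExtO

open Module QuadraticMap H48.QuadSplit H95.OGeo H17.OrthAbs H95.OSie H7.OLow H7.ExtF
open scoped commutatorElement

variable {F K V : Type*} [Field F] [Field K] [Algebra F K] [AddCommGroup V] [Module F V] [Module K V]
  [IsScalarTower F K V]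
variable {R : QuadraticForm K V} {l0 : K →ₗ[F] F} {Q : QuadraticForm F V}

lemma pF (a : F) (x y : V) : polar R (a • x) y = a • polar R x y := by
  rw [← algebraMap_smul K a x, p_smul, Algebra.smul_def]

lemma dual_surj [FiniteDimensional F K] {l : K →ₗ[F] F} (hl : l ≠ 0) (m : K →ₗ[F] F) :
    ∃ c : K, ∀ k, m k = l (k * c) := by
  obtain ⟨φ, hφ⟩ := H7.ExtLin.lift (F := F) (K := K) (V := K) hl m
  refine ⟨φ 1, fun k => ?_⟩
  rw [hφ]
  congr 1
  have := φ.map_smul k 1
  rwa [smul_eq_mul, mul_one, smul_eq_mul] at this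

namespace OE

variable [FiniteDimensional K V]

lemma ln_sing {v x y : V} (hv : R v = 0) (hx : x ∈ ln F K v) (hy : y ∈ ln F K v) : polar R x y = 0 := by
  obtain ⟨k, rfl⟩ := mem_ln.1 hx
  obtain ⟨l, rfl⟩ := mem_ln.1 hy
  rw [p_smul, p_smul', p_self, hv, mul_zero, mul_zero, mul_zero]

lemma ln_perp {v x y : V} (hx : x ∈ ln F K v) (hy : polar R y v = 0) : polar R y x = 0 := by
  obtain ⟨k, rfl⟩ := mem_ln.1 hx
  rw [p_smul', hy, mul_zero]

/-- the commutator of two elements of the radical of a line -/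
lemma comm_rad (h : OE R l0 Q) {v z z' : V} (hv : R v = 0)
    (hz : polar R z v = 0) (hz' : polar R z' v = 0) {a : V ≃ₗ[F] V} (haO : a ∈ O Q) (ha : ∀ y ∈ ln F K v, a y = y)
    (x : V) :
    ((a * S F R v z * a⁻¹) * S F R v z' * (a * S F R v z * a⁻¹)⁻¹ * (S F R v z')⁻¹) x =
      x + (polar R (a (polar R x v • z)) z' - polar R (a⁻¹ (polar R x v • z')) z) • v := by
  have ha' : ∀ y ∈ ln F K v, a⁻¹ y = y := by
    intro y hy
    conv_lhs => rw [← ha y hy]
    rw [inv_apply]
  have hzv : polar R v z = 0 := by rw [p_comm, hz]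
  have hzv' : polar R v z' = 0 := by rw [p_comm, hz']
  have hvv : polar R v v = 0 := by rw [p_self, hv, mul_zero]
  have h1 : ∀ x, polar R (a x) v = polar R x v := by
    intro x
    apply h.ext'
    intro k
    rw [← h.smulP', ← h.smulP', ← polar_map haO x, ha _ (smul_mem_ln _ _)]
  have h2 : ∀ x, polar R (a⁻¹ x) v = polar R x v := by
    intro x
    rw [← h1, apply_inv]
  have hT : ∀ x, (a * S F R v z * a⁻¹) x =
      x + a (polar R x v • z) - (polar R (a⁻¹ x) z + R z * polar R x v) • v := by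
    intro x
    show a (S F R v z (a⁻¹ x)) = _
    have e1 : S F R v z (a⁻¹ x) = a⁻¹ x + polar R x v • z - (polar R (a⁻¹ x) z + R z * polar R x v) • v := by
      rw [S_apply hv hzv, h2]; module
    rw [e1, map_sub, map_add, apply_inv, ha _ (smul_mem_ln _ _)]
  have hE : ∀ x, S F R v z' x = x + polar R x v • z' - (polar R x z' + R z' * polar R x v) • v := by
    intro x
    rw [S_apply hv hzv']; module
  obtain ⟨T, hTd⟩ : ∃ T, T = a * S F R v z * a⁻¹ := ⟨_, rfl⟩
  rw [← hTd] at hT ⊢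
  obtain ⟨y, rfl⟩ : ∃ y, x = S F R v z' (T y) := ⟨T⁻¹ ((S F R v z')⁻¹ x), by rw [apply_inv, apply_inv]⟩
  have e1 : (T * S F R v z' * T⁻¹ * (S F R v z')⁻¹) (S F R v z' (T y)) = T (S F R v z' y) := by
    show T (S F R v z' (T⁻¹ ((S F R v z')⁻¹ (S F R v z' (T y))))) = _
    rw [inv_apply, inv_apply]
  have e2 : polar R (T y) v = polar R y v := by
    rw [hT, p_sub, p_add, p_smul, h1, p_smul, hz, hvv]; ring
  have e3 : ∀ y, polar R (S F R v z' y) v = polar R y v := by
    intro y
    rw [hE, p_sub, p_add, p_smul, p_smul, hz', hvv]; ring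
  have e4 : polar R (a⁻¹ (S F R v z' y)) z = polar R (a⁻¹ y) z + polar R (a⁻¹ (polar R y v • z')) z := by
    rw [hE, map_sub, map_add, ha' _ (smul_mem_ln _ _), p_sub, p_add, p_smul, hzv]; ring
  have e5 : polar R (T y) z' = polar R y z' + polar R (a (polar R y v • z)) z' := by
    rw [hT, p_sub, p_add, p_smul, hzv']; ring
  rw [e1, hT (S F R v z' y), e3, e3, e2, e4, hE (T y), e2, e5, hE y, hT y]
  module

/-- root elements -/
theorem root (h : OE R l0 Q) [Finite K] (h2 : (2 : K) ≠ 0) (hn : 4 ≤ finrank K V)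
    [FiniteDimensional F V] [FiniteDimensional F K] {M : Subgroup (V ≃ₗ[F] V)}
    (hHM : HK F R ≤ M) (hMO : M ≤ O Q) {v : V} (hv : R v = 0) (hv0 : v ≠ 0) {D : Submodule F V} (hD : D ≤ ln F K v)
    (hDr : finrank F D + 1 = finrank F K) {g : V ≃ₗ[F] V} (hg : g ∈ M) (hgD : ∀ d ∈ D, g d = d) {u : V}
    (hu : u ∈ ln F K v) (hgu : g u ∉ ln F K v) (hwv : polar R (g u) v = 0) :
    ∃ ℓ ∈ ln F K v, ℓ ≠ 0 ∧ ∀ s ∈ ln F K v, sie Q ℓ s ∈ M := by
  obtain ⟨w, hw⟩ : ∃ w, w = g u := ⟨_, rfl⟩
  rw [← hw] at hgu hwv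
  have huD : u ∉ D := fun h => hgu (by rw [hw, hgD u h]; exact hu)
  obtain ⟨f0, hf0, hW⟩ := Submodule.exists_dual_map_eq_bot_of_notMem huD inferInstance
  obtain ⟨f, hfD, hfu⟩ : ∃ f : Dual F V, (∀ d ∈ D, f d = 0) ∧ f u = 1 := by
    refine ⟨(f0 u)⁻¹ • f0, fun d hd => ?_, ?_⟩
    · have : f0 d = 0 := by
        have h : f0 d ∈ Submodule.map f0 D := ⟨_, hd, rfl⟩
        rw [hW] at h; simpa using h
      rw [LinearMap.smul_apply, this, smul_zero]
    · rw [LinearMap.smul_apply, smul_eq_mul, inv_mul_cancel₀ hf0]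
  have hdec : ∀ y ∈ ln F K v, y - f y • u ∈ D := by
    intro y hy
    obtain ⟨a, ha⟩ := hyp_decomp hv0 hD hDr hu huD hy
    have h3 := hfD _ ha
    rw [map_sub, map_smul, hfu, smul_eq_mul, mul_one, sub_eq_zero] at h3
    rw [h3]; exact ha
  have hgy : ∀ y ∈ ln F K v, g y = (y - f y • u) + f y • w := by
    intro y hy
    have h1 : y = (y - f y • u) + f y • u := by abel
    conv_lhs => rw [h1]
    rw [map_add, hgD _ (hdec y hy), map_smul, hw]
  obtain ⟨c0, hc0⟩ := dual_surj h.l00 (f ∘ₗ ((LinearMap.toSpanSingleton K V v).restrictScalars F))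
  have hc0' : ∀ k : K, f (k • v) = l0 (k * c0) := hc0
  have hc00 : c0 ≠ 0 := by
    rintro h0
    obtain ⟨k, hk⟩ := mem_ln.1 hu
    have := hc0' k
    rw [hk, hfu, h0, mul_zero, map_zero] at this
    exact one_ne_zero this
  have hgO := hMO hg
  have hginv : ∀ x y, polar Q (g⁻¹ x) y = polar Q x (g y) := fun x y => by
    rw [← polar_map hgO, apply_inv]
  have hgD' : ∀ d ∈ D, g⁻¹ d = d := fun d hd => by
    conv_lhs => rw [← hgD d hd]
    rw [inv_apply]
  have hDz : ∀ d ∈ D, ∀ z, polar R z v = 0 → polar R d z = 0 := by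
    intro d hd z hz
    rw [p_comm]; exact ln_perp (hD hd) hz
  have hDzQ : ∀ d ∈ D, ∀ z, polar R z v = 0 → polar Q z d = 0 := by
    intro d hd z hz
    rw [h.hP, p_comm, hDz d hd z hz, map_zero]
  -- inverse images
  have hinv2 : ∀ x, polar R x v = 0 → polar R (g⁻¹ x) v = polar Q x w • c0 := by
    intro x hx
    apply h.ext'
    intro k
    rw [← h.smulP', hginv, hgy _ (smul_mem_ln _ _), p_add', hDzQ _ (hdec _ (smul_mem_ln _ _)) x hx, zero_add, p_smul',
      hc0', mul_smul_comm, map_smul, smul_eq_mul, mul_comm]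
  have hinv1 : ∀ y ∈ ln F K v, polar R (g⁻¹ y) v = 0 := by
    intro y hy
    rw [hinv2 y (ln_sing hv hy (self_mem_ln v)), h.hP, p_comm, ln_perp hy hwv, map_zero, zero_smul]
  -- the elements fixing the line
  have hafix : ∀ z1, polar R z1 v = 0 → polar R z1 (g⁻¹ u) = 0 → ∀ y ∈ ln F K v, g (S F R v z1 (g⁻¹ y)) = y := by
    intro z1 hz1 hz1u y hy
    have hz1' : polar R v z1 = 0 := by rw [p_comm, hz1]
    rw [S_fix hv hz1' (hinv1 y hy) ?_, apply_inv]
    have h1 : y = (y - f y • u) + f y • u := by abel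
    rw [h1, map_add, hgD' _ (hdec y hy), map_smul, p_add, hDz _ (hdec y hy) z1 hz1, pF, p_comm R _ z1, hz1u, smul_zero,
      add_zero]
  have haval : ∀ z1, polar R z1 v = 0 → ∀ x, polar R x v = 0 → ∀ z, polar R z v = 0 →
      polar R (g (S F R v z1 (g⁻¹ x))) z = polar R x z + polar Q x w • polar R (g (c0 • z1)) z -
        polar Q x (g (c0 • z1)) • polar R w z - (Q (g (c0 • z1)) * polar Q x w) • polar R w z := by
    intro z1 hz1 x hx z hz
    have hz1' : polar R v z1 = 0 := by rw [p_comm, hz1]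
    have e1 : g (S F R v z1 (g⁻¹ x)) = x + polar Q x w • g (c0 • z1) - g (polar R (g⁻¹ x) z1 • v) -
        g ((R z1 * (polar Q x w • c0)) • v) := by
      rw [S_apply hv hz1', hinv2 x hx, map_sub, map_sub, map_add, apply_inv, smul_assoc, map_smul]
    have e2 : f (polar R (g⁻¹ x) z1 • v) = polar Q x (g (c0 • z1)) := by
      rw [hc0', ← hginv, h.smulP', mul_comm]
    have e3 : f ((R z1 * (polar Q x w • c0)) • v) = Q (g (c0 • z1)) * polar Q x w := by
      rw [hc0', hgO, h.hQ, Q_smul, mul_smul_comm, smul_mul_assoc, map_smul, smul_eq_mul, mul_comm]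
      congr 2
      ring
    have e4 : ∀ k : K, polar R (g (k • v)) z = f (k • v) • polar R w z := by
      intro k
      rw [hgy _ (smul_mem_ln _ _), p_add, hDz _ (hdec _ (smul_mem_ln _ _)) z hz, zero_add, pF]
    rw [e1, p_sub, p_sub, p_add, pF, e4, e4, e2, e3]
  -- membership
  have hmem : ∀ z1 z z', polar R z1 v = 0 → polar R z1 (g⁻¹ u) = 0 → polar R z v = 0 → polar R z' v = 0 →
      ∃ e ∈ M, ∀ x, e x = x + (
        (polar R (polar R x v • z) z' + polar Q (polar R x v • z) w • polar R (g (c0 • z1)) z' -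
        polar Q (polar R x v • z) (g (c0 • z1)) • polar R w z' -
          (Q (g (c0 • z1)) * polar Q (polar R x v • z) w) • polar R w z') -
        (polar R (polar R x v • z') z - polar Q (polar R x v • z') w • polar R (g (c0 • z1)) z +
        polar Q (polar R x v • z') (g (c0 • z1)) • polar R w z -
          (Q (g (c0 • z1)) * polar Q (polar R x v • z') w) • polar R w z)) • v := by
    intro z1 z z' hz1 hz1u hz hz'
    have hz1' : polar R v z1 = 0 := by rw [p_comm, hz1]
    have hzv : polar R v z = 0 := by rw [p_comm, hz]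
    have hzv' : polar R v z' = 0 := by rw [p_comm, hz']
    obtain ⟨a, ha⟩ : ∃ a, a = g * S F R v z1 * g⁻¹ := ⟨_, rfl⟩
    have haM : a ∈ M := by rw [ha]; exact M.mul_mem (M.mul_mem hg (hHM (h.S_mem h2 hv hz1'))) (M.inv_mem hg)
    have hax : ∀ x, a x = g (S F R v z1 (g⁻¹ x)) := fun x => by rw [ha]; rfl
    have hfix : ∀ y ∈ ln F K v, a y = y := fun y hy => by rw [hax]; exact hafix z1 hz1 hz1u y hy
    have hax' : ∀ x, a⁻¹ x = g (S F R v (-z1) (g⁻¹ x)) := by
      intro x
      apply a.injective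
      rw [apply_inv, hax, inv_apply]
      have e1 : S F R v z1 (S F R v (-z1) (g⁻¹ x)) = g⁻¹ x := by
        have := sie_mul hv hz1' (z := -z1) (by rw [p_neg', hz1', neg_zero])
        rw [add_neg_cancel, sie_zero hv] at this
        exact congrArg (fun t : V ≃ₗ[K] V => t (g⁻¹ x)) this
      rw [e1, apply_inv]
    obtain ⟨T, hT⟩ : ∃ T, T = (a * S F R v z * a⁻¹) * S F R v z' * (a * S F R v z * a⁻¹)⁻¹ * (S F R v z')⁻¹ := ⟨_, rfl⟩
    refine ⟨T, ?_, fun x => ?_⟩
    · have h1 : a * S F R v z * a⁻¹ ∈ M := M.mul_mem (M.mul_mem haM (hHM (h.S_mem h2 hv hzv))) (M.inv_mem haM)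
      have h3 := hHM (h.S_mem h2 hv hzv')
      rw [hT]
      exact M.mul_mem (M.mul_mem (M.mul_mem h1 h3) (M.inv_mem h1)) (M.inv_mem h3)
    · rw [hT, h.comm_rad hv hz hz' (hMO haM) hfix, hax, hax',
        haval z1 hz1 _ (by rw [p_smul, hz, mul_zero]) _ hz',
        haval (-z1) (by rw [p_neg, hz1, neg_zero]) _ (by rw [p_smul, hz', mul_zero]) _ hz, smul_neg, map_neg, p_neg,
        p_neg', Q_neg, smul_neg, neg_smul]
      congr 2
      ring
  by_cases hcase : ∃ z1 z, polar R z1 v = 0 ∧ polar R z1 (g⁻¹ u) = 0 ∧ polar R z v = 0 ∧ polar R z w = 0 ∧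
      polar R (g (c0 • z1)) z ≠ 0
  · obtain ⟨z1, z, a1, a2, a3, a4, a5⟩ := hcase
    obtain ⟨ε, hε⟩ : ∃ ε, ε = polar R (g (c0 • z1)) z := ⟨_, rfl⟩
    rw [← hε] at a5
    have key : ∀ s : K, sie Q (s • v) (ε • v) ∈ M := by
      intro s
      obtain ⟨z', b1, b2⟩ := h.val2 hv0 hgu 0 s
      obtain ⟨e, he, hex⟩ := hmem z1 z z' a1 a2 a3 b1
      have : sie Q (s • v) (ε • v) = e := by
        ext x
        rw [sie_apply (by rw [h.hQ, Q_smul, hv, mul_zero, map_zero])
          (by rw [h.hP, ln_sing (F := F) hv (smul_mem_ln _ _) (smul_mem_ln _ _), map_zero]), hex, h.smulP (polar R x v) z w,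
          a4, h.smulP (polar R x v) z (g (c0 • z1)), p_comm R z (g (c0 • z1)), ← hε,
          h.smulP (polar R x v) z' w, b2, p_comm R w z', b2, p_comm R w z, a4, h.smulP', h.smulP', h.hQ (ε • v), Q_smul,
          hv, p_smul, p_smul, p_comm R z' z]
        simp only [mul_zero, map_zero, zero_smul, smul_zero, sub_zero, add_zero, zero_mul, mul_comm (polar R x v)]
        match_scalars <;> simp only [Algebra.smul_def] <;> ring
      rw [this]; exact he
    refine ⟨ε • v, smul_mem_ln _ _, smul_ne_zero a5 hv0, fun s hs => ?_⟩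
    obtain ⟨k, rfl⟩ := mem_ln.1 hs
    have h1 := key (-k)
    rw [sie_swap (by rw [h.hQ, Q_smul, hv, mul_zero, map_zero]) (by rw [h.hQ, Q_smul, hv, mul_zero, map_zero])
      (by rw [h.hP, ln_sing (F := F) hv (smul_mem_ln _ _) (smul_mem_ln _ _), map_zero]), neg_smul, neg_neg] at h1
    exact h1
  · push Not at hcase
    -- the image of a plane
    obtain ⟨P, hP⟩ : ∃ P, P = orth R (Submodule.span K (Set.range ![v, g⁻¹ u])) := ⟨_, rfl⟩
    obtain ⟨N, hN⟩ : ∃ N, N = Submodule.span K (Set.range ![v, w]) := ⟨_, rfl⟩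
    have hmP : ∀ x, x ∈ P ↔ polar R x v = 0 ∧ polar R x (g⁻¹ u) = 0 := by
      intro x
      rw [hP, mem_orth_range]
      constructor
      · intro h; exact ⟨h 0, h 1⟩
      · intro h i
        fin_cases i
        exacts [h.1, h.2]
    have hle : (P.restrictScalars F).map (g : V →ₗ[F] V) ≤ N.restrictScalars F := by
      rintro _ ⟨x, hx, rfl⟩
      rw [Submodule.restrictScalars_mem, ← orth_orth h.nd N, mem_orth]
      intro z hz
      rw [hN, mem_orth_range] at hz
      have hx' := (hmP x).1 hx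
      have h3 := hcase (c0⁻¹ • x) z (by rw [p_smul, hx'.1, mul_zero]) (by rw [p_smul, hx'.2, mul_zero]) (hz 0) (hz 1)
      rw [smul_smul, mul_inv_cancel₀ hc00, one_smul] at h3
      rw [p_comm]; exact h3
    have hPr : 2 ≤ finrank K P := by
      have h3 := finrank_orth h.nd (Submodule.span K (Set.range ![v, g⁻¹ u]))
      have h4 := finrank_range_le (F := K) ![v, g⁻¹ u]
      rw [← hP] at h3
      omega
    have hNr : finrank K N ≤ 2 := by rw [hN]; exact finrank_range_le _
    have hfr : ∀ P : Submodule K V, finrank F (P.restrictScalars F) = finrank F K * finrank K P := by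
      intro P
      exact (Module.finrank_mul_finrank F K P).symm
    have heq : (P.restrictScalars F).map (g : V →ₗ[F] V) = N.restrictScalars F := by
      apply Submodule.eq_of_le_of_finrank_le hle
      rw [LinearEquiv.finrank_map_eq g, hfr, hfr]
      exact Nat.mul_le_mul le_rfl (hNr.trans hPr)
    have hpre : ∀ k : K, ∃ z1, polar R z1 v = 0 ∧ polar R z1 (g⁻¹ u) = 0 ∧ g z1 = k • w := by
      intro k
      have h3 : k • w ∈ N.restrictScalars F := by
        rw [Submodule.restrictScalars_mem, hN]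
        exact Submodule.smul_mem _ _ (Submodule.subset_span ⟨1, rfl⟩)
      rw [← heq] at h3
      obtain ⟨z1, hz1, hz1'⟩ := h3
      exact ⟨z1, ((hmP z1).1 hz1).1, ((hmP z1).1 hz1).2, hz1'⟩
    have hRw : R w = 0 := by
      have h3 : polar R w w = 0 := by
        apply h.ext
        intro k
        obtain ⟨z1, c1, c2, c3⟩ := hpre k
        rw [← h.smulP', ← c3]
        conv_lhs => rw [hw]
        rw [polar_map hgO, h.hP, p_comm, ln_perp hu c1, map_zero]
      rw [p_self] at h3
      exact (mul_eq_zero.1 h3).resolve_left h2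
    obtain ⟨z, b1, b2⟩ := h.val2 hv0 hgu 0 1
    refine ⟨v, self_mem_ln v, hv0, fun s hs => ?_⟩
    obtain ⟨k, rfl⟩ := mem_ln.1 hs
    obtain ⟨α, hα⟩ : ∃ α : K, 2 * α = k := ⟨k / 2, mul_div_cancel₀ _ h2⟩
    obtain ⟨z1, c1, c2, c3⟩ := hpre α
    have c4 : g (c0 • c0⁻¹ • z1) = α • w := by rw [smul_smul, mul_inv_cancel₀ hc00, one_smul, c3]
    obtain ⟨e, he, hex⟩ := hmem (c0⁻¹ • z1) z z (by rw [p_smul, c1, mul_zero]) (by rw [p_smul, c2, mul_zero]) b1 b1
    have e2 : polar R (α • w) z = α := by rw [p_smul, p_comm R w z, b2, mul_one]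
    have : sie Q v (k • v) = e := by
      ext x
      rw [sie_apply (by rw [h.hQ, hv, map_zero])
        (by rw [h.hP, ln_sing (F := F) hv (self_mem_ln v) (smul_mem_ln _ _), map_zero]), hex, c4, e2, p_smul,
        p_comm R w z, b2, h.smulP, h.smulP, p_smul', b2, h.hQ (α • w), Q_smul, hRw, h.hP, h.smulP', h.hQ (k • v),
        Q_smul, hv, ← hα]
      have e1 : l0 (2 * α * polar R x v) = l0 (polar R x v * (α * 1)) + l0 (polar R x v * (α * 1)) := by
        have : 2 * α * polar R x v = polar R x v * (α * 1) + polar R x v * (α * 1) := by ring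
        rw [this, map_add]
      rw [e1]
      simp only [mul_zero, map_zero, zero_smul, sub_zero, zero_mul, mul_one, Algebra.smul_def, add_smul]
      rw [← algebraMap_smul K (l0 (polar R x v * α)) v, ← algebraMap_smul K (l0 (polar R x v)) ((2 * α) • v)]
      module
    rw [this]; exact he

end OE

end H7.ExtO
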