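import Cfsg.Agent.Lib.H7.ExtO3

set_option autoImplicit false
set_option linter.unusedSectionVars false

/-!
Overgroups of orthogonal groups over an extension field of prime degree: conclusion.
-/

namespace H7.ExtO

open Module QuadraticMap H48.QuadSplit H95.OGeo H17.OrthAbs H95.OSie H7.OLow H7.ExtF
open scoped commutatorElement

variable {F K V : Type*} [Field F] [Field K] [Algebra F K] [AddCommGroup V] [Module F V] [Module K V]
  [IsScalarTower F K V]
variable {R : QuadraticForm K V} {l0 : K →ₗ[F] F} {Q : QuadraticForm F V}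

/-- the vectors of the Siegel elements with a given centre -/
def sg (Q : QuadraticForm F V) (M : Subgroup (V ≃ₗ[F] V)) {u : V} (hu : Q u = 0) : AddSubgroup V where
  carrier := {y | polar Q u y = 0 ∧ sie Q u y ∈ M}
  zero_mem' := ⟨p_zero' _ _, by rw [sie_zero hu]; exact M.one_mem⟩
  add_mem' {a b} ha hb := ⟨by rw [p_add', ha.1, hb.1, add_zero], by
    rw [← sie_mul hu ha.1 hb.1]; exact M.mul_mem ha.2 hb.2⟩
  neg_mem' {a} ha := ⟨by rw [p_neg', ha.1, neg_zero], by
    rw [← sie_inv hu ha.1]; exact M.inv_mem ha.2⟩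

lemma mem_sg {M : Subgroup (V ≃ₗ[F] V)} {u : V} (hu : Q u = 0) {y : V} :
    y ∈ sg Q M hu ↔ polar Q u y = 0 ∧ sie Q u y ∈ M := Iff.rfl

lemma sg_move {M : Subgroup (V ≃ₗ[F] V)} {u : V} (hu : Q u = 0) {y : V} (hy : y ∈ sg Q M hu) {s : V ≃ₗ[F] V}
    (hs : s ∈ M) (hsi : s ∈ O Q) (hsu : s u = u) : s y - y ∈ sg Q M hu := by
  refine ⟨?_, comm_stab hu hy.1 hy.2 hs hsi hsu⟩
  have := polar_map hsi u y
  rw [hsu, hy.1] at this
  rw [p_sub', this, hy.1, sub_zero]

namespace OE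

variable [FiniteDimensional K V]

lemma Qs (h : OE R l0 Q) {v : V} (hv : R v = 0) (k : K) : Q (k • v) = 0 := by
  rw [h.hQ, Q_smul, hv, mul_zero, map_zero]

lemma Qs1 (h : OE R l0 Q) {v : V} (hv : R v = 0) : Q v = 0 := by
  rw [h.hQ, hv, map_zero]

lemma Ps (h : OE R l0 Q) {v : V} (hv : R v = 0) (k l : K) : polar Q (k • v) (l • v) = 0 := by
  rw [h.hP, ln_sing (F := F) hv (smul_mem_ln _ _) (smul_mem_ln _ _), map_zero]

/-- all root elements inside singular lines -/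
lemma allsie (h : OE R l0 Q) [Finite K] (h2 : (2 : K) ≠ 0) (hn : 4 ≤ finrank K V) {M : Subgroup (V ≃ₗ[F] V)}
    (hHM : HK F R ≤ M) {v ℓ : V} (hv : R v = 0) (hℓ : ℓ ∈ ln F K v) (hℓ0 : ℓ ≠ 0)
    (hs : ∀ s ∈ ln F K v, sie Q ℓ s ∈ M) {v' : V} (hv' : R v' = 0) (k l : K) :
    sie Q (k • v') (l • v') ∈ M := by
  by_cases hkv : k • v' = 0
  · have h3 : sie Q ((0 : F) • (l • v')) (l • v') = 1 := by
      rw [sie_smul (h.Qs hv' l) (h.Ps hv' l l), zero_smul, sie_zero (h.Qs hv' l)]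
    rw [hkv]
    rw [zero_smul] at h3
    rw [h3]
    exact M.one_mem
  have hk0 : k ≠ 0 := by
    rintro rfl
    exact hkv (zero_smul _ _)
  obtain ⟨m, hm⟩ := mem_ln.1 hℓ
  have hRℓ : R ℓ = 0 := by rw [← hm, Q_smul, hv, mul_zero]
  obtain ⟨t, ht, htℓ⟩ := trans_sing h.nd h2 hn hRℓ (w := k • v') (by rw [Q_smul, hv', mul_zero]) hℓ0 hkv
  obtain ⟨T, hT⟩ : ∃ T, T = rs F K V t := ⟨_, rfl⟩
  have hTm : T ∈ HK F R := ⟨t, ht, hT.symm⟩
  have hTℓ : T ℓ = k • v' := by rw [hT, rs_apply, htℓ]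
  have h3 : (l / k) • ℓ ∈ ln F K v := smul_mem_ln' hℓ _
  have h4 := conj_mem' (hHM hTm) (hs _ h3)
  have hp : polar Q ℓ ((l / k) • ℓ) = 0 := by
    have := h.Ps hRℓ 1 (l / k)
    rwa [one_smul] at this
  rw [sie_conj (h.Qs1 hRℓ) hp (h.HK_O hTm), HK_smul hTm, hTℓ, smul_smul, div_mul_cancel₀ _ hk0] at h4
  exact h4

lemma partner (h : OE R l0 Q) {v : V} (hv : R v = 0) (hv0 : v ≠ 0) : ∃ v', R v' = 0 ∧ polar R v v' = 1 := by
  obtain ⟨u, hu⟩ : ∃ u, polar R u v = 1 := by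
    obtain ⟨u, hu⟩ : ∃ u, polar R u v ≠ 0 := by
      by_contra hcon; push Not at hcon
      exact hv0 (h.nd v fun x => by rw [p_comm]; exact hcon x)
    exact ⟨(polar R u v)⁻¹ • u, by rw [p_smul, inv_mul_cancel₀ hu]⟩
  refine ⟨u - R u • v, ?_, ?_⟩
  · rw [Q_sub, Q_smul, hv, p_smul', hu]; ring
  · rw [p_comm, p_sub, p_smul, p_self, hv, hu]; ring

/-- the perpendicular space, degree at least three -/
lemma perp3 (h : OE R l0 Q) (h2 : (2 : K) ≠ 0) [FiniteDimensional F K]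
    {M : Subgroup (V ≃ₗ[F] V)} (hHM : HK F R ≤ M) (hMO : M ≤ O Q)
    (hall : ∀ v' : V, R v' = 0 → ∀ k l : K, sie Q (k • v') (l • v') ∈ M) (hr3 : 3 ≤ finrank F K) {v : V}
    (hv : R v = 0) (hv0 : v ≠ 0) {z : V} (hz : polar R z v = 0) : z ∈ sg Q M (h.Qs1 hv) := by
  have h1 : ∀ k : K, k • v ∈ sg Q M (h.Qs1 hv) := by
    intro k
    refine ⟨?_, ?_⟩
    · have := h.Ps hv 1 k
      rwa [one_smul] at this
    · have := hall v hv 1 k
      rwa [one_smul] at this
  -- opposite vectors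
  have h3 : ∀ v', R v' = 0 → polar R v v' ≠ 0 → ∀ γ : K, polar Q v (γ • v') = 0 → γ • v' ∈ sg Q M (h.Qs1 hv) := by
    intro v' hv' hvv γ hγ
    by_cases hγ0 : γ = 0
    · rw [hγ0, zero_smul]; exact AddSubgroup.zero_mem _
    obtain ⟨β, hβ⟩ : ∃ β, β = polar R v v' := ⟨_, rfl⟩
    rw [← hβ] at hvv
    have hγ' : l0 (γ * β) = 0 := by rw [hβ, ← h.smulP', hγ]
    obtain ⟨δ, hδ, hδγ⟩ : ∃ δ : K, l0 δ = 0 ∧ ∀ a : F, a • (γ * β) ≠ δ := by
      by_contra hcon
      push Not at hcon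
      have h4 : LinearMap.ker l0 ≤ Submodule.span F {γ * β} := by
        intro x hx
        rw [Submodule.mem_span_singleton]
        exact hcon x hx
      have h5 := Submodule.finrank_mono h4
      rw [finrank_span_singleton (mul_ne_zero hγ0 hvv)] at h5
      have h6 := LinearMap.finrank_range_add_finrank_ker l0
      have h7 : finrank F (LinearMap.range l0) ≤ 1 := by
        refine (Submodule.finrank_le _).trans ?_
        rw [finrank_self]
      omega
    obtain ⟨γ1, hγ1⟩ : ∃ γ1 : K, γ1 * β = δ := ⟨δ / β, div_mul_cancel₀ _ hvv⟩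
    have hli : LinearIndependent F ![γ * β, γ1 * β] := by
      rw [LinearIndependent.pair_iff' (mul_ne_zero hγ0 hvv), hγ1]
      exact hδγ
    obtain ⟨φ, hφ⟩ := H7.ExtLin.exists_fun (K := F) (V := K) hli ![0, 1]
    have p1 : φ (γ * β) = 0 := hφ 0
    have p2 : φ (γ1 * β) = 1 := hφ 1
    obtain ⟨c, hc⟩ := dual_surj h.l00 φ
    have q1 : polar Q (c • v) (γ • v') = 0 := by
      rw [h.smulP, p_smul', ← hβ, mul_comm, ← hc, p1]
    have q2 : polar Q (c • v) (γ1 • v') = 1 := by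
      rw [h.smulP, p_smul', ← hβ, mul_comm, ← hc, p2]
    have q3 : polar Q v (γ1 • v') = 0 := by rw [h.smulP', ← hβ, hγ1, hδ]
    have hap : ∀ y, sie Q (γ1 • v') (γ • v') y =
        y + polar Q y (γ1 • v') • γ • v' - polar Q y (γ • v') • γ1 • v' := by
      intro y
      rw [sie_apply (h.Qs hv' _) (h.Ps hv' _ _), h.Qs hv', zero_mul, zero_smul, sub_zero]
    have h4 := sg_move (h.Qs1 hv) (h1 c) (hall v' hv' γ1 γ) (sie_mem_O _ _ _) (by
      rw [hap, q3, hγ, zero_smul, zero_smul, add_zero, sub_zero])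
    rw [hap, q1, q2, one_smul, zero_smul, sub_zero, add_sub_cancel_left] at h4
    exact h4
  obtain ⟨v', w1, w2⟩ := h.partner hv hv0
  have w2' : polar R v' v = 1 := by rw [p_comm, w2]
  obtain ⟨γ, hγ, hγ0⟩ : ∃ γ : K, l0 γ = 0 ∧ γ ≠ 0 := by
    have h6 := LinearMap.finrank_range_add_finrank_ker l0
    have h7 : finrank F (LinearMap.range l0) ≤ 1 := by
      refine (Submodule.finrank_le _).trans ?_
      rw [finrank_self]
    have h8 : LinearMap.ker l0 ≠ ⊥ := by
      intro h9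
      rw [h9, finrank_bot] at h6
      omega
    obtain ⟨γ, hγ, hγ0⟩ := (Submodule.ne_bot_iff _).1 h8
    exact ⟨γ, hγ, hγ0⟩
  obtain ⟨z', hz'⟩ : ∃ z', z' = γ⁻¹ • z := ⟨_, rfl⟩
  have hz'v : polar R v z' = 0 := by rw [hz', p_smul', p_comm, hz, mul_zero]
  obtain ⟨v'', hv''⟩ : ∃ v'', v'' = v' + z' - (polar R v' z' + R z') • v := ⟨_, rfl⟩
  have x1 : R v'' = 0 := by
    have : v'' = sie R v z' v' := by
      rw [hv'', sie_apply hv hz'v, w2']; module
    rw [this, sie_mem_O R v z' v', w1]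
  have x2 : polar R v v'' = 1 := by
    rw [hv'', p_sub', p_add', p_smul', w2, hz'v, p_self, hv]; ring
  have e1 := h3 v' w1 (by rw [w2]; exact one_ne_zero) γ (by rw [h.smulP', w2, mul_one, hγ])
  have e2 := h3 v'' x1 (by rw [x2]; exact one_ne_zero) γ (by rw [h.smulP', x2, mul_one, hγ])
  have e3 := AddSubgroup.add_mem _ (AddSubgroup.sub_mem _ e2 e1) (h1 (γ * (polar R v' z' + R z')))
  have e4 : γ • v'' - γ • v' + (γ * (polar R v' z' + R z')) • v = z := by
    rw [hv'', smul_sub, smul_add, smul_smul, hz', smul_smul, mul_inv_cancel₀ hγ0, one_smul]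
    abel
  rwa [e4] at e3

/-- the perpendicular space, large dimension -/
lemma perp7 (h : OE R l0 Q) [Finite K] (h2 : (2 : K) ≠ 0) (hn : 7 ≤ finrank K V)
    {M : Subgroup (V ≃ₗ[F] V)} (hHM : HK F R ≤ M) (hMO : M ≤ O Q) {v : V}
    (hv : R v = 0) (hv0 : v ≠ 0) {w : V} (hwv : polar R w v = 0) (hwL : w ∉ ln F K v) (hw : w ∈ sg Q M (h.Qs1 hv))
    {z : V} (hz : polar R z v = 0) : z ∈ sg Q M (h.Qs1 hv) := by
  have hvw : polar R v w = 0 := by rw [p_comm, hwv]
  have key : ∀ x, R x = 0 → polar R x v = 0 → polar R w x ≠ 0 → ∀ y, polar R y v = 0 → polar R y x = 0 →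
      y ∈ sg Q M (h.Qs1 hv) := by
    intro x hx hxv hxw
    have hvx : polar R v x = 0 := by rw [p_comm, hxv]
    have hx0 : x ≠ 0 := by
      rintro rfl
      rw [p_zero'] at hxw
      exact hxw rfl
    have hm : ∀ y, polar R y v = 0 → polar R y x = 0 → ∀ s ∈ sg Q M (h.Qs1 hv),
        S F R x y s - s ∈ sg Q M (h.Qs1 hv) := by
      intro y hyv hyx s hs
      have hxy : polar R x y = 0 := by rw [p_comm, hyx]
      have hmem := h.S_mem h2 hx hxy
      exact sg_move _ hs (hHM hmem) (h.HK_O hmem) (S_fix hx hxy hvx (by rw [p_comm, hyv]))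
    obtain ⟨e, e1, e2, e3⟩ : ∃ e, polar R e v = 0 ∧ polar R e x = 0 ∧ R e ≠ 0 := by
      obtain ⟨e, he, he'⟩ := exists_ns h.nd (S := Submodule.span K (Set.range ![v, x])) (by
        intro hle
        have h1 := Submodule.finrank_mono hle
        have h3 := finrank_orth h.nd (Submodule.span K (Set.range ![v, x]))
        have h4 := finrank_range_le (F := K) ![v, x]
        omega)
      rw [mem_orth_range] at he
      exact ⟨e, he 0, he 1, he'⟩
    have e2' : polar R x e = 0 := by rw [p_comm, e2]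
    have hkx : ∀ k : K, k • x ∈ sg Q M (h.Qs1 hv) := by
      intro k
      obtain ⟨y1, hy1⟩ : ∃ y1, y1 = S F R x e w - w := ⟨_, rfl⟩
      have h3 : y1 ∈ sg Q M (h.Qs1 hv) := by rw [hy1]; exact hm e e1 e2 w hw
      have hy1' : y1 = polar R w x • e - (polar R w e + R e * polar R w x) • x := by
        rw [hy1, S_apply hx e2']; module
      have h4 : polar R y1 x = 0 := by
        rw [hy1', p_sub, p_smul, p_smul, e2, p_self, hx]; ring
      have h5 : polar R y1 e = polar R w x * (2 * R e) := by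
        rw [hy1', p_sub, p_smul, p_smul, e2', p_self]; ring
      obtain ⟨μ, hμ⟩ : ∃ μ : K, μ * (polar R w x * (2 * R e)) = -k :=
        ⟨-k / (polar R w x * (2 * R e)), div_mul_cancel₀ _ (mul_ne_zero hxw (mul_ne_zero h2 e3))⟩
      have h6 := hm (μ • e) (by rw [p_smul, e1, mul_zero]) (by rw [p_smul, e2, mul_zero]) y1 h3
      rw [S_apply hx (by rw [p_smul', e2', mul_zero]), h4, p_smul', h5, hμ] at h6
      convert h6 using 1
      module
    intro y hyv hyx
    obtain ⟨y', hy'⟩ : ∃ y', y' = (polar R w x)⁻¹ • y := ⟨_, rfl⟩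
    have hy'v : polar R y' v = 0 := by rw [hy', p_smul, hyv, mul_zero]
    have hy'x : polar R y' x = 0 := by rw [hy', p_smul, hyx, mul_zero]
    have h3 := hm y' hy'v hy'x w hw
    have h4 := AddSubgroup.add_mem _ h3 (hkx (polar R w y' + R y' * polar R w x))
    have h5 : S F R x y' w - w + (polar R w y' + R y' * polar R w x) • x = y := by
      rw [S_apply hx (by rw [p_comm, hy'x]), hy', smul_smul, mul_inv_cancel₀ hxw, one_smul]
      module
    rwa [h5] at h4
  -- two vectors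
  obtain ⟨x1, a1, a2⟩ := dual_val h.nd (k := 2) (by omega) (li2 hv0 hwL) ![0, 1] 0
  have a3 : polar R x1 v = 0 := a2 0
  have a4 : polar R x1 w = 1 := a2 1
  have hx1 : ∀ a b : K, x1 ≠ a • v + b • w := by
    intro a b hab
    have e1 := a4
    rw [hab, p_add, p_smul, p_smul, hvw, mul_zero, zero_add, p_self] at e1
    have e2 := a1
    rw [hab, Q_add, Q_smul, Q_smul, hv, p_smul, p_smul', hvw] at e2
    have e3 : b * b * R w = 0 := by linear_combination e2
    have e4 : b * (b * (2 * R w)) = 0 := by linear_combination 2 * e3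
    rw [e1, mul_one] at e4
    rw [e4, zero_mul] at e1
    exact zero_ne_one e1
  obtain ⟨e, b1, b2, b3, b4⟩ : ∃ e, polar R e v = 0 ∧ polar R e w = 0 ∧ polar R e x1 ≠ 0 ∧ R e ≠ 0 := by
    obtain ⟨u, c1, c2, c3⟩ := h.val3 hv0 hwL hx1 0 0 1
    by_cases hu : R u = 0
    swap
    · exact ⟨u, c1, c2, by rw [c3]; exact one_ne_zero, hu⟩
    obtain ⟨e0, he, he'⟩ := exists_ns h.nd (S := Submodule.span K (Set.range ![v, w, x1])) (by
      intro hle
      have h1 := Submodule.finrank_mono hle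
      have h3 := finrank_orth h.nd (Submodule.span K (Set.range ![v, w, x1]))
      have h4 := finrank_range_le (F := K) ![v, w, x1]
      omega)
    rw [mem_orth_range] at he
    have d1 : polar R e0 v = 0 := he 0
    have d2 : polar R e0 w = 0 := he 1
    have d3 : polar R e0 x1 = 0 := he 2
    by_cases h4 : R (u + e0) = 0
    · refine ⟨u - e0, by rw [p_sub, c1, d1, sub_zero], by rw [p_sub, c2, d2, sub_zero],
        by rw [p_sub, c3, d3, sub_zero]; exact one_ne_zero, fun h5 => he' ?_⟩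
      rw [Q_add, hu] at h4
      rw [Q_sub, hu] at h5
      have h7 : 2 * R e0 = 0 := by linear_combination h4 + h5
      exact (mul_eq_zero.1 h7).resolve_left h2
    · exact ⟨u + e0, by rw [p_add, c1, d1, add_zero], by rw [p_add, c2, d2, add_zero],
        by rw [p_add, c3, d3, add_zero]; exact one_ne_zero, h4⟩
  obtain ⟨x2, hx2⟩ : ∃ x2, x2 = x1 - ((R e)⁻¹ * polar R e x1) • e := ⟨_, rfl⟩
  have f1 : R x2 = 0 := by
    have : x2 = H17.OrthAbs.refl R e b4 x1 := by rw [hx2, refl_apply]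
    rw [this, refl_mem_O R e b4 x1, a1]
  have f2 : polar R x2 v = 0 := by rw [hx2, p_sub, p_smul, a3, b1]; ring
  have f3 : polar R x2 w = 1 := by rw [hx2, p_sub, p_smul, a4, b2]; ring
  have f4 : polar R x2 x1 ≠ 0 := by
    rw [hx2, p_sub, p_smul, p_self, a1, mul_zero, zero_sub]
    exact neg_ne_zero.2 (mul_ne_zero (mul_ne_zero (inv_ne_zero b4) b3) b3)
  have hx1L : x1 ∉ ln F K v := by
    intro hmem
    obtain ⟨k, hk⟩ := mem_ln.1 hmem
    rw [← hk, p_smul, hvw, mul_zero] at a4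
    exact zero_ne_one a4
  have hx2L : ∀ a b : K, x2 ≠ a • v + b • x1 := by
    rintro a b hab
    apply f4
    rw [hab, p_add, p_smul, p_smul, p_comm R v x1, a3, p_self, a1]; ring
  obtain ⟨z1, g1, g2, g3⟩ := h.val3 hv0 hx1L hx2L 0 0 (polar R z x2)
  have m1 := key x1 a1 a3 (by rw [p_comm, a4]; exact one_ne_zero) z1 g1 g2
  have m2 := key x2 f1 f2 (by rw [p_comm, f3]; exact one_ne_zero) (z - z1) (by rw [p_sub, hz, g1, sub_zero])
    (by rw [p_sub, g3, sub_self])
  have := AddSubgroup.add_mem _ m1 m2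
  rwa [add_sub_cancel] at this

/-- from the perpendicular space to everything -/
lemma full_of_perp (h : OE R l0 Q) [Finite K] (h2 : (2 : K) ≠ 0) (hn : 4 ≤ finrank K V)
    {M : Subgroup (V ≃ₗ[F] V)} (hHM : HK F R ≤ M) {v : V}
    (hv : R v = 0) (hv0 : v ≠ 0) (hperp : ∀ z, polar R z v = 0 → z ∈ sg Q M (h.Qs1 hv)) : Full Q M v := by
  obtain ⟨v', w1, w2⟩ := h.partner hv hv0
  have w2' : polar R v' v = 1 := by rw [p_comm, w2]
  have hv'0 : v' ≠ 0 := by
    rintro rfl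
    rw [p_zero] at w2'
    exact zero_ne_one w2'
  -- other singular vectors
  have hother : ∀ b, R b = 0 → b ≠ 0 → ∀ z, polar R z b = 0 → sie Q b z ∈ M := by
    intro b hb hb0 z hz
    obtain ⟨t, ht, htv⟩ := trans_sing h.nd h2 hn hv hb hv0 hb0
    obtain ⟨T, hT⟩ : ∃ T, T = rs F K V t := ⟨_, rfl⟩
    have hTm : T ∈ HK F R := ⟨t, ht, hT.symm⟩
    have hTv : T v = b := by rw [hT, rs_apply, htv]
    obtain ⟨z', hz'⟩ : ∃ z', T z' = z := ⟨T⁻¹ z, apply_inv _ _⟩
    have h3 := hperp z' (by rw [← HK_polar hTm, hTv, hz', hz])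
    have h4 := conj_mem' (hHM hTm) h3.2
    rwa [sie_conj (h.Qs1 hv) h3.1 (h.HK_O hTm), hTv, hz'] at h4
  refine ⟨h.Qs1 hv, fun y hy => ?_⟩
  obtain ⟨η, hη⟩ : ∃ η, η = polar R y v := ⟨_, rfl⟩
  have hy0 : polar R (y - η • v') v = 0 := by rw [p_sub, p_smul, w2', ← hη]; ring
  have m1 := hperp _ hy0
  have hb : polar Q v (η • v') = 0 := by
    have h3 : polar Q v (y - η • v') = 0 := m1.1
    rw [p_sub', hy, zero_sub, neg_eq_zero] at h3
    exact h3
  suffices hs : η • v' ∈ sg Q M (h.Qs1 hv) by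
    have := AddSubgroup.add_mem _ m1 hs
    rw [sub_add_cancel] at this
    exact this.2
  by_cases hη0 : η = 0
  · rw [hη0, zero_smul]; exact AddSubgroup.zero_mem _
  obtain ⟨ρ, hρ⟩ : ∃ ρ : K, l0 ρ = 1 := by
    obtain ⟨ρ, hρ⟩ : ∃ ρ : K, l0 ρ ≠ 0 := by
      by_contra hcon
      push Not at hcon
      exact h.l00 (LinearMap.ext hcon)
    exact ⟨(l0 ρ)⁻¹ • ρ, by rw [map_smul, smul_eq_mul, inv_mul_cancel₀ hρ]⟩
  obtain ⟨z, z1, z2, z3⟩ := univ h.nd h2 hn hv (w := v') (by rw [w2]; exact one_ne_zero) ρ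
  have hQz : Q z = 1 := by rw [h.hQ, z3, hρ]
  have hbs : R (η • v') = 0 := by rw [Q_smul, w1, mul_zero]
  have hzb : polar R z (η • v') = 0 := by rw [p_smul', z2, mul_zero]
  have he := hother (η • v') hbs (smul_ne_zero hη0 hv'0) z hzb
  have hzbQ : polar Q (η • v') z = 0 := by rw [h.hP, p_comm, hzb, map_zero]
  have hap : ∀ y, sie Q (η • v') z y = y + polar Q y (η • v') • z - polar Q y z • η • v' -
      (Q z * polar Q y (η • v')) • η • v' := fun y => sie_apply (h.Qs w1 η) hzbQ y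
  have hvz : polar Q v z = 0 := by rw [h.hP, p_comm, z1, map_zero]
  have hfix : sie Q (η • v') z v = v := by
    rw [hap, hb, hvz]
    simp
  have m2 := hperp ((ρ * η⁻¹) • v) (by rw [p_smul, p_self, hv, mul_zero, mul_zero])
  have m3 := sg_move (h.Qs1 hv) m2 he (sie_mem_O _ _ _) hfix
  have k1 : polar Q ((ρ * η⁻¹) • v) (η • v') = 1 := by
    rw [h.smulP, p_smul', w2, mul_one, inv_mul_cancel_right₀ hη0, hρ]
  have k2 : polar Q ((ρ * η⁻¹) • v) z = 0 := by
    rw [h.smulP, p_comm R v z, z1, mul_zero, map_zero]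
  have k3 : sie Q (η • v') z ((ρ * η⁻¹) • v) - (ρ * η⁻¹) • v = z - η • v' := by
    rw [hap, k1, k2, hQz, mul_one, one_smul, one_smul, zero_smul, sub_zero]
    abel
  rw [k3] at m3
  have m4 := AddSubgroup.sub_mem _ (hperp z z1) m3
  rwa [sub_sub_cancel] at m4

/-- overgroups of orthogonal groups over an extension field -/
theorem overgroup (h : OE R l0 Q) [Finite F] (h2 : (2 : F) ≠ 0) (hn : 4 ≤ finrank K V)
    [FiniteDimensional F V] [FiniteDimensional F K] (hr : (finrank F K).Prime)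
    (hcase : 3 ≤ finrank F K ∨ 7 ≤ finrank K V) {M : Subgroup (V ≃ₗ[F] V)}
    (hHM : HK F R ≤ M) (hMO : M ≤ O Q)
    (hM : ∃ g ∈ M, ∃ x : V, ∃ k : K, g (k • x) ∉ ln F K (g x)) : ⁅O Q, O Q⁆ ≤ M := by
  have hK : Finite K := Module.finite_of_finite F
  have h2K : (2 : K) ≠ 0 := by
    intro h0
    apply h2
    have h3 : algebraMap F K 2 = 0 := by rw [map_ofNat]; exact h0
    exact (map_eq_zero (algebraMap F K)).1 h3
  have hF3 : 3 ≤ Nat.card F := by
    by_contra hcon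
    push Not at hcon
    have h3 : Nat.card F = 2 := le_antisymm (by omega) Finite.one_lt_card
    have : Fintype F := Fintype.ofFinite F
    have h4 := FiniteField.pow_card (2 : F)
    rw [← Nat.card_eq_fintype_card, h3] at h4
    apply h2
    have h5 : (2 : F) * (2 - 1) = 0 := by linear_combination h4
    norm_num at h5
    exact h5
  have hKc : 3 < Nat.card K := by
    rw [Module.natCard_eq_pow_finrank (K := F) (V := K)]
    calc 3 < 3 ^ 2 := by norm_num
      _ ≤ Nat.card F ^ 2 := Nat.pow_le_pow_left hF3 2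
      _ ≤ Nat.card F ^ finrank F K := Nat.pow_le_pow_right (by omega) hr.two_le
  have ht := exists_t hKc
  obtain ⟨v, hv, hv0, D, hD, hDr, g, hg, hgD, u, hu, hgu, hwv⟩ := h.hyper h2K hn ht hr hHM hMO hM
  obtain ⟨ℓ, hℓ, hℓ0, hs⟩ := h.root h2K hn hHM hMO hv hv0 hD hDr hg hgD hu hgu hwv
  have hall : ∀ v' : V, R v' = 0 → ∀ k l : K, sie Q (k • v') (l • v') ∈ M := fun v' hv' k l =>
    h.allsie h2K hn hHM hv hℓ hℓ0 hs hv' k l
  have hfull : ∃ v, v ≠ 0 ∧ R v = 0 ∧ Full Q M v := by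
    rcases hcase with h3 | h3
    · exact ⟨v, hv0, hv, h.full_of_perp h2K hn hHM hv hv0 (fun z hz =>
        h.perp3 h2K hHM hMO hall h3 hv hv0 hz)⟩
    · have hD0 : D ≠ ⊥ := by
        rintro rfl
        rw [finrank_bot] at hDr
        have := hr.two_le
        omega
      obtain ⟨d, hd, hd0⟩ := (Submodule.ne_bot_iff D).1 hD0
      obtain ⟨k, hk⟩ := mem_ln.1 (hD hd)
      have hk0 : k ≠ 0 := by
        rintro rfl
        rw [zero_smul] at hk
        exact hd0 hk.symm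
      have hRd : R d = 0 := by rw [← hk, Q_smul, hv, mul_zero]
      obtain ⟨l, hl⟩ := mem_ln.1 hu
      have hw : g u ∈ sg Q M (h.Qs1 hRd) := by
        have h4 : sie Q d u ∈ M := by rw [← hk, ← hl]; exact hall v hv k l
        have h5 : polar Q d u = 0 := by rw [← hk, ← hl]; exact h.Ps hv k l
        have h6 := conj_mem' hg h4
        rw [sie_conj (h.Qs1 hRd) h5 (hMO hg), hgD d hd] at h6
        refine ⟨?_, h6⟩
        have := polar_map (hMO hg) d u
        rw [hgD d hd, h5] at this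
        exact this
      have hwd : polar R (g u) d = 0 := by rw [← hk, p_smul', hwv, mul_zero]
      have hwL : g u ∉ ln F K d := by
        intro h4
        obtain ⟨m, hm⟩ := mem_ln.1 h4
        apply hgu
        rw [mem_ln]
        exact ⟨m * k, by rw [mul_smul, hk, hm]⟩
      exact ⟨d, hd0, hRd, h.full_of_perp h2K hn hHM hRd hd0 (fun z hz =>
        h.perp7 h2K h3 hHM hMO hRd hd0 hwd hwL hw hz)⟩
  obtain ⟨v, hv0, hv, hfv⟩ := hfull
  obtain ⟨v', w1, w2⟩ := h.partner hv hv0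
  obtain ⟨ρ, hρ⟩ : ∃ ρ : K, l0 ρ ≠ 0 := by
    by_contra hcon
    push Not at hcon
    exact h.l00 (LinearMap.ext hcon)
  have hρ0 : ρ ≠ 0 := by
    rintro rfl
    exact hρ (map_zero _)
  have hv'0 : v' ≠ 0 := by
    rintro rfl
    rw [p_zero'] at w2
    exact zero_ne_one w2
  obtain ⟨t, ht, htv⟩ := trans_sing h.nd h2K hn hv (w := ρ • v') (by rw [Q_smul, w1, mul_zero]) hv0
    (smul_ne_zero hρ0 hv'0)
  have hTm : rs F K V t ∈ HK F R := ⟨t, ht, rfl⟩
  have hfv' := hfv.map (hHM hTm) (h.HK_O hTm)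
  rw [rs_apply, htv] at hfv'
  have hnF : 7 ≤ finrank F V := by
    rw [← Module.finrank_mul_finrank F K V]
    rcases hcase with h3 | h3
    · calc 7 ≤ 3 * 4 := by norm_num
        _ ≤ _ := Nat.mul_le_mul h3 hn
    · calc 7 ≤ 2 * 7 := by norm_num
        _ ≤ _ := Nat.mul_le_mul hr.two_le h3
  exact omega_le_of_full h.ndQ hnF hfv hfv' (by
    rw [h.smulP, p_comm R v' v, w2, mul_one]; exact hρ)

end OE

end H7.ExtO
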