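import Cfsg.Agent.Lib.H7.ExtSp2

set_option autoImplicit false
set_option linter.unusedSectionVars false

/-!
Overgroups of symplectic groups over an extension field of prime degree: conclusion.
-/

namespace H7.ExtSp

open Module H7.ExtF H95.SpBasic SE

variable {F K V : Type*} [Field F] [Field K] [Algebra F K] [AddCommGroup V] [Module F V] [Module K V]
  [IsScalarTower F K V]
variable {κ : LinearMap.BilinForm K V} {l0 : K →ₗ[F] F} {B : LinearMap.BilinForm F V}
variable {M : Subgroup (V ≃ₗ[F] V)}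

theorem overgroup [FiniteDimensional F V] [FiniteDimensional F K] [FiniteDimensional K V] (h : SE κ l0 B)
    (hr : (finrank F K).Prime) (hHM : HK F κ ≤ M)
    (hMB : M ≤ isom B) (hM : ∃ g ∈ M, ∃ v : V, ∃ k : K, g (k • v) ∉ ln F K (g v))
    (hc : (2 : F) ≠ 0 ∨ 3 ≤ finrank F K ∨ 3 ≤ finrank K V) : isom B ≤ M := by
  obtain ⟨v, hv, D, hD, hDr, hg⟩ := h.hyper hr hHM hM
  obtain ⟨g, hg, hgD, u, hu, hug⟩ := h.flip hHM hv hD hMB hg
  obtain ⟨ζ, C⟩ := h.mkCfg hHM hv hD hDr hMB hg hgD hu hug
  obtain ⟨d, hd, hd0⟩ := C.exists_d hr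
  have hCen : Cen B h.altB M d := by
    rcases hc with h2 | h3 | h3
    · exact C.cen_odd h2 hd
    · exact C.cen_three h3 hd
    · exact C.cen_large h3 hd
  apply isom_le_of_tr B h.altB h.ndB
  intro x
  change Cen B h.altB M x
  by_cases hx : x = 0
  · rw [hx]; exact Cen.zero _ _ _
  obtain ⟨s, hs, rfl⟩ := h.trans hd0 hx
  exact hCen.map (hHM hs) (h.HK_isom hs)

/-- descent of a form -/
theorem exists_form [FiniteDimensional F K] {B : LinearMap.BilinForm F V} {l0 : K →ₗ[F] F} (hl : l0 ≠ 0)
    (hsa : ∀ (k : K) (x y : V), B (k • x) y = B x (k • y)) :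
    ∃ κ : LinearMap.BilinForm K V, ∀ (k : K) (x y : V), B (k • x) y = l0 (k * κ x y) := by
  have hinj : ∀ a : K, (∀ k : K, l0 (k * a) = 0) → a = 0 := by
    intro a ha
    by_contra h0
    apply hl
    ext x
    have := ha (x * a⁻¹)
    rwa [inv_mul_cancel_right₀ h0] at this
  have hinj' : ∀ a b : K, (∀ k : K, l0 (k * a) = l0 (k * b)) → a = b := by
    intro a b hab
    rw [← sub_eq_zero]
    apply hinj
    intro k
    rw [mul_sub, map_sub, hab, sub_self]
  let e : K →ₗ[F] Dual F K := LinearMap.mk₂ F (fun c k => l0 (k * c))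
    (fun a b k => by rw [mul_add, map_add]) (fun a b k => by rw [mul_smul_comm, map_smul])
    (fun a b k => by rw [add_mul, map_add]) (fun a b k => by rw [smul_mul_assoc, map_smul])
  have he : ∀ c k, e c k = l0 (k * c) := fun _ _ => rfl
  have hei : Function.Injective e := by
    rw [← LinearMap.ker_eq_bot, LinearMap.ker_eq_bot']
    intro c hc
    apply hinj
    intro k
    rw [← he, hc, LinearMap.zero_apply]
  have hes : Function.Surjective e := by
    apply (LinearMap.injective_iff_surjective_of_finrank_eq_finrank _).1 hei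
    rw [Subspace.dual_finrank_eq]
  have hex : ∀ x y : V, ∃ c : K, ∀ k : K, B (k • x) y = l0 (k * c) := by
    intro x y
    obtain ⟨c, hc⟩ := hes ((B.flip y) ∘ₗ ((LinearMap.toSpanSingleton K V x).restrictScalars F))
    refine ⟨c, fun k => ?_⟩
    rw [← he, hc]
    rfl
  choose f hf using hex
  refine ⟨LinearMap.mk₂ K f ?_ ?_ ?_ ?_, fun k x y => by rw [hf]; rfl⟩
  · intro x x' y
    apply hinj'
    intro k
    rw [mul_add, map_add, ← hf, ← hf, ← hf, smul_add, map_add, LinearMap.add_apply]
  · intro c x y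
    apply hinj'
    intro k
    rw [smul_eq_mul, ← mul_assoc, ← hf, ← hf, smul_smul]
  · intro x y y'
    apply hinj'
    intro k
    rw [mul_add, map_add, ← hf, ← hf, ← hf, map_add]
  · intro c x y
    apply hinj'
    intro k
    rw [smul_eq_mul, ← mul_assoc, ← hf, ← hf, ← hsa, smul_smul, mul_comm k c]

/-- the data from an alternating form with self-adjoint multiplications -/
theorem exists_SE [FiniteDimensional F K] {B : LinearMap.BilinForm F V} (hnd : ∀ v, (∀ w, B v w = 0) → v = 0)
    (hsa : ∀ (k : K) (x y : V), B (k • x) y = B x (k • y)) (halt : ∀ (k : K) (x : V), B (k • x) x = 0) :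
    ∃ (κ : LinearMap.BilinForm K V) (l0 : K →ₗ[F] F), SE κ l0 B := by
  obtain ⟨l0, hl⟩ : ∃ l0 : K →ₗ[F] F, l0 ≠ 0 := by
    by_contra hcon
    push Not at hcon
    have : (1 : K) = 0 := (Module.forall_dual_apply_eq_zero_iff F (1 : K)).1 (fun φ => by rw [hcon φ]; rfl)
    exact one_ne_zero this
  obtain ⟨κ, hκ⟩ := exists_form hl hsa
  refine ⟨κ, l0, ?_, ?_, hl, ?_⟩
  · intro x
    by_contra h0
    apply hl
    ext y
    have := hκ (y * (κ x x)⁻¹) x x
    rw [halt, inv_mul_cancel_right₀ h0] at this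
    exact this.symm
  · intro v hv
    apply hnd
    intro w
    have := hκ 1 v w
    rw [hv, mul_zero, map_zero, one_smul] at this
    exact this
  · intro x y
    have := hκ 1 x y
    rwa [one_mul, one_smul] at this

end H7.ExtSp
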