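import Cfsg.Agent.Lib.H7.ExtO4
import Cfsg.Agent.Lib.H7.ExtSp3

set_option autoImplicit false
set_option linter.unusedSectionVars false

/-!
The data of a quadratic form with self-adjoint multiplications by an extension field.
-/

namespace H7.ExtO

open Module QuadraticMap H48.QuadSplit H95.OGeo H17.OrthAbs H95.OSie H7.OLow H7.ExtF
open scoped commutatorElement

variable {F K V : Type*} [Field F] [Field K] [Algebra F K] [AddCommGroup V] [Module F V] [Module K V]
  [IsScalarTower F K V]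

theorem exists_OE [FiniteDimensional F K] (h2 : (2 : F) ≠ 0) {Q : QuadraticForm F V} (hnd : ND Q)
    (hsa : ∀ (k : K) (x y : V), polar Q (k • x) y = polar Q x (k • y)) :
    ∃ (R : QuadraticForm K V) (l0 : K →ₗ[F] F), OE R l0 Q := by
  obtain ⟨l0, hl⟩ : ∃ l0 : K →ₗ[F] F, l0 ≠ 0 := by
    by_contra hcon
    push Not at hcon
    have : (1 : K) = 0 := (Module.forall_dual_apply_eq_zero_iff F (1 : K)).1 (fun φ => by rw [hcon φ]; rfl)
    exact one_ne_zero this
  obtain ⟨κ, hκ⟩ := H7.ExtSp.exists_form (K := K) (B := Q.polarBilin) hl (fun k x y => hsa k x y)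
  have hκ' : ∀ (k : K) (x y : V), polar Q (k • x) y = l0 (k * κ x y) := hκ
  have hsymm : ∀ x y, κ x y = κ y x := by
    intro x y
    rw [← sub_eq_zero]
    by_contra h0
    apply hl
    ext k
    have h1 := hκ' (k * (κ x y - κ y x)⁻¹) x y
    have h3 := hκ' (k * (κ x y - κ y x)⁻¹) y x
    rw [hsa, p_comm, h3] at h1
    have h4 : l0 ((k * (κ x y - κ y x)⁻¹) * (κ x y - κ y x)) = 0 := by
      rw [mul_sub, map_sub, h1, sub_self]
    rw [inv_mul_cancel_right₀ h0] at h4
    exact h4
  have h2K : (2 : K) ≠ 0 := by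
    intro h0
    apply h2
    have h3 : algebraMap F K 2 = 0 := by rw [map_ofNat]; exact h0
    exact (map_eq_zero (algebraMap F K)).1 h3
  obtain ⟨R, hR⟩ : ∃ R : QuadraticForm K V, ∀ x, R x = (2 : K)⁻¹ * κ x x :=
    ⟨(2 : K)⁻¹ • κ.toQuadraticMap, fun x => rfl⟩
  have hpR : ∀ x y, polar R x y = κ x y := by
    intro x y
    rw [QuadraticMap.polar, hR, hR, hR, map_add, map_add, LinearMap.add_apply, LinearMap.add_apply, hsymm y x]
    field_simp
    ring
  refine ⟨R, l0, ?_, hl, ?_⟩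
  · intro x hx
    apply hnd
    intro y
    have h3 := hκ' 1 x y
    rw [one_smul, one_mul, ← hpR, hx, map_zero] at h3
    exact h3
  · intro x
    have h3 := hκ' 1 x x
    rw [one_smul, one_mul, p_self] at h3
    have h4 : R x = (2 : F)⁻¹ • κ x x := by
      rw [hR, Algebra.smul_def, map_inv₀, map_ofNat]
    rw [h4, map_smul, ← h3, smul_eq_mul, inv_mul_cancel_left₀ h2]

/-- an element which is not semilinear -/
theorem OE.exists_not_semi {R : QuadraticForm K V} {l0 : K →ₗ[F] F} {Q : QuadraticForm F V}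
    [FiniteDimensional K V] (h : OE R l0 Q) [Finite F] [FiniteDimensional F K] [FiniteDimensional F V]
    (h2 : (2 : F) ≠ 0) (hn : 4 ≤ finrank K V)
    (hr : 2 ≤ finrank F K) : ∃ g ∈ ⁅O Q, O Q⁆, ∃ e : K, ∀ e' : K, ∃ v, g (e • v) ≠ e' • g v := by
  have hK : Finite K := Module.finite_of_finite F
  obtain ⟨v, hv0, hv, -⟩ := exists_sing1 h.nd hn 0
  obtain ⟨v', w1, w2⟩ := h.partner hv hv0
  obtain ⟨γ, hγ, hγ0⟩ : ∃ γ : K, l0 γ = 0 ∧ γ ≠ 0 := by
    have h6 := LinearMap.finrank_range_add_finrank_ker l0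
    have h7 : finrank F (LinearMap.range l0) ≤ 1 := by
      refine (Submodule.finrank_le _).trans ?_
      rw [finrank_self]
    have h8 : LinearMap.ker l0 ≠ ⊥ := by
      intro h9
      rw [h9, finrank_bot] at h6
      omega
    obtain ⟨γ, hγ, hγ0⟩ := (Submodule.ne_bot_iff _).1 h8
    exact ⟨γ, hγ, hγ0⟩
  obtain ⟨e, he⟩ : ∃ e : K, ∀ a : F, algebraMap F K a ≠ e := by
    by_contra hcon
    push Not at hcon
    have h4 : (⊤ : Submodule F K) ≤ Submodule.span F {1} := by
      intro y _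
      obtain ⟨a, rfl⟩ := hcon y
      rw [Submodule.mem_span_singleton]
      exact ⟨a, by rw [Algebra.smul_def, mul_one]⟩
    have h5 := Submodule.finrank_mono h4
    rw [finrank_top, finrank_span_singleton one_ne_zero] at h5
    omega
  have hQv : Q v = 0 := h.Qs1 hv
  have hvz : polar Q v (γ • v') = 0 := by rw [h.smulP', w2, mul_one, hγ]
  have hQz : Q (γ • v') = 0 := h.Qs w1 γ
  have hap : ∀ y, sie Q v (γ • v') y = y + polar Q y v • γ • v' - polar Q y (γ • v') • v := by
    intro y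
    rw [sie_apply hQv hvz, hQz, zero_mul, zero_smul, sub_zero]
  refine ⟨sie Q v (γ • v'), sie_mem h.ndQ h2 hQv hvz, e, fun e' => ?_⟩
  by_contra hcon
  push Not at hcon
  -- a fixed line
  obtain ⟨x, hx0, hx1, hx2⟩ : ∃ x, x ≠ 0 ∧ polar R x v = 0 ∧ polar R x v' = 0 := by
    have h3 := finrank_orth h.nd (Submodule.span K (Set.range ![v, v']))
    have h4 := finrank_range_le (F := K) ![v, v']
    have h5 : orth R (Submodule.span K (Set.range ![v, v'])) ≠ ⊥ := by
      intro h0
      rw [h0, finrank_bot] at h3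
      omega
    obtain ⟨x, hx, hx0⟩ := (Submodule.ne_bot_iff _).1 h5
    rw [mem_orth_range] at hx
    exact ⟨x, hx0, hx 0, hx 1⟩
  have hfix : ∀ k : K, sie Q v (γ • v') (k • x) = k • x := by
    intro k
    have q1 : polar Q (k • x) v = 0 := by rw [h.smulP, hx1, mul_zero, map_zero]
    have q2 : polar Q (k • x) (γ • v') = 0 := by rw [h.smulP, p_smul', hx2, mul_zero, mul_zero, map_zero]
    rw [hap, q1, q2, zero_smul, zero_smul, add_zero, sub_zero]
  have hee : e = e' := by
    have h3 := hcon x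
    have h4 := hfix 1
    rw [one_smul] at h4
    rw [hfix, h4] at h3
    rw [← sub_eq_zero]
    have h5 : (e - e') • x = 0 := by rw [sub_smul, h3, sub_self]
    exact (smul_eq_zero.1 h5).resolve_right hx0
  subst hee
  obtain ⟨c, hc⟩ : ∃ c : K, l0 c = 1 := by
    obtain ⟨ρ, hρ⟩ : ∃ ρ : K, l0 ρ ≠ 0 := by
      by_contra hcon
      push Not at hcon
      exact h.l00 (LinearMap.ext hcon)
    exact ⟨(l0 ρ)⁻¹ • ρ, by rw [map_smul, smul_eq_mul, inv_mul_cancel₀ hρ]⟩
  have hv'0 : v' ≠ 0 := by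
    rintro rfl
    rw [p_zero'] at w2
    exact zero_ne_one w2
  have hv' : ∀ k : K, sie Q v (γ • v') (k • v') = k • v' + l0 k • γ • v' := by
    intro k
    have q1 : polar Q (k • v') v = l0 k := by rw [h.smulP, p_comm R v' v, w2, mul_one]
    have q2 : polar Q (k • v') (γ • v') = 0 := h.Ps w1 k γ
    rw [hap, q1, q2, zero_smul, sub_zero]
  have h3 := hcon (c • v')
  rw [smul_smul, hv', hv', hc, one_smul, smul_add, smul_smul, add_right_inj] at h3
  have h4 : (algebraMap F K (l0 (e * c)) - e) • (γ • v') = 0 := by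
    rw [sub_smul, algebraMap_smul, h3, sub_self]
  have h5 := (smul_eq_zero.1 h4).resolve_right (smul_ne_zero hγ0 hv'0)
  exact he _ (sub_eq_zero.1 h5)

end H7.ExtO
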