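import Cfsg.Agent.Lib.H7.ExtF
import Cfsg.Agent.Lib.H7.SpTwo
import Cfsg.Agent.Lib.H95.SpBasic

set_option autoImplicit false
set_option linter.unusedSectionVars false

/-!
Overgroups of symplectic groups over an extension field of prime degree.
-/

namespace H7.ExtSp

open Module H7.ExtF H95.SpBasic

variable {F K V : Type*} [Field F] [Field K] [Algebra F K] [AddCommGroup V] [Module F V] [Module K V]
  [IsScalarTower F K V]

/-- an alternating form over the extension field and its trace form -/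
structure SE (κ : LinearMap.BilinForm K V) (l0 : K →ₗ[F] F) (B : LinearMap.BilinForm F V) : Prop where
  alt : κ.IsAlt
  nd : ∀ v, (∀ w, κ v w = 0) → v = 0
  l00 : l0 ≠ 0
  hB : ∀ x y, B x y = l0 (κ x y)

variable {κ : LinearMap.BilinForm K V} {l0 : K →ₗ[F] F} {B : LinearMap.BilinForm F V}

/-- the `K`-linear isometries -/
def HK (F : Type*) [Field F] [Algebra F K] [Module F V] [IsScalarTower F K V] (κ : LinearMap.BilinForm K V) :
    Subgroup (V ≃ₗ[F] V) where
  carrier := {g | (∀ (k : K) x, g (k • x) = k • g x) ∧ ∀ x y, κ (g x) (g y) = κ x y}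
  mul_mem' {a b} ha hb := by
    refine ⟨fun k x => ?_, fun x y => ?_⟩
    · show a (b (k • x)) = k • a (b x)
      rw [hb.1, ha.1]
    · show κ (a (b x)) (a (b y)) = _
      rw [ha.2, hb.2]
  one_mem' := ⟨fun _ _ => rfl, fun _ _ => rfl⟩
  inv_mem' {a} ha := by
    have h1 : ∀ (k : K) x, a⁻¹ (k • x) = k • a⁻¹ x := by
      intro k x
      apply a.injective
      rw [ha.1, apply_inv, apply_inv]
    refine ⟨h1, fun x y => ?_⟩
    rw [← ha.2, apply_inv, apply_inv]

lemma mem_HK {g : V ≃ₗ[F] V} : g ∈ HK F κ ↔ (∀ (k : K) x, g (k • x) = k • g x) ∧ ∀ x y, κ (g x) (g y) = κ x y :=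
  Iff.rfl

namespace SE

lemma sw (h : SE κ l0 B) (x y : V) : κ x y = - κ y x := (LinearMap.BilinForm.IsAlt.neg_eq h.alt y x).symm

lemma ext (h : SE κ l0 B) {a : K} (ha : ∀ k : K, l0 (k * a) = 0) : a = 0 := by
  by_contra h0
  apply h.l00
  ext x
  have := ha (x * a⁻¹)
  rwa [inv_mul_cancel_right₀ h0] at this

lemma ext' (h : SE κ l0 B) {a b : K} (ha : ∀ k : K, l0 (k * a) = l0 (k * b)) : a = b := by
  rw [← sub_eq_zero]
  apply h.ext
  intro k
  rw [mul_sub, map_sub, ha, sub_self]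

lemma smulB (h : SE κ l0 B) (k : K) (x y : V) : B (k • x) y = l0 (k * κ x y) := by
  rw [h.hB, map_smul, LinearMap.smul_apply, smul_eq_mul]

lemma smulB' (h : SE κ l0 B) (k : K) (x y : V) : B x (k • y) = l0 (k * κ x y) := by
  rw [h.hB, map_smul, smul_eq_mul]

lemma altB (h : SE κ l0 B) : B.IsAlt := fun x => by rw [h.hB, h.alt, map_zero]

lemma swB (h : SE κ l0 B) (x y : V) : B x y = - B y x := (LinearMap.BilinForm.IsAlt.neg_eq h.altB y x).symm

lemma ndB (h : SE κ l0 B) (v : V) (hv : ∀ w, B v w = 0) : v = 0 := by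
  apply h.nd
  intro w
  apply h.ext
  intro k
  rw [← h.smulB', hv]

/-- transvections -/
def T (h : SE κ l0 B) (v : V) (c : K) : V ≃ₗ[F] V := (tr κ h.alt v c).restrictScalars F

lemma T_apply (h : SE κ l0 B) (v : V) (c : K) (x : V) : h.T v c x = x + (c * κ x v) • v := rfl

lemma T_mem (h : SE κ l0 B) (v : V) (c : K) : h.T v c ∈ HK F κ := by
  refine ⟨fun k x => ?_, fun x y => tr_mem_isom κ h.alt v c x y⟩
  exact (tr κ h.alt v c).map_smul k x

lemma HK_isom (h : SE κ l0 B) {g : V ≃ₗ[F] V} (hg : g ∈ HK F κ) : g ∈ isom B := by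
  intro x y
  rw [h.hB, h.hB, hg.2]

lemma ln_iso (h : SE κ l0 B) {v x y : V} (hx : x ∈ ln F K v) (hy : y ∈ ln F K v) : κ x y = 0 := by
  obtain ⟨k, rfl⟩ := mem_ln.1 hx
  obtain ⟨l, rfl⟩ := mem_ln.1 hy
  rw [map_smul, map_smul, LinearMap.smul_apply, h.alt, smul_zero, smul_zero]

/-- transitivity on vectors -/
lemma trans (h : SE κ l0 B) {x y : V} (hx : x ≠ 0) (hy : y ≠ 0) : ∃ g ∈ HK F κ, g x = y := by
  have h1 : ∀ x y : V, κ x y ≠ 0 → ∃ g ∈ HK F κ, g x = y := by
    intro x y hxy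
    exact ⟨h.T (y - x) (κ x y)⁻¹, h.T_mem _ _, tr_move κ h.alt x y hxy⟩
  obtain ⟨z, hz1, hz2⟩ := exists_both_ne (f := κ x) (g := κ y)
    (by by_contra hcon; push Not at hcon; exact hx (h.nd x hcon))
    (by by_contra hcon; push Not at hcon; exact hy (h.nd y hcon))
  obtain ⟨g, hg, hgx⟩ := h1 x z hz1
  obtain ⟨g', hg', hgz⟩ := h1 z y (by rw [h.sw]; exact neg_ne_zero.2 hz2)
  exact ⟨g' * g, (HK F κ).mul_mem hg' hg, by show g' (g x) = y; rw [hgx, hgz]⟩

/-- Siegel elements -/
lemma siegel (h : SE κ l0 B) {v z : V} (hvz : κ v z = 0) :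
    ∃ t ∈ HK F κ, ∀ y, t y = y + κ y v • z + κ y z • v := by
  have hzv : κ z v = 0 := by rw [h.sw, hvz, neg_zero]
  refine ⟨h.T (v + z) 1 * (h.T v (-1) * h.T z (-1)), (HK F κ).mul_mem (h.T_mem _ _)
    ((HK F κ).mul_mem (h.T_mem _ _) (h.T_mem _ _)), fun y => ?_⟩
  show h.T (v + z) 1 (h.T v (-1) (h.T z (-1) y)) = _
  rw [T_apply, T_apply, T_apply]
  simp only [map_add, LinearMap.add_apply, map_smul, LinearMap.smul_apply, smul_eq_mul, hvz, hzv, h.alt v, h.alt z]
  module

variable [FiniteDimensional K V]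

lemma val2 (h : SE κ l0 B) {x y : V} (hx : x ≠ 0) (hy : y ∉ ln F K x) (c d : K) : ∃ v, κ x v = c ∧ κ y v = d :=
  H7.SpTwo.exists_val2 h.nd hx hy c d

lemma star (h : SE κ l0 B) {v x : V} (hv : v ≠ 0) (hx : x ∉ ln F K v) (k : K) :
    ∃ t ∈ HK F κ, (∀ y ∈ ln F K v, t y = y) ∧ t x = x + k • v := by
  by_cases hxv : κ x v = 0
  · obtain ⟨z, hz1, hz2⟩ := h.val2 hv hx 0 k
    obtain ⟨t, ht, hty⟩ := h.siegel hz1
    refine ⟨t, ht, fun y hy => ?_, ?_⟩
    · obtain ⟨l, rfl⟩ := mem_ln.1 hy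
      rw [hty]
      simp only [map_smul, LinearMap.smul_apply, h.alt v, hz1, smul_zero, zero_smul, add_zero]
    · rw [hty, hxv, hz2, zero_smul, add_zero]
  · refine ⟨h.T v (k / κ x v), h.T_mem _ _, fun y hy => ?_, ?_⟩
    · rw [T_apply, h.ln_iso hy (self_mem_ln v), mul_zero, zero_smul, add_zero]
    · rw [T_apply, div_mul_cancel₀ _ hxv]

lemma inv_le (h : SE κ l0 B) [FiniteDimensional F V] {v : V} (hv : v ≠ 0) (X : Submodule F V)
    (hX : finrank F X = finrank F K)
    (hinv : ∀ t ∈ HK F κ, (∀ y ∈ ln F K v, t y = y) → ∀ y ∈ X, t y ∈ X) : X ≤ ln F K v := by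
  intro x hx
  by_contra hxv
  have h1 : ln F K v ≤ X := by
    intro y hy
    obtain ⟨k, rfl⟩ := mem_ln.1 hy
    obtain ⟨t, ht, htl, htx⟩ := h.star hv hxv k
    have h2 := hinv t ht htl x hx
    rw [htx] at h2
    have := X.sub_mem h2 hx
    rwa [add_sub_cancel_left] at this
  have h2 := Submodule.eq_of_le_of_finrank_eq h1 (by rw [finrank_ln hv, hX])
  exact hxv (by rw [h2]; exact hx)

lemma s2 (h : SE κ l0 B) [FiniteDimensional F V] [FiniteDimensional F K] (hr : (finrank F K).Prime) {v : V}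
    (hv : v ≠ 0) (D : Submodule F V) (hD : D ≤ ln F K v)
    (hD0 : D ≠ ⊥) (hD1 : D ≠ ln F K v) (X : Submodule F V) (hX : finrank F X = finrank F K)
    (hw : ∃ w ∈ X, w ∉ ln F K v) (hXD : X ⊓ ln F K v = D)
    (hinv : ∀ w ∈ X, w ∉ ln F K v → ∀ t ∈ HK F κ, (∀ y ∈ ln F K v, t y = y) → t w - w ∈ D → ∀ y ∈ X, t y ∈ X) :
    finrank F X ≤ finrank F D + 1 := by
  have hDX : D ≤ X := by rw [← hXD]; exact inf_le_left
  let C : Submodule F K := D.comap ((LinearMap.toSpanSingleton K V v).restrictScalars F)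
  have hC : ∀ c : K, c ∈ C ↔ c • v ∈ D := fun c => Iff.rfl
  have hC0 : C ≠ ⊥ := by
    intro h0
    obtain ⟨d, hd, hd0⟩ := (Submodule.ne_bot_iff D).1 hD0
    obtain ⟨c, rfl⟩ := mem_ln.1 (hD hd)
    have : c ∈ C := (hC c).2 hd
    rw [h0, Submodule.mem_bot] at this
    rw [this, zero_smul] at hd0
    exact hd0 rfl
  have hC1' : ∀ c : K, (∀ k : K, k • v ∈ D) → False := by
    intro _ h1
    apply hD1
    apply le_antisymm hD
    intro y hy
    obtain ⟨k, rfl⟩ := mem_ln.1 hy
    exact h1 k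
  have hC1 : C ≠ ⊤ := by
    intro h0
    exact hC1' 0 (fun k => (hC k).1 (by rw [h0]; exact Submodule.mem_top))
  suffices hs : ∃ w ∈ X, ∀ y ∈ X, ∃ a : F, y - a • w ∈ D by
    obtain ⟨w, hwX, hy⟩ := hs
    have h1 : X ≤ D ⊔ Submodule.span F {w} := by
      intro y hyX
      obtain ⟨a, ha⟩ := hy y hyX
      rw [Submodule.mem_sup]
      exact ⟨_, ha, a • w, Submodule.mem_span_singleton.2 ⟨a, rfl⟩, by abel⟩
    have h2 := Submodule.finrank_mono h1
    have h3 := Submodule.finrank_add_le_finrank_add_finrank D (Submodule.span F {w})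
    have h4 := finrank_span_le_card (R := F) ({w} : Set V)
    simp at h4
    omega
  by_cases hcase : ∃ w ∈ X, w ∉ ln F K v ∧ κ w v ≠ 0
  · obtain ⟨w, hwX, hwL, hwv⟩ := hcase
    refine ⟨w, hwX, fun y hy => ?_⟩
    obtain ⟨a, ha⟩ := stab hr hC0 hC1 (x := κ y v / κ w v) (by
      intro c hc
      rw [hC] at hc ⊢
      have h1 := hinv w hwX hwL (h.T v (c / κ w v)) (h.T_mem _ _) (fun y hy => by
        rw [T_apply, h.ln_iso hy (self_mem_ln v), mul_zero, zero_smul, add_zero]) (by
        rw [T_apply, div_mul_cancel₀ _ hwv, add_sub_cancel_left]; exact hc) y hy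
      have h2 := X.sub_mem h1 hy
      rw [T_apply, add_sub_cancel_left] at h2
      rw [← hXD]
      refine ⟨?_, smul_mem_ln _ _⟩
      have h3 : κ y v / κ w v * c = c / κ w v * κ y v := by ring
      rw [h3]; exact h2)
    refine ⟨a, ?_⟩
    have hyv : κ y v = a • κ w v := by
      rw [Algebra.smul_def, ha, div_mul_cancel₀ _ hwv]
    obtain ⟨y', hy'⟩ : ∃ y', y' = y - a • w := ⟨_, rfl⟩
    have hy'X : y' ∈ X := by rw [hy']; exact X.sub_mem hy (X.smul_mem _ hwX)
    have hy'v : κ y' v = 0 := by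
      rw [hy', map_sub, LinearMap.sub_apply, hyv, ← algebraMap_smul K a w, map_smul, LinearMap.smul_apply,
        algebraMap_smul, sub_self]
    rw [← hy']
    by_contra hy'D
    have hy'L : y' ∉ ln F K v := fun h1 => hy'D (by rw [← hXD]; exact ⟨hy'X, h1⟩)
    have hli : LinearIndependent K ![v, w, y'] := by
      rw [Fintype.linearIndependent_iff]
      intro c hc
      rw [Fin.sum_univ_three] at hc
      simp only [Matrix.cons_val_zero, Matrix.cons_val_one, Matrix.cons_val] at hc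
      have h1 := congrArg (fun x => κ x v) hc
      simp only [map_add, LinearMap.add_apply, map_smul, LinearMap.smul_apply, h.alt v, hy'v, zero_add,
        add_zero, map_zero, LinearMap.zero_apply, smul_eq_mul, mul_zero] at h1
      have hc1 : c 1 = 0 := (mul_eq_zero.1 h1).resolve_right hwv
      rw [hc1, zero_smul, add_zero] at hc
      have hc2 : c 2 = 0 := by
        by_contra hc2
        apply hy'L
        refine mem_ln.2 ⟨-(c 0) / c 2, ?_⟩
        have h2 : c 2 • y' = -(c 0 • v) := by rw [eq_neg_iff_add_eq_zero, add_comm]; exact hc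
        have h3 : y' = (c 2)⁻¹ • (c 2 • y') := by rw [smul_smul, inv_mul_cancel₀ hc2, one_smul]
        rw [h3, h2, ← neg_smul, smul_smul]
        congr 1; ring
      rw [hc2, zero_smul, add_zero] at hc
      have hc0 : c 0 = 0 := (smul_eq_zero.1 hc).resolve_right hv
      intro i
      fin_cases i
      · exact hc0
      · exact hc1
      · exact hc2
    obtain ⟨z, hz⟩ := H7.SpTwo.exists_val h.nd hli ![0, 0, 1]
    have z0 : κ v z = 0 := hz 0
    have z1 : κ w z = 0 := hz 1
    have z2 : κ y' z = 1 := hz 2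
    have hz0 : z ≠ 0 := by
      rintro rfl
      rw [map_zero] at z2
      exact zero_ne_one z2
    have h1 : ln F K z ≤ X := by
      intro x hx
      obtain ⟨c, rfl⟩ := mem_ln.1 hx
      have h2 := hinv w hwX hwL (h.T z c) (h.T_mem _ _) (fun y hy => by
        obtain ⟨l, rfl⟩ := mem_ln.1 hy
        rw [T_apply, map_smul, LinearMap.smul_apply, z0, smul_zero, mul_zero, zero_smul, add_zero]) (by
        rw [T_apply, z1, mul_zero, zero_smul, add_zero, sub_self]; exact D.zero_mem) y' hy'X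
      rw [T_apply, z2, mul_one] at h2
      have := X.sub_mem h2 hy'X
      rwa [add_sub_cancel_left] at this
    have h2 := Submodule.eq_of_le_of_finrank_eq h1 (by rw [finrank_ln hz0, hX])
    rw [← h2] at hwX
    obtain ⟨k, rfl⟩ := mem_ln.1 hwX
    rw [map_smul, LinearMap.smul_apply, h.sw, z0, neg_zero, smul_zero] at hwv
    exact hwv rfl
  · push Not at hcase
    have hX0 : ∀ y ∈ X, κ y v = 0 := by
      intro y hy
      by_cases hyl : y ∈ ln F K v
      · exact h.ln_iso hyl (self_mem_ln v)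
      · exact hcase y hy hyl
    obtain ⟨w, hwX, hwL⟩ := hw
    refine ⟨w, hwX, fun y hy => ?_⟩
    have hsp : ∃ a b : K, y = a • v + b • w := by
      by_contra hcon
      push Not at hcon
      have hli : LinearIndependent K ![v, w, y] := by
        rw [Fintype.linearIndependent_iff]
        intro c hc
        rw [Fin.sum_univ_three] at hc
        simp only [Matrix.cons_val_zero, Matrix.cons_val_one, Matrix.cons_val] at hc
        have hc2 : c 2 = 0 := by
          by_contra hc2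
          apply hcon (-(c 0) / c 2) (-(c 1) / c 2)
          have h2 : c 2 • y = -(c 0 • v + c 1 • w) := by rw [eq_neg_iff_add_eq_zero, add_comm]; exact hc
          have h3 : y = (c 2)⁻¹ • (c 2 • y) := by rw [smul_smul, inv_mul_cancel₀ hc2, one_smul]
          rw [h3, h2]
          match_scalars <;> ring
        rw [hc2, zero_smul, add_zero] at hc
        have hc1 : c 1 = 0 := by
          by_contra hc1
          apply hwL
          refine mem_ln.2 ⟨-(c 0) / c 1, ?_⟩
          have h2 : c 1 • w = -(c 0 • v) := by rw [eq_neg_iff_add_eq_zero, add_comm]; exact hc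
          have h3 : w = (c 1)⁻¹ • (c 1 • w) := by rw [smul_smul, inv_mul_cancel₀ hc1, one_smul]
          rw [h3, h2, ← neg_smul, smul_smul]
          congr 1; ring
        rw [hc1, zero_smul, add_zero] at hc
        have hc0 : c 0 = 0 := (smul_eq_zero.1 hc).resolve_right hv
        intro i
        fin_cases i
        · exact hc0
        · exact hc1
        · exact hc2
      apply hC1' 0
      intro k
      obtain ⟨z, hz⟩ := H7.SpTwo.exists_val h.nd hli ![0, 0, k]
      have z0 : κ v z = 0 := hz 0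
      have z1 : κ w z = 0 := hz 1
      have z2 : κ y z = k := hz 2
      obtain ⟨t, ht, hty⟩ := h.siegel z0
      have h2 := hinv w hwX hwL t ht (fun y hy => by
        obtain ⟨l, rfl⟩ := mem_ln.1 hy
        rw [hty]
        simp only [map_smul, LinearMap.smul_apply, h.alt v, z0, smul_zero, zero_smul, add_zero]) (by
        rw [hty, z1, hX0 w hwX, zero_smul, zero_smul, add_zero, add_zero, sub_self]; exact D.zero_mem) y hy
      rw [hty, z2, hX0 y hy, zero_smul, add_zero] at h2
      rw [← hXD]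
      refine ⟨?_, smul_mem_ln _ _⟩
      have := X.sub_mem h2 hy
      rwa [add_sub_cancel_left] at this
    obtain ⟨a, b, hab⟩ := hsp
    obtain ⟨f, hf⟩ := stab hr hC0 hC1 (x := b) (by
      intro c hc
      rw [hC] at hc ⊢
      obtain ⟨z, z0, z1⟩ := h.val2 hv hwL 0 c
      obtain ⟨t, ht, hty⟩ := h.siegel z0
      have h2 := hinv w hwX hwL t ht (fun y hy => by
        obtain ⟨l, rfl⟩ := mem_ln.1 hy
        rw [hty]
        simp only [map_smul, LinearMap.smul_apply, h.alt v, z0, smul_zero, zero_smul, add_zero]) (by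
        rw [hty, z1, hX0 w hwX, zero_smul, add_zero, add_sub_cancel_left]; exact hc) y hy
      have h3 : κ y z = b * c := by
        rw [hab, map_add, LinearMap.add_apply, map_smul, map_smul, LinearMap.smul_apply, LinearMap.smul_apply, z0, z1,
          smul_zero, zero_add, smul_eq_mul]
      rw [hty, h3, hX0 y hy, zero_smul, add_zero] at h2
      rw [← hXD]
      refine ⟨?_, smul_mem_ln _ _⟩
      have := X.sub_mem h2 hy
      rwa [add_sub_cancel_left] at this)
    refine ⟨f, ?_⟩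
    rw [← hXD]
    refine ⟨X.sub_mem hy (X.smul_mem _ hwX), ?_⟩
    rw [hab, ← hf, algebraMap_smul, add_sub_cancel_right]
    exact smul_mem_ln _ _

/-- hyperplanes of a line -/
lemma hyper (h : SE κ l0 B) [FiniteDimensional F V] [FiniteDimensional F K] (hr : (finrank F K).Prime)
    {M : Subgroup (V ≃ₗ[F] V)} (hHM : HK F κ ≤ M) (hM : ∃ g ∈ M, ∃ v : V, ∃ k : K, g (k • v) ∉ ln F K (g v)) :
    ∃ v : V, v ≠ 0 ∧ ∃ D ≤ ln F K v, finrank F D + 1 = finrank F K ∧
      ∃ g ∈ M, (∀ d ∈ D, g d = d) ∧ ∃ u ∈ ln F K v, g u ∉ ln F K v := by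
  obtain ⟨g, hg, v, k, hgk⟩ := hM
  have hv : v ≠ 0 := by
    rintro rfl
    rw [smul_zero, map_zero] at hgk
    exact hgk (Submodule.zero_mem _)
  refine ⟨v, hv, exists_hyper hHM hv hr (fun X hX h1 => h.inv_le hv X hX h1)
    (fun D hD hD0 hD1 X hX hw hXD hinv => h.s2 hr hv D hD hD0 hD1 X hX hw hXD hinv) ?_⟩
  obtain ⟨s, hs, hsv⟩ := h.trans (x := g v) (y := v) (fun h0 => hv ((LinearEquiv.map_eq_zero_iff g).1 h0)) hv
  refine ⟨s * g, M.mul_mem (hHM hs) hg, hsv, k • v, smul_mem_ln _ _, ?_⟩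
  intro h1
  apply hgk
  obtain ⟨l, hl⟩ := mem_ln.1 h1
  refine mem_ln.2 ⟨l, ?_⟩
  apply s.injective
  rw [hs.1, hsv]
  exact hl

end SE

end H7.ExtSp
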