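import Cfsg.Agent.Lib.H7.ExtSp

set_option autoImplicit false
set_option linter.unusedSectionVars false

/-!
Overgroups of symplectic groups over an extension field of prime degree: the theorem.
-/

namespace H7.ExtSp

open Module H7.ExtF H95.SpBasic

variable {F K V : Type*} [Field F] [Field K] [Algebra F K] [AddCommGroup V] [Module F V] [Module K V]
  [IsScalarTower F K V]
variable {κ : LinearMap.BilinForm K V} {l0 : K →ₗ[F] F} {B : LinearMap.BilinForm F V}

/-- symmetric elements of rank two -/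
def Ea (B : LinearMap.BilinForm F V) (M : Subgroup (V ≃ₗ[F] V)) (x y : V) : Prop :=
  ∃ e ∈ M, ∀ z, e z = z + B z x • y + B z y • x

variable {M : Subgroup (V ≃ₗ[F] V)}

lemma Ea.conj {x y : V} (h : Ea B M x y) {g : V ≃ₗ[F] V} (hg : g ∈ M) (hgi : g ∈ isom B) : Ea B M (g x) (g y) := by
  obtain ⟨u, hu, hux⟩ := h
  refine ⟨g * u * g⁻¹, M.mul_mem (M.mul_mem hg hu) (M.inv_mem hg), fun z => ?_⟩
  have e1 : ∀ x, B (g⁻¹ z) x = B z (g x) := fun x => by
    rw [← hgi (g⁻¹ z) x, apply_inv]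
  show g (u (g⁻¹ z)) = _
  rw [hux, map_add, map_add, map_smul, map_smul, apply_inv, e1, e1]

lemma Ea.of_smul {x y : V} {c : F} (hc : c ≠ 0) (h : ∀ a : F, Ea B M x (a • c • y)) : Ea B M x y := by
  have := h c⁻¹
  rwa [smul_smul, inv_mul_cancel₀ hc, one_smul] at this

namespace SE

lemma isoL (h : SE κ l0 B) {v x y : V} (hx : x ∈ ln F K v) (hy : y ∈ ln F K v) : B x y = 0 := by
  rw [h.hB, h.ln_iso hx hy, map_zero]

/-- the two lines can be chosen non-orthogonal -/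
lemma flip (h : SE κ l0 B) [FiniteDimensional K V] (hHM : HK F κ ≤ M) {v : V} (hv : v ≠ 0) {D : Submodule F V}
    (hD : D ≤ ln F K v) (hMB : M ≤ isom B)
    (hg : ∃ g ∈ M, (∀ d ∈ D, g d = d) ∧ ∃ u ∈ ln F K v, g u ∉ ln F K v) :
    ∃ g ∈ M, (∀ d ∈ D, g d = d) ∧ ∃ u ∈ ln F K v, B u (g u) ≠ 0 := by
  obtain ⟨g, hg, hgD, u, hu, hgu⟩ := hg
  obtain ⟨z, z0, z1⟩ := h.val2 hv hgu 0 1
  obtain ⟨c, hc⟩ : ∃ c, l0 c ≠ 0 := by
    by_contra hcon
    push Not at hcon
    exact h.l00 (LinearMap.ext hcon)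
  have hT : ∀ y ∈ ln F K v, h.T z c y = y := by
    intro y hy
    obtain ⟨l, rfl⟩ := mem_ln.1 hy
    rw [T_apply, map_smul, LinearMap.smul_apply, z0, smul_zero, mul_zero, zero_smul, add_zero]
  have hgD' : ∀ d ∈ D, g⁻¹ d = d := fun d hd => by
    conv_lhs => rw [← hgD d hd]
    rw [inv_apply]
  refine ⟨g⁻¹ * h.T z c * g, M.mul_mem (M.mul_mem (M.inv_mem hg) (hHM (h.T_mem _ _))) hg, fun d hd => ?_, u, hu, ?_⟩
  · show g⁻¹ (h.T z c (g d)) = d
    rw [hgD d hd, hT d (hD hd), hgD' d hd]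
  · show B u (g⁻¹ (h.T z c (g u))) ≠ 0
    have hi := hMB hg
    rw [← hi u, apply_inv, T_apply, z1, mul_one, map_add, h.altB, zero_add, h.smulB', z1, mul_one]
    exact hc

/-- the configuration -/
structure Cfg (κ : LinearMap.BilinForm K V) (l0 : K →ₗ[F] F) (B : LinearMap.BilinForm F V)
    (M : Subgroup (V ≃ₗ[F] V)) (v : V) (D : Submodule F V) (g : V ≃ₗ[F] V) (u ζ : V) : Prop where
  h : SE κ l0 B
  hHM : HK F κ ≤ M
  hMB : M ≤ isom B
  hv : v ≠ 0
  hD : D ≤ ln F K v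
  hDr : finrank F D + 1 = finrank F K
  hg : g ∈ M
  hgD : ∀ d ∈ D, g d = d
  hu : u ∈ ln F K v
  hζ : B u ζ = 1
  hζg : ∃ b : F, ζ = b • g u
  hDζ : ∀ y ∈ ln F K v, y ∈ D ↔ B y ζ = 0

lemma mkCfg (h : SE κ l0 B) [FiniteDimensional F V] (hHM : HK F κ ≤ M) {v : V} (hv : v ≠ 0) {D : Submodule F V}
    (hD : D ≤ ln F K v) (hDr : finrank F D + 1 = finrank F K) (hMB : M ≤ isom B) {g : V ≃ₗ[F] V} (hg : g ∈ M)
    (hgD : ∀ d ∈ D, g d = d) {u : V} (hu : u ∈ ln F K v) (hug : B u (g u) ≠ 0) :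
    ∃ ζ, Cfg κ l0 B M v D g u ζ := by
  refine ⟨(B u (g u))⁻¹ • g u, h, hHM, hMB, hv, hD, hDr, hg, hgD, hu, ?_, ⟨_, rfl⟩, ?_⟩
  · rw [map_smul, smul_eq_mul, inv_mul_cancel₀ hug]
  · have hDg : ∀ d ∈ D, B d (g u) = 0 := by
      intro d hd
      have := hMB hg d u
      rw [hgD d hd] at this
      rw [this]
      exact h.isoL (hD hd) hu
    intro y hy
    constructor
    · intro hyD
      rw [map_smul, hDg y hyD, smul_zero]
    · intro h0
      rw [map_smul, smul_eq_mul] at h0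
      have h0' := (mul_eq_zero.1 h0).resolve_left (inv_ne_zero hug)
      -- D is the kernel in the line
      have huD : u ∉ D := fun h1 => hug (hDg u h1)
      have h1 : D ⊓ Submodule.span F {u} = ⊥ := by
        rw [Submodule.eq_bot_iff]
        rintro y ⟨hy1, hy2⟩
        obtain ⟨a, rfl⟩ := Submodule.mem_span_singleton.1 hy2
        by_cases ha : a = 0
        · rw [ha, zero_smul]
        · exact absurd ((Submodule.smul_mem_iff _ ha).1 hy1) huD
      have h2 := Submodule.finrank_sup_add_finrank_inf_eq D (Submodule.span F {u})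
      have hu0 : u ≠ 0 := fun h => huD (h ▸ D.zero_mem)
      rw [h1, finrank_bot, add_zero, finrank_span_singleton hu0, hDr] at h2
      have h3 : D ⊔ Submodule.span F {u} = ln F K v := by
        apply Submodule.eq_of_le_of_finrank_eq
        · exact sup_le hD (by rw [Submodule.span_singleton_le_iff_mem]; exact hu)
        · rw [h2, finrank_ln hv]
      rw [← h3] at hy
      obtain ⟨d, hd, x, hx, rfl⟩ := Submodule.mem_sup.1 hy
      obtain ⟨a, rfl⟩ := Submodule.mem_span_singleton.1 hx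
      rw [map_add, LinearMap.add_apply, hDg d hd, zero_add, map_smul, LinearMap.smul_apply, smul_eq_mul] at h0'
      rw [(mul_eq_zero.1 h0').resolve_right hug, zero_smul, add_zero]
      exact hd

end SE

open SE

namespace SE.Cfg

variable {v u ζ : V} {D : Submodule F V} {g : V ≃ₗ[F] V}

lemma decomp (C : Cfg κ l0 B M v D g u ζ) {y : V} (hy : y ∈ ln F K v) : y - B y ζ • u ∈ D := by
  rw [C.hDζ _ (Submodule.sub_mem _ hy (Submodule.smul_mem _ _ C.hu)), map_sub, LinearMap.sub_apply, map_smul,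
    LinearMap.smul_apply, C.hζ, smul_eq_mul, mul_one, sub_self]

lemma vζ (C : Cfg κ l0 B M v D g u ζ) : κ v ζ ≠ 0 := by
  intro h0
  obtain ⟨k, hk⟩ := mem_ln.1 C.hu
  have := C.hζ
  rw [← hk, C.h.smulB, h0, mul_zero, map_zero] at this
  exact zero_ne_one this

/-- transvections on the line -/
lemma exists_a (C : Cfg κ l0 B M v D g u ζ) {d : V} (hd : d ∈ D) :
    ∃ a ∈ M, (∀ y ∈ ln F K v, a y = y + B y ζ • d) ∧ ∀ x, (∀ y ∈ ln F K v, B x (g y) = 0) → a x = x := by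
  obtain ⟨b, hb⟩ := C.hζg
  have hgi := C.hMB C.hg
  have hgD' : ∀ d ∈ D, g⁻¹ d = d := fun d hd => by
    conv_lhs => rw [← C.hgD d hd]
    rw [inv_apply]
  have hκ : κ (g⁻¹ u) v ≠ 0 := by
    intro h0
    obtain ⟨k, hk⟩ := mem_ln.1 C.hu
    have h1 : B (g⁻¹ u) u = 0 := by
      calc B (g⁻¹ u) u = B (g⁻¹ u) (k • v) := by rw [hk]
        _ = 0 := by rw [C.h.smulB', h0, mul_zero, map_zero]
    have h2 : B u (g u) = 0 := by
      rw [← hgi (g⁻¹ u) u, apply_inv] at h1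
      exact h1
    have := C.hζ
    rw [hb, map_smul, h2, smul_zero] at this
    exact zero_ne_one this
  obtain ⟨l, hl⟩ := mem_ln.1 (C.hD hd)
  obtain ⟨a, ha⟩ : ∃ a, a = g * C.h.T v (l / κ (g⁻¹ u) v) * g⁻¹ := ⟨_, rfl⟩
  have hax : ∀ x, a x = g (C.h.T v (l / κ (g⁻¹ u) v) (g⁻¹ x)) := fun x => by rw [ha]; rfl
  have haD : ∀ x ∈ D, a x = x := by
    intro x hx
    rw [hax, hgD' x hx, T_apply, C.h.ln_iso (C.hD hx) (self_mem_ln v), mul_zero, zero_smul, add_zero, C.hgD x hx]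
  refine ⟨a, by rw [ha]; exact M.mul_mem (M.mul_mem C.hg (C.hHM (C.h.T_mem _ _))) (M.inv_mem C.hg), ?_, ?_⟩
  · intro y hy
    have h1 : a u = u + d := by
      rw [hax, T_apply, div_mul_cancel₀ _ hκ, hl, map_add, apply_inv, C.hgD d hd]
    have h2 : y = (y - B y ζ • u) + B y ζ • u := by abel
    conv_lhs => rw [h2]
    rw [map_add, haD _ (C.decomp hy), map_smul, h1]
    module
  · intro x hx
    have h1 : κ (g⁻¹ x) v = 0 := by
      apply C.h.ext
      intro k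
      rw [← C.h.smulB', ← hgi, apply_inv]
      exact hx _ (smul_mem_ln _ _)
    rw [hax, T_apply, h1, mul_zero, zero_smul, add_zero, apply_inv]

lemma a_inv {a : V ≃ₗ[F] V} (h : SE κ l0 B) (ha : a ∈ isom B) {v d ζ : V} (hay : ∀ y ∈ ln F K v, a y = y + B y ζ • d)
    (x : V) :
    κ (a⁻¹ x) v = κ x v + B x d • κ v ζ := by
  apply h.ext'
  intro k
  have e1 : B x ((B (k • v) ζ) • d) = B (k • v) ζ * B x d := by rw [map_smul, smul_eq_mul]
  rw [← h.smulB', ← ha, apply_inv, hay _ (smul_mem_ln _ _), map_add, e1, h.smulB', h.smulB, mul_add, map_add,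
    mul_smul_comm, map_smul, smul_eq_mul, mul_comm (B x d)]

/-- the basic elements -/
lemma exists_e (C : Cfg κ l0 B M v D g u ζ) {d p : V} (hd : d ∈ D) (hp : p ∈ ln F K v) :
    ∃ e ∈ M, ∀ x, e x = x + B x p • d + B x d • p + (B p ζ * B x d) • d := by
  obtain ⟨a, ha, hay, -⟩ := C.exists_a hd
  have hai := C.hMB ha
  obtain ⟨l, hl⟩ := mem_ln.1 hp
  obtain ⟨c, hc⟩ : ∃ c, c * κ v ζ = l := ⟨_, div_mul_cancel₀ _ C.vζ⟩
  have hp' : p = (c * κ v ζ) • v := by rw [hc, hl]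
  have e1 : ∀ x, (a * C.h.T v c * a⁻¹) x = x + (c * κ x v) • v + B x p • d + B x d • p + (B p ζ * B x d) • d := by
    intro x
    show a (C.h.T v c (a⁻¹ x)) = _
    rw [T_apply, map_add, apply_inv, a_inv C.h hai hay, hay _ (smul_mem_ln _ _)]
    have e2 : B ((c * (κ x v + B x d • κ v ζ)) • v) ζ = B x p + B p ζ * B x d := by
      rw [hp', C.h.smulB, C.h.smulB', C.h.smulB, mul_add, add_mul, map_add]
      congr 1
      · congr 1; ring
      · rw [mul_smul_comm, smul_mul_assoc, map_smul, smul_eq_mul, C.h.hB x d]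
        ring
    have e3 : (c * (κ x v + B x d • κ v ζ)) • v = (c * κ x v) • v + B x d • p := by
      rw [mul_add, _root_.add_smul, mul_smul_comm, hp', smul_assoc]
    rw [e2, e3]
    module
  refine ⟨a * C.h.T v c * a⁻¹ * C.h.T v (-c), M.mul_mem (M.mul_mem (M.mul_mem ha (C.hHM (C.h.T_mem _ _)))
    (M.inv_mem ha)) (C.hHM (C.h.T_mem _ _)), fun x => ?_⟩
  show (a * C.h.T v c * a⁻¹) (C.h.T v (-c) x) = _
  rw [e1, T_apply]
  have hdL := C.hD hd
  have e4 : ∀ k : K, ∀ y ∈ ln F K v, B (x + k • v) y = B x y := by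
    intro k y hy
    rw [map_add, LinearMap.add_apply, C.h.isoL (smul_mem_ln v k) hy, add_zero]
  rw [e4 _ p hp, e4 _ d hdL, map_add, LinearMap.add_apply, map_smul, LinearMap.smul_apply, C.h.alt, smul_zero, add_zero]
  module

/-- removing the symmetric part -/
lemma tr_of_Ea (C : Cfg κ l0 B M v D g u ζ) {d : V} (hd : d ∈ D) (hE : ∀ p ∈ ln F K v, Ea B M d p) :
    Cen B C.h.altB M d := by
  intro c
  have hdL := C.hD hd
  have hpL : c • u ∈ ln F K v := Submodule.smul_mem _ _ C.hu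
  obtain ⟨e, he, hex⟩ := C.exists_e hd hpL
  obtain ⟨f, hf, hfx⟩ := hE (-(c • u)) (Submodule.neg_mem _ hpL)
  have : tr B C.h.altB d c = e * f := by
    ext x
    show _ = e (f x)
    rw [hex, hfx, tr_apply]
    have e1 : ∀ y ∈ ln F K v, B (x + B x d • -(c • u) + B x (-(c • u)) • d) y = B x y := by
      intro y hy
      rw [map_add, map_add, LinearMap.add_apply, LinearMap.add_apply, map_smul, map_smul, LinearMap.smul_apply,
        LinearMap.smul_apply, C.h.isoL hdL hy, C.h.isoL (Submodule.neg_mem _ hpL) hy, smul_zero, smul_zero, add_zero,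
        add_zero]
    have e2 : B (c • u) ζ = c := by rw [map_smul, LinearMap.smul_apply, C.hζ, smul_eq_mul, mul_one]
    have e3 : B x (c • u) = c * B x u := by rw [map_smul, smul_eq_mul]
    rw [e1 _ hpL, e1 _ hdL, e2, map_neg, e3]
    module
  rw [this]
  exact M.mul_mem he hf

lemma exists_d (C : Cfg κ l0 B M v D g u ζ) (hr : (finrank F K).Prime) : ∃ d ∈ D, d ≠ 0 := by
  have h1 := C.hDr
  have h2 := hr.two_le
  have h3 : D ≠ ⊥ := by
    rintro rfl
    rw [finrank_bot] at h1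
    omega
  exact (Submodule.ne_bot_iff D).1 h3

/-- odd characteristic -/
lemma cen_odd (C : Cfg κ l0 B M v D g u ζ) (h2 : (2 : F) ≠ 0) {d : V} (hd : d ∈ D) : Cen B C.h.altB M d := by
  intro c
  have hdL := C.hD hd
  obtain ⟨e, he, hex⟩ := C.exists_e hd (Submodule.smul_mem _ (c / 2) hdL)
  have : tr B C.h.altB d c = e := by
    ext x
    rw [hex, tr_apply, map_smul, map_smul, LinearMap.smul_apply, (C.hDζ d hdL).1 hd]
    simp only [smul_eq_mul]
    match_scalars <;> field_simp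
    ring
  rw [this]; exact he

/-- degree at least three, characteristic two -/
lemma cen_three (C : Cfg κ l0 B M v D g u ζ) [FiniteDimensional F V] [FiniteDimensional F K]
    (h3 : 3 ≤ finrank F K) {d : V} (hd : d ∈ D) :
    Cen B C.h.altB M d := by
  apply C.tr_of_Ea hd
  intro p hp
  have hdL := C.hD hd
  -- a scalar moving both into `D`
  obtain ⟨k, hk, hk1, hk2⟩ : ∃ k : K, k ≠ 0 ∧ B (k • d) ζ = 0 ∧ B (k • p) ζ = 0 := by
    let f : K →ₗ[F] F := (B.flip ζ) ∘ₗ ((LinearMap.toSpanSingleton K V d).restrictScalars F)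
    let f' : K →ₗ[F] F := (B.flip ζ) ∘ₗ ((LinearMap.toSpanSingleton K V p).restrictScalars F)
    have h1 := LinearMap.finrank_range_add_finrank_ker (f.prod f')
    have h2 : finrank F (LinearMap.range (f.prod f')) ≤ 2 := by
      refine (Submodule.finrank_le _).trans ?_
      rw [finrank_prod, finrank_self]
    have h4 : LinearMap.ker (f.prod f') ≠ ⊥ := by
      intro h0
      rw [h0, finrank_bot] at h1
      omega
    obtain ⟨k, hk, hk0⟩ := (Submodule.ne_bot_iff _).1 h4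
    rw [LinearMap.mem_ker] at hk
    exact ⟨k, hk0, congrArg Prod.fst hk, congrArg Prod.snd hk⟩
  have hkd : k • d ∈ D := (C.hDζ _ (smul_mem_ln' hdL k)).2 hk1
  have hkp : k • p ∈ D := (C.hDζ _ (smul_mem_ln' hp k)).2 hk2
  have h1 : Ea B M (k • d) (k • p) := by
    obtain ⟨e, he, hex⟩ := C.exists_e hkd (C.hD hkp)
    refine ⟨e, he, fun x => ?_⟩
    rw [hex, hk2, zero_mul, zero_smul, add_zero]
    abel
  obtain ⟨s, hs, hsv⟩ := C.h.trans C.hv (smul_ne_zero (inv_ne_zero hk) C.hv)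
  have h2 : ∀ y ∈ ln F K v, s (k • y) = y := by
    intro y hy
    obtain ⟨l, rfl⟩ := mem_ln.1 hy
    rw [hs.1, hs.1, hsv, smul_smul, smul_smul]
    congr 1
    field_simp
  have h4 := h1.conj (C.hHM hs) (C.h.HK_isom hs)
  rwa [h2 d hdL, h2 p hp] at h4

variable [FiniteDimensional K V]

/-- large dimension -/
lemma Ea_Z (C : Cfg κ l0 B M v D g u ζ) {d z : V} (hd : d ∈ D) (hz : κ v z = 0) (hz' : κ ζ z = 0) (hb : ζ ≠ 0) :
    Ea B M d z := by
  obtain ⟨b, hb'⟩ := C.hζg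
  have hb0 : b ≠ 0 := by
    rintro rfl
    rw [zero_smul] at hb'
    exact hb hb'
  have hzg : κ (g u) z = 0 := by
    rw [hb', ← algebraMap_smul K b (g u), map_smul, LinearMap.smul_apply, smul_eq_mul] at hz'
    refine (mul_eq_zero.1 hz').resolve_left ?_
    intro h0
    exact hb0 ((map_eq_zero_iff _ (algebraMap F K).injective).1 h0)
  obtain ⟨a, ha, hay, hax⟩ := C.exists_a hd
  have hai := C.hMB ha
  -- `a` fixes the line of `z`
  have haz : ∀ k : K, a (k • z) = k • z := by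
    intro k
    apply hax
    intro y hy
    have h1 := C.decomp hy
    have h2 : g y = (y - B y ζ • u) + B y ζ • g u := by
      have : y = (y - B y ζ • u) + B y ζ • u := by abel
      conv_lhs => rw [this]
      rw [map_add, C.hgD _ h1, map_smul]
    obtain ⟨l, hl⟩ := mem_ln.1 (C.hD h1)
    have e1 : B (k • z) (l • v) = 0 := by
      rw [C.h.smulB', map_smul, LinearMap.smul_apply, C.h.sw z v, hz, neg_zero, smul_zero, mul_zero, map_zero]
    have e2 : B (k • z) (g u) = 0 := by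
      rw [C.h.smulB, C.h.sw z (g u), hzg, neg_zero, mul_zero, map_zero]
    rw [h2, ← hl, map_add, e1, map_smul, e2, smul_zero, add_zero]
  have hzv : κ z v = 0 := by rw [C.h.sw, hz, neg_zero]
  have hκz : ∀ x, κ (a⁻¹ x) z = κ x z := by
    intro x
    apply C.h.ext'
    intro k
    rw [← C.h.smulB', ← hai, apply_inv, haz, C.h.smulB']
  obtain ⟨c, hc⟩ : ∃ c, c * κ v ζ = 1 := ⟨_, div_mul_cancel₀ 1 C.vζ⟩
  obtain ⟨t, ht, htx⟩ := C.h.siegel (v := v) (z := c • z) (by rw [map_smul, hz, smul_zero])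
  have e1 : ∀ x, (a * t * a⁻¹) x = t x + B x d • z + B x z • d := by
    intro x
    show a (t (a⁻¹ x)) = _
    rw [htx, htx, map_add, map_add, apply_inv, a_inv C.h hai hay]
    have e2 : a ((κ x v + B x d • κ v ζ) • c • z) = κ x v • c • z + B x d • z := by
      rw [smul_smul, haz, add_mul, _root_.add_smul, smul_mul_assoc, mul_comm (κ v ζ), hc, smul_assoc, one_smul, mul_smul]
    have e3 : κ (a⁻¹ x) (c • z) = c * κ x z := by rw [map_smul, hκz, smul_eq_mul]
    have e4 : B ((c * κ x z) • v) ζ = B x z := by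
      rw [C.h.smulB, C.h.hB x z]
      congr 1
      linear_combination (κ x z) * hc
    rw [e2, e3, hay _ (smul_mem_ln _ _), e4, map_smul, smul_eq_mul]
    abel
  refine ⟨a * t * a⁻¹ * t⁻¹, M.mul_mem (M.mul_mem (M.mul_mem ha (C.hHM ht)) (M.inv_mem ha)) (M.inv_mem (C.hHM ht)),
    fun x => ?_⟩
  show (a * t * a⁻¹) (t⁻¹ x) = _
  have hti := C.h.HK_isom ht
  have ht1 : t d = d := by
    obtain ⟨l, hl⟩ := mem_ln.1 (C.hD hd)
    rw [htx, ← hl]
    simp only [map_smul, LinearMap.smul_apply, C.h.alt v, hz, smul_zero, zero_smul, add_zero]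
  have ht2 : t z = z := by
    rw [htx, hzv, map_smul, C.h.alt z, smul_zero, zero_smul, zero_smul, add_zero, add_zero]
  have e5 : B (t⁻¹ x) d = B x d := by rw [← hti, apply_inv, ht1]
  have e6 : B (t⁻¹ x) z = B x z := by rw [← hti, apply_inv, ht2]
  rw [e1, apply_inv, e5, e6]

lemma cen_large (C : Cfg κ l0 B M v D g u ζ) (hm : 3 ≤ finrank K V) {d : V} (hd : d ∈ D) :
    Cen B C.h.altB M d := by
  have hζ0 : ζ ≠ 0 := by
    rintro rfl
    have := C.hζ
    rw [map_zero] at this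
    exact zero_ne_one this
  have hvζ := C.vζ
  have hζv : κ ζ v ≠ 0 := by rw [C.h.sw]; exact neg_ne_zero.2 hvζ
  -- a nonzero vector orthogonal to both
  obtain ⟨z, hz0, hz1, hz2⟩ : ∃ z, z ≠ 0 ∧ κ v z = 0 ∧ κ ζ z = 0 := by
    have h1 := LinearMap.finrank_range_add_finrank_ker ((κ v).prod (κ ζ))
    have h2 : finrank K (LinearMap.range ((κ v).prod (κ ζ))) ≤ 2 := by
      refine (Submodule.finrank_le _).trans ?_
      rw [finrank_prod, finrank_self]
    have h4 : LinearMap.ker ((κ v).prod (κ ζ)) ≠ ⊥ := by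
      intro h0
      rw [h0, finrank_bot] at h1
      omega
    obtain ⟨k, hk, hk0⟩ := (Submodule.ne_bot_iff _).1 h4
    rw [LinearMap.mem_ker] at hk
    exact ⟨k, hk0, congrArg Prod.fst hk, congrArg Prod.snd hk⟩
  obtain ⟨y0, hy0⟩ : ∃ y, B z y ≠ 0 := by
    by_contra hcon
    push Not at hcon
    exact hz0 (C.h.ndB z hcon)
  -- project onto the orthogonal complement
  obtain ⟨y, hy1, hy2, hy3⟩ : ∃ y, κ v y = 0 ∧ κ ζ y = 0 ∧ B z y ≠ 0 := by
    refine ⟨y0 - (κ v y0 / κ v ζ) • ζ - (κ ζ y0 / κ ζ v) • v, ?_, ?_, ?_⟩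
    · simp only [map_sub, map_smul, smul_eq_mul, C.h.alt v, mul_zero, sub_zero]
      rw [div_mul_cancel₀ _ hvζ, sub_self]
    · simp only [map_sub, map_smul, smul_eq_mul, C.h.alt ζ, mul_zero, sub_zero]
      rw [div_mul_cancel₀ _ hζv, sub_self]
    · rw [map_sub, map_sub, C.h.smulB', C.h.smulB', C.h.sw z ζ, hz2, C.h.sw z v, hz1]
      simpa using hy0
  apply C.tr_of_Ea hd
  intro p hp
  -- elements moving along the line
  have hmove : ∀ k : K, k ≠ 0 → ∃ s ∈ HK F κ, s v = k • v ∧ ∀ x, κ v x = 0 → κ ζ x = 0 → s x = x := by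
    intro k hk
    have hζk : κ ζ (k • v) ≠ 0 := by rw [map_smul]; exact smul_ne_zero hk hζv
    refine ⟨C.h.T (k • v - ζ) (κ ζ (k • v))⁻¹ * C.h.T (ζ - v) (κ v ζ)⁻¹, (HK F κ).mul_mem (C.h.T_mem _ _)
      (C.h.T_mem _ _), ?_, fun x hx1 hx2 => ?_⟩
    · show C.h.T (k • v - ζ) (κ ζ (k • v))⁻¹ (C.h.T (ζ - v) (κ v ζ)⁻¹ v) = _
      have e1 : C.h.T (ζ - v) (κ v ζ)⁻¹ v = ζ := tr_move κ C.h.alt v ζ hvζ
      rw [e1]
      exact tr_move κ C.h.alt ζ (k • v) hζk
    · show C.h.T (k • v - ζ) (κ ζ (k • v))⁻¹ (C.h.T (ζ - v) (κ v ζ)⁻¹ x) = _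
      have hx1' : κ x v = 0 := by rw [C.h.sw, hx1, neg_zero]
      have hx2' : κ x ζ = 0 := by rw [C.h.sw, hx2, neg_zero]
      have e1 : C.h.T (ζ - v) (κ v ζ)⁻¹ x = x := by
        rw [T_apply, map_sub, hx1', hx2', sub_zero, mul_zero, zero_smul, add_zero]
      have e2 : κ x (k • v) = 0 := by rw [map_smul, hx1', smul_zero]
      rw [e1, T_apply, map_sub, e2, hx2', sub_zero, mul_zero, zero_smul, add_zero]
  by_cases hd0 : d = 0
  · rw [hd0]
    exact ⟨1, M.one_mem, fun x => by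
      rw [map_zero, zero_smul, smul_zero, add_zero, add_zero]; rfl⟩
  have hEp : ∀ q ∈ ln F K v, Ea B M q y := by
    intro q hq
    obtain ⟨l, hl⟩ := mem_ln.1 (C.hD hd)
    obtain ⟨l', hl'⟩ := mem_ln.1 hq
    have hl0 : l ≠ 0 := by rintro rfl; rw [zero_smul] at hl; exact hd0 hl.symm
    by_cases hq0 : l' = 0
    · rw [hq0, zero_smul] at hl'
      rw [← hl']
      exact ⟨1, M.one_mem, fun x => by
        rw [map_zero, zero_smul, smul_zero, add_zero, add_zero]; rfl⟩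
    obtain ⟨s, hs, hsv, hsx⟩ := hmove (l' / l) (div_ne_zero hq0 hl0)
    have h1 := (C.Ea_Z hd hy1 hy2 hζ0).conj (C.hHM hs) (C.h.HK_isom hs)
    rw [hsx y hy1 hy2, ← hl, hs.1, hsv, smul_smul, mul_div_cancel₀ _ hl0, hl'] at h1
    exact h1
  have hdL := C.hD hd
  have hB1 : ∀ q ∈ ln F K v, B q z = 0 ∧ B q y = 0 ∧ B z q = 0 ∧ B y q = 0 := by
    intro q hq
    obtain ⟨l, rfl⟩ := mem_ln.1 hq
    have : B (l • v) z = 0 := by rw [C.h.smulB, hz1, mul_zero, map_zero]
    have h2 : B (l • v) y = 0 := by rw [C.h.smulB, hy1, mul_zero, map_zero]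
    exact ⟨this, h2, by rw [C.h.swB, this, neg_zero], by rw [C.h.swB, h2, neg_zero]⟩
  apply Ea.of_smul hy3
  intro c
  -- the commutator of `Ea d z` and `Ea p' y`
  obtain ⟨q, hq⟩ : ∃ q, q = (-c) • p := ⟨_, rfl⟩
  have hqL : q ∈ ln F K v := by rw [hq]; exact Submodule.smul_mem _ _ hp
  obtain ⟨e1, he1, hf1⟩ := C.Ea_Z hd hz1 hz2 hζ0
  obtain ⟨e2, he2, hf2⟩ := hEp q hqL
  obtain ⟨d1, d2, d3, d4⟩ := hB1 d hdL
  obtain ⟨q1, q2, q3, q4⟩ := hB1 q hqL
  have hdq := C.h.isoL hdL hqL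
  have hqd := C.h.isoL hqL hdL
  have hyz : B y z = - B z y := C.h.swB _ _
  have k1 : ∀ x, (e1 * e2) x = (e2 * e1) x + (-(B z y)) • (B x q • d + B x d • q) := by
    intro x
    show e1 (e2 x) = e2 (e1 x) + _
    rw [hf1, hf2, hf2, hf1]
    simp only [map_add, LinearMap.add_apply, map_smul, LinearMap.smul_apply, smul_eq_mul, d1, d2, d3, d4, q1, q2, q3, q4,
      hdq, hqd, hyz, C.h.altB z, C.h.altB y, C.h.altB d, C.h.altB q]
    module
  have k2 : ∀ x y', y' = (e2 * e1) x → B y' q = B x q ∧ B y' d = B x d := by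
    rintro x _ rfl
    show B (e2 (e1 x)) q = _ ∧ B (e2 (e1 x)) d = _
    rw [hf2, hf1]
    simp only [map_add, LinearMap.add_apply, map_smul, LinearMap.smul_apply, smul_eq_mul, d1, d2, d3, d4, q1, q2, q3, q4,
      hdq, hqd, C.h.altB d, C.h.altB q, mul_zero, add_zero]
    exact ⟨trivial, trivial⟩
  refine ⟨(e1 * e2) * (e2 * e1)⁻¹, M.mul_mem (M.mul_mem he1 he2) (M.inv_mem (M.mul_mem he2 he1)), fun x => ?_⟩
  show (e1 * e2) ((e2 * e1)⁻¹ x) = _
  rw [k1, apply_inv]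
  obtain ⟨k3, k4⟩ := k2 ((e2 * e1)⁻¹ x) x (by rw [apply_inv])
  rw [← k3, ← k4, hq]
  simp only [map_smul, smul_eq_mul]
  module

end SE.Cfg

end H7.ExtSp
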