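import Cfsg.Agent.Lib.H7.G2Alt
import Cfsg.Agent.Lib.H7.F4Weyl
import Cfsg.Agent.Lib.H7.C35
import Cfsg.Agent.Lib.H7.AltElt2

/-!
Alternating sections of the groups of type F₄.
-/

set_option autoImplicit false
set_option linter.unusedVariables false
set_option linter.unusedSectionVars false
set_option linter.style.haveILetI false
set_option linter.unusedSimpArgs false

namespace H7.F4Alt

open H22.RGD H22.Coord H22.RCCheck H22.RCComb H22.ChevTri H22.ChevRel H22.ChevSys H22.ChevMain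
open H22.ChevStd H22.ChevTorus H22.ChevTorusCard H22.Poincare H22.ChevOrder H7.ChevTor
open Cfsg.Lie (ChevalleyDatum)
open scoped MatrixGroups Matrix

local notation "F4" => Cfsg.Lie.chevF4
local notation "X4" => H22.PoinF4.rcxF4

theorem RF (F : Type*) [Field F] : Rel F4 F := H22.ChevAll.rel _ (by simp) F

/-- the vector of Cartan integers of a root -/
def v (s : ℕ) : Fin 4 → ℤ := fun i => (F4).cartan i s

theorem chkv : ∀ k < 4, ∀ s < 48, (F4).reflectRoot k s < 48 ∧ ∀ i < 4, (F4).cartan i ((F4).reflectRoot k s) =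
    H7.F4Weyl.g (H7.F4Weyl.S k) i 0 * (F4).cartan 0 s + H7.F4Weyl.g (H7.F4Weyl.S k) i 1 * (F4).cartan 1 s +
    H7.F4Weyl.g (H7.F4Weyl.S k) i 2 * (F4).cartan 2 s + H7.F4Weyl.g (H7.F4Weyl.S k) i 3 * (F4).cartan 3 s := by
  decide +kernel

theorem v_refl {k : ℕ} (hk : k < 4) {s : ℕ} (hs : s < 48) :
    v ((F4).reflectRoot k s) = (H7.F4Weyl.toM (H7.F4Weyl.S k)) *ᵥ v s := by
  funext i
  rw [Matrix.mulVec, dotProduct, Fin.sum_univ_four]
  exact (chkv k hk s hs).2 i i.2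

theorem v_word (L : List ℕ) (hL : ∀ i ∈ L, i < 4) {s : ℕ} (hs : s < 48) :
    wn F4 L s < 48 ∧ v (wn F4 L s) = (H7.F4Weyl.toM (H7.F4Weyl.W L)) *ᵥ v s := by
  induction L with
  | nil =>
    refine ⟨hs, ?_⟩
    have : H7.F4Weyl.W [] = H7.F4Weyl.I4 := rfl
    rw [this, H7.F4Weyl.toM_one, Matrix.one_mulVec]; rfl
  | cons i L ih =>
    obtain ⟨h1, h2⟩ := ih (fun j hj => hL j (List.mem_cons_of_mem _ hj))
    have hi := hL i (List.mem_cons_self ..)
    have e : wn F4 (i :: L) s = (F4).reflectRoot i (wn F4 L s) := rfl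
    rw [e]
    refine ⟨(chkv i hi _ h1).1, ?_⟩
    rw [v_refl hi h1, h2, H7.F4Weyl.W_cons, H7.F4Weyl.toM_mul, Matrix.mulVec_mulVec]

/-- matrices of Weyl group elements -/
theorem exists_mat {w : Equiv.Perm (Fin (F4).nroots)} (hw : w ∈ (comb X4).W) :
    ∃ M : Matrix (Fin 4) (Fin 4) ℤ, (∀ s : Fin (F4).nroots, v (w s : Fin (F4).nroots) = M *ᵥ v s) ∧
      (M ^ 8 = 1 ∨ M ^ 6 = 1 ∨ (M ^ 4 + 1 = M ^ 2 ∧ M ^ 12 = 1)) := by
  obtain ⟨L, rfl⟩ := (comb X4).exists_word hw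
  have hL : ∀ i ∈ L.map Fin.val, i < 4 := by
    intro i hi
    obtain ⟨j, _, rfl⟩ := List.mem_map.1 hi
    exact j.2
  refine ⟨_, fun s => ?_, H7.F4Weyl.dich (L.map Fin.val) hL⟩
  rw [wn_eq]
  exact (v_word _ hL s.2).2

section field

variable {F : Type*} [Field F]

theorem ent_v {t : GL (F4).Idx F} (ht : t ∈ (F4).diagonalSubgroup F) :
    ∃ c : Fin 4 → Fˣ, ∀ s : Fin (F4).nroots, ent t s = ((∏ i, c i ^ (v s i) : Fˣ) : F) := by
  obtain ⟨c, hc⟩ := ent_prod (RF F) X4 ht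
  exact ⟨c, hc⟩

local notation "SF" => chevSys (RF F) X4

theorem N_pow_conj {y : GL (F4).Idx F} (hy : y ∈ (SF).N) {t : GL (F4).Idx F}
    (ht : t ∈ (F4).diagonalSubgroup F) (k : ℕ) : y ^ k * t * (y ^ k)⁻¹ ∈ (F4).diagonalSubgroup F :=
  (SF).N_conj_H ((SF).N.pow_mem hy k) ht

/-- the dichotomy for the action of `N` on the torus -/
theorem torus_dich {y : GL (F4).Idx F} (hy : y ∈ (SF).N) :
    ((∀ t ∈ (F4).diagonalSubgroup F, y ^ 8 * t * (y ^ 8)⁻¹ = t) ∨
      (∀ t ∈ (F4).diagonalSubgroup F, y ^ 6 * t * (y ^ 6)⁻¹ = t) ∨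
      (∀ t ∈ (F4).diagonalSubgroup F, (y ^ 4 * t * (y ^ 4)⁻¹) * t = y ^ 2 * t * (y ^ 2)⁻¹)) ∧
    ∀ t ∈ (F4).diagonalSubgroup F, y ^ 24 * t * (y ^ 24)⁻¹ = t := by
  obtain ⟨w, hw⟩ : ∃ w, w = (SF).toW ⟨y, hy⟩ := ⟨_, rfl⟩
  have hwW : w⁻¹ ∈ (comb X4).W := by
    apply Subgroup.inv_mem
    rw [← (SF).toW_range, hw]; exact ⟨_, rfl⟩
  obtain ⟨M, hM, hd⟩ := exists_mat hwW
  -- entries of conjugates
  have key : ∀ (k : ℕ) (t : GL (F4).Idx F), t ∈ (F4).diagonalSubgroup F →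
      ∀ c : Fin 4 → Fˣ, (∀ s : Fin (F4).nroots, ent t s = ((∏ i, c i ^ (v s i) : Fˣ) : F)) →
      ∀ s : Fin (F4).nroots, ent (y ^ k * t * (y ^ k)⁻¹) s = ((∏ i, c i ^ ((M ^ k) *ᵥ v s) i : Fˣ) : F) := by
    intro k t ht c hc
    induction k with
    | zero => intro s; simp only [pow_zero, one_mul, inv_one, mul_one, Matrix.one_mulVec]; exact hc s
    | succ k ih =>
      intro s
      have h1 := ent_conj (RF F) X4 hy (N_pow_conj hy ht k) (w⁻¹ s)
      have h2 : (SF).toW ⟨y, hy⟩ (w⁻¹ s) = s := by rw [← hw]; exact w.apply_symm_apply s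
      rw [h2, ih] at h1
      have h3 : y * (y ^ k * t * (y ^ k)⁻¹) * y⁻¹ = y ^ (k + 1) * t * (y ^ (k + 1))⁻¹ := by
        rw [pow_succ']; group
      rw [h3] at h1
      rw [h1, hM s, pow_succ, Matrix.mulVec_mulVec]
  have fix : ∀ k : ℕ, M ^ k = 1 → ∀ t ∈ (F4).diagonalSubgroup F, y ^ k * t * (y ^ k)⁻¹ = t := by
    intro k hk t ht
    obtain ⟨c, hc⟩ := ent_v ht
    refine ent_ext (RF F) X4 (N_pow_conj hy ht k) ht fun s => ?_
    rw [key k t ht c hc s, hk, Matrix.one_mulVec, hc s]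
  constructor
  · rcases hd with h | h | ⟨h, _⟩
    · exact Or.inl (fix 8 h)
    · exact Or.inr (Or.inl (fix 6 h))
    · refine Or.inr (Or.inr ?_)
      intro t ht
      obtain ⟨c, hc⟩ := ent_v ht
      refine ent_ext (RF F) X4 (Subgroup.mul_mem _ (N_pow_conj hy ht 4) ht) (N_pow_conj hy ht 2) fun s => ?_
      have h1 : ent ((y ^ 4 * t * (y ^ 4)⁻¹) * t) s = ent (y ^ 4 * t * (y ^ 4)⁻¹) s * ent t s := by
        have e1 := (ent_spec (RF F) X4 (N_pow_conj hy ht 4)).1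
        have e2 := (ent_spec (RF F) X4 ht).1
        unfold ent
        rw [Units.val_mul, e1, Matrix.diagonal_mul, ← e1]
        simp [ent]
      rw [h1, key 4 t ht c hc s, key 2 t ht c hc s, hc s, ← Units.val_mul, ← Finset.prod_mul_distrib, ← h]
      congr 1
      refine Finset.prod_congr rfl fun i _ => ?_
      rw [← zpow_add, Matrix.add_mulVec, Matrix.one_mulVec, Pi.add_apply]
  · have h24 : M ^ 24 = 1 := by
      rcases hd with h | h | ⟨_, h⟩
      · rw [show (24 : ℕ) = 8 * 3 by norm_num, pow_mul, h, one_pow]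
      · rw [show (24 : ℕ) = 6 * 4 by norm_num, pow_mul, h, one_pow]
      · rw [show (24 : ℕ) = 12 * 2 by norm_num, pow_mul, h, one_pow]
    exact fix 24 h24

end field

section fin

variable {F : Type*} [Field F] [Fintype F]

theorem relIndex_eq {q : ℕ} (hq : Fintype.card F = q) : ((F4).diagonalSubgroup F).relIndex ((F4).group F) =
    q ^ 24 * (evalP [1, 1, 1, 1, 2, 2, 2, 2, 2, 2, 2, 2, 1, 1, 1, 1] q * evalP [1, 1, 1, 2, 1, 1, 1] q *
      evalP [1, 1, 1] q * evalP [1, 1] q) := by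
  have h1 := card_group (RF F) X4 hq
  have hle : (F4).diagonalSubgroup F ≤ (F4).group F := by
    rw [← chevSys_Γ (RF F) X4]
    exact (chevSys (RF F) X4).H_le_N.trans (chevSys (RF F) X4).N_le_Γ
  have h2 : Nat.card ((F4).diagonalSubgroup F) * ((F4).diagonalSubgroup F).relIndex ((F4).group F) =
      Nat.card ((F4).group F) := H7.A8Loc.card_mul_relIndex' hle
  have hP := H22.PoinF4.poincare q
  have hP' : P (comb X4) (F4).rank q = P (comb X4) 4 q := rfl
  have hh : (X4).rc.half = 24 := rfl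
  rw [hP', hP, hh] at h1
  have hpos : 0 < Nat.card ((F4).diagonalSubgroup F) := Nat.card_pos
  apply Nat.eq_of_mul_eq_mul_left hpos
  rw [h2, h1]; ring

theorem fusK {P : Set ((F4).group F)} (hP : ∀ x ∈ P, (x : GL (F4).Idx F) ∈ (F4).diagonalSubgroup F)
    {g : (F4).group F} (hg : ∀ x ∈ P, g * x * g⁻¹ ∈ P) :
    ∃ n ∈ (chevSys (RF F) X4).N, ∀ k : ℕ, ∀ x ∈ P,
      ((g ^ k * x * (g ^ k)⁻¹ : (F4).group F) : GL (F4).Idx F) = n ^ k * (x : GL (F4).Idx F) * (n ^ k)⁻¹ := by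
  obtain ⟨n, hn, h⟩ := H7.TorSect.fusion (chevSys (RF F) X4) (P := Subtype.val '' P)
    (g := (g : GL (F4).Idx F)) (by rintro _ ⟨x, hx, rfl⟩; exact hP x hx)
    (by rw [chevSys_Γ]; exact g.2) (by rintro _ ⟨x, hx, rfl⟩; exact hP _ (hg x hx))
  refine ⟨n, hn, fun k x hx => ?_⟩
  have h1 := H7.TorSect.conj_pow_eq (P := Subtype.val '' P) (g := (g : GL (F4).Idx F)) (n := n)
    (by rintro _ ⟨x, hx, rfl⟩; exact ⟨_, hg x hx, rfl⟩) h k x ⟨x, hx, rfl⟩
  rw [h1]; rfl

theorem no12 {q : ℕ} (hq : Fintype.card F = q) (hq35 : q % 35 = 1) {H : Type*} [Group H] {r : ℕ}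
    (hr : 12 ≤ r) (ι : H →* (F4).group F) (hι : Function.Injective ι) (φ : H →* alternatingGroup (Fin r))
    (hφ : Function.Surjective φ) : False := by
  obtain ⟨s5, s7, τ, h5, h7, hc, h5τ, h7τ⟩ := H7.AltElt2.thirtyfive hr
  have hq5 : q % 5 = 1 := by omega
  have hq7 : q % 7 = 1 := by omega
  refine H7.C35.main (((F4).diagonalSubgroup F).subgroupOf ((F4).group F)) ?_ ?_ ?_ ?_ ?_ ι hι φ hφ h5 h7 hc h5τ h7τ
  · intro x hx y hy
    apply Subtype.ext
    exact diag_comm (RF F) X4 hx hy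
  · show ¬ 5 ∣ ((F4).diagonalSubgroup F).relIndex ((F4).group F)
    rw [relIndex_eq hq, Nat.dvd_iff_mod_eq_zero]
    simp [evalP, Nat.mul_mod, Nat.pow_mod, Nat.add_mod, hq5]
  · show ¬ 7 ∣ ((F4).diagonalSubgroup F).relIndex ((F4).group F)
    rw [relIndex_eq hq, Nat.dvd_iff_mod_eq_zero]
    simp [evalP, Nat.mul_mod, Nat.pow_mod, Nat.add_mod, hq7]
  · intro P hP g hg
    obtain ⟨n, hn, h⟩ := fusK (P := P) (fun x hx => hP hx) hg
    rcases (torus_dich hn).1 with h1 | h1 | h1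
    · left
      intro x hx
      apply Subtype.ext
      rw [h 8 x hx]; exact h1 _ (hP hx)
    · right; left
      intro x hx
      apply Subtype.ext
      rw [h 6 x hx]; exact h1 _ (hP hx)
    · right; right
      intro x hx
      apply Subtype.ext
      rw [Subgroup.coe_mul, h 4 x hx, h 2 x hx]; exact h1 _ (hP hx)
  · intro P hP g hg x hx
    obtain ⟨n, hn, h⟩ := fusK (P := P) (fun x hx => hP hx) hg
    apply Subtype.ext
    rw [h 24 x hx]; exact (torus_dich hn).2 _ (hP hx)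

theorem no11 {q : ℕ} (hq : Fintype.card F = q) (hq11 : q % 11 = 1) {H : Type*} [Group H] {r : ℕ}
    (hr : 11 ≤ r) (ι : H →* (F4).group F) (hι : Function.Injective ι) (φ : H →* alternatingGroup (Fin r))
    (hφ : Function.Surjective φ) : False := by
  haveI : Fact (Nat.Prime 11) := ⟨by norm_num⟩
  obtain ⟨σ, τ, hσ, hc⟩ := H7.AltElt.eleven hr
  have := H7.TorSect.sect (p := 11) (((F4).diagonalSubgroup F).subgroupOf ((F4).group F)) (by
    show ¬ 11 ∣ ((F4).diagonalSubgroup F).relIndex ((F4).group F)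
    rw [relIndex_eq hq, Nat.dvd_iff_mod_eq_zero]
    simp [evalP, Nat.mul_mod, Nat.pow_mod, Nat.add_mod, hq11]) (e := 24) (by
    intro P hP g hg x hx
    obtain ⟨n, hn, h⟩ := fusK (P := (P : Set ((F4).group F))) (fun x hx => hP hx) hg
    apply Subtype.ext
    rw [h 24 x hx]; exact (torus_dich hn).2 _ (hP hx)) ι hι φ hφ hσ hc (by norm_num)
  revert this; decide

end fin

theorem pow_mod_one {q l k : ℕ} (hl : l.Prime) (hq : ¬ l ∣ q) (hk : (l - 1) ∣ k) : q ^ k % l = 1 := by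
  obtain ⟨j, rfl⟩ := hk
  haveI : Fact l.Prime := ⟨hl⟩
  have h1 : q ^ (l - 1) ≡ 1 [MOD l] := by
    have := Nat.ModEq.pow_totient (x := q) (n := l) ((Nat.Prime.coprime_iff_not_dvd hl).2 hq).symm
    rwa [Nat.totient_prime hl] at this
  have h2 : q ^ ((l - 1) * j) ≡ 1 [MOD l] := by
    rw [pow_mul]
    have := h1.pow j
    rwa [one_pow] at this
  rw [h2, Nat.mod_eq_of_lt hl.one_lt]

theorem main {F : Type*} [Field F] [Fintype F] (p : ℕ) [Fact p.Prime] [CharP F p]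
    (r : ℕ) (H : Subgroup ↥((F4).group F)) (K : Subgroup ↥H) [K.Normal]
    (h : Nonempty (↥H ⧸ K ≃* ↥(alternatingGroup (Fin r)))) :
    r ≤ 10 + (if p = 11 then 1 else 0) := by
  obtain ⟨f⟩ := h
  have hp : p.Prime := Fact.out
  have hs : Function.Surjective (f.toMonoidHom.comp (QuotientGroup.mk' K)) :=
    f.surjective.comp (QuotientGroup.mk'_surjective K)
  obtain ⟨n, _, hn⟩ := FiniteField.card F p
  have hnd : ∀ l : ℕ, l.Prime → l ≠ p → ¬ l ∣ p ^ (n : ℕ) := by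
    intro l hl hne h
    have := hl.dvd_of_dvd_pow h
    exact hne ((Nat.prime_dvd_prime_iff_eq hl hp).1 this)
  by_contra hcon
  by_cases hp11 : p = 11
  · subst hp11
    rw [if_pos rfl] at hcon
    haveI : NeZero 12 := ⟨by norm_num⟩
    let F' := FiniteField.Extension F 11 12
    haveI : Fintype F' := Fintype.ofFinite _
    have hc : Fintype.card F' = (11 ^ (n : ℕ)) ^ 12 := by
      rw [← Nat.card_eq_fintype_card, FiniteField.natCard_extension, Nat.card_eq_fintype_card, hn]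
    refine no12 hc ?_ (r := r) (by omega) ((H22.ChevField.fieldHom F4 (algebraMap F F')).comp H.subtype)
      ((H7.G2Alt.fieldHom_injective _).comp Subtype.coe_injective) _ hs
    have e5 := pow_mod_one (l := 5) (k := 12) (by norm_num) (hnd 5 (by norm_num) (by norm_num)) (by norm_num)
    have e7 := pow_mod_one (l := 7) (k := 12) (by norm_num) (hnd 7 (by norm_num) (by norm_num)) (by norm_num)
    omega
  · rw [if_neg hp11] at hcon
    haveI : NeZero 10 := ⟨by norm_num⟩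
    let F' := FiniteField.Extension F p 10
    haveI : Fintype F' := Fintype.ofFinite _
    have hc : Fintype.card F' = (p ^ (n : ℕ)) ^ 10 := by
      rw [← Nat.card_eq_fintype_card, FiniteField.natCard_extension, Nat.card_eq_fintype_card, hn]
    refine no11 hc ?_ (r := r) (by omega) ((H22.ChevField.fieldHom F4 (algebraMap F F')).comp H.subtype)
      ((H7.G2Alt.fieldHom_injective _).comp Subtype.coe_injective) _ hs
    exact pow_mod_one (l := 11) (k := 10) (by norm_num) (hnd 11 (by norm_num) (Ne.symm hp11)) (by norm_num)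

end H7.F4Alt
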