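import Cfsg.Agent.Lib.H96.FrDef
import Cfsg.Agent.Lib.H95.OSie
import Cfsg.Agent.Lib.H7.OA

set_option autoImplicit false
set_option linter.all false

open Matrix H96.Fr

namespace H7.FrP13

variable {ι F : Type*} [Fintype ι] [DecidableEq ι] [Field F] {K : Subgroup ((ι → F) ≃ₗ[F] (ι → F))}

open H95.OSie H95.OGeo QuadraticMap

theorem rf_rf {v : ι → F} (hv : v ⬝ᵥ v = 1) : rf v * rf v = 1 := by
  ext1 x
  rw [LinearEquiv.mul_apply, rf_apply hv, rf_apply hv]
  simp only [sub_dotProduct, smul_dotProduct, hv, smul_eq_mul, LinearEquiv.coe_one, id_eq]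
  module

theorem e_unit (i : ι) : (e i : ι → F) ⬝ᵥ e i = 1 := by
  simp [e]

theorem rf_mul_mem [Nonempty ι] {v w : ι → F} (hv : Phi K v) (hw : Phi K w) : rf v * rf w ∈ K := by
  obtain ⟨j⟩ := ‹Nonempty ι›
  have h1 := K.mul_mem (hv.2 j) (K.inv_mem (hw.2 j))
  have h2 : rf v * rf (e j) * (rf w * rf (e j))⁻¹ = rf v * rf w := by
    have h3 : (rf w)⁻¹ = rf w := inv_eq_of_mul_eq_one_right (rf_rf hw.1)
    rw [_root_.mul_inv_rev, h3]
    group
  rwa [h2] at h1

theorem polar_dot (Q : QuadraticForm F (ι → F)) {c : F} (hQ : ∀ x, Q x = c * (x ⬝ᵥ x)) (x y : ι → F) :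
    polar Q x y = 2 * c * (x ⬝ᵥ y) := by
  rw [polar, hQ, hQ, hQ, add_dotProduct, dotProduct_add, dotProduct_add, dotProduct_comm y x]
  ring

/-- Siegel elements as products of two reflections in unit vectors -/
theorem sie_eq (Q : QuadraticForm F (ι → F)) {c : F} (hQ : ∀ x, Q x = c * (x ⬝ᵥ x)) {u y : ι → F} (l : F)
    (hu : Q u = 0) (huu : u ⬝ᵥ u = 0) (huy : u ⬝ᵥ y = 0) (hy : y ⬝ᵥ y = 1) :
    sie Q u (l • y) = rf y * rf (y + (c * l) • u) := by
  have hp : polar Q u (l • y) = 0 := by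
    rw [polar_dot Q hQ, dotProduct_smul, huy]; simp
  have hw : (y + (c * l) • u) ⬝ᵥ (y + (c * l) • u) = 1 := by
    simp only [add_dotProduct, dotProduct_add, smul_dotProduct, dotProduct_smul, huu, huy, hy, dotProduct_comm y u, smul_eq_mul]
    ring
  ext1 x
  rw [sie_apply hu hp, LinearEquiv.mul_apply, rf_apply hw, rf_apply hy, polar_dot Q hQ, polar_dot Q hQ, hQ]
  simp only [sub_dotProduct, add_dotProduct, dotProduct_add, smul_dotProduct, dotProduct_smul, huy, hy, smul_eq_mul]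
  module

theorem omega_all [Finite F] (h2 : (2:F) ≠ 0) (hN : 7 ≤ Fintype.card ι) (Q : QuadraticForm F (ι → F)) {c : F} (hc : c ≠ 0)
    (hQ : ∀ x, Q x = c * (x ⬝ᵥ x)) (h : ∀ v : ι → F, v ⬝ᵥ v = 1 → Phi K v) : ⁅H7.OA.O Q, H7.OA.O Q⁆ ≤ K := by
  haveI : Nonempty ι := Fintype.card_pos_iff.1 (by omega)
  have hfin : Module.finrank F (ι → F) = Fintype.card ι := Module.finrank_fintype_fun_eq_card F
  have hND : H48.QuadSplit.ND Q := by
    intro x hx
    funext i
    have h1 := hx (e i)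
    rw [polar_dot Q hQ] at h1
    have h3 : x ⬝ᵥ e i = x i := by simp [e]
    rw [h3] at h1
    have h4 : (2 * c) ≠ 0 := mul_ne_zero h2 hc
    exact (mul_eq_zero.1 h1).resolve_left h4
  have key : ∀ u y : ι → F, ∀ l : F, Q u = 0 → u ⬝ᵥ y = 0 → y ⬝ᵥ y = 1 → sie Q u (l • y) ∈ K := by
    intro u y l hu huy hy
    have huu : u ⬝ᵥ u = 0 := by
      rw [hQ] at hu
      exact (mul_eq_zero.1 hu).resolve_left hc
    rw [sie_eq Q hQ l hu huu huy hy]
    refine rf_mul_mem (h y hy) (h _ ?_)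
    simp only [add_dotProduct, dotProduct_add, smul_dotProduct, dotProduct_smul, huu, huy, hy, dotProduct_comm y u, smul_eq_mul]
    ring
  refine omega_le hND (by rw [hfin]; exact hN) ?_
  intro u y hu hy huy
  obtain ⟨z, hz, hzp⟩ := corr_fam hND (k := 2) (by rw [hfin]; exact hN) ![u, y] 0 c
  have hzu : z ⬝ᵥ u = 0 := by
    have h1 := hzp 0
    rw [p_zero, polar_dot Q hQ] at h1
    exact (mul_eq_zero.1 h1).resolve_left (mul_ne_zero h2 hc)
  have hzy : z ⬝ᵥ y = 0 := by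
    have h1 := hzp 1
    rw [p_zero, polar_dot Q hQ] at h1
    exact (mul_eq_zero.1 h1).resolve_left (mul_ne_zero h2 hc)
  have hz1 : z ⬝ᵥ z = 1 := by
    rw [hQ] at hz
    have : c * (z ⬝ᵥ z) = c * 1 := by rw [hz, mul_one]
    exact mul_left_cancel₀ hc this
  have hyy : y ⬝ᵥ y = 0 := by
    rw [hQ] at hy
    exact (mul_eq_zero.1 hy).resolve_left hc
  have huy' : u ⬝ᵥ y = 0 := by
    rw [polar_dot Q hQ] at huy
    exact (mul_eq_zero.1 huy).resolve_left (mul_ne_zero h2 hc)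
  have huz : u ⬝ᵥ z = 0 := by rw [dotProduct_comm, hzu]
  have h1 := key u (y + z) 1 hu (by rw [dotProduct_add, huy', huz, add_zero]) (by
    simp only [add_dotProduct, dotProduct_add, hyy, hzy, hz1, dotProduct_comm y z]; ring)
  have h3 := key u z (-1) hu huz hz1
  have h4 := K.mul_mem h1 h3
  rw [one_smul, neg_one_smul, sie_mul hu (by rw [polar_dot Q hQ, dotProduct_add, huy', huz]; simp)
    (by rw [polar_dot Q hQ, dotProduct_neg, huz]; simp)] at h4
  have h5 : y + z + -z = y := by abel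
  rwa [h5] at h4

end H7.FrP13
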