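import Cfsg.Agent.Lib.H7.OAPar
import Cfsg.Agent.Lib.H95.RatQBT
import Cfsg.Agent.Lib.H99.FrC

set_option autoImplicit false
open Cfsg

/-!
# Parts of the lists of geometric maximal subgroups of `Ω_{2m+1}(q)`, `m = 3` and `m = 5`

Totally singular subspaces (`m ≥ 2`), subfield groups (`m ≥ 3`).
-/

namespace H7.GeoOdd

open H48.QuadSplit Module QuadraticMap Cfsg.Geo

theorem sing {F : Type*} [Field F] [Fintype F] (hodd : Odd (Fintype.card F)) (m : ℕ) (hm : 2 ≤ m)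
    (W : Submodule F (Unit ⊕ (Fin m ⊕ Fin m) → F)) (hW0 : W ≠ ⊥)
    (hW : Cfsg.Geo.IsTotallySingularQuad (Cfsg.quadFormOdd m F) W) :
    Cfsg.Geo.IsMaximalIn (Cfsg.Geo.omegaGL (Cfsg.quadFormOdd m F))
      (Cfsg.Geo.subspaceStabilizer W ⊓ Cfsg.Geo.omegaGL (Cfsg.quadFormOdd m F)) := by
  have hfr : Module.finrank F (Unit ⊕ (Fin m ⊕ Fin m) → F) = 2 * m + 1 := by simp; ring
  have h2 : (2 : F) ≠ 0 := H7.OmegaIso.two_ne_zero_of_odd hodd
  have hQ : (H48.QuadStd.qOdd m F 1 : (Unit ⊕ (Fin m ⊕ Fin m) → F) → F) = Cfsg.quadFormOdd m F := H48.QuadStd.coe_qOdd m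
  have hnd : H48.QuadSplit.ND (H48.QuadStd.qOdd m F 1) := H48.QuadStd.nd_qOdd m h2 one_ne_zero
  have hW' : H7.OAPar.TS (H48.QuadStd.qOdd m F 1) W := by
    intro w hw; rw [hQ]; exact hW w hw
  refine H7.OABridge.isMaximalIn_omegaGL hQ (H7.OABridge.mem_stab (W := W)) ?_ ?_
  · exact H7.OAPar.exists_not_stab hnd (by omega) hW' hW0
  · intro M h1 h2 h3
    refine H7.OAPar.maximal hnd (by omega) hW' ?_ h1 h2 h3
    intro U hU hU' h
    omega

theorem subf {F : Type*} [Field F] [Fintype F] (hodd : Odd (Fintype.card F)) (m : ℕ) (hm : 3 ≤ m)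
    (F₀ : Subfield F) (r : ℕ) (P : Matrix.GeneralLinearGroup (Unit ⊕ (Fin m ⊕ Fin m)) F)
    (hr : r.Prime) (hcard : Fintype.card F = Nat.card F₀ ^ r)
    (hP : Cfsg.Geo.IsQuadFormRationalStructure (Cfsg.quadFormOdd m F) F₀ P) :
    Cfsg.Geo.IsMaximalIn (Cfsg.Geo.omegaGL (Cfsg.quadFormOdd m F))
      (Cfsg.Geo.subfieldSubgroup F₀ P ⊓ Cfsg.Geo.omegaGL (Cfsg.quadFormOdd m F)) := by
  obtain ⟨Q', hQ', hnd⟩ := H95.OBridge.quad_odd m (H95.OBridge.two_ne hodd)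
  rw [← hQ'] at hP ⊢
  exact H95.RatQBT.rat_max hnd (by simp only [Fintype.card_sum, Fintype.card_unit, Fintype.card_fin]; omega) hr
    (by rw [Nat.card_eq_fintype_card]; exact hcard) hP

end H7.GeoOdd
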