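import Mathlib
import Cfsg.Agent.Lib.H95.O8NdE

/-!
Maximality of the stabilisers of non-degenerate 4-spaces (and 3-spaces) in dimension 7, `q` odd.
-/
set_option autoImplicit false
set_option maxHeartbeats 1000000

namespace H7.Nd34

open Module QuadraticMap H48.QuadSplit H48.QuadWitt H95.OGeo H7.OA H7.OABridge H7.OAPar H7.OANd

variable {F V : Type*} [Field F] [AddCommGroup V] [Module F V] {Q : QuadraticForm F V}

lemma span_sing {Y A : Submodule F V} {f1 f2 : V} (h1 : f1 ∈ Y) (h2 : f2 ∈ Y) (hq1 : Q f1 = 0) (hq2 : Q f2 = 0)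
    (h12 : polar Q f1 f2 = 1) (hA1 : f1 ∈ A) (hA2 : f2 ∈ A)
    (h : ∀ f ∈ Y, Q f = 0 → polar Q f f2 = 1 → f ∈ A) : Y ≤ A := by
  intro y hy
  obtain ⟨y0, hy0⟩ : ∃ y0, y0 = y - polar Q y f2 • f1 - polar Q y f1 • f2 := ⟨_, rfl⟩
  have e1 : polar Q y0 f1 = 0 := by
    rw [hy0, p_sub, p_sub, p_smul, p_smul, p_self, hq1, p_comm Q f2 f1, h12]; ring
  have e2 : polar Q y0 f2 = 0 := by
    rw [hy0, p_sub, p_sub, p_smul, p_smul, p_self, hq2, h12]; ring
  have hyY : y0 ∈ Y := by
    rw [hy0]; exact Y.sub_mem (Y.sub_mem hy (Y.smul_mem _ h1)) (Y.smul_mem _ h2)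
  have hf := h (f1 + y0 - Q y0 • f2) (Y.sub_mem (Y.add_mem h1 hyY) (Y.smul_mem _ h2)) (by
    rw [Q_sub, Q_add, Q_smul, p_smul', p_add, p_comm Q f1 y0, e1, h12, e2, hq1, hq2]; ring) (by
    rw [p_sub, p_add, p_smul, e2, h12, p_self, hq2]; ring)
  have hyA : y0 ∈ A := by
    have := A.add_mem (A.sub_mem hf hA1) (A.smul_mem (Q y0) hA2)
    have e : (f1 + y0 - Q y0 • f2) - f1 + Q y0 • f2 = y0 := by abel
    rwa [e] at this
  have e : y = y0 + polar Q y f2 • f1 + polar Q y f1 • f2 := by rw [hy0]; abel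
  have h5 : y0 + polar Q y f2 • f1 + polar Q y f1 • f2 ∈ A :=
    A.add_mem (A.add_mem hyA (A.smul_mem _ hA1)) (A.smul_mem _ hA2)
  rwa [← e] at h5

section fin

variable [Finite F] [FiniteDimensional F V]

lemma partner {Y : Submodule F V} (hY : ND (Q.restrict Y)) {e : V} (he : e ∈ Y) (he0 : e ≠ 0) (heQ : Q e = 0) :
    ∃ f ∈ Y, Q f = 0 ∧ polar Q e f = 1 := by
  obtain ⟨f', hf'Q, hef'⟩ := exists_partner hY (v := ⟨e, he⟩) (fun h => he0 (congrArg Subtype.val h)) heQ
  exact ⟨f', f'.2, hf'Q, hef'⟩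

lemma detect {Y : Submodule F V} (hY : ND (Q.restrict Y)) (h3 : 3 ≤ finrank F Y) {r : V} (hr : r ∈ Y)
    (hr0 : r ≠ 0) : ∃ f ∈ Y, Q f = 0 ∧ polar Q r f ≠ 0 := by
  classical
  have := Fintype.ofFinite F
  by_contra hcon
  push Not at hcon
  obtain ⟨e, he, he0, heQ⟩ := exists_sing Q h3
  obtain ⟨f, hf, hfQ, hef⟩ := partner hY he he0 heQ
  have h1 : Y ≤ LinearMap.ker (polarBilin Q r) := by
    apply span_sing he hf heQ hfQ hef
    · exact LinearMap.mem_ker.2 (hcon e he heQ)
    · exact LinearMap.mem_ker.2 (hcon f hf hfQ)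
    · intro f' hf' hQ' _
      exact LinearMap.mem_ker.2 (hcon f' hf' hQ')
  exact hr0 (congrArg Subtype.val (hY ⟨r, hr⟩ fun y => LinearMap.mem_ker.1 (h1 y.2)))

lemma nonsing {Y : Submodule F V} (hY : ND (Q.restrict Y)) (h3 : 3 ≤ finrank F Y) {e f : V} (he : e ∈ Y)
    (hf : f ∈ Y) (heQ : Q e = 0) (hfQ : Q f = 0) (hef : polar Q e f = 1) :
    ∃ z ∈ Y, polar Q e z = 0 ∧ polar Q f z = 0 ∧ Q z ≠ 0 := by
  by_contra hcon
  push Not at hcon
  have key : ∀ y ∈ Y, y - polar Q y f • e - polar Q y e • f = 0 := by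
    intro y hy
    have hm : ∀ y ∈ Y, (y - polar Q y f • e - polar Q y e • f) ∈ Y ∧
        polar Q e (y - polar Q y f • e - polar Q y e • f) = 0 ∧
        polar Q f (y - polar Q y f • e - polar Q y e • f) = 0 := by
      intro y hy
      refine ⟨Y.sub_mem (Y.sub_mem hy (Y.smul_mem _ he)) (Y.smul_mem _ hf), ?_, ?_⟩
      · rw [p_sub', p_sub', p_smul', p_smul', p_self, heQ, hef, p_comm Q e y]; ring
      · rw [p_sub', p_sub', p_smul', p_smul', p_self, hfQ, p_comm Q f e, hef, p_comm Q f y]; ring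
    obtain ⟨m1, m2, m3⟩ := hm y hy
    refine congrArg Subtype.val (hY ⟨_, m1⟩ fun y' => ?_)
    obtain ⟨n1, n2, n3⟩ := hm y' y'.2
    have h1 := hcon _ m1 m2 m3
    have h2 := hcon _ n1 n2 n3
    have h3 := hcon _ (Y.add_mem m1 n1) (by rw [p_add', m2, n2, add_zero]) (by rw [p_add', m3, n3, add_zero])
    rw [Q_add, h1, h2, zero_add, zero_add] at h3
    have h4 : polar Q (y - polar Q y f • e - polar Q y e • f) (y' : V) = 0 := by
      rw [p_sub', p_sub', p_smul', p_smul', p_comm Q (y - polar Q y f • e - polar Q y e • f) e,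
        p_comm Q (y - polar Q y f • e - polar Q y e • f) f, m2, m3] at h3
      simpa using h3
    exact h4
  have hle : Y ≤ Submodule.span F {e, f} := by
    intro y hy
    rw [Submodule.mem_span_pair]
    refine ⟨polar Q y f, polar Q y e, ?_⟩
    have := key y hy
    rw [sub_sub, sub_eq_zero] at this
    exact this.symm
  have h5 := Submodule.finrank_mono hle
  have h6 : finrank F (Submodule.span F ({e, f} : Set V)) ≤ 2 := by
    classical
    have := finrank_span_le_card (R := F) ({e, f} : Set V)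
    refine this.trans ?_
    rw [Set.toFinset_card]
    have h7 := Finset.card_le_two (a := e) (b := f)
    simpa using h7
  omega

/-- irreducibility -/
lemma irr' {Y : Submodule F V} (two : (2 : F) ≠ 0) (hY : ND (Q.restrict Y)) (h3 : 3 ≤ finrank F Y)
    (R : AddSubgroup V)
    (hcl : ∀ r ∈ R, ∀ f ∈ Y, ∀ z ∈ Y, Q f = 0 → polar Q f z = 0 → sgF Q f z r ∈ R)
    {r : V} (hr : r ∈ R) (hrY : r ∈ Y) (hr0 : r ≠ 0) : ∀ y ∈ Y, y ∈ R := by
  have step : ∀ r ∈ R, ∀ f ∈ Y, Q f = 0 → polar Q r f ≠ 0 → ∀ c : F, c • f ∈ R := by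
    intro r hr f hf hfQ hrf d
    have hf0 : f ≠ 0 := by rintro rfl; exact hrf (p_zero' _ _)
    obtain ⟨f', hf', hfQ', hff⟩ := partner hY hf hf0 hfQ
    obtain ⟨z, hz, hz1, -, hzQ⟩ := nonsing hY h3 hf hf' hfQ hfQ' hff
    have D : ∀ c : F, polar Q r f • (c • z) - (polar Q r (c • z) + Q (c • z) * polar Q r f) • f ∈ R := by
      intro c
      have h1 := hcl r hr f hf (c • z) (Y.smul_mem _ hz) hfQ (by rw [p_smul', hz1, mul_zero])
      have h2 := R.sub_mem h1 hr
      unfold sgF at h2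
      have e : r + polar Q r f • c • z - (polar Q r (c • z) + Q (c • z) * polar Q r f) • f - r =
        polar Q r f • (c • z) - (polar Q r (c • z) + Q (c • z) * polar Q r f) • f := by abel
      rwa [e] at h2
    have P : ∀ c : F, (-(2 * (c * c) * Q z * polar Q r f)) • f ∈ R := by
      intro c
      have h1 := R.add_mem (D c) (D (-c))
      simp only [p_smul', Q_smul] at h1
      have e : polar Q r f • c • z - (c * polar Q r z + c * c * Q z * polar Q r f) • f +
        (polar Q r f • (-c) • z - (-c * polar Q r z + -c * -c * Q z * polar Q r f) • f) =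
        (-(2 * (c * c) * Q z * polar Q r f)) • f := by module
      rwa [e] at h1
    have h4 : (2 * 2 * Q z * polar Q r f) ≠ 0 := mul_ne_zero (mul_ne_zero (mul_ne_zero two two) hzQ) hrf
    have h5 := R.sub_mem (R.sub_mem (P (-(d / (2 * 2 * Q z * polar Q r f)) + 1)) (P (-(d / (2 * 2 * Q z * polar Q r f))))) (P 1)
    rw [← sub_smul, ← sub_smul] at h5
    have e : (-(2 * ((-(d / (2 * 2 * Q z * polar Q r f)) + 1) * (-(d / (2 * 2 * Q z * polar Q r f)) + 1)) * Q z * polar Q r f) -
        -(2 * (-(d / (2 * 2 * Q z * polar Q r f)) * -(d / (2 * 2 * Q z * polar Q r f))) * Q z * polar Q r f) -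
        -(2 * (1 * 1) * Q z * polar Q r f)) = (d / (2 * 2 * Q z * polar Q r f)) * (2 * 2 * Q z * polar Q r f) := by ring
    rw [e, div_mul_cancel₀ _ h4] at h5
    exact h5
  let R' : Submodule F V :=
    { carrier := {y | ∀ c : F, c • y ∈ R}
      add_mem' := fun {a b} ha hb c => by rw [smul_add]; exact R.add_mem (ha c) (hb c)
      zero_mem' := fun c => by rw [smul_zero]; exact R.zero_mem
      smul_mem' := fun d x hx c => by rw [smul_smul]; exact hx _ }
  obtain ⟨f, hf, hfQ, hrf⟩ := detect hY h3 hrY hr0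
  have hf0 : f ≠ 0 := by rintro rfl; exact hrf (p_zero' _ _)
  have hfR : f ∈ R' := step r hr f hf hfQ hrf
  obtain ⟨f2, hf2, hfQ2, hff⟩ := partner hY hf hf0 hfQ
  have hfR1 : f ∈ R := by have := hfR 1; rwa [one_smul] at this
  have hf2R : f2 ∈ R' := step f hfR1 f2 hf2 hfQ2 (by rw [hff]; exact one_ne_zero)
  have hf2R1 : f2 ∈ R := by have := hf2R 1; rwa [one_smul] at this
  have hle : Y ≤ R' := span_sing hf hf2 hfQ hfQ2 hff hfR hf2R fun f' hf' hfQ' h =>
    step f2 hf2R1 f' hf' hfQ' (by rw [p_comm, h]; exact one_ne_zero)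
  intro y hy
  have := hle hy 1
  rwa [one_smul] at this

/-- the situation -/
structure Pr (Q : QuadraticForm F V) (X Y : Submodule F V) (M : Subgroup (V ≃ₗ[F] V)) : Prop where
  nd : ND Q
  five : 5 ≤ finrank F V
  two : (2 : F) ≠ 0
  ndX : ND (Q.restrict X)
  ndY : ND (Q.restrict Y)
  perp : ∀ x ∈ X, ∀ y ∈ Y, polar Q x y = 0
  sum : ∀ v : V, ∃ x ∈ X, ∃ y ∈ Y, v = x + y
  dX : 3 ≤ finrank F X
  dY : 3 ≤ finrank F Y
  hasX : ∀ u ∈ X, ∀ w ∈ X, Q u = 0 → polar Q u w = 0 → Has Q M u w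
  hasY : ∀ u ∈ Y, ∀ w ∈ Y, Q u = 0 → polar Q u w = 0 → Has Q M u w
  le : M ≤ O Q

variable {X Y : Submodule F V} {M : Subgroup (V ≃ₗ[F] V)}

omit [Finite F] [FiniteDimensional F V] in
lemma Pr.swap (S : Pr Q X Y M) : Pr Q Y X M where
  nd := S.nd
  five := S.five
  two := S.two
  ndX := S.ndY
  ndY := S.ndX
  perp x hx y hy := by rw [p_comm]; exact S.perp y hy x hx
  sum v := by
    obtain ⟨x, hx, y, hy, h⟩ := S.sum v
    exact ⟨y, hy, x, hx, by rw [h, add_comm]⟩
  dX := S.dY
  dY := S.dX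
  hasX := S.hasY
  hasY := S.hasX
  le := S.le

omit [Finite F] [FiniteDimensional F V] in
lemma Pr.perp' (S : Pr Q X Y M) {x y : V} (hx : x ∈ X) (hy : y ∈ Y) : polar Q y x = 0 := by
  rw [p_comm]; exact S.perp x hx y hy

lemma Pr.full (S : Pr Q X Y M) {e yX yY : V} (he : e ∈ X) (heQ : Q e = 0) (hX : yX ∈ X) (hY : yY ∈ Y)
    (hY0 : yY ≠ 0) (h1 : polar Q e yX = 0) (h : Has Q M e (yX + yY)) : Full Q M e := by
  have hp : ∀ y ∈ Y, polar Q e y = 0 := fun y hy => S.perp e he y hy
  have h' : Has Q M e yY := by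
    have h2 := h.sub (S.hasX e he yX hX heQ h1) heQ (by rw [p_add', h1, hp _ hY, add_zero]) h1
    rwa [add_sub_cancel_left] at h2
  let R : AddSubgroup V :=
    { carrier := {z | z ∈ Y ∧ Has Q M e z}
      add_mem' := fun {a b} ha hb => ⟨Y.add_mem ha.1 hb.1, ha.2.mul hb.2 heQ (hp _ ha.1) (hp _ hb.1)⟩
      zero_mem' := ⟨Y.zero_mem, has_zero⟩
      neg_mem' := fun {a} ha => ⟨Y.neg_mem ha.1, ha.2.neg heQ (hp _ ha.1)⟩ }
  have hR : ∀ y ∈ Y, y ∈ R := by
    refine irr' S.two S.ndY S.dY R ?_ (r := yY) ⟨hY, h'⟩ hY hY0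
    rintro r ⟨hrY, hr⟩ f hf z hz hfQ hfz
    refine ⟨?_, ?_⟩
    · unfold sgF
      exact Y.sub_mem (Y.add_mem hrY (Y.smul_mem _ hz)) (Y.smul_mem _ hf)
    · obtain ⟨s, hs, hsx⟩ := S.hasY f hf z hz hfQ hfz
      have h3 := hr.conj hs (S.le hs)
      rw [hsx, hsx] at h3
      have e1 : sgF Q f z e = e := by
        unfold sgF
        rw [hp f hf, hp z hz]; simp
      rwa [e1] at h3
  intro w hw
  obtain ⟨x, hx, y, hy, rfl⟩ := S.sum w
  have hx' : polar Q e x = 0 := by
    rw [p_add', hp y hy, add_zero] at hw; exact hw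
  exact (S.hasX e he x hx heQ hx').mul (hR y hy).2 heQ hx' (hp y hy)

lemma Pr.top (S : Pr Q X Y M) {e : V} (he : e ∈ X) (heQ : Q e = 0) (he0 : e ≠ 0) (h : Full Q M e) :
    Om Q ≤ M := by
  obtain ⟨f, hf, hfQ, hef⟩ := partner S.ndX he he0 heQ
  obtain ⟨z, hz, hz1, hz2, hzQ⟩ := nonsing S.ndX S.dX he hf heQ hfQ hef
  obtain ⟨s, hs, hsx⟩ := S.hasX f hf z hz hfQ hz2
  have h1 := h.conj hs (S.le hs)
  refine le_of_full S.nd S.five heQ (v := s e) ?_ ?_ h h1
  · rw [mem_O.1 (S.le hs) e, heQ]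
  · rw [hsx]
    unfold sgF
    rw [hef, hz1, p_sub', p_add', p_smul', p_smul', p_self, heQ, hz1, hef]
    intro h0
    apply hzQ
    have : -(Q z) = 0 := by rw [← h0]; ring
    exact neg_eq_zero.1 this

lemma Pr.top' (S : Pr Q X Y M) {e yX yY : V} (he : e ∈ X) (heQ : Q e = 0) (he0 : e ≠ 0) (hX : yX ∈ X) (hY : yY ∈ Y)
    (hY0 : yY ≠ 0) (h1 : polar Q e yX = 0) (h : Has Q M e (yX + yY)) : Om Q ≤ M :=
  S.top he heQ he0 (S.full he heQ hX hY hY0 h1 h)

/-- dimension of a hyperplane section -/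
lemma finrank_inf_ker (X : Submodule F V) (φ : V →ₗ[F] F) : finrank F X ≤ finrank F (X ⊓ LinearMap.ker φ : Submodule F V) + 1 := by
  have h1 := Submodule.finrank_sup_add_finrank_inf_eq X (LinearMap.ker φ)
  have h2 := LinearMap.finrank_range_add_finrank_ker φ
  have h3 : finrank F (LinearMap.range φ) ≤ 1 := by
    have := Submodule.finrank_le (LinearMap.range φ)
    rwa [Module.finrank_self] at this
  have h4 := Submodule.finrank_le (X ⊔ LinearMap.ker φ)
  omega

lemma finrank_inf_lt {Y : Submodule F V} (hY : ND (Q.restrict Y)) {b : V} (hb : b ∈ Y) (hb0 : b ≠ 0) :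
    finrank F (Y ⊓ LinearMap.ker (polarBilin Q b) : Submodule F V) < finrank F Y := by
  apply Submodule.finrank_lt_finrank_of_lt
  refine lt_of_le_of_ne inf_le_left fun h => ?_
  apply hb0
  refine congrArg Subtype.val (hY ⟨b, hb⟩ fun y => ?_)
  have : (y : V) ∈ Y ⊓ LinearMap.ker (polarBilin Q b) := by rw [h]; exact y.2
  exact LinearMap.mem_ker.1 this.2

/-- the image under `g` of `X ∩ u^⊥` -/
lemma Pr.sing (S : Pr Q X Y M) (h4 : finrank F X = 4) (h3 : finrank F Y = 3) {g : V ≃ₗ[F] V} (hg : g ∈ M)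
    {u a b : V} (hu : u ∈ X) (hu0 : u ≠ 0) (huQ : Q u = 0) (ha : a ∈ X) (hb : b ∈ Y) (hb0 : b ≠ 0)
    (hgu : g u = a + b) (haQ : Q a = 0) : Om Q ≤ M := by
  have hgO := S.le hg
  have hgQ : ∀ v, Q (g v) = Q v := mem_O.1 hgO
  have hgp : ∀ v w, polar Q (g v) (g w) = polar Q v w := O_polar hgO
  set L : Submodule F V := (X ⊓ LinearMap.ker (polarBilin Q u)).map g.toLinearMap with hL
  have hLf : 3 ≤ finrank F L := by
    have h5 := finrank_inf_ker X (polarBilin Q u)
    have h6 : finrank F L = finrank F (X ⊓ LinearMap.ker (polarBilin Q u) : Submodule F V) :=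
      LinearEquiv.finrank_map_eq g _
    omega
  have hLh : ∀ v ∈ L, ∃ y ∈ X, polar Q u y = 0 ∧ g y = v ∧ Has Q M (a + b) v ∧ polar Q (a + b) v = 0 := by
    rintro v ⟨y, ⟨hy1, hy2⟩, rfl⟩
    have hy2' : polar Q u y = 0 := LinearMap.mem_ker.1 hy2
    refine ⟨y, hy1, hy2', rfl, ?_, ?_⟩
    · have h5 := (S.hasX u hu y hy1 huQ hy2').conj hg hgO
      rwa [hgu] at h5
    · rw [← hgu]; exact (hgp u y).trans hy2'
  have hbQ : Q b = 0 := by
    have h5 := hgQ u
    rw [hgu, Q_add, haQ, huQ, S.perp a ha b hb] at h5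
    simpa using h5
  have hxQ : Q (a + b) = 0 := by rw [← hgu, hgQ, huQ]
  by_cases ha0 : a = 0
  · -- `g u` is in `Y`
    have hex : ∃ v ∈ L, v ∉ Y := by
      by_contra hcon
      push Not at hcon
      have h5 : L ≤ Y ⊓ LinearMap.ker (polarBilin Q b) := by
        intro v hv
        obtain ⟨y, -, -, -, -, h6⟩ := hLh v hv
        rw [ha0, zero_add] at h6
        exact ⟨hcon v hv, LinearMap.mem_ker.2 h6⟩
      have h6 := Submodule.finrank_mono h5
      have h7 := finrank_inf_lt S.ndY hb hb0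
      omega
    obtain ⟨v, hv, hvY⟩ := hex
    obtain ⟨y, -, -, -, h5, h6⟩ := hLh v hv
    rw [ha0, zero_add] at h5 h6
    obtain ⟨v1, hv1, v2, hv2, rfl⟩ := S.sum v
    rw [p_add', S.perp' hv1 hb, zero_add] at h6
    rw [add_comm] at h5
    refine S.swap.top' hb hbQ hb0 hv2 hv1 ?_ h6 h5
    rintro rfl
    rw [zero_add] at hvY
    exact hvY hv2
  · -- `a` and `b` are singular
    have fin : ∀ c : F, c ≠ 0 → Has Q M (a + b) (c • a) → Om Q ≤ M := by
      intro c hc h
      rw [has_swap hxQ (by rw [Q_smul, haQ, mul_zero]), has_scale] at h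
      refine S.top' ha haQ ha0 (yX := c • (-a)) (yY := c • (-b)) (X.smul_mem _ (X.neg_mem ha))
        (Y.smul_mem _ (Y.neg_mem hb)) (smul_ne_zero hc (neg_ne_zero.2 hb0)) ?_ ?_
      · rw [p_smul', p_neg', p_self, haQ]; ring
      · have e : c • (-a) + c • (-b) = c • (-(a + b)) := by module
        rw [e]; exact h
    -- the Siegel elements with centre `a` fix `a + b`
    have move : ∀ v ∈ L, ∀ y ∈ X, polar Q a y = 0 →
        Has Q M (a + b) (polar Q v a • y - (polar Q v y + Q y * polar Q v a) • a) := by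
      intro v hv y hy hay
      obtain ⟨-, -, -, -, h5, h6⟩ := hLh v hv
      obtain ⟨s, hs, hsx⟩ := S.hasX a ha y hy haQ hay
      have h7 := h5.conj hs (S.le hs)
      have e1 : s (a + b) = a + b := by
        rw [hsx]; unfold sgF
        rw [p_add, p_add, p_self, haQ, S.perp' ha hb, hay, S.perp' hy hb]; simp
      rw [e1, hsx] at h7
      have h8 : polar Q (a + b) (sgF Q a y v) = 0 := by
        rw [← hsx, ← e1, O_polar (S.le hs)]; exact h6
      have h9 := h7.sub h5 hxQ h8 h6
      have e2 : sgF Q a y v - v = polar Q v a • y - (polar Q v y + Q y * polar Q v a) • a := by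
        unfold sgF; abel
      rwa [e2] at h9
    obtain ⟨a', ha', haQ', haa⟩ := partner S.ndX ha ha0 haQ
    obtain ⟨z, hz, hz1, hz2, hzQ⟩ := nonsing S.ndX S.dX ha ha' haQ haQ' haa
    by_cases hA : ∃ v ∈ L, polar Q v a ≠ 0
    · obtain ⟨v, hv, hva⟩ := hA
      have h5 := move v hv z hz hz1
      have h6 := move v hv (-z) (X.neg_mem hz) (by rw [p_neg', hz1, neg_zero])
      have p1 : polar Q (a + b) (polar Q v a • z - (polar Q v z + Q z * polar Q v a) • a) = 0 := by
        rw [p_sub', p_smul', p_smul', p_add, p_add, hz1, S.perp' hz hb, p_self, haQ, S.perp' ha hb]; ring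
      have p2 : polar Q (a + b) (polar Q v a • (-z) - (polar Q v (-z) + Q (-z) * polar Q v a) • a) = 0 := by
        rw [p_sub', p_smul', p_smul', p_neg', p_add, p_add, hz1, S.perp' hz hb, p_self, haQ, S.perp' ha hb]; ring
      have h7 := h5.mul h6 hxQ p1 p2
      rw [p_neg', Q_neg] at h7
      refine fin (-(2 * Q z * polar Q v a)) (neg_ne_zero.2 (mul_ne_zero (mul_ne_zero S.two hzQ) hva)) ?_
      have e : polar Q v a • z - (polar Q v z + Q z * polar Q v a) • a +
        (polar Q v a • -z - (-polar Q v z + Q z * polar Q v a) • a) = (-(2 * Q z * polar Q v a)) • a := by module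
      rwa [e] at h7
    · push Not at hA
      by_cases hB : ∃ v ∈ L, ∃ y ∈ X, polar Q a y = 0 ∧ polar Q v y ≠ 0
      · obtain ⟨v, hv, y, hy, hay, hvy⟩ := hB
        have h5 := move v hv y hy hay
        rw [hA v hv] at h5
        refine fin (-(polar Q v y)) (neg_ne_zero.2 hvy) ?_
        have e : (0 : F) • y - (polar Q v y + Q y * 0) • a = (-(polar Q v y)) • a := by module
        rwa [e] at h5
      · push Not at hB
        exfalso
        -- `L ≤ F a + (Y ∩ b^⊥)`
        have hle : L ≤ Submodule.span F {a} ⊔ (Y ⊓ LinearMap.ker (polarBilin Q b)) := by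
          intro v hv
          obtain ⟨-, -, -, -, -, h6⟩ := hLh v hv
          have hBv := hB v hv
          have hAv := hA v hv
          obtain ⟨v1, hv1, v2, hv2, rfl⟩ := S.sum v
          have k1 : v1 = polar Q v1 a' • a := by
            have k2 : v1 - polar Q v1 a' • a = 0 := by
              refine congrArg Subtype.val (S.ndX ⟨_, X.sub_mem hv1 (X.smul_mem _ ha)⟩ fun w => ?_)
              change polar Q (v1 - polar Q v1 a' • a) (w : V) = 0
              have k3 := hBv (w - polar Q a (w : V) • a') (X.sub_mem w.2 (X.smul_mem _ ha')) (by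
                rw [p_sub', p_smul', haa]; ring)
              rw [p_add, S.perp' (X.sub_mem w.2 (X.smul_mem _ ha')) hv2, add_zero, p_sub', p_smul'] at k3
              rw [p_sub, p_smul]
              linear_combination k3
            exact sub_eq_zero.1 k2
          refine Submodule.add_mem_sup (by rw [k1]; exact Submodule.smul_mem _ _ (Submodule.mem_span_singleton_self a)) ?_
          refine ⟨hv2, LinearMap.mem_ker.2 ?_⟩
          have k4 : polar Q (a + b) (v1 + v2) = 0 := h6
          rw [p_add', p_add, p_add, S.perp' hv1 hb, S.perp a ha v2 hv2, k1, p_smul', p_self, haQ] at k4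
          have k5 : polar Q b v2 = 0 := by linear_combination k4
          exact k5
        have h7 := finrank_inf_lt S.ndY hb hb0
        have h8 := Submodule.finrank_add_le_finrank_add_finrank (Submodule.span F {a}) (Y ⊓ LinearMap.ker (polarBilin Q b))
        have h9 : finrank F (Submodule.span F {a}) ≤ 1 := by
          have := finrank_span_le_card (R := F) ({a} : Set V)
          simpa using this
        have h10 : L = Submodule.span F {a} ⊔ (Y ⊓ LinearMap.ker (polarBilin Q b)) := by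
          apply Submodule.eq_of_le_of_finrank_le hle
          omega
        have haL : a ∈ L := by
          rw [h10]; exact Submodule.mem_sup_left (Submodule.mem_span_singleton_self a)
        obtain ⟨y, hy, huy, hgy, -, -⟩ := hLh a haL
        -- `y` is in the radical of `X ∩ u^⊥`
        obtain ⟨u', hu', huQ', huu⟩ := partner S.ndX hu hu0 huQ
        have k1 : y - polar Q y u' • u = 0 := by
          refine congrArg Subtype.val (S.ndX ⟨_, X.sub_mem hy (X.smul_mem _ hu)⟩ fun w => ?_)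
          change polar Q (y - polar Q y u' • u) (w : V) = 0
          have k3 := hA (g (w - polar Q u (w : V) • u')) ⟨_, ⟨X.sub_mem w.2 (X.smul_mem _ hu'), LinearMap.mem_ker.2 (by
            change polar Q u (w - polar Q u (w : V) • u') = 0
            rw [p_sub', p_smul', huu]; ring)⟩, rfl⟩
          rw [← hgy, hgp, p_comm, p_sub', p_smul'] at k3
          rw [p_sub, p_smul]
          linear_combination k3
        rw [sub_eq_zero] at k1
        rw [k1, map_smul, hgu] at hgy
        have k2 : polar Q y u' • b = (1 - polar Q y u') • a := by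
          have : polar Q y u' • (a + b) = a := hgy
          rw [smul_add] at this
          rw [sub_smul, one_smul]
          exact eq_sub_of_add_eq' this
        have k3 : polar Q y u' • b = 0 := by
          refine congrArg Subtype.val (S.ndY ⟨_, Y.smul_mem (polar Q y u') hb⟩ fun w => ?_)
          change polar Q (polar Q y u' • b) (w : V) = 0
          rw [k2, p_smul, S.perp a ha w w.2, mul_zero]
        rcases smul_eq_zero.1 k3 with k4 | k4
        · rw [k4, zero_smul, sub_zero, one_smul] at k2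
          exact ha0 k2.symm
        · exact hb0 k4

/-- binary forms represent everything -/
lemma diag_univ (h2 : (2 : F) ≠ 0) {a c : F} (ha : a ≠ 0) (hc : c ≠ 0) (e : F) :
    ∃ x y : F, a * (x * x) + c * (y * y) = e := by
  have := Fintype.ofFinite F
  have hch : ringChar F ≠ 2 := by
    intro h0
    apply h2
    have := ringChar.Nat.cast_ringChar (R := F)
    rw [h0] at this
    exact_mod_cast this
  have hodd : Fintype.card F % 2 = 1 := FiniteField.odd_card_of_char_ne_two hch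
  obtain ⟨x, y, h⟩ := FiniteField.exists_root_sum_quadratic (R := F)
    (f := Polynomial.C a * Polynomial.X ^ 2 + Polynomial.C 0 * Polynomial.X + Polynomial.C (-e))
    (g := Polynomial.C c * Polynomial.X ^ 2 + Polynomial.C 0 * Polynomial.X + Polynomial.C 0)
    (Polynomial.degree_quadratic ha) (Polynomial.degree_quadratic hc) hodd
  refine ⟨x, y, ?_⟩
  simp at h
  linear_combination h

omit [Finite F] [FiniteDimensional F V] in
lemma nd_hyper (two : (2 : F) ≠ 0) {Y : Submodule F V} (hY : ND (Q.restrict Y)) {a : V} (ha : a ∈ Y) (haQ : Q a ≠ 0) :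
    ND (Q.restrict (Y ⊓ LinearMap.ker (polarBilin Q a))) := by
  intro x hx
  have hxa : polar Q a (x : V) = 0 := LinearMap.mem_ker.1 x.2.2
  have h2 : (2 * Q a) ≠ 0 := mul_ne_zero two haQ
  have hx0 : (x : V) = 0 := by
    refine congrArg Subtype.val (hY ⟨x, x.2.1⟩ fun w => ?_)
    change polar Q (x : V) (w : V) = 0
    have hm : ((w : V) - (polar Q a (w : V) / (2 * Q a)) • a) ∈ Y ⊓ LinearMap.ker (polarBilin Q a) := by
      refine ⟨Y.sub_mem w.2 (Y.smul_mem _ ha), LinearMap.mem_ker.2 ?_⟩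
      change polar Q a ((w : V) - (polar Q a (w : V) / (2 * Q a)) • a) = 0
      rw [p_sub', p_smul', p_self, div_mul_cancel₀ _ h2, sub_self]
    have h3 : polar Q (x : V) ((w : V) - (polar Q a (w : V) / (2 * Q a)) • a) = 0 := hx ⟨_, hm⟩
    rw [p_sub', p_smul', p_comm Q (x : V) a, hxa, mul_zero, sub_zero] at h3
    exact h3
  exact Subtype.ext hx0

/-- a non-degenerate space of dimension at least two represents everything -/
lemma repr_all (two : (2 : F) ≠ 0) {Y : Submodule F V} (hY : ND (Q.restrict Y)) (h2 : 2 ≤ finrank F Y) (c : F) :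
    ∃ y ∈ Y, Q y = c := by
  have ex : ∀ {Z : Submodule F V}, ND (Q.restrict Z) → 1 ≤ finrank F Z → ∃ z ∈ Z, Q z ≠ 0 := by
    intro Z hZ h1
    by_contra hcon
    push Not at hcon
    have : Z = ⊥ := by
      rw [Submodule.eq_bot_iff]
      intro z hz
      refine congrArg Subtype.val (hZ ⟨z, hz⟩ fun w => ?_)
      change polar Q z (w : V) = 0
      have h3 := hcon _ (Z.add_mem hz w.2)
      rw [Q_add, hcon z hz, hcon w w.2] at h3
      simpa using h3
    rw [this, finrank_bot] at h1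
    omega
  obtain ⟨z, hz, hzQ⟩ := ex hY (by omega)
  have h3 := finrank_inf_ker Y (polarBilin Q z)
  obtain ⟨w, ⟨hw, hzw⟩, hwQ⟩ := ex (nd_hyper two hY hz hzQ) (by omega)
  have hzw' : polar Q z w = 0 := LinearMap.mem_ker.1 hzw
  obtain ⟨x, y, hxy⟩ := diag_univ two hzQ hwQ c
  refine ⟨x • z + y • w, Y.add_mem (Y.smul_mem _ hz) (Y.smul_mem _ hw), ?_⟩
  rw [Q_add, Q_smul, Q_smul, p_smul, p_smul', hzw']
  linear_combination hxy

lemma Pr.main (S : Pr Q X Y M) (h4 : finrank F X = 4) (h3 : finrank F Y = 3) {g : V ≃ₗ[F] V} (hg : g ∈ M)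
    {u : V} (hu : u ∈ X) (hu0 : u ≠ 0) (huQ : Q u = 0) (hguX : g u ∉ X) : Om Q ≤ M := by
  obtain ⟨a, ha, b, hb, hgu⟩ := S.sum (g u)
  have hb0 : b ≠ 0 := by
    rintro rfl
    rw [add_zero] at hgu
    exact hguX (hgu ▸ ha)
  by_cases haQ : Q a = 0
  · exact S.sing h4 h3 hg hu hu0 huQ ha hb hb0 hgu haQ
  have hgO := S.le hg
  have hgQ : ∀ v, Q (g v) = Q v := mem_O.1 hgO
  have hgp : ∀ v w, polar Q (g v) (g w) = polar Q v w := O_polar hgO
  set L : Submodule F V := (X ⊓ LinearMap.ker (polarBilin Q u)).map g.toLinearMap with hL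
  have hLf : 3 ≤ finrank F L := by
    have h5 := finrank_inf_ker X (polarBilin Q u)
    have h6 : finrank F L = finrank F (X ⊓ LinearMap.ker (polarBilin Q u) : Submodule F V) :=
      LinearEquiv.finrank_map_eq g _
    omega
  have hLh : ∀ v ∈ L, Has Q M (a + b) v ∧ polar Q (a + b) v = 0 := by
    rintro v ⟨y, ⟨hy1, hy2⟩, rfl⟩
    have hy2' : polar Q u y = 0 := LinearMap.mem_ker.1 hy2
    refine ⟨?_, ?_⟩
    · have h5 := (S.hasX u hu y hy1 huQ hy2').conj hg hgO
      rwa [hgu] at h5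
    · rw [← hgu]; exact (hgp u y).trans hy2'
  have hxQ : Q (a + b) = 0 := by rw [← hgu, hgQ, huQ]
  have hbQ : Q b = - Q a := by
    rw [Q_add, S.perp a ha b hb] at hxQ
    linear_combination hxQ
  have h2a : (2 * Q a) ≠ 0 := mul_ne_zero S.two haQ
  have hnX' := nd_hyper S.two S.ndX ha haQ
  have hdX' : 3 ≤ finrank F (X ⊓ LinearMap.ker (polarBilin Q a) : Submodule F V) := by
    have := finrank_inf_ker X (polarBilin Q a)
    omega
  have mX : ∀ {w : V}, w ∈ X ⊓ LinearMap.ker (polarBilin Q a) → w ∈ X ∧ polar Q a w = 0 :=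
    fun h => ⟨h.1, LinearMap.mem_ker.1 h.2⟩
  by_cases hA : ∃ v ∈ L, ∃ e ∈ X ⊓ LinearMap.ker (polarBilin Q a), Q e = 0 ∧ polar Q v e ≠ 0
  · obtain ⟨v, hv, e, he, heQ, hve⟩ := hA
    have he0 : e ≠ 0 := by rintro rfl; exact hve (p_zero' _ _)
    obtain ⟨f, hf, hfQ, hef⟩ := partner hnX' he he0 heQ
    obtain ⟨z, hz, hz1, -, hzQ⟩ := nonsing hnX' hdX' he hf heQ hfQ hef
    obtain ⟨heX, hae⟩ := mX he
    have move : ∀ y ∈ X ⊓ LinearMap.ker (polarBilin Q a), polar Q e y = 0 →
        Has Q M (a + b) (polar Q v e • y - (polar Q v y + Q y * polar Q v e) • e) := by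
      intro y hy hey
      obtain ⟨hyX, hay⟩ := mX hy
      obtain ⟨h5, h6⟩ := hLh v hv
      obtain ⟨s, hs, hsx⟩ := S.hasX e heX y hyX heQ hey
      have h7 := h5.conj hs (S.le hs)
      have e1 : s (a + b) = a + b := by
        rw [hsx]; unfold sgF
        rw [p_add, p_add, hae, S.perp' heX hb, hay, S.perp' hyX hb]; simp
      rw [e1, hsx] at h7
      have h8 : polar Q (a + b) (sgF Q e y v) = 0 := by
        rw [← hsx, ← e1, O_polar (S.le hs)]; exact h6
      have h9 := h7.sub h5 hxQ h8 h6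
      have e2 : sgF Q e y v - v = polar Q v e • y - (polar Q v y + Q y * polar Q v e) • e := by
        unfold sgF; abel
      rwa [e2] at h9
    obtain ⟨hzX, haz⟩ := mX hz
    have h5 := move z hz hz1
    have h6 := move (-z) (Submodule.neg_mem _ hz) (by rw [p_neg', hz1, neg_zero])
    have p1 : polar Q (a + b) (polar Q v e • z - (polar Q v z + Q z * polar Q v e) • e) = 0 := by
      rw [p_sub', p_smul', p_smul', p_add, p_add, haz, S.perp' hzX hb, hae, S.perp' heX hb]; ring
    have p2 : polar Q (a + b) (polar Q v e • (-z) - (polar Q v (-z) + Q (-z) * polar Q v e) • e) = 0 := by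
      rw [p_sub', p_smul', p_smul', p_neg', p_add, p_add, haz, S.perp' hzX hb, hae, S.perp' heX hb]; ring
    have h7 := h5.mul h6 hxQ p1 p2
    rw [p_neg', Q_neg] at h7
    obtain ⟨c, hc⟩ : ∃ c, c = -(2 * Q z * polar Q v e) := ⟨_, rfl⟩
    have hc0 : c ≠ 0 := by
      rw [hc]; exact neg_ne_zero.2 (mul_ne_zero (mul_ne_zero S.two hzQ) hve)
    have e3 : polar Q v e • z - (polar Q v z + Q z * polar Q v e) • e +
      (polar Q v e • -z - (-polar Q v z + Q z * polar Q v e) • e) = c • e := by rw [hc]; module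
    rw [e3, has_swap hxQ (by rw [Q_smul, heQ, mul_zero]), has_scale] at h7
    refine S.top' heX heQ he0 (yX := c • (-a)) (yY := c • (-b)) (X.smul_mem _ (X.neg_mem ha))
      (Y.smul_mem _ (Y.neg_mem hb)) (smul_ne_zero hc0 (neg_ne_zero.2 hb0)) ?_ ?_
    · rw [p_smul', p_neg', p_comm Q e a, hae]; ring
    · have e : c • (-a) + c • (-b) = c • (-(a + b)) := by module
      rw [e]; exact h7
  · push Not at hA
    -- `X ∩ a^⊥` is spanned by its singular vectors
    have hB : ∀ v ∈ L, ∀ w ∈ X ⊓ LinearMap.ker (polarBilin Q a), polar Q v w = 0 := by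
      intro v hv
      classical
      have := Fintype.ofFinite F
      obtain ⟨e, he, he0, heQ⟩ := exists_sing Q hdX'
      obtain ⟨f, hf, hfQ, hef⟩ := partner hnX' he he0 heQ
      have h5 : (X ⊓ LinearMap.ker (polarBilin Q a)) ≤ LinearMap.ker (polarBilin Q v) := by
        apply span_sing he hf heQ hfQ hef
        · exact LinearMap.mem_ker.2 (hA v hv e he heQ)
        · exact LinearMap.mem_ker.2 (hA v hv f hf hfQ)
        · intro f' hf' hQ' _
          exact LinearMap.mem_ker.2 (hA v hv f' hf' hQ')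
      intro w hw
      exact LinearMap.mem_ker.1 (h5 hw)
    have hle : L ≤ Submodule.span F {a + b} ⊔ (Y ⊓ LinearMap.ker (polarBilin Q b)) := by
      intro v hv
      obtain ⟨-, h6⟩ := hLh v hv
      have hBv := hB v hv
      obtain ⟨v1, hv1, v2, hv2, rfl⟩ := S.sum v
      obtain ⟨α, hα⟩ : ∃ α, α = polar Q a v1 / (2 * Q a) := ⟨_, rfl⟩
      have hα' : α * (2 * Q a) = polar Q a v1 := by rw [hα, div_mul_cancel₀ _ h2a]
      have k1 : v1 = α • a := by
        have k2 : v1 - α • a = 0 := by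
          refine congrArg Subtype.val (S.ndX ⟨_, X.sub_mem hv1 (X.smul_mem _ ha)⟩ fun w => ?_)
          change polar Q (v1 - α • a) (w : V) = 0
          have hm : ((w : V) - (polar Q a (w : V) / (2 * Q a)) • a) ∈ X ⊓ LinearMap.ker (polarBilin Q a) := by
            refine ⟨X.sub_mem w.2 (X.smul_mem _ ha), LinearMap.mem_ker.2 ?_⟩
            change polar Q a ((w : V) - (polar Q a (w : V) / (2 * Q a)) • a) = 0
            rw [p_sub', p_smul', p_self, div_mul_cancel₀ _ h2a, sub_self]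
          have k3 := hBv _ hm
          rw [p_add, S.perp' (mX hm).1 hv2, add_zero, p_sub', p_smul', p_comm Q v1 a] at k3
          rw [p_sub, p_smul, hα]
          linear_combination k3
        exact sub_eq_zero.1 k2
      have e : v1 + v2 = α • (a + b) + (v2 - α • b) := by rw [k1]; module
      rw [e]
      refine Submodule.add_mem_sup (Submodule.smul_mem _ _ (Submodule.mem_span_singleton_self _)) ?_
      refine ⟨Y.sub_mem hv2 (Y.smul_mem _ hb), LinearMap.mem_ker.2 ?_⟩
      change polar Q b (v2 - α • b) = 0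
      rw [p_add', p_add, p_add, S.perp' hv1 hb, S.perp a ha v2 hv2] at h6
      rw [p_sub', p_smul', p_self, hbQ]
      linear_combination h6 + hα'
    have h7 := finrank_inf_lt S.ndY hb hb0
    have h8 := Submodule.finrank_add_le_finrank_add_finrank (Submodule.span F {a + b}) (Y ⊓ LinearMap.ker (polarBilin Q b))
    have h9 : finrank F (Submodule.span F {a + b}) ≤ 1 := by
      have := finrank_span_le_card (R := F) ({a + b} : Set V)
      simpa using this
    have h10 : L = Submodule.span F {a + b} ⊔ (Y ⊓ LinearMap.ker (polarBilin Q b)) := by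
      apply Submodule.eq_of_le_of_finrank_le hle
      omega
    have hbQ0 : Q b ≠ 0 := by rw [hbQ]; exact neg_ne_zero.2 haQ
    have h11 := finrank_inf_ker Y (polarBilin Q b)
    obtain ⟨y, hy, hyQ⟩ := repr_all S.two (nd_hyper S.two S.ndY hb hbQ0) (by omega) (Q a)⁻¹
    have hyL : y ∈ L := by rw [h10]; exact Submodule.mem_sup_right hy
    have hyY : y ∈ Y := hy.1
    have hby : polar Q b y = 0 := LinearMap.mem_ker.1 hy.2
    obtain ⟨⟨h, hh, hhx⟩, -⟩ := hLh y hyL
    -- a singular vector not orthogonal to `a`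
    have ha0 : a ≠ 0 := by rintro rfl; exact haQ (QuadraticMap.map_zero Q)
    obtain ⟨u', hu', huQ', hau⟩ := detect S.ndX S.dX ha ha0
    obtain ⟨w, hw⟩ : ∃ w, w = (polar Q a u')⁻¹ • u' := ⟨_, rfl⟩
    have hwX : w ∈ X := by rw [hw]; exact X.smul_mem _ hu'
    have hwQ : Q w = 0 := by rw [hw, Q_smul, huQ', mul_zero]
    have haw : polar Q a w = 1 := by rw [hw, p_smul', inv_mul_cancel₀ hau]
    have hw0 : w ≠ 0 := by
      rintro rfl
      rw [p_zero'] at haw
      exact zero_ne_one haw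
    refine S.sing h4 h3 hh hwX hw0 hwQ (a := w - (Q a)⁻¹ • a) (b := y - (Q a)⁻¹ • b)
      (X.sub_mem hwX (X.smul_mem _ ha)) (Y.sub_mem hyY (Y.smul_mem _ hb)) ?_ ?_ ?_
    · intro h0
      have k1 : polar Q b (y - (Q a)⁻¹ • b) = 0 := by rw [h0, p_zero']
      rw [p_sub', hby, p_smul', p_self, hbQ] at k1
      have k2 : (Q a)⁻¹ * (2 * Q a) = 0 := by linear_combination k1
      rcases mul_eq_zero.1 k2 with k3 | k3
      · exact inv_ne_zero haQ k3
      · exact h2a k3
    · rw [hhx]
      unfold sgF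
      have k1 : polar Q w (a + b) = 1 := by
        rw [p_add', p_comm Q w a, haw, S.perp w hwX b hb, add_zero]
      rw [k1, S.perp w hwX y hyY, hyQ]
      module
    · rw [Q_sub, Q_smul, p_smul', p_comm Q w a, haw, hwQ]
      have : (Q a)⁻¹ * Q a = 1 := inv_mul_cancel₀ haQ
      linear_combination (Q a)⁻¹ * this

end fin

end H7.Nd34
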