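import Mathlib
import Cfsg.Agent.Lib.H7.Nd34

/-!
Stabilisers of non-degenerate subspaces in dimension seven, `q` odd.
-/
set_option autoImplicit false
set_option maxHeartbeats 1000000

namespace H7.Nd7

open Module QuadraticMap H48.QuadSplit H48.QuadWitt H95.OGeo H7.OA H7.OABridge H7.OAPar H7.OANd H95.O8Nd

section gen

variable {F V : Type*} [Field F] [AddCommGroup V] [Module F V] {Q : QuadraticForm F V}
variable [Finite F] [FiniteDimensional F V]

/-- four dimensional -/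
theorem max4 (hQ : ND Q) (two : (2 : F) ≠ 0) (hn : finrank F V = 7) {W : Submodule F V} (hW : ND (Q.restrict W))
    (hW4 : finrank F W = 4) :
    (∃ g ∈ Om Q, ¬ Stab W g) ∧ ∀ M : Subgroup (V ≃ₗ[F] V), (∀ g ∈ Om Q, Stab W g → g ∈ M) →
      M ≤ Om Q → (∃ g ∈ M, ¬ Stab W g) → Om Q ≤ M := by
  have hd := finrank_orth hQ W
  have hndU := nd_orth hQ hW
  have hW0 : W ≠ ⊥ := by
    rintro rfl
    rw [finrank_bot] at hW4
    omega
  refine ⟨not_stab8 hQ (by omega) hW hW0 (by omega), fun M h1 h2 h3 => ?_⟩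
  have hU3 : finrank F (orth Q W) = 3 := by omega
  have five : 5 ≤ finrank F V := by omega
  have perp : ∀ x ∈ W, ∀ y ∈ orth Q W, polar Q x y = 0 := fun x hx y hy => hy x hx
  have S : Nd34.Pr Q W (orth Q W) M :=
    { nd := hQ
      five := five
      two := two
      ndX := hW
      ndY := hndU
      perp := perp
      sum := by
        intro v
        obtain ⟨e, he, -⟩ := ortho_split hW
        obtain ⟨⟨w1, w2⟩, rfl⟩ := e.surjective v
        exact ⟨w1, w1.2, w2, w2.2, he _⟩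
      dX := by omega
      dY := by omega
      hasX := by
        intro u hu w hw huQ huw
        obtain ⟨g, hg, hgx⟩ := full_Om hQ five huQ w huw
        refine ⟨g, h1 g hg (stab_of fun y hy => ?_), hgx⟩
        rw [hgx, sgF]
        exact W.sub_mem (W.add_mem hy (W.smul_mem _ hw)) (W.smul_mem _ hu)
      hasY := by
        intro u hu w hw huQ huw
        obtain ⟨g, hg, hgx⟩ := full_Om hQ five huQ w huw
        refine ⟨g, h1 g hg (stab_of fun y hy => ?_), hgx⟩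
        rw [hgx, sgF, perp y hy u hu, perp y hy w hw]
        simpa using hy
      le := h2.trans (Om_le Q) }
  obtain ⟨g, hg, hgS⟩ := h3
  have hex : ∃ u ∈ W, Q u = 0 ∧ g u ∉ W := by
    by_contra hcon
    push Not at hcon
    apply hgS
    classical
    have := Fintype.ofFinite F
    obtain ⟨e, he, he0, heQ⟩ := exists_sing Q (U := W) (by omega)
    obtain ⟨f, hf, hfQ, hef⟩ := Nd34.partner hW he he0 heQ
    have h5 : W ≤ W.comap g.toLinearMap := by
      apply Nd34.span_sing he hf heQ hfQ hef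
      · exact hcon e he heQ
      · exact hcon f hf hfQ
      · intro f' hf' hQ' _
        exact hcon f' hf' hQ'
    exact stab_of fun v hv => h5 hv
  obtain ⟨u, hu, huQ, hgu⟩ := hex
  have hu0 : u ≠ 0 := by
    rintro rfl
    rw [map_zero] at hgu
    exact hgu W.zero_mem
  exact S.main hW4 hU3 hg hu hu0 huQ hgu

/-- dimension at most two -/
theorem max2 (hQ : ND Q) (two : (2 : F) ≠ 0) (hn : finrank F V = 7) {W : Submodule F V} (hW : ND (Q.restrict W))
    (hW0 : W ≠ ⊥) (hW2 : finrank F W ≤ 2)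
    (hpl : (finrank F W = 2 ∧ ∃ x ∈ W, x ≠ 0 ∧ Q x = 0) → 4 ≤ Nat.card F) :
    (∃ g ∈ Om Q, ¬ Stab W g) ∧ ∀ M : Subgroup (V ≃ₗ[F] V), (∀ g ∈ Om Q, Stab W g → g ∈ M) →
      M ≤ Om Q → (∃ g ∈ M, ¬ Stab W g) → Om Q ≤ M := by
  have hd := finrank_orth hQ W
  have hndU := nd_orth hQ hW
  refine ⟨not_stab8 hQ (by omega) hW hW0 (by omega), fun M h1 h2 h3 => ?_⟩
  have S : Sit8 Q W M := ⟨hQ, hW, by omega, fun a ha _ => by
    obtain ⟨e, f, k1, k2, k3, k4, k5⟩ := hyp_one hndU (by omega) (⟨a, ha⟩ : orth Q W)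
    exact ⟨e, f, e.2, f.2, k1, k2, k3, k4, k5⟩, h1, h2⟩
  exact S.maximal5 two (by omega) (by omega) hpl h3

end gen

/-- non-degenerate subspaces of even dimension, dimension seven -/
theorem nd7 {F : Type*} [Field F] [Fintype F] (hodd : Odd (Fintype.card F))
    (W : Submodule F (Unit ⊕ (Fin 3 ⊕ Fin 3) → F)) (hW0 : W ≠ ⊥) (hev : Even (finrank F W))
    (hW : Cfsg.Geo.IsNondegenerateOn (QuadraticMap.polar (Cfsg.quadFormOdd 3 F)) W)
    (hex : ¬ (Fintype.card F = 3 ∧ finrank F W = 2 ∧ Cfsg.Geo.IsPlusTypeOn (Cfsg.quadFormOdd 3 F) W)) :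
    Cfsg.Geo.IsMaximalIn (Cfsg.Geo.omegaGL (Cfsg.quadFormOdd 3 F))
      (Cfsg.Geo.subspaceStabilizer W ⊓ Cfsg.Geo.omegaGL (Cfsg.quadFormOdd 3 F)) := by
  have hfr : finrank F (Unit ⊕ (Fin 3 ⊕ Fin 3) → F) = 7 := by simp
  have two : (2 : F) ≠ 0 := H7.OmegaIso.two_ne_zero_of_odd hodd
  have hcard : Nat.card F = Fintype.card F := Nat.card_eq_fintype_card
  have hq : (H48.QuadStd.qOdd 3 F 1 : (Unit ⊕ (Fin 3 ⊕ Fin 3) → F) → F) = Cfsg.quadFormOdd 3 F := H48.QuadStd.coe_qOdd 3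
  have hnd : H48.QuadSplit.ND (H48.QuadStd.qOdd 3 F 1) := H48.QuadStd.nd_qOdd 3 two one_ne_zero
  rw [← hq] at hW hex ⊢
  obtain ⟨q, hqq⟩ : ∃ q, q = H48.QuadStd.qOdd 3 F (1 : F) := ⟨_, rfl⟩
  rw [← hqq] at hW hex hnd ⊢
  have hnd' : H48.QuadSplit.ND (q.restrict W) := H7.OANd.nd_of_on hW
  have hpar := H48.QuadSplit.finrank_orth hnd W
  have hUU : orth q (orth q W) = W := orth_orth hnd W
  have hndU := nd_orth hnd hnd'
  have hW0' : finrank F W ≠ 0 := fun h => hW0 (Submodule.finrank_eq_zero.1 h)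
  have key : (∃ g ∈ Om q, ¬ Stab W g) ∧ ∀ M : Subgroup ((Unit ⊕ (Fin 3 ⊕ Fin 3) → F) ≃ₗ[F] (Unit ⊕ (Fin 3 ⊕ Fin 3) → F)),
      (∀ g ∈ Om q, Stab W g → g ∈ M) → M ≤ Om q → (∃ g ∈ M, ¬ Stab W g) → Om q ≤ M := by
    obtain ⟨k, hk⟩ := hev
    have hk3 : k = 1 ∨ k = 2 ∨ k = 3 := by omega
    rcases hk3 with rfl | rfl | rfl
    · refine max2 hnd two hfr hnd' hW0 (by omega) ?_
      rintro ⟨h3, x, hx, hx0, hxQ⟩
      by_contra hlt
      refine hex ⟨?_, h3, H7.OANd.plus_of_vec h3 hx hx0 hxQ⟩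
      have h5 : 1 < Fintype.card F := Fintype.one_lt_card
      obtain ⟨j, hj⟩ := hodd
      omega
    · exact max4 hnd two hfr hnd' (by omega)
    · have hU0 : orth q W ≠ ⊥ := by
        intro h
        rw [h, finrank_bot] at hpar
        omega
      refine of_orth hnd (max2 hnd two hfr hndU hU0 (by omega) ?_)
      rintro ⟨h3, -⟩
      omega
  exact H7.OABridge.isMaximalIn_omegaGL rfl (H7.OABridge.mem_stab (W := W)) key.1 key.2

end H7.Nd7
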