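import Cfsg.Agent.Lib.H7.GeoOdd
import Cfsg.Agent.Lib.H7.Nd7
import Cfsg.Agent.Lib.H97.NdGen
import Cfsg.Agent.Lib.H96.FrMain

set_option autoImplicit false
open Cfsg

/-! # Frames in odd dimension, non-degenerate subspaces in dimension 11 -/

namespace H7.GeoOddFr

open H48.QuadSplit Module QuadraticMap Cfsg.Geo

theorem frame {F : Type*} [Field F] [Fintype F] (hodd : Odd (Fintype.card F)) (hp : (Fintype.card F).Prime)
    (m : ℕ) (hm : m = 3 ∨ 4 ≤ m) (D : Fin (2 * m + 1) → Submodule F (Unit ⊕ (Fin m ⊕ Fin m) → F))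
    (hD : Cfsg.Geo.IsOrthogonalMDecomposition (Cfsg.quadFormOdd m F) 1 D) :
    Cfsg.Geo.IsMaximalIn (Cfsg.Geo.omegaGL (Cfsg.quadFormOdd m F))
      (Cfsg.Geo.decompositionStabilizer D ⊓ Cfsg.Geo.omegaGL (Cfsg.quadFormOdd m F)) := by
  refine H99.FrC.odd hodd m (by omega) D hD (fun Q c hc hQ K hK hn => H96.Fr.main hp (H95.OBridge.two_ne hodd)
    (by rw [Fintype.card_fin]; omega) Q hc hQ hK hn)

/-- a non-degenerate quadratic form in Mathlib's sense gives one in the sense of the statements -/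
lemma ndForm {ι : Type} {F : Type*} [Fintype ι] [DecidableEq ι] [Field F] [Fintype F] (q : QuadraticForm F (ι → F)) (hq : ND q) :
    Cfsg.Geo.IsNondegenerateQuadraticForm (q : (ι → F) → F) where
  smul c v := by rw [QuadraticMap.map_smul, smul_eq_mul, pow_two]
  polar_bilinear := ⟨fun x y v => polar_add_left q x y v, fun c x v => by rw [polar_smul_left, smul_eq_mul],
    fun v x y => polar_add_right q v x y, fun c v x => by rw [polar_smul_right, smul_eq_mul]⟩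
  nondegenerate := by
    intro v hv
    have h : ∃ w, polar q v w ≠ 0 := by
      by_contra hcon
      push Not at hcon
      exact hv (hq v hcon)
    obtain ⟨w, hw⟩ := h
    exact ⟨⟨w, by rw [QuadraticMap.polar_comm]; exact hw⟩, ⟨w, hw⟩⟩

theorem nd11 {F : Type*} [Field F] [Fintype F] (hodd : Odd (Fintype.card F))
    (W : Submodule F (Unit ⊕ (Fin 5 ⊕ Fin 5) → F)) (hW0 : W ≠ ⊥) (hev : Even (finrank F W))
    (hW : Cfsg.Geo.IsNondegenerateOn (QuadraticMap.polar (Cfsg.quadFormOdd 5 F)) W)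
    (hex : ¬ (Fintype.card F = 3 ∧ finrank F W = 2 ∧ Cfsg.Geo.IsPlusTypeOn (Cfsg.quadFormOdd 5 F) W)) :
    Cfsg.Geo.IsMaximalIn (Cfsg.Geo.omegaGL (Cfsg.quadFormOdd 5 F))
      (Cfsg.Geo.subspaceStabilizer W ⊓ Cfsg.Geo.omegaGL (Cfsg.quadFormOdd 5 F)) := by
  have hfr : finrank F (Unit ⊕ (Fin 5 ⊕ Fin 5) → F) = 11 := by simp
  have two : (2 : F) ≠ 0 := H7.OmegaIso.two_ne_zero_of_odd hodd
  obtain ⟨k, hk⟩ := hev
  have hWle := Submodule.finrank_le W
  have hcard : Fintype.card (Unit ⊕ (Fin 5 ⊕ Fin 5)) = 11 := by simp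
  refine H97.NdGen.nd_ge (by rw [hcard]; norm_num) _ ?_ W hW0 ?_ ?_ hW ?_
  · have hq : (H48.QuadStd.qOdd 5 F 1 : (Unit ⊕ (Fin 5 ⊕ Fin 5) → F) → F) = Cfsg.quadFormOdd 5 F := H48.QuadStd.coe_qOdd 5
    rw [← hq]
    exact ndForm _ (H48.QuadStd.nd_qOdd 5 two one_ne_zero)
  · rintro rfl
    rw [finrank_top] at hk
    omega
  · rw [hcard]; omega
  · rintro ⟨h3, U, hU2, -, hUp, hUW⟩
    have h5 : 1 < Fintype.card F := Fintype.one_lt_card
    obtain ⟨j, hj⟩ := hodd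
    rcases hUW with rfl | ⟨-, h6⟩
    · exact hex ⟨by omega, hU2, hUp⟩
    · rw [hcard] at h6
      omega

end H7.GeoOddFr
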