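import Mathlib
import Cfsg.Agent.Lib.H7.LowRank6
import Cfsg.Agent.Lib.H6.Symp

/-!
`Sp_4` and `PΩ_5`, odd characteristic.
-/
set_option autoImplicit false
set_option linter.unusedSectionVars false

namespace H7.LowRank

open H7.Hyp H7.HypStd H7.HypOrd H7.Omega H7.OmegaIso H7.OmegaOrd QuadraticMap
open H48.QuadStd Matrix
open scoped commutatorElement

variable {F : Type*} [Field F]

theorem J_eq : J (Fin 2) F = toA 0 0 0 0 (-1) (-1) := by
  rw [J, toA]
  congr 1 <;> (ext i j; fin_cases i <;> fin_cases j <;> simp)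

/-- upper unipotent elements of `Sp_4` -/
def uSp (w : F × F × F) : symplecticGroup (Fin 2) F := ⟨up w.1 w.2.1 w.2.2 (-w.2.2), by
  rw [SymplecticGroup.mem_iff, J_eq, up_act]
  congr 1 <;> ring⟩

/-- lower unipotent elements of `Sp_4` -/
def lSp (w : F × F × F) : symplecticGroup (Fin 2) F := ⟨lo w.1 w.2.1 w.2.2 (-w.2.2), by
  rw [SymplecticGroup.mem_iff, J_eq, lo_act]
  congr 1 <;> ring⟩

theorem tv_upper (a : F) {u : Fin 2 ⊕ Fin 2 → F} (hu : ∀ i, u (.inr i) = 0) : ∃ w, H6.Symp.tv a u = uSp w := by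
  refine ⟨(-a * u (.inl 0) ^ 2, a * u (.inl 1) ^ 2, a * (u (.inl 0) * u (.inl 1))), ?_⟩
  apply H6.Symp.ext_mulVec
  intro x
  rw [H6.Symp.tv_mulVec, H6.Symp.bf_eq_sum, Fin.sum_univ_two]
  funext i
  change _ = (up _ _ _ _ *ᵥ x) i
  rcases i with i | i <;> fin_cases i <;>
    simp [up, Matrix.mulVec, dotProduct, Fintype.sum_sum_type, Fin.sum_univ_two, hu] <;> ring

theorem tv_lower (a : F) {u : Fin 2 ⊕ Fin 2 → F} (hu : ∀ i, u (.inl i) = 0) : ∃ w, H6.Symp.tv a u = lSp w := by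
  refine ⟨(a * u (.inr 1) ^ 2, -a * u (.inr 0) ^ 2, a * (u (.inr 0) * u (.inr 1))), ?_⟩
  apply H6.Symp.ext_mulVec
  intro x
  rw [H6.Symp.tv_mulVec, H6.Symp.bf_eq_sum, Fin.sum_univ_two]
  funext i
  change _ = (lo _ _ _ _ *ᵥ x) i
  rcases i with i | i <;> fin_cases i <;>
    simp [lo, Matrix.mulVec, dotProduct, Fintype.sum_sum_type, Fin.sum_univ_two, hu] <;> ring

theorem gen_Sp : Subgroup.closure (Set.range (uSp (F := F)) ∪ Set.range (lSp (F := F))) = ⊤ := by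
  apply H6.Symp.eq_top_of_tv_mem
  intro a u
  by_cases hr : ∀ i, u (.inr i) = 0
  · obtain ⟨w, hw⟩ := tv_upper a hr
    exact Subgroup.subset_closure (Or.inl ⟨w, hw.symm⟩)
  · -- move `u` into the lower Lagrangian
    have hex : ∃ w : F × F × F, ∀ i, ((uSp w).1 *ᵥ u) (.inl i) = 0 := by
      have hform : ∀ b c v : F, (∀ i, ((uSp (b, c, v)).1 *ᵥ u) (.inl i) = 0) ↔
          (u (.inl 0) + (b * u (.inr 0) - v * u (.inr 1)) = 0 ∧ u (.inl 1) + (-v * u (.inr 0) - c * u (.inr 1)) = 0) := by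
        intro b c v
        rw [Fin.forall_fin_two]
        change ((up b c v (-v) *ᵥ u) (.inl 0) = 0 ∧ (up b c v (-v) *ᵥ u) (.inl 1) = 0) ↔ _
        simp only [up, Matrix.mulVec, dotProduct, Fintype.sum_sum_type, Fin.sum_univ_two]
        simp
        ring_nf
      by_cases h0 : u (.inr 0) = 0
      · have h1 : u (.inr 1) ≠ 0 := by
          intro h1
          apply hr
          intro i
          fin_cases i
          · exact h0
          · exact h1
        refine ⟨(0, u (.inl 1) / u (.inr 1), u (.inl 0) / u (.inr 1)), (hform _ _ _).2 ⟨?_, ?_⟩⟩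
        · rw [h0]; field_simp; ring
        · rw [h0]; field_simp; ring
      · refine ⟨((-u (.inl 0) + u (.inl 1) / u (.inr 0) * u (.inr 1)) / u (.inr 0), 0, u (.inl 1) / u (.inr 0)), (hform _ _ _).2 ⟨?_, ?_⟩⟩
        · field_simp; ring
        · field_simp; ring
    obtain ⟨w, hw⟩ := hex
    obtain ⟨w', hw'⟩ := tv_lower a hw
    rw [← H6.Symp.tv_conj] at hw'
    have e : H6.Symp.tv a u = (uSp w)⁻¹ * (uSp w * H6.Symp.tv a u * (uSp w)⁻¹) * uSp w := by group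
    rw [e, hw']
    have h1 : uSp w ∈ Subgroup.closure (Set.range (uSp (F := F)) ∪ Set.range (lSp (F := F))) :=
      Subgroup.subset_closure (Or.inl ⟨w, rfl⟩)
    have h2 : lSp w' ∈ Subgroup.closure (Set.range (uSp (F := F)) ∪ Set.range (lSp (F := F))) :=
      Subgroup.subset_closure (Or.inr ⟨w', rfl⟩)
    exact Subgroup.mul_mem _ (Subgroup.mul_mem _ (Subgroup.inv_mem _ h1) h2) h1

/-- coordinates of the five-dimensional space of alternating matrices -/
def tau5 (p : F × F × (F × F × F)) : Matrix (Fin 2 ⊕ Fin 2) (Fin 2 ⊕ Fin 2) F :=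
  toA p.1 p.2.1 p.2.2.1 p.2.2.2.1 p.2.2.2.2 (-p.2.2.2.2)

theorem tau5_injective : Function.Injective (tau5 (F := F)) := by
  rintro ⟨x, y, b, c, a⟩ ⟨x', y', b', c', a'⟩ h
  obtain ⟨rfl, rfl, rfl, rfl, rfl, -⟩ := toA_injective h
  rfl

theorem iso5 (h2 : (2 : F) ≠ 0) {ι : Type} [Fintype ι] [DecidableEq ι] {Q₀ : (ι → F) → F}
    (e : Cfsg.isometryGroup F Q₀ ≃* O (hyp (hyp (qsq F)))) (hc : ⁅O (hyp (hyp (qsq F))), O (hyp (hyp (qsq F)))⁆ = Om (hyp (qsq F))) :
    Nonempty (Cfsg.POmega F Q₀ ≃* Cfsg.PSp 2 F) := by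
  refine iso_of_act (nd_qsq h2).hyp e hc (G := symplecticGroup (Fin 2) F)
    (X := Matrix (Fin 2 ⊕ Fin 2) (Fin 2 ⊕ Fin 2) F) (fun g A => g.1 * A * g.1ᵀ) ?_ ?_ tau5 tau5_injective uSp lSp ?_ ?_ gen_Sp ?_
  · intro x
    simp
  · intro g h x
    change (g.1 * h.1) * x * (g.1 * h.1)ᵀ = _
    rw [transpose_mul]
    simp only [Matrix.mul_assoc]
  · rintro ⟨b', c', a'⟩ ⟨x, y, b, c, a⟩
    change up b' c' a' (-a') * toA x y b c a (-a) * (up b' c' a' (-a'))ᵀ = _
    rw [up_act, E_apply, hyp_apply, polar_hyp, qsq_apply, polar_qsq]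
    simp only [tau5, Prod.fst_add, Prod.snd_add, Prod.smul_fst, Prod.smul_snd, smul_eq_mul]
    congr 1 <;> ring
  · rintro ⟨b', c', a'⟩ ⟨x, y, b, c, a⟩
    change lo b' c' a' (-a') * toA x y b c a (-a) * (lo b' c' a' (-a'))ᵀ = _
    rw [lo_act, E'_apply, hyp_apply, polar_hyp, qsq_apply, polar_qsq]
    simp only [tau5, Prod.fst_add, Prod.snd_add, Prod.smul_fst, Prod.smul_snd, smul_eq_mul]
    congr 1 <;> ring
  · intro g x hx h
    have h1 := h (1, 0, (0, 0, 0))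
    have h2 := h (0, 1, (0, 0, 0))
    have h3 := h (0, 0, (1, 0, 0))
    have h4 := h (0, 0, (0, 1, 0))
    have h5 := h (0, 0, (0, 0, 1))
    simp only [tau5, Prod.smul_fst, Prod.smul_snd, smul_eq_mul, mul_one, mul_zero, neg_zero] at h1 h2 h3 h4 h5
    obtain ⟨s, hs⟩ := scalar_of_act (SymplecticGroup.det_eq_one g.2) hx h1 h2 h3 h4 h5
    rw [Subgroup.mem_center_iff]
    intro k
    apply Subtype.ext
    change k.1 * g.1 = g.1 * k.1
    rw [hs, Matrix.mul_smul, Matrix.smul_mul, Matrix.mul_one, Matrix.one_mul]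

end H7.LowRank
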