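import Mathlib
import Cfsg.Agent.Lib.H7.OAPair
import Cfsg.Agent.Lib.H95.Bridge2

/-!
Final form of the results on pairs of complementary maximal totally singular subspaces, and the
stabilisers of totally singular subspaces of codimension one in a maximal one.
-/
set_option autoImplicit false

namespace H7.OAPair

open Module QuadraticMap H48.QuadSplit H48.QuadWitt H95.OGeo H7.OA H7.OABridge H7.OAPar H7.OAParity H95.Bridge2

variable {F V : Type*} [Field F] [AddCommGroup V] [Module F V] {Q : QuadraticForm F V}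
variable [FiniteDimensional F V]

lemma perm_iff {W1 W2 : Submodule F V} (h : finrank F W1 = finrank F W2) {g : V ≃ₗ[F] V} :
    Perm2' W1 W2 g ↔ PP W1 W2 g := by
  constructor
  · rintro (h1 | h1)
    · exact Or.inl ⟨stab_of h1.1, stab_of h1.2⟩
    · right
      constructor
      · apply Submodule.eq_of_le_of_finrank_eq
        · rintro _ ⟨x, hx, rfl⟩; exact h1.1 x hx
        · rw [← h]; exact LinearEquiv.finrank_map_eq g W1
      · apply Submodule.eq_of_le_of_finrank_eq
        · rintro _ ⟨x, hx, rfl⟩; exact h1.2 x hx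
        · rw [h]; exact LinearEquiv.finrank_map_eq g W2
  · rintro (h1 | h1)
    · exact Or.inl ⟨fun x hx => (h1.1 x).1 hx, fun x hx => (h1.2 x).1 hx⟩
    · refine Or.inr ⟨fun x hx => ?_, fun x hx => ?_⟩
      · rw [← h1.1]; exact ⟨x, hx, rfl⟩
      · rw [← h1.2]; exact ⟨x, hx, rfl⟩

variable [Finite F]

lemma map_eq_of_parity (hQ : ND Q) (hd : 14 ≤ finrank F V) {W1 : Submodule F V} (h1 : MTS Q W1) {g : V ≃ₗ[F] V}
    (hg : g ∈ Om Q) {W : Submodule F V} (hW : W ≤ W1) (hdW : finrank F W + 1 = finrank F W1) (hst : Stab W g) :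
    Stab W1 g := by
  have hpar := parity hQ (by omega) hg W1 W1 h1 h1
  rw [inf_idem, add_zero] at hpar
  set X : Submodule F V := W1 ⊓ W1.map (g : V →ₗ[F] V) with hX
  have hWX : W ≤ X := by
    intro x hx
    refine ⟨hW hx, ?_⟩
    have hmap : W.map (g : V →ₗ[F] V) = W := by
      apply Submodule.eq_of_le_of_finrank_eq
      · rintro _ ⟨y, hy, rfl⟩; exact (hst y).1 hy
      · exact LinearEquiv.finrank_map_eq g W
    have hx' : x ∈ W.map (g : V →ₗ[F] V) := by rw [hmap]; exact hx
    obtain ⟨y, hy, hyx⟩ := hx'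
    exact ⟨y, hW hy, hyx⟩
  have h2 := Submodule.finrank_mono hWX
  have h3 : finrank F X ≤ finrank F W1 := Submodule.finrank_mono inf_le_left
  have h4 : finrank F X = finrank F W1 := by
    by_contra hne
    have h5 : finrank F W1 = finrank F X + 1 := by omega
    rw [h5] at hpar
    push_cast at hpar
    have : (1 : ZMod 2) = 0 := by linear_combination -hpar
    exact one_ne_zero this
  have h5 : X = W1 := Submodule.eq_of_le_of_finrank_eq inf_le_left h4
  have h6 : W1 ≤ W1.map (g : V →ₗ[F] V) := by rw [← h5]; exact inf_le_right.trans (by rw [h5])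
  have h7 : W1 = W1.map (g : V →ₗ[F] V) :=
    Submodule.eq_of_le_of_finrank_eq h6 (LinearEquiv.finrank_map_eq g W1).symm
  apply stab_of
  intro x hx
  rw [h7]
  exact ⟨x, hx, rfl⟩

omit [Finite F] in
/-- a totally singular subspace of dimension `k - 1` lies in a maximal one -/
lemma exists_max (hQ : ND Q) {X W : Submodule F V} (hX : MTS Q X) (hW : TS Q W)
    (hdW : 2 * (finrank F W + 1) = finrank F V) : ∃ W1, MTS Q W1 ∧ W ≤ W1 ∧ finrank F W + 1 = finrank F W1 := by
  have hts : TS Q (W ⊔ (X ⊓ orth Q W)) := by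
    intro x hx
    rw [Submodule.mem_sup] at hx
    obtain ⟨a, ha, b, hb, rfl⟩ := hx
    rw [Q_add, hW a ha, hX.ts b hb.1, hb.2 a ha]; ring
  have h1 := finrank_orth hQ (W ⊔ X)
  have h2 : orth Q (W ⊔ X) = X ⊓ orth Q W := by
    ext w
    constructor
    · intro hw
      refine ⟨?_, fun u hu => hw u (Submodule.mem_sup_left hu)⟩
      have h3 : w ∈ orth Q X := fun u hu => hw u (Submodule.mem_sup_right hu)
      rwa [hX.orth_eq hQ] at h3
    · rintro ⟨h3, h4⟩ u hu
      rw [Submodule.mem_sup] at hu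
      obtain ⟨a, ha, b, hb, rfl⟩ := hu
      rw [p_add, h4 a ha, hX.ts.polar hb h3, add_zero]
  rw [h2] at h1
  have h3 := Submodule.finrank_sup_add_finrank_inf_eq W X
  have h4 := hX.dim
  have h5 := Submodule.finrank_sup_add_finrank_inf_eq W (X ⊓ orth Q W)
  have h6 : finrank F (W ⊓ (X ⊓ orth Q W) : Submodule F V) ≤ finrank F (W ⊓ X : Submodule F V) :=
    Submodule.finrank_mono (inf_le_inf_left W inf_le_left)
  have h7 := hts.finrank_le hQ
  exact ⟨W ⊔ (X ⊓ orth Q W), ⟨hts, by omega⟩, le_sup_left, by omega⟩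

/-- an element of `Om Q` stabilising `W1` but not its hyperplane `W` -/
lemma exists_move_hyperplane (hQ : ND Q) (hd : 14 ≤ finrank F V) {W W1 : Submodule F V} (h1 : MTS Q W1) (hW : W ≤ W1)
    (hdW : finrank F W + 1 = finrank F W1) : ∃ g ∈ Om Q, Stab W1 g ∧ ¬ Stab W g := by
  have hdim := h1.dim
  obtain ⟨z, hz, hzW⟩ : ∃ z ∈ W1, z ∉ W := by
    by_contra hcon
    push Not at hcon
    have := Submodule.finrank_mono (show W1 ≤ W from hcon)
    omega
  obtain ⟨x, hx, hx0⟩ := (Submodule.ne_bot_iff W).1 (by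
    intro h
    rw [h, finrank_bot] at hdW
    omega)
  have hxz : x ∉ Submodule.span F {z} := by
    rw [Submodule.mem_span_singleton]
    rintro ⟨c, hc⟩
    have hc0 : c ≠ 0 := by
      rintro rfl
      rw [zero_smul] at hc
      exact hx0 hc.symm
    apply hzW
    have : z = c⁻¹ • x := by rw [← hc, smul_smul, inv_mul_cancel₀ hc0, one_smul]
    rw [this]
    exact W.smul_mem _ hx
  obtain ⟨w, hw1, hw2⟩ := sep hQ hxz
  have hzw := hw1 z (Submodule.mem_span_singleton_self z)
  obtain ⟨g, hg, hgx⟩ := full_Om hQ (by omega) (h1.ts z hz) w hzw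
  have hgv : ∀ v ∈ W1, g v = v - polar Q v w • z := by
    intro v hv
    rw [hgx, sgF, h1.ts.polar hv hz]; module
  refine ⟨g, hg, stab_of fun v hv => ?_, fun hst => hzW ?_⟩
  · rw [hgv v hv]
    exact W1.sub_mem hv (W1.smul_mem _ hz)
  · have h2 := (hst x).1 hx
    rw [hgv x (hW hx)] at h2
    have h3 := W.sub_mem hx h2
    rw [sub_sub_cancel] at h3
    have := W.smul_mem (polar Q x w)⁻¹ h3
    rwa [smul_smul, inv_mul_cancel₀ hw2, one_smul] at this

end H7.OAPair
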