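import Mathlib
import Cfsg.Agent.Lib.H7.OAPoint
import Cfsg.Agent.Lib.H17.OrthAbs

/-!
Stabilisers of orthogonal decompositions that are not maximal in `Om Q`.
-/
set_option autoImplicit false

namespace H7.ONonmax

open Module QuadraticMap H48.QuadSplit H48.QuadWitt H95.OGeo H7.OA H7.OABridge

variable {F V : Type*} [Field F] [AddCommGroup V] [Module F V] {Q : QuadraticForm F V}

/-- `g` permutes the members of `D` -/
def PermD {t : ℕ} (D : Fin t → Submodule F V) (g : V ≃ₗ[F] V) : Prop :=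
  ∃ σ : Equiv.Perm (Fin t), ∀ i, (D i).map (g : V →ₗ[F] V) = D (σ i)

/-- pairwise orthogonal, non-degenerate members -/
structure Dec (Q : QuadraticForm F V) {t : ℕ} (D : Fin t → Submodule F V) : Prop where
  orth : ∀ i j, i ≠ j → ∀ x ∈ D i, ∀ y ∈ D j, polar Q x y = 0
  nd : ∀ i, ∀ x ∈ D i, (∀ y ∈ D i, polar Q x y = 0) → x = 0

variable {t : ℕ} {D : Fin t → Submodule F V}

lemma Dec.eq_of (h : Dec Q D) {i j : Fin t} {x y : V} (hx : x ∈ D i) (hy : y ∈ D j) (hxy : polar Q x y ≠ 0) :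
    i = j := by
  by_contra hij
  exact hxy (h.orth i j hij x hx y hy)

lemma Dec.eq (h : Dec Q D) {i j : Fin t} {x : V} (hx : x ∈ D i) (hx' : x ∈ D j) (h0 : x ≠ 0) : i = j := by
  by_contra hij
  exact h0 (h.nd i x hx fun y hy => by rw [p_comm]; exact h.orth i j hij y hy x hx')

/-- set stabiliser -/
def setStab (F : Type*) {V : Type*} [Field F] [AddCommGroup V] [Module F V] (S : Set V) :
    Subgroup (V ≃ₗ[F] V) where
  carrier := {g | ∀ x, x ∈ S ↔ g x ∈ S}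
  mul_mem' := by
    intro a b ha hb x
    rw [LinearEquiv.mul_apply, hb x, ha (b x)]
  one_mem' := fun x => Iff.rfl
  inv_mem' := by
    intro a ha x
    have := ha (a⁻¹ x)
    rw [apply_inv_apply] at this
    exact this.symm

lemma mem_setStab {S : Set V} {g : V ≃ₗ[F] V} : g ∈ setStab F S ↔ ∀ x, x ∈ S ↔ g x ∈ S := Iff.rfl

/-- vectors of norm `a` in the members -/
def Sv (Q : QuadraticForm F V) {t : ℕ} (D : Fin t → Submodule F V) (a : F) : Set V :=
  {x | (∃ i, x ∈ D i) ∧ Q x = a}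

lemma perm_setStab {g : V ≃ₗ[F] V} (hg : g ∈ O Q) (h : PermD D g) (a : F) : g ∈ setStab F (Sv Q D a) := by
  obtain ⟨σ, hσ⟩ := h
  intro x
  constructor
  · rintro ⟨⟨i, hi⟩, hx⟩
    refine ⟨⟨σ i, ?_⟩, by rw [mem_O.1 hg, hx]⟩
    rw [← hσ]
    exact ⟨x, hi, rfl⟩
  · rintro ⟨⟨i, hi⟩, hx⟩
    refine ⟨⟨σ.symm i, ?_⟩, by rw [← hx, mem_O.1 hg]⟩
    have h1 := hσ (σ.symm i)
    rw [Equiv.apply_symm_apply] at h1
    rw [← h1] at hi
    obtain ⟨y, hy, hyx⟩ := hi
    have : y = x := g.injective hyx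
    rwa [← this]

lemma setStab_closure {S : Set V} {g : V ≃ₗ[F] V} (h : g ∈ setStab F S) :
    g ∈ setStab F (AddSubgroup.closure S : Set V) := by
  have key : ∀ g : V ≃ₗ[F] V, g ∈ setStab F S → ∀ x ∈ AddSubgroup.closure S, g x ∈ AddSubgroup.closure S := by
    intro g hg x hx
    induction hx using AddSubgroup.closure_induction with
    | mem x hx => exact AddSubgroup.subset_closure ((hg x).1 hx)
    | zero => rw [map_zero]; exact zero_mem _
    | add x y _ _ hx hy => rw [map_add]; exact add_mem hx hy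
    | neg x _ hx => rw [map_neg]; exact neg_mem hx
  intro x
  constructor
  · exact fun hx => key g h x hx
  · intro hx
    have := key g⁻¹ ((setStab F S).inv_mem h) _ hx
    rwa [inv_apply_apply] at this

/-- products of two reflections in vectors conjugate under `O Q` -/
lemma refl_mul_mem {z1 z2 : V} (h1 : Q z1 ≠ 0) (h2 : Q z2 ≠ 0) {h : V ≃ₗ[F] V} (hh : h ∈ O Q) (hz : h z1 = z2) :
    H17.OrthAbs.refl Q z1 h1 * H17.OrthAbs.refl Q z2 h2 ∈ Om Q := by
  subst hz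
  have hr1 : H17.OrthAbs.refl Q z1 h1 ∈ O Q := H17.OrthAbs.refl_mem_O Q z1 h1
  have hc := H17.OrthAbs.conj_refl Q h hh z1 h1 h2
  have h3 := H17.OrthAbs.refl_inv Q z1 h1
  have h4 := Subgroup.commutator_mem_commutator hr1 hh
  rw [commutatorElement_def, h3, mul_assoc, mul_assoc, ← mul_assoc h, hc] at h4
  exact h4

/-- a permutation of decompositions is incompatible with a vector moved to another member together
with a vector kept -/
lemma not_perm (h : Dec Q D) {g : V ≃ₗ[F] V} {i j k : Fin t} {x y : V} (hx : x ∈ D i) (hy : y ∈ D i)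
    (hx0 : x ≠ 0) (hy0 : y ≠ 0) (hgx : g x ∈ D j) (hgy : g y ∈ D k) (hjk : j ≠ k) : ¬ PermD D g := by
  rintro ⟨σ, hσ⟩
  have h1 : g x ∈ D (σ i) := by rw [← hσ]; exact ⟨x, hx, rfl⟩
  have h2 : g y ∈ D (σ i) := by rw [← hσ]; exact ⟨y, hy, rfl⟩
  have h3 := h.eq h1 hgx (by rwa [Ne, LinearEquiv.map_eq_zero_iff])
  have h4 := h.eq h2 hgy (by rwa [Ne, LinearEquiv.map_eq_zero_iff])
  exact hjk (h3.symm.trans h4)

section
variable [Finite F] [FiniteDimensional F V]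

omit [Finite F] [FiniteDimensional F V] in
lemma refl_setStab (h : Dec Q D) {a : F} (h3 : ∀ i, ∀ x ∈ D i, ∀ y ∈ D i, Q x = a → Q y = a → x = y ∨ x = -y ∨ polar Q x y = 0)
    {i j : Fin t} (hij : i ≠ j) {e e' : V} (he : e ∈ D i) (he' : e' ∈ D j) (hQe : Q e = a) (hQe' : Q e' = a)
    (hz : Q (e - e') ≠ 0) : H17.OrthAbs.refl Q (e - e') hz ∈ setStab F (Sv Q D a) := by
  have hre : H17.OrthAbs.refl Q (e - e') hz e = e' := H17.OrthAbs.refl_sub Q e e' (by rw [hQe, hQe']) hz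
  have hre' : H17.OrthAbs.refl Q (e - e') hz e' = e := H17.OrthAbs.refl_sub' Q e e' (by rw [hQe, hQe']) hz
  have hinv : ∀ x, H17.OrthAbs.refl Q (e - e') hz (H17.OrthAbs.refl Q (e - e') hz x) = x := by
    intro x
    rw [← LinearEquiv.mul_apply, H17.OrthAbs.refl_sq]; rfl
  have key : ∀ x ∈ Sv Q D a, H17.OrthAbs.refl Q (e - e') hz x ∈ Sv Q D a := by
    rintro x ⟨⟨k, hk⟩, hx⟩
    by_cases hki : k = i
    · subst hki
      rcases h3 k x hk e he hx hQe with h4 | h4 | h4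
      · rw [h4, hre]; exact ⟨⟨j, he'⟩, hQe'⟩
      · rw [h4, map_neg, hre]; exact ⟨⟨j, (D j).neg_mem he'⟩, by rw [Q_neg, hQe']⟩
      · rw [H17.OrthAbs.refl_fix Q _ hz x]
        · exact ⟨⟨k, hk⟩, hx⟩
        · rw [p_sub, p_comm Q e x, h4, p_comm Q e' x, h.orth k j hij x hk e' he', sub_zero]
    · by_cases hkj : k = j
      · subst hkj
        rcases h3 k x hk e' he' hx hQe' with h4 | h4 | h4
        · rw [h4, hre']; exact ⟨⟨i, he⟩, hQe⟩
        · rw [h4, map_neg, hre']; exact ⟨⟨i, (D i).neg_mem he⟩, by rw [Q_neg, hQe]⟩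
        · rw [H17.OrthAbs.refl_fix Q _ hz x]
          · exact ⟨⟨k, hk⟩, hx⟩
          · rw [p_sub, p_comm Q e x, h.orth k i (Ne.symm hij) x hk e he, p_comm Q e' x, h4, sub_zero]
      · rw [H17.OrthAbs.refl_fix Q _ hz x]
        · exact ⟨⟨k, hk⟩, hx⟩
        · rw [p_sub, p_comm Q e x, h.orth k i hki x hk e he, p_comm Q e' x, h.orth k j hkj x hk e' he', sub_zero]
  intro x
  refine ⟨key x, fun hx => ?_⟩
  have := key _ hx
  rwa [hinv] at this

/-- orthonormal case -/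
theorem caseA (hQ : ND Q) (hn : 7 ≤ finrank F V) (h : Dec Q D) (ht : 3 ≤ t) (h2 : (2 : F) ≠ 0) {a : F}
    (ha : a ≠ 0) (h1 : ∀ i, ∃ e ∈ D i, Q e = a)
    (h3 : ∀ i, ∀ x ∈ D i, ∀ y ∈ D i, Q x = a → Q y = a → x = y ∨ x = -y ∨ polar Q x y = 0)
    (hd : ∀ i, 2 ≤ finrank F (D i)) :
    ∃ T : Subgroup (V ≃ₗ[F] V), (∀ g ∈ Om Q, PermD D g → g ∈ T) ∧ (∃ g ∈ Om Q, g ∈ T ∧ ¬ PermD D g) ∧
      (∃ g ∈ Om Q, g ∉ T) := by
  obtain ⟨i0, i1, i2, h01, h02, h12⟩ : ∃ i0 i1 i2 : Fin t, i0 ≠ i1 ∧ i0 ≠ i2 ∧ i1 ≠ i2 :=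
    ⟨⟨0, by omega⟩, ⟨1, by omega⟩, ⟨2, by omega⟩, by simp, by simp, by simp⟩
  obtain ⟨e0, he0, q0⟩ := h1 i0
  obtain ⟨e1, he1, q1⟩ := h1 i1
  obtain ⟨e2, he2, q2⟩ := h1 i2
  have o01 : polar Q e0 e1 = 0 := h.orth i0 i1 h01 e0 he0 e1 he1
  have o02 : polar Q e0 e2 = 0 := h.orth i0 i2 h02 e0 he0 e2 he2
  have o12 : polar Q e1 e2 = 0 := h.orth i1 i2 h12 e1 he1 e2 he2
  have e00 : e0 ≠ 0 := by rintro rfl; rw [QuadraticMap.map_zero] at q0; exact ha q0.symm
  have e10 : e1 ≠ 0 := by rintro rfl; rw [QuadraticMap.map_zero] at q1; exact ha q1.symm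
  refine ⟨setStab F (Sv Q D a), fun g hg hp => perm_setStab (Om_le Q hg) hp a, ?_, ?_⟩
  · have z1 : Q (e0 - e1) ≠ 0 := by
      rw [Q_sub, q0, q1, o01, sub_zero, ← two_mul]; exact mul_ne_zero h2 ha
    have z2 : Q (e1 - e2) ≠ 0 := by
      rw [Q_sub, q1, q2, o12, sub_zero, ← two_mul]; exact mul_ne_zero h2 ha
    obtain ⟨r1, hr1⟩ : ∃ r1, r1 = H17.OrthAbs.refl Q (e0 - e1) z1 := ⟨_, rfl⟩
    obtain ⟨r2, hr2⟩ : ∃ r2, r2 = H17.OrthAbs.refl Q (e1 - e2) z2 := ⟨_, rfl⟩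
    have hr1O : r1 ∈ O Q := by rw [hr1]; exact H17.OrthAbs.refl_mem_O Q _ _
    have hr2O : r2 ∈ O Q := by rw [hr2]; exact H17.OrthAbs.refl_mem_O Q _ _
    have a1 : r1 e0 = e1 := by rw [hr1]; exact H17.OrthAbs.refl_sub Q e0 e1 (by rw [q0, q1]) z1
    have a2 : r1 e2 = e2 := by
      rw [hr1]; apply H17.OrthAbs.refl_fix; rw [p_sub, o02, o12, sub_zero]
    have a3 : r2 e0 = e0 := by
      rw [hr2]; apply H17.OrthAbs.refl_fix; rw [p_sub, p_comm Q e1, o01, p_comm Q e2, o02, sub_zero]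
    have a4 : r2 e1 = e2 := by rw [hr2]; exact H17.OrthAbs.refl_sub Q e1 e2 (by rw [q1, q2]) z2
    have hh : (r1 * r2) (e0 - e1) = e1 - e2 := by
      rw [LinearEquiv.mul_apply, map_sub, a3, a4, map_sub, a1, a2]
    refine ⟨r1 * r2, ?_, (setStab F _).mul_mem ?_ ?_, ?_⟩
    · have := refl_mul_mem z1 z2 ((O Q).mul_mem hr1O hr2O) hh
      rwa [← hr1, ← hr2] at this
    · rw [hr1]; exact refl_setStab h h3 h01 he0 he1 q0 q1 z1
    · rw [hr2]; exact refl_setStab h h3 h12 he1 he2 q1 q2 z2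
    · obtain ⟨y, hy, hyn⟩ : ∃ y ∈ D i0, y ∉ Submodule.span F {e0} := by
        by_contra hcon
        push Not at hcon
        have h4 := Submodule.finrank_mono (show D i0 ≤ Submodule.span F {e0} from hcon)
        have h5 := finrank_span_le_card (R := F) ({e0} : Set V)
        simp at h5
        have := hd i0
        omega
      have hee : polar Q e0 e0 = 2 * a := by rw [p_self, q0]
      have h2a : 2 * a ≠ 0 := mul_ne_zero h2 ha
      have hf : polar Q (y - (polar Q y e0 * (2 * a)⁻¹) • e0) e0 = 0 := by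
        rw [p_sub, p_smul, hee, mul_assoc, inv_mul_cancel₀ h2a, mul_one, sub_self]
      obtain ⟨f, hfdef⟩ : ∃ f, f = y - (polar Q y e0 * (2 * a)⁻¹) • e0 := ⟨_, rfl⟩
      have hfD : f ∈ D i0 := by rw [hfdef]; exact (D i0).sub_mem hy ((D i0).smul_mem _ he0)
      have hf0 : f ≠ 0 := by
        intro h0
        apply hyn
        rw [hfdef, sub_eq_zero] at h0
        rw [h0]
        exact Submodule.smul_mem _ _ (Submodule.mem_span_singleton_self _)
      rw [← hfdef] at hf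
      have g1 : r2 f = f := by
        rw [hr2]; apply H17.OrthAbs.refl_fix
        rw [p_sub, p_comm Q e1, h.orth i0 i1 h01 f hfD e1 he1, p_comm Q e2, h.orth i0 i2 h02 f hfD e2 he2, sub_zero]
      have g2 : r1 f = f := by
        rw [hr1]; apply H17.OrthAbs.refl_fix
        rw [p_sub, p_comm Q e0, hf, p_comm Q e1, h.orth i0 i1 h01 f hfD e1 he1, sub_zero]
      refine not_perm h he0 hfD e00 hf0 (j := i1) (k := i0) ?_ ?_ (Ne.symm h01)
      · rw [LinearEquiv.mul_apply, a3, a1]; exact he1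
      · rw [LinearEquiv.mul_apply, g1, g2]; exact hfD
  · have hli : LinearIndependent F ![e0] := by
      rw [linearIndependent_unique_iff]; exact e00
    obtain ⟨u, hu, hue⟩ := dual_val hQ (k := 1) (by omega) hli ![1] 0
    have hue0 : polar Q u e0 = 1 := hue 0
    obtain ⟨w, hw, hwu, hwT⟩ := perp_val hQ (k := 1) (by omega) ![u] (T := Submodule.span F {u}) (by
      have h5 := finrank_span_le_card (R := F) ({u} : Set V)
      simp at h5
      omega) 0
    have hwu0 : polar Q w u = 0 := hwu 0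
    obtain ⟨g, hg, hgx⟩ := full_Om hQ (by omega) hu w (by rw [p_comm]; exact hwu0)
    refine ⟨g, hg, fun hgS => ?_⟩
    obtain ⟨⟨k, hk⟩, hkQ⟩ := (hgS e0).1 ⟨⟨i0, he0⟩, q0⟩
    have hge : g e0 = e0 + w - polar Q e0 w • u := by
      rw [hgx, sgF, p_comm Q e0 u, hue0, hw]; simp
    have hB : polar Q (g e0) e0 = 2 * a := by
      rw [hge, p_sub, p_add, p_smul, p_self, q0, hue0, p_comm Q w e0]; ring
    have h2a : 2 * a ≠ 0 := mul_ne_zero h2 ha
    have hki : k = i0 := h.eq_of hk he0 (by rw [hB]; exact h2a)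
    subst hki
    rcases h3 k _ hk e0 he0 hkQ q0 with h4 | h4 | h4
    · apply hwT
      rw [hge, add_sub_assoc, add_eq_left, sub_eq_zero] at h4
      rw [h4]
      exact Submodule.smul_mem _ _ (Submodule.mem_span_singleton_self _)
    · rw [h4, p_neg, p_self, q0] at hB
      have : 2 * (2 * a) = 0 := by linear_combination -hB
      exact mul_ne_zero h2 h2a this
    · rw [hB] at h4; exact h2a h4

omit [Finite F] [FiniteDimensional F V] in
lemma sg_setStab (h2 : (2 : F) = 0) {u w : V} (hu : Q u = 0) (huw : polar Q u w = 0) {g : V ≃ₗ[F] V}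
    (hg : ∀ x, g x = sgF Q u w x) {S : Set V} (hS : ∀ x ∈ S, g x ∈ S) : g ∈ setStab F S := by
  intro x
  refine ⟨hS x, fun hx => ?_⟩
  have h3 := hS _ hx
  have h4 : w + w = 0 := by rw [← two_smul F, h2, zero_smul]
  rw [hg, hg, sgF_mul hu huw huw, h4] at h3
  simpa [sgF] using h3

/-- hyperbolic planes over fields with two or four elements -/
theorem caseB (hQ : ND Q) (hn : 7 ≤ finrank F V) (h : Dec Q D) (ht : 4 ≤ t) (h2 : (2 : F) = 0)
    (A : AddSubgroup F) (hA : ∀ a ∈ A, a = 0 ∨ a = 1) {c : F} (hc : c ∉ A)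
    (hS : ∀ i, ∀ x ∈ D i, ∀ y ∈ D i, Q x = 1 → Q y = 1 → polar Q x y ∈ A)
    (hp : ∀ i, ∃ x ∈ D i, ∃ y ∈ D i, Q x = 0 ∧ Q y = 0 ∧ polar Q x y = 1) :
    ∃ T : Subgroup (V ≃ₗ[F] V), (∀ g ∈ Om Q, PermD D g → g ∈ T) ∧ (∃ g ∈ Om Q, g ∈ T ∧ ¬ PermD D g) ∧
      (∃ g ∈ Om Q, g ∉ T) := by
  obtain ⟨i0, i1, i2, i3, h01, h02, h03, h12, h13, h23⟩ : ∃ i0 i1 i2 i3 : Fin t, i0 ≠ i1 ∧ i0 ≠ i2 ∧ i0 ≠ i3 ∧
      i1 ≠ i2 ∧ i1 ≠ i3 ∧ i2 ≠ i3 :=
    ⟨⟨0, by omega⟩, ⟨1, by omega⟩, ⟨2, by omega⟩, ⟨3, by omega⟩, by simp, by simp, by simp, by simp, by simp, by simp⟩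
  have hnn : ∀ i, ∃ n ∈ D i, ∃ x ∈ D i, Q n = 1 ∧ polar Q x n = 1 ∧ polar Q n n = 0 := by
    intro i
    obtain ⟨x, hx, y, hy, q1, q2, q3⟩ := hp i
    refine ⟨x + y, (D i).add_mem hx hy, x, hx, by rw [Q_add, q1, q2, q3]; ring, ?_, ?_⟩
    · rw [p_add', p_self, q1, q3]; ring
    · rw [p_self, h2, zero_mul]
  obtain ⟨n0, hn0, x0, hx0, qn0, b0, s0⟩ := hnn i0
  obtain ⟨n1, hn1, x1, hx1, qn1, b1, s1⟩ := hnn i1
  obtain ⟨n2, hn2, x2, hx2, qn2, b2, s2⟩ := hnn i2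
  obtain ⟨n3, hn3, x3, hx3, qn3, b3, s3⟩ := hnn i3
  obtain ⟨R, hR⟩ : ∃ R : AddSubgroup V, R = AddSubgroup.closure (Sv Q D 1) := ⟨_, rfl⟩
  have hSA : ∀ x ∈ Sv Q D 1, ∀ y ∈ Sv Q D 1, polar Q x y ∈ A := by
    rintro x ⟨⟨i, hi⟩, hx⟩ y ⟨⟨j, hj⟩, hy⟩
    by_cases hij : i = j
    · subst hij; exact hS i x hi y hj hx hy
    · rw [h.orth i j hij x hi y hj]; exact A.zero_mem
  have hRA1 : ∀ x ∈ R, ∀ y ∈ Sv Q D 1, polar Q x y ∈ A := by
    intro x hx y hy
    rw [hR] at hx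
    induction hx using AddSubgroup.closure_induction with
    | mem x hx => exact hSA x hx y hy
    | zero => rw [p_zero]; exact A.zero_mem
    | add x x' _ _ hx hx' => rw [p_add]; exact A.add_mem hx hx'
    | neg x _ hx => rw [p_neg]; exact A.neg_mem hx
  have hRA : ∀ x ∈ R, ∀ y ∈ R, polar Q x y ∈ A := by
    intro x hx y hy
    rw [hR] at hy
    induction hy using AddSubgroup.closure_induction with
    | mem y hy => exact hRA1 x hx y hy
    | zero => rw [p_zero']; exact A.zero_mem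
    | add y y' _ _ hy hy' => rw [p_add']; exact A.add_mem hy hy'
    | neg y _ hy => rw [p_neg']; exact A.neg_mem hy
  have hnR : ∀ i, ∀ n ∈ D i, Q n = 1 → n ∈ R := by
    intro i n hn hq
    rw [hR]
    exact AddSubgroup.subset_closure ⟨⟨i, hn⟩, hq⟩
  have hsm : ∀ a : F, (a = 0 ∨ a = 1) → ∀ r ∈ R, a • r ∈ R := by
    rintro a (rfl | rfl) r hr
    · rw [zero_smul]; exact R.zero_mem
    · rw [one_smul]; exact hr
  refine ⟨setStab F (R : Set V), fun g hg hp => ?_, ?_, ?_⟩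
  · rw [hR]; exact setStab_closure (perm_setStab (Om_le Q hg) hp 1)
  · have hu : Q (n0 + n1) = 0 := by
      rw [Q_add, qn0, qn1, h.orth i0 i1 h01 n0 hn0 n1 hn1]; linear_combination h2
    have hw : Q (n2 + n3) = 0 := by
      rw [Q_add, qn2, qn3, h.orth i2 i3 h23 n2 hn2 n3 hn3]; linear_combination h2
    have huw : polar Q (n0 + n1) (n2 + n3) = 0 := by
      rw [p_add, p_add', p_add', h.orth i0 i2 h02 n0 hn0 n2 hn2, h.orth i0 i3 h03 n0 hn0 n3 hn3,
        h.orth i1 i2 h12 n1 hn1 n2 hn2, h.orth i1 i3 h13 n1 hn1 n3 hn3]; simp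
    have hur : n0 + n1 ∈ R := R.add_mem (hnR _ _ hn0 qn0) (hnR _ _ hn1 qn1)
    have hwr : n2 + n3 ∈ R := R.add_mem (hnR _ _ hn2 qn2) (hnR _ _ hn3 qn3)
    obtain ⟨g, hg, hgx⟩ := full_Om hQ (by omega) hu _ huw
    refine ⟨g, hg, sg_setStab h2 hu huw hgx ?_, ?_⟩
    · intro x hx
      rw [hgx, sgF, hw, zero_mul, add_zero]
      refine R.sub_mem (R.add_mem hx ?_) ?_
      · exact hsm _ (hA _ (hRA x hx _ hur)) _ hwr
      · exact hsm _ (hA _ (hRA x hx _ hwr)) _ hur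
    · rintro ⟨σ, hσ⟩
      have k1 : polar Q x0 (n0 + n1) = 1 := by
        rw [p_add', b0, h.orth i0 i1 h01 x0 hx0 n1 hn1, add_zero]
      have k2 : polar Q x0 (n2 + n3) = 0 := by
        rw [p_add', h.orth i0 i2 h02 x0 hx0 n2 hn2, h.orth i0 i3 h03 x0 hx0 n3 hn3, add_zero]
      have k3 : polar Q n0 (n0 + n1) = 0 := by
        rw [p_add', s0, h.orth i0 i1 h01 n0 hn0 n1 hn1, add_zero]
      have k4 : polar Q n0 (n2 + n3) = 0 := by
        rw [p_add', h.orth i0 i2 h02 n0 hn0 n2 hn2, h.orth i0 i3 h03 n0 hn0 n3 hn3, add_zero]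
      have e1 : g n0 = n0 := by rw [hgx, sgF, k3, k4]; simp
      have e2 : g x0 = x0 + (n2 + n3) := by rw [hgx, sgF, k1, k2, hw]; simp
      have hn00 : n0 ≠ 0 := by rintro rfl; rw [QuadraticMap.map_zero] at qn0; exact one_ne_zero qn0.symm
      have m1 : n0 ∈ D (σ i0) := by rw [← hσ]; exact ⟨n0, hn0, e1⟩
      have m2 : x0 + (n2 + n3) ∈ D (σ i0) := by rw [← hσ]; exact ⟨x0, hx0, e2⟩
      rw [← h.eq hn0 m1 hn00] at m2
      have m3 : n2 + n3 ∈ D i0 := by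
        have := (D i0).sub_mem m2 hx0
        rwa [add_sub_cancel_left] at this
      have m4 := h.orth i0 i2 h02 _ m3 x2 hx2
      rw [p_add, p_comm Q n2, b2, h.orth i3 i2 h23.symm n3 hn3 x2 hx2, add_zero] at m4
      exact one_ne_zero m4
  · have hn00 : n0 ≠ 0 := by rintro rfl; rw [QuadraticMap.map_zero] at qn0; exact one_ne_zero qn0.symm
    have hli : LinearIndependent F ![n0] := by
      rw [linearIndependent_unique_iff]; exact hn00
    obtain ⟨u, hu, hue⟩ := dual_val hQ (k := 1) (by omega) hli ![1] 0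
    have hue0 : polar Q u n0 = 1 := hue 0
    obtain ⟨w, hw, hwu, hwT⟩ := perp_val hQ (k := 1) (by omega) ![u] (T := ⊥) (by
      rw [finrank_bot]; omega) c
    have hwu0 : polar Q w u = 0 := hwu 0
    obtain ⟨g, hg, hgx⟩ := full_Om hQ (by omega) hu w (by rw [p_comm]; exact hwu0)
    refine ⟨g, hg, fun hgS => ?_⟩
    have hmem : g n0 ∈ R := (hgS n0).1 (hnR _ _ hn0 qn0)
    have h5 := hRA _ hmem _ (hnR _ _ hn0 qn0)
    have hB : polar Q (g n0) n0 = c := by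
      rw [hgx, sgF, p_comm Q n0 u, hue0, hw, p_sub, p_add, p_smul, p_smul, s0, hue0, p_comm Q w n0]
      linear_combination (-c) * h2
    rw [hB] at h5
    exact hc h5

omit [Finite F] [FiniteDimensional F V] in
lemma ff {P : F → F → F → F → Prop} (hF : ∀ a : F, a = 0 ∨ a = 1) (h : ∀ a b c d : F,
    (a = 0 ∨ a = 1) → (b = 0 ∨ b = 1) → (c = 0 ∨ c = 1) → (d = 0 ∨ d = 1) → P a b c d) (a b c d : F) : P a b c d :=
  h a b c d (hF a) (hF b) (hF c) (hF d)

/-- four-dimensional members of plus type over the field with two elements -/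
theorem caseC (hQ : ND Q) (hn : 7 ≤ finrank F V) (h : Dec Q D) (ht : 2 ≤ t) (h2 : (2 : F) = 0)
    (hF : ∀ a : F, a = 0 ∨ a = 1)
    (hp : ∀ i, ∃ e1 ∈ D i, ∃ f1 ∈ D i, ∃ e2 ∈ D i, ∃ f2 ∈ D i, Q e1 = 0 ∧ Q f1 = 0 ∧ Q e2 = 0 ∧ Q f2 = 0 ∧
      polar Q e1 f1 = 1 ∧ polar Q e2 f2 = 1 ∧ polar Q e1 e2 = 0 ∧ polar Q e1 f2 = 0 ∧ polar Q f1 e2 = 0 ∧
      polar Q f1 f2 = 0 ∧ ∀ w ∈ D i, ∃ a b c d : F, w = a • e1 + b • f1 + c • e2 + d • f2) :
    ∃ T : Subgroup (V ≃ₗ[F] V), (∀ g ∈ Om Q, PermD D g → g ∈ T) ∧ (∃ g ∈ Om Q, g ∈ T ∧ ¬ PermD D g) ∧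
      (∃ g ∈ Om Q, g ∉ T) := by
  have h11 : (1 : F) + 1 = 0 := by linear_combination h2
  -- in each member: x, y spanning an anisotropic plane, and z
  have key : ∀ i, ∃ x ∈ D i, ∃ y ∈ D i, ∃ z ∈ D i, Q x = 1 ∧ Q y = 1 ∧ polar Q x y = 1 ∧ z ≠ 0 ∧
      polar Q z x = 0 ∧ polar Q z y = 0 ∧ Q z = 1 ∧
      (∀ s ∈ D i, Q s = 1 → s = x ∨ s = y ∨ s = x + y ∨ (polar Q s x = 0 ∧ polar Q s y = 0)) ∧
      ∃ e ∈ D i, ∃ f ∈ D i, Q e = 0 ∧ polar Q x e = 1 ∧ polar Q x f = 1 ∧ polar Q e f = 1 ∧ e ≠ 0 := by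
    intro i
    obtain ⟨e1, he1, f1, hf1, e2, he2, f2, hf2, q1, q2, q3, q4, p1, p2, p3, p4, p5, p6, hs⟩ := hp i
    have p1' : polar Q f1 e1 = 1 := by rw [p_comm, p1]
    have p2' : polar Q f2 e2 = 1 := by rw [p_comm, p2]
    have p3' : polar Q e2 e1 = 0 := by rw [p_comm, p3]
    have p4' : polar Q f2 e1 = 0 := by rw [p_comm, p4]
    have p5' : polar Q e2 f1 = 0 := by rw [p_comm, p5]
    have p6' : polar Q f2 f1 = 0 := by rw [p_comm, p6]
    have s1 : polar Q e1 e1 = 0 := by rw [p_self, q1, mul_zero]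
    have s2 : polar Q f1 f1 = 0 := by rw [p_self, q2, mul_zero]
    have s3 : polar Q e2 e2 = 0 := by rw [p_self, q3, mul_zero]
    have s4 : polar Q f2 f2 = 0 := by rw [p_self, q4, mul_zero]
    refine ⟨e1 + f1, (D i).add_mem he1 hf1, e1 + e2 + f2, (D i).add_mem ((D i).add_mem he1 he2) hf2,
      e2 + f2 , (D i).add_mem he2 hf2, ?_, ?_, ?_, ?_, ?_, ?_, ?_, ?_, e1, he1, f1, hf1, q1, ?_, ?_, p1, ?_⟩
    · rw [Q_add, q1, q2, p1]; ring
    · simp only [Q_add, p_add, q1, q3, q4, p3, p4, p2]; ring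
    · simp only [p_add, p_add', p1', s1, p3, p4, p5, p6]; ring
    · intro h0
      have := congrArg (fun v => polar Q v f2) h0
      simp only [p_add, p2, s4, p_zero, add_zero] at this
      exact one_ne_zero this
    · simp only [p_add, p_add', p3', p4', p5', p6']; ring
    · simp only [p_add, p_add', p3', p4', s3, p2, p2', s4]; linear_combination h2
    · rw [Q_add, q3, q4, p2]; ring
    · intro s hs1 hs2
      obtain ⟨a, b, c, d, rfl⟩ := hs s hs1
      have hq : a * b + c * d = 1 := by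
        rw [← hs2]
        simp only [Q_add, Q_smul, p_add, p_smul, p_smul', q1, q2, q3, q4, p1, p2, p3, p4, p5, p6]; ring
      have k1 : polar Q (a • e1 + b • f1 + c • e2 + d • f2) (e1 + f1) = a + b := by
        simp only [p_add, p_add', p_smul, s1, s2, p1, p1', p3', p4', p5', p6']; ring
      have k2 : polar Q (a • e1 + b • f1 + c • e2 + d • f2) (e1 + e2 + f2) = b + c + d := by
        simp only [p_add, p_add', p_smul, s1, s3, s4, p1', p2, p2', p3, p3', p4, p4', p5, p6]; ring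
      rw [k1, k2]
      have hne : ((0 : F) = 1) ↔ False := by simp
      rcases hF a with rfl | rfl <;> rcases hF b with rfl | rfl <;> rcases hF c with rfl | rfl <;>
        rcases hF d with rfl | rfl <;> simp [h11] at hq ⊢
      right; right
      have h5 : e1 + e1 = 0 := by rw [← two_smul F, h2, zero_smul]
      calc f1 + e2 + f2 = (e1 + e1) + (f1 + e2 + f2) := by rw [h5, zero_add]
        _ = e1 + f1 + (e1 + e2 + f2) := by abel
    · rw [p_add, s1, p1', zero_add]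
    · rw [p_add, s2, p1, add_zero]
    · rintro rfl; rw [p_zero] at p1; exact zero_ne_one p1
  obtain ⟨i0, i1, h01⟩ : ∃ i0 i1 : Fin t, i0 ≠ i1 := ⟨⟨0, by omega⟩, ⟨1, by omega⟩, by simp⟩
  obtain ⟨x, hx, y, hy, z, hz, qx, qy, pxy, hz0, pzx, pzy, qz, hk, e, he, f, hf, qe, pxe, pxf, pef, he0⟩ := key i0
  obtain ⟨x', hx', y', hy', z', hz', qx', qy', pxy', hz0', pzx', pzy', qz', hk', e', he', f', hf', qe', pxe', pxf',
    pef', he0'⟩ := key i1
  have c1 : ∀ a ∈ D i0, ∀ b ∈ D i1, polar Q a b = 0 := fun a ha b hb => h.orth i0 i1 h01 a ha b hb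
  have c2 : ∀ a ∈ D i1, ∀ b ∈ D i0, polar Q a b = 0 := fun a ha b hb => h.orth i1 i0 h01.symm a ha b hb
  have hx0 : x ≠ 0 := by rintro rfl; rw [QuadraticMap.map_zero] at qx; exact one_ne_zero qx.symm
  refine ⟨setStab F (Sv Q D 1), fun g hg hp => perm_setStab (Om_le Q hg) hp 1, ?_, ?_⟩
  · have hu : Q (x + x') = 0 := by rw [Q_add, qx, qx', c1 x hx x' hx']; linear_combination h2
    have hw : Q (y + y') = 0 := by rw [Q_add, qy, qy', c1 y hy y' hy']; linear_combination h2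
    have huw : polar Q (x + x') (y + y') = 0 := by
      rw [p_add, p_add', p_add', pxy, pxy', c1 x hx y' hy', c2 x' hx' y hy]; linear_combination h2
    obtain ⟨g, hg, hgx⟩ := full_Om hQ (by omega) hu _ huw
    have hself : ∀ v, polar Q v v = 0 := fun v => by rw [p_self, h2, zero_mul]
    have hdbl : ∀ v : V, v + v = 0 := fun v => by rw [← two_smul F, h2, zero_smul]
    have g1 : g x = x' := by
      rw [hgx, sgF, hw, p_add', p_add', hself, pxy, c1 x hx x' hx', c1 x hx y' hy']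
      simp only [add_zero, zero_mul, zero_smul, one_smul]
      have : x - (x + x') = - x' := by abel
      rw [this, neg_eq_iff_add_eq_zero, hdbl]
    have g2 : g y = y' := by
      rw [hgx, sgF, hw, p_add', p_add', hself, p_comm Q y x, pxy, c1 y hy x' hx', c1 y hy y' hy']
      simp only [add_zero, zero_mul, zero_smul, one_smul, sub_zero]
      rw [← add_assoc, hdbl, zero_add]
    have g3 : g x' = x := by
      rw [hgx, sgF, hw, p_add', p_add', hself, pxy', c2 x' hx' x hx, c2 x' hx' y hy]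
      simp only [add_zero, zero_add, zero_mul, zero_smul, one_smul]
      have : x' - (x + x') = - x := by abel
      rw [this, neg_eq_iff_add_eq_zero, hdbl]
    have g4 : g y' = y := by
      rw [hgx, sgF, hw, p_add', p_add', hself, p_comm Q y' x', pxy', c2 y' hy' x hx, c2 y' hy' y hy]
      simp only [add_zero, zero_add, zero_mul, zero_smul, one_smul, sub_zero]
      rw [add_comm y y', ← add_assoc, hdbl, zero_add]
    have gfix : ∀ s, polar Q s x = 0 → polar Q s y = 0 → polar Q s x' = 0 → polar Q s y' = 0 → g s = s := by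
      intro s h1 h3 h4 h5
      rw [hgx, sgF, p_add', p_add', h1, h3, h4, h5]; simp
    refine ⟨g, hg, sg_setStab h2 hu huw hgx ?_, ?_⟩
    · rintro s ⟨⟨k, hsk⟩, hs⟩
      refine ⟨?_, by rw [mem_O.1 (Om_le Q hg), hs]⟩
      by_cases hk0 : k = i0
      · subst hk0
        rcases hk s hsk hs with rfl | rfl | rfl | ⟨h3, h4⟩
        · exact ⟨i1, by rw [g1]; exact hx'⟩
        · exact ⟨i1, by rw [g2]; exact hy'⟩
        · exact ⟨i1, by rw [map_add, g1, g2]; exact (D i1).add_mem hx' hy'⟩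
        · exact ⟨k, by rw [gfix s h3 h4 (c1 s hsk x' hx') (c1 s hsk y' hy')]; exact hsk⟩
      · by_cases hk1 : k = i1
        · subst hk1
          rcases hk' s hsk hs with rfl | rfl | rfl | ⟨h3, h4⟩
          · exact ⟨i0, by rw [g3]; exact hx⟩
          · exact ⟨i0, by rw [g4]; exact hy⟩
          · exact ⟨i0, by rw [map_add, g3, g4]; exact (D i0).add_mem hx hy⟩
          · exact ⟨k, by rw [gfix s (c2 s hsk x hx) (c2 s hsk y hy) h3 h4]; exact hsk⟩
        · exact ⟨k, by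
            rw [gfix s (h.orth k i0 hk0 s hsk x hx) (h.orth k i0 hk0 s hsk y hy) (h.orth k i1 hk1 s hsk x' hx')
              (h.orth k i1 hk1 s hsk y' hy')]
            exact hsk⟩
    · refine not_perm h hx hz hx0 hz0 (j := i1) (k := i0) (by rw [g1]; exact hx') ?_ h01.symm
      rw [gfix z pzx pzy (c1 z hz x' hx') (c1 z hz y' hy')]
      exact hz
  · obtain ⟨g, hg, hgx⟩ := full_Om hQ (by omega) qe e' (c1 e he e' he')
    refine ⟨g, hg, fun hgS => ?_⟩
    obtain ⟨⟨k, hk1⟩, -⟩ := (hgS x).1 ⟨⟨i0, hx⟩, qx⟩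
    have hgx' : g x = x + e' := by
      rw [hgx, sgF, pxe, c1 x hx e' he', qe']; simp
    rw [hgx'] at hk1
    have k0 : k = i0 := h.eq_of hk1 hf (by rw [p_add, pxf, c2 e' he' f hf, add_zero]; exact one_ne_zero)
    have k1 : k = i1 := h.eq_of hk1 hf' (by rw [p_add, pef', c1 x hx f' hf', zero_add]; exact one_ne_zero)
    exact h01 (k0.symm.trans k1)

end

end H7.ONonmax
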