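import Mathlib
import Cfsg.Agent.Lib.H7.ONonmax

/-!
Small non-degenerate subspaces over small fields.
-/
set_option autoImplicit false

namespace H7.ONonmax

open Module QuadraticMap H48.QuadSplit H48.QuadWitt H95.OGeo H7.OA H7.OABridge

variable {F V : Type*} [Field F] [AddCommGroup V] [Module F V] {Q : QuadraticForm F V}

/-- `Q` non-degenerate on `W` -/
def NdW (Q : QuadraticForm F V) (W : Submodule F V) : Prop :=
  ∀ x ∈ W, (∀ y ∈ W, polar Q x y = 0) → x = 0

lemma li_of_dual {k : ℕ} {x y : Fin k → V} {d : Fin k → F} (hd : ∀ j, d j ≠ 0)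
    (h : ∀ i j, polar Q (x i) (y j) = if i = j then d j else 0) : LinearIndependent F x := by
  rw [Fintype.linearIndependent_iff]
  intro c hc j
  have h1 : polar Q (∑ i, c i • x i) (y j) = c j * d j := by
    have h2 : ∀ s : Finset (Fin k), polar Q (∑ i ∈ s, c i • x i) (y j) = ∑ i ∈ s, c i * polar Q (x i) (y j) := by
      intro s
      classical
      induction s using Finset.induction_on with
      | empty => simp [p_zero]
      | insert a s ha ih => rw [Finset.sum_insert ha, Finset.sum_insert ha, p_add, p_smul, ih]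
    rw [h2]
    simp only [h]
    simp
  rw [hc, p_zero] at h1
  rcases mul_eq_zero.1 h1.symm with h3 | h3
  · exact h3
  · exact absurd h3 (hd j)

lemma mem_comb [FiniteDimensional F V] {k : ℕ} {W : Submodule F V} {x : Fin k → V} (hx : LinearIndependent F x)
    (hxW : ∀ i, x i ∈ W) (hW : finrank F W = k) {w : V} (hw : w ∈ W) : ∃ c : Fin k → F, ∑ i, c i • x i = w := by
  have h1 : Submodule.span F (Set.range x) ≤ W := by
    rw [Submodule.span_le]; rintro _ ⟨i, rfl⟩; exact hxW i
  have h2 : Submodule.span F (Set.range x) = W := by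
    apply Submodule.eq_of_le_of_finrank_eq h1
    rw [finrank_span_eq_card hx, Fintype.card_fin, hW]
  rw [← h2] at hw
  exact (Submodule.mem_span_range_iff_exists_fun F).1 hw

lemma exists_perp [FiniteDimensional F V] {W : Submodule F V} {k : ℕ} (x : Fin k → V) (hW : k < finrank F W) :
    ∃ w ∈ W, w ≠ 0 ∧ ∀ i, polar Q w (x i) = 0 := by
  let φ : W →ₗ[F] (Fin k → F) := LinearMap.pi fun i => (polarBilin Q).flip (x i) ∘ₗ W.subtype
  have h1 : LinearMap.ker φ ≠ ⊥ := by
    intro h
    have h2 := LinearMap.finrank_le_finrank_of_injective (LinearMap.ker_eq_bot.1 h)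
    rw [finrank_fin_fun] at h2
    omega
  obtain ⟨w, hw, hw0⟩ := (Submodule.ne_bot_iff _).1 h1
  refine ⟨w, w.2, fun h => hw0 (Subtype.ext h), fun i => ?_⟩
  have := congrFun (LinearMap.mem_ker.1 hw) i
  simpa [φ] using this

lemma exists_nonsing {W : Submodule F V} (hW : NdW Q W) (h0 : 0 < finrank F W) : ∃ v ∈ W, Q v ≠ 0 := by
  by_contra hcon
  push Not at hcon
  have : W = ⊥ := by
    rw [Submodule.eq_bot_iff]
    intro x hx
    refine hW x hx fun y hy => ?_
    rw [polar, hcon _ (W.add_mem hx hy), hcon _ hx, hcon _ hy]; ring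
  rw [this, finrank_bot] at h0
  exact lt_irrefl _ h0

section small
variable [FiniteDimensional F V]

/-- a non-degenerate plane over the field with three elements represents every non-zero value -/
lemma exists_val3 (hF : ∀ a : F, a = 0 ∨ a = 1 ∨ a = -1) (h3 : (3 : F) = 0) {W : Submodule F V} (hW : NdW Q W)
    (hd : finrank F W = 2) {b : F} (hb : b ≠ 0) : ∃ e ∈ W, Q e = b := by
  have h2 : (2 : F) ≠ 0 := by
    intro h; apply one_ne_zero (α := F); linear_combination h3 - h
  have hval : ∀ c : F, c ≠ 0 → c = b ∨ c = -b := by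
    intro c hc
    rcases hF c with rfl | rfl | rfl <;> rcases hF b with rfl | rfl | rfl <;> simp at hc hb ⊢
  obtain ⟨v, hv, hv0⟩ := exists_nonsing hW (by omega)
  rcases hval _ hv0 with h | h
  · exact ⟨v, hv, h⟩
  obtain ⟨v', hv', hv'0, hvv'⟩ := exists_perp (Q := Q) (W := W) (k := 1) ![v] (by omega)
  have hvv : polar Q v' v = 0 := hvv' 0
  have hQv' : Q v' ≠ 0 := by
    intro h0
    apply hv'0
    refine hW v' hv' fun y hy => ?_
    have hli : LinearIndependent F ![v, v'] := by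
      rw [LinearIndependent.pair_iff]
      intro s t hst
      have h4 : polar Q v (s • v + t • v') = 0 := by rw [hst, p_zero']
      rw [p_add', p_smul', p_smul', p_self, p_comm Q v v', hvv, mul_zero, add_zero] at h4
      have hs : s = 0 := by
        rcases mul_eq_zero.1 h4 with h5 | h5
        · exact h5
        · exact absurd h5 (mul_ne_zero h2 hv0)
      rw [hs, zero_smul, zero_add, smul_eq_zero] at hst
      exact ⟨hs, hst.resolve_right hv'0⟩
    obtain ⟨c, rfl⟩ := mem_comb hli (by intro i; fin_cases i; exacts [hv, hv']) hd hy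
    rw [Fin.sum_univ_two]
    change polar Q v' (c 0 • v + c 1 • v') = 0
    rw [p_add', p_smul', p_smul', p_self, h0, hvv]; ring
  rcases hval _ hQv' with h' | h'
  · exact ⟨v', hv', h'⟩
  · refine ⟨v + v', W.add_mem hv hv', ?_⟩
    rw [Q_add, h, h', p_comm, hvv]
    linear_combination (-b) * h3

/-- property of planes over the field with three elements -/
lemma prop2 (hF : ∀ a : F, a = 0 ∨ a = 1 ∨ a = -1) (h3 : (3 : F) = 0) {W : Submodule F V} (hW : NdW Q W)
    (hd : finrank F W = 2) : ∀ x ∈ W, ∀ y ∈ W, Q x = 1 → Q y = 1 → x = y ∨ x = -y ∨ polar Q x y = 0 := by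
  have h2 : (2 : F) ≠ 0 := by
    intro h; apply one_ne_zero (α := F); linear_combination h3 - h
  have key : ∀ x ∈ W, ∀ y ∈ W, Q x = 1 → Q y = 1 → polar Q x y = -1 → x = y := by
    intro x hx y hy qx qy hxy
    have hx0 : x ≠ 0 := by rintro rfl; rw [QuadraticMap.map_zero] at qx; exact zero_ne_one qx
    have q1 : Q (x - y) = 0 := by rw [Q_sub, qx, qy, hxy]; linear_combination h3
    have q2 : polar Q x (x - y) = 0 := by rw [p_sub', p_self, qx, hxy]; linear_combination h3
    by_contra hne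
    have hz0 : x - y ≠ 0 := sub_ne_zero.2 hne
    have hli : LinearIndependent F ![x, x - y] := by
      rw [LinearIndependent.pair_iff]
      intro s t hst
      have h4 : polar Q x (s • x + t • (x - y)) = 0 := by rw [hst, p_zero']
      rw [p_add', p_smul', p_smul', p_self, q2, qx, mul_zero, add_zero, mul_one] at h4
      have hs : s = 0 := (mul_eq_zero.1 h4).resolve_right h2
      rw [hs, zero_smul, zero_add, smul_eq_zero] at hst
      exact ⟨hs, hst.resolve_right hz0⟩
    apply hz0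
    refine hW _ (W.sub_mem hx hy) fun w hw => ?_
    obtain ⟨c, rfl⟩ := mem_comb hli (by intro i; fin_cases i; exacts [hx, W.sub_mem hx hy]) hd hw
    rw [Fin.sum_univ_two]
    change polar Q (x - y) (c 0 • x + c 1 • (x - y)) = 0
    rw [p_add', p_smul', p_smul', p_self, q1, p_comm Q (x - y) x, q2]; ring
  intro x hx y hy qx qy
  rcases hF (polar Q x y) with h | h | h
  · right; right; exact h
  · right; left
    exact key x hx (-y) (W.neg_mem hy) qx (by rw [Q_neg, qy]) (by rw [p_neg', h])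
  · left; exact key x hx y hy qx qy h

/-- an orthogonal frame of equal values in dimension three over the field with three elements -/
lemma frame3 (hF : ∀ a : F, a = 0 ∨ a = 1 ∨ a = -1) (h3 : (3 : F) = 0) {W : Submodule F V} (hW : NdW Q W)
    (hd : finrank F W = 3) : ∃ a : F, a ≠ 0 ∧ ∃ x ∈ W, ∃ y ∈ W, ∃ z ∈ W, Q x = a ∧ Q y = a ∧ Q z = a ∧
      polar Q x y = 0 ∧ polar Q x z = 0 ∧ polar Q y z = 0 := by
  have h2 : (2 : F) ≠ 0 := by
    intro h; apply one_ne_zero (α := F); linear_combination h3 - h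
  obtain ⟨v, hv, hv0⟩ := exists_nonsing hW (by omega)
  -- the orthogonal of `v` in `W`
  let φ : W →ₗ[F] F := (polarBilin Q).flip v ∘ₗ W.subtype
  have hφ : ∀ w : W, φ w = polar Q (w : V) v := fun w => rfl
  have hsurj : LinearMap.range φ = ⊤ := by
    rw [LinearMap.range_eq_top]
    intro c
    refine ⟨(c * (2 * Q v)⁻¹) • ⟨v, hv⟩, ?_⟩
    rw [map_smul, hφ, p_self, smul_eq_mul, mul_assoc, inv_mul_cancel₀ (mul_ne_zero h2 hv0), mul_one]
  have hker : finrank F (LinearMap.ker φ) = 2 := by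
    have h4 := LinearMap.finrank_range_add_finrank_ker φ
    rw [hsurj, finrank_top, finrank_self, hd] at h4
    omega
  set W1 : Submodule F V := (LinearMap.ker φ).map W.subtype with hW1
  have hW1d : finrank F W1 = 2 := by
    rw [hW1, Submodule.finrank_map_subtype_eq, hker]
  have hmem : ∀ w, w ∈ W1 ↔ w ∈ W ∧ polar Q w v = 0 := by
    intro w
    constructor
    · rintro ⟨w', hw', rfl⟩
      exact ⟨w'.2, hw'⟩
    · rintro ⟨h4, h5⟩
      exact ⟨⟨w, h4⟩, h5, rfl⟩
  have hnd : NdW Q W1 := by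
    intro x hx hxy
    rw [hmem] at hx
    refine hW x hx.1 fun w hw => ?_
    have h4 : w - (polar Q w v * (2 * Q v)⁻¹) • v ∈ W1 := by
      rw [hmem]
      refine ⟨W.sub_mem hw (W.smul_mem _ hv), ?_⟩
      rw [p_sub, p_smul, p_self, mul_assoc, inv_mul_cancel₀ (mul_ne_zero h2 hv0), mul_one, sub_self]
    have h5 := hxy _ h4
    rw [p_sub', p_smul', hx.2, mul_zero, sub_zero] at h5
    exact h5
  obtain ⟨y, hy, qy⟩ := exists_val3 hF h3 hnd hW1d hv0
  have hyW := (hmem y).1 hy
  obtain ⟨z, hz, hz0, hzy'⟩ := exists_perp (Q := Q) (W := W1) (k := 1) ![y] (by omega)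
  have hzy : polar Q z y = 0 := hzy' 0
  have hzW := (hmem z).1 hz
  have hli : LinearIndependent F ![y, z] := by
    rw [LinearIndependent.pair_iff]
    intro s t hst
    have h4 : polar Q y (s • y + t • z) = 0 := by rw [hst, p_zero']
    rw [p_add', p_smul', p_smul', p_self, p_comm Q y z, hzy, qy, mul_zero, add_zero] at h4
    have hs : s = 0 := (mul_eq_zero.1 h4).resolve_right (mul_ne_zero h2 hv0)
    rw [hs, zero_smul, zero_add, smul_eq_zero] at hst
    exact ⟨hs, hst.resolve_right hz0⟩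
  have qz : Q z ≠ 0 := by
    intro h0
    apply hz0
    refine hnd z hz fun w hw => ?_
    obtain ⟨c, rfl⟩ := mem_comb hli (by intro i; fin_cases i; exacts [hy, hz]) hW1d hw
    rw [Fin.sum_univ_two]
    change polar Q z (c 0 • y + c 1 • z) = 0
    rw [p_add', p_smul', p_smul', p_self, h0, hzy]; ring
  have hval : Q z = Q v ∨ Q z = - Q v := by
    rcases hF (Q z) with h | h | h <;> rcases hF (Q v) with h' | h' | h' <;>
      first
      | exact absurd h qz
      | exact absurd h' hv0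
      | (left; rw [h, h']; done)
      | (right; rw [h, h']; done)
      | (right; rw [h, h', neg_neg])
  have hvy : polar Q v y = 0 := by rw [p_comm]; exact hyW.2
  have hvz : polar Q v z = 0 := by rw [p_comm]; exact hzW.2
  have hyz : polar Q y z = 0 := by rw [p_comm]; exact hzy
  rcases hval with h | h
  · exact ⟨Q v, hv0, v, hv, y, hyW.1, z, hzW.1, rfl, qy, h, hvy, hvz, hyz⟩
  · refine ⟨-Q v, neg_ne_zero.2 hv0, v + y, W.add_mem hv hyW.1, v - y, W.sub_mem hv hyW.1, z, hzW.1, ?_, ?_, h, ?_,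
      ?_, ?_⟩
    · rw [Q_add, qy, hvy]; linear_combination Q v * h3
    · rw [Q_sub, qy, hvy]; linear_combination Q v * h3
    · rw [p_sub', p_add, p_add, p_self, p_self, hyW.2, hvy, qy]; ring
    · rw [p_add, hvz, hyz, add_zero]
    · rw [p_sub, hvz, hyz, sub_zero]

lemma prop3 (hF : ∀ a : F, a = 0 ∨ a = 1 ∨ a = -1) (h3 : (3 : F) = 0) {W : Submodule F V}
    (hd : finrank F W = 3) {a : F} (ha : a ≠ 0) {x y z : V} (hx : x ∈ W) (hy : y ∈ W) (hz : z ∈ W)
    (qx : Q x = a) (qy : Q y = a) (qz : Q z = a) (pxy : polar Q x y = 0) (pxz : polar Q x z = 0)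
    (pyz : polar Q y z = 0) :
    ∀ v ∈ W, ∀ w ∈ W, Q v = a → Q w = a → v = w ∨ v = -w ∨ polar Q v w = 0 := by
  have h2 : (2 : F) ≠ 0 := by
    intro h; apply one_ne_zero (α := F); linear_combination h3 - h
  have pyx : polar Q y x = 0 := by rw [p_comm]; exact pxy
  have pzx : polar Q z x = 0 := by rw [p_comm]; exact pxz
  have pzy : polar Q z y = 0 := by rw [p_comm]; exact pyz
  have hli : LinearIndependent F ![x, y, z] := by
    apply li_of_dual (Q := Q) (y := ![x, y, z]) (d := fun _ => 2 * a) (fun _ => mul_ne_zero h2 ha)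
    intro i j
    fin_cases i <;> fin_cases j <;> simp [p_self, qx, qy, qz, pxy, pxz, pyz, pyx, pzx, pzy]
  have key : ∀ v ∈ W, Q v = a → v = x ∨ v = -x ∨ v = y ∨ v = -y ∨ v = z ∨ v = -z := by
    intro v hv hq
    obtain ⟨c, rfl⟩ := mem_comb hli (by intro i; fin_cases i; exacts [hx, hy, hz]) hd hv
    rw [Fin.sum_univ_three] at hq ⊢
    change Q (c 0 • x + c 1 • y + c 2 • z) = a at hq
    change c 0 • x + c 1 • y + c 2 • z = x ∨ c 0 • x + c 1 • y + c 2 • z = -x ∨ c 0 • x + c 1 • y + c 2 • z = y ∨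
      c 0 • x + c 1 • y + c 2 • z = -y ∨ c 0 • x + c 1 • y + c 2 • z = z ∨ c 0 • x + c 1 • y + c 2 • z = -z
    have hq' : c 0 * c 0 + c 1 * c 1 + c 2 * c 2 = 1 := by
      have h4 : a * (c 0 * c 0 + c 1 * c 1 + c 2 * c 2 - 1) = 0 := by
        have : Q (c 0 • x + c 1 • y + c 2 • z) = a * (c 0 * c 0 + c 1 * c 1 + c 2 * c 2) := by
          simp only [Q_add, Q_smul, p_add, p_smul, p_smul', qx, qy, qz, pxy, pxz, pyz]; ring
        rw [this] at hq
        linear_combination hq
      exact sub_eq_zero.1 ((mul_eq_zero.1 h4).resolve_left ha)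
    have h11 : (1 : F) + 1 = -1 := by linear_combination h3
    rcases hF (c 0) with h0 | h0 | h0 <;> rcases hF (c 1) with h1 | h1 | h1 <;>
      rcases hF (c 2) with h2' | h2' | h2' <;> rw [h0, h1, h2'] at hq' ⊢ <;>
      first
      | (left; simp; done)
      | (right; left; simp; done)
      | (right; right; left; simp; done)
      | (right; right; right; left; simp; done)
      | (right; right; right; right; left; simp; done)
      | (right; right; right; right; right; simp; done)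
      | (exfalso; apply one_ne_zero (α := F); linear_combination hq'; done)
      | (exfalso; apply one_ne_zero (α := F); linear_combination (-1) * hq'; done)
      | (exfalso; apply one_ne_zero (α := F); linear_combination h3 - hq'; done)
  intro v hv w hw qv qw
  rcases key v hv qv with rfl | rfl | rfl | rfl | rfl | rfl <;>
    rcases key w hw qw with rfl | rfl | rfl | rfl | rfl | rfl <;>
    simp [p_neg, p_neg', pxy, pxz, pyz, pyx, pzx, pzy]

/-- hyperbolic partner inside a non-degenerate subspace -/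
lemma partnerW {W : Submodule F V} (hW : NdW Q W) {e : V} (he : e ∈ W) (he0 : e ≠ 0) (qe : Q e = 0) :
    ∃ f ∈ W, Q f = 0 ∧ polar Q e f = 1 := by
  obtain ⟨y, hy, hy'⟩ : ∃ y ∈ W, polar Q e y ≠ 0 := by
    by_contra hcon
    push Not at hcon
    exact he0 (hW e he hcon)
  obtain ⟨z, hz, hz1⟩ : ∃ z ∈ W, polar Q e z = 1 :=
    ⟨(polar Q e y)⁻¹ • y, W.smul_mem _ hy, by rw [p_smul', inv_mul_cancel₀ hy']⟩
  refine ⟨z - Q z • e, W.sub_mem hz (W.smul_mem _ he), ?_, ?_⟩
  · rw [Q_sub, Q_smul, p_smul', p_comm Q z e, hz1, qe]; ring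
  · rw [p_sub', p_smul', p_self, hz1, qe]; ring

lemma hyp2_comb {W : Submodule F V} (hd : finrank F W = 2) {e f : V} (he : e ∈ W) (hf : f ∈ W) (qe : Q e = 0)
    (qf : Q f = 0) (hef : polar Q e f = 1) {w : V} (hw : w ∈ W) : ∃ a b : F, w = a • e + b • f := by
  have hfe : polar Q f e = 1 := by rw [p_comm, hef]
  have hli : LinearIndependent F ![e, f] := by
    apply li_of_dual (Q := Q) (y := ![f, e]) (d := fun _ => 1) (fun _ => one_ne_zero)
    intro i j
    fin_cases i <;> fin_cases j <;> simp [qe, qf, hef, hfe]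
  obtain ⟨c, rfl⟩ := mem_comb hli (by intro i; fin_cases i; exacts [he, hf]) hd hw
  exact ⟨c 0, c 1, by rw [Fin.sum_univ_two]; rfl⟩

/-- values in hyperbolic planes -/
lemma hyp2_val {W : Submodule F V} (hd : finrank F W = 2) {e f : V} (he : e ∈ W) (hf : f ∈ W) (qe : Q e = 0)
    (qf : Q f = 0) (hef : polar Q e f = 1) {x y : V} (hx : x ∈ W) (hy : y ∈ W) (qx : Q x = 1) (qy : Q y = 1) :
    ∃ s t : F, s * t = 1 ∧ polar Q x y = s + t ∧ (s = 1 → x = y) ∧ (s = -1 → x = - y) := by
  obtain ⟨a, b, rfl⟩ := hyp2_comb hd he hf qe qf hef hx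
  obtain ⟨c, d, rfl⟩ := hyp2_comb hd he hf qe qf hef hy
  have h1 : a * b = 1 := by
    rw [← qx]; simp only [Q_add, Q_smul, p_smul, p_smul', qe, qf, hef]; ring
  have h2 : c * d = 1 := by
    rw [← qy]; simp only [Q_add, Q_smul, p_smul, p_smul', qe, qf, hef]; ring
  have hd0 : d ≠ 0 := by rintro rfl; rw [mul_zero] at h2; exact zero_ne_one h2
  have ha0 : a ≠ 0 := by rintro rfl; rw [zero_mul] at h1; exact zero_ne_one h1
  refine ⟨a * d, b * c, by linear_combination (c * d) * h1 + h2, ?_, ?_, ?_⟩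
  · simp only [p_add, p_add', p_smul, p_smul', p_self, qe, qf, hef, p_comm Q f e]; ring
  · intro h
    have h3 : a = c := by
      apply mul_right_cancel₀ hd0; rw [h, h2]
    have h4 : b = d := by
      apply mul_left_cancel₀ ha0; rw [h, h1]
    rw [h3, h4]
  · intro h
    have h3 : a = -c := by
      apply mul_right_cancel₀ hd0; linear_combination h + h2
    have h4 : b = -d := by
      apply mul_left_cancel₀ ha0; linear_combination h1 + h
    rw [h3, h4, neg_smul, neg_smul]; abel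

lemma prop5 (hF : ∀ a : F, a ≠ 0 → a ^ 4 = 1) {W : Submodule F V} (hd : finrank F W = 2) {e f : V}
    (he : e ∈ W) (hf : f ∈ W) (qe : Q e = 0) (qf : Q f = 0) (hef : polar Q e f = 1) :
    ∀ x ∈ W, ∀ y ∈ W, Q x = 1 → Q y = 1 → x = y ∨ x = -y ∨ polar Q x y = 0 := by
  intro x hx y hy qx qy
  obtain ⟨s, t, hst, hp, h1, h2⟩ := hyp2_val hd he hf qe qf hef hx hy qx qy
  have hs0 : s ≠ 0 := by rintro rfl; rw [zero_mul] at hst; exact zero_ne_one hst
  have h4 := hF s hs0
  have h6 : (s - 1) * ((s + 1) * (s ^ 2 + 1)) = 0 := by linear_combination h4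
  rcases mul_eq_zero.1 h6 with h | h
  · left; exact h1 (sub_eq_zero.1 h)
  · rcases mul_eq_zero.1 h with h | h
    · right; left; exact h2 (eq_neg_of_add_eq_zero_left h)
    · right; right
      rw [hp]
      have : s * (s + t) = 0 := by linear_combination h + hst
      exact (mul_eq_zero.1 this).resolve_left hs0

lemma prop4 (h2 : (2 : F) = 0) (hF : ∀ a : F, a ≠ 0 → a ^ 3 = 1) {W : Submodule F V} (hd : finrank F W = 2) {e f : V}
    (he : e ∈ W) (hf : f ∈ W) (qe : Q e = 0) (qf : Q f = 0) (hef : polar Q e f = 1) :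
    ∀ x ∈ W, ∀ y ∈ W, Q x = 1 → Q y = 1 → polar Q x y = 0 ∨ polar Q x y = 1 := by
  intro x hx y hy qx qy
  obtain ⟨s, t, hst, hp, -, -⟩ := hyp2_val hd he hf qe qf hef hx hy qx qy
  have hs0 : s ≠ 0 := by rintro rfl; rw [zero_mul] at hst; exact zero_ne_one hst
  have h4 := hF s hs0
  have h6 : (s - 1) * (s ^ 2 + s + 1) = 0 := by linear_combination h4
  rw [hp]
  have h7 : s + t = (s ^ 2 + s) := by
    apply mul_left_cancel₀ hs0
    linear_combination hst - h4
  rw [h7]
  rcases mul_eq_zero.1 h6 with h | h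
  · left; rw [sub_eq_zero.1 h]; linear_combination h2
  · right; linear_combination h - h2

lemma prop2' (h2 : (2 : F) = 0) (hF : ∀ a : F, a ≠ 0 → a = 1) {W : Submodule F V} (hd : finrank F W = 2) {e f : V}
    (he : e ∈ W) (hf : f ∈ W) (qe : Q e = 0) (qf : Q f = 0) (hef : polar Q e f = 1) :
    ∀ x ∈ W, ∀ y ∈ W, Q x = 1 → Q y = 1 → polar Q x y = 0 := by
  intro x hx y hy qx qy
  obtain ⟨s, t, hst, hp, -, -⟩ := hyp2_val hd he hf qe qf hef hx hy qx qy
  have hs0 : s ≠ 0 := by rintro rfl; rw [zero_mul] at hst; exact zero_ne_one hst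
  have ht0 : t ≠ 0 := by rintro rfl; rw [mul_zero] at hst; exact zero_ne_one hst
  rw [hp, hF s hs0, hF t ht0]; linear_combination h2

/-- hyperbolic basis of a four-dimensional subspace of plus type -/
lemma hyp4 {W U : Submodule F V} (hW : NdW Q W) (hd : finrank F W = 4) (hUW : U ≤ W) (hU : ∀ x ∈ U, Q x = 0)
    (hUd : finrank F U = 2) : ∃ e1 ∈ W, ∃ f1 ∈ W, ∃ e2 ∈ W, ∃ f2 ∈ W, Q e1 = 0 ∧ Q f1 = 0 ∧ Q e2 = 0 ∧ Q f2 = 0 ∧
      polar Q e1 f1 = 1 ∧ polar Q e2 f2 = 1 ∧ polar Q e1 e2 = 0 ∧ polar Q e1 f2 = 0 ∧ polar Q f1 e2 = 0 ∧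
      polar Q f1 f2 = 0 ∧ ∀ w ∈ W, ∃ a b c d : F, w = a • e1 + b • f1 + c • e2 + d • f2 := by
  obtain ⟨e1, he1, he10⟩ : ∃ e ∈ U, e ≠ 0 := by
    apply (Submodule.ne_bot_iff U).1
    rintro rfl
    rw [finrank_bot] at hUd
    omega
  have hUp : ∀ x ∈ U, ∀ y ∈ U, polar Q x y = 0 := by
    intro x hx y hy
    rw [polar, hU _ (U.add_mem hx hy), hU x hx, hU y hy]; ring
  obtain ⟨f1, hf1, qf1, p11⟩ := partnerW hW (hUW he1) he10 (hU e1 he1)
  obtain ⟨e2, he2, he20, he2f⟩ := exists_perp (Q := Q) (W := U) (k := 1) ![f1] (by omega)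
  have p21 : polar Q e2 f1 = 0 := he2f 0
  have p12 : polar Q f1 e2 = 0 := by rw [p_comm]; exact p21
  obtain ⟨g, hg, qg, pg⟩ := partnerW hW (hUW he2) he20 (hU e2 he2)
  -- correct `g`
  obtain ⟨f2, hf2⟩ : ∃ f2, f2 = g - polar Q g f1 • e1 - polar Q g e1 • f1 + (polar Q g f1 * polar Q g e1) • e2 :=
    ⟨_, rfl⟩
  have p12' : polar Q f1 e1 = 1 := by rw [p_comm]; exact p11
  have pe : polar Q e2 e1 = 0 := hUp e2 he2 e1 he1
  have pe' : polar Q e1 e2 = 0 := hUp e1 he1 e2 he2
  have pg' : polar Q g e2 = 1 := by rw [p_comm]; exact pg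
  have qe1 := hU e1 he1
  have qe2 := hU e2 he2
  have hf2W : f2 ∈ W := by
    rw [hf2]
    exact W.add_mem (W.sub_mem (W.sub_mem hg (W.smul_mem _ (hUW he1))) (W.smul_mem _ hf1)) (W.smul_mem _ (hUW he2))
  have r1 : polar Q e1 f2 = 0 := by
    rw [hf2, p_add', p_sub', p_sub', p_smul', p_smul', p_smul', p_self, qe1, p11, pe', p_comm Q e1 g]; ring
  have r2 : polar Q f1 f2 = 0 := by
    rw [hf2, p_add', p_sub', p_sub', p_smul', p_smul', p_smul', p_self, qf1, p12', p12, p_comm Q f1 g]; ring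
  have r3 : polar Q e2 f2 = 1 := by
    rw [hf2, p_add', p_sub', p_sub', p_smul', p_smul', p_smul', p_self, qe2, pe, p21, pg]; ring
  have r4 : Q f2 = 0 := by
    rw [hf2]
    simp only [Q_add, Q_sub, Q_smul, p_sub, p_smul, p_smul', p_add, qe1, qf1, qe2, qg, p11, pe', p12, pg']
    ring
  have r1' : polar Q f2 e1 = 0 := by rw [p_comm]; exact r1
  have r2' : polar Q f2 f1 = 0 := by rw [p_comm]; exact r2
  have r3' : polar Q f2 e2 = 1 := by rw [p_comm]; exact r3
  have hli : LinearIndependent F ![e1, f1, e2, f2] := by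
    apply li_of_dual (Q := Q) (y := ![f1, e1, f2, e2]) (d := fun _ => 1) (fun _ => one_ne_zero)
    intro i j
    fin_cases i <;> fin_cases j <;> simp [qe1, qf1, qe2, r4, p11, p12, p21, p12', pe, pe', r1, r2, r3, r1', r2', r3']
  refine ⟨e1, hUW he1, f1, hf1, e2, hUW he2, f2, hf2W, qe1, qf1, qe2, r4, p11, r3, pe', r1, p12, r2, ?_⟩
  intro w hw
  obtain ⟨c, rfl⟩ := mem_comb hli (by intro i; fin_cases i; exacts [hUW he1, hf1, hUW he2, hf2W]) hd hw
  exact ⟨c 0, c 1, c 2, c 3, by rw [Fin.sum_univ_four]; rfl⟩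

end small

end H7.ONonmax
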