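import Mathlib
import Cfsg.Agent.Lib.H7.OAPoint
import Cfsg.Agent.Lib.H7.ONonmax2

/-!
Overgroups in `Om Q` of the normaliser of a quadratic extension acting by similarities
(unitary groups in orthogonal groups).
-/
set_option autoImplicit false

namespace H7.OAUni

open Module QuadraticMap H48.QuadSplit H48.QuadWitt H95.OGeo H7.OA H7.OABridge

variable {F V : Type*} [Field F] [AddCommGroup V] [Module F V]

/-- a quadratic extension acting by similarities -/
structure UJ (Q : QuadraticForm F V) (J : V →ₗ[F] V) (t d : F) : Prop where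
  sq : ∀ v, J (J v) = t • J v - d • v
  adj : ∀ u v, polar Q (J u) v = t * polar Q u v - polar Q u (J v)
  self : ∀ u, polar Q u (J u) = t * Q u
  val : ∀ u, Q (J u) = d * Q u
  ind : ∀ v, v ≠ 0 → ∀ a b : F, a • v + b • J v = 0 → a = 0 ∧ b = 0

/-- `g` normalises the extension -/
def NJ (J : V →ₗ[F] V) (g : V ≃ₗ[F] V) : Prop := ∃ a b : F, ∀ v, g (J v) = a • g v + b • J (g v)

/-- all multiples -/
def PP (Q : QuadraticForm F V) (M : Subgroup (V ≃ₗ[F] V)) (s w : V) : Prop := ∀ a : F, Has Q M s (a • w)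

variable {Q : QuadraticForm F V} {J : V →ₗ[F] V} {t d : F} {M : Subgroup (V ≃ₗ[F] V)}

lemma PP.has {s w : V} (h : PP Q M s w) : Has Q M s w := by simpa using h 1

lemma PP.smul {s w : V} (h : PP Q M s w) (c : F) : PP Q M s (c • w) := by
  intro a; rw [smul_smul]; exact h _

lemma PP.of_smul {s w : V} {c : F} (hc : c ≠ 0) (h : PP Q M s (c • w)) : PP Q M s w := by
  have := h.smul c⁻¹
  rwa [inv_smul_smul₀ hc] at this

lemma PP.add {s w w' : V} (hs : Q s = 0) (h : PP Q M s w) (h' : PP Q M s w') (h1 : polar Q s w = 0)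
    (h2 : polar Q s w' = 0) : PP Q M s (w + w') := by
  intro a
  rw [smul_add]
  exact (h a).mul (h' a) hs (by rw [p_smul', h1, mul_zero]) (by rw [p_smul', h2, mul_zero])

lemma PP.symm {s w : V} (hs : Q s = 0) (hw : Q w = 0) (h : PP Q M s w) : PP Q M w s := by
  intro a
  rw [← has_scale]
  have h1 := h (-a)
  rw [has_swap hs (by rw [Q_smul, hw, mul_zero])] at h1
  have h3 := (has_scale (Q := Q) (M := M) (u := w) (w := -s) (-a)).1 h1
  rw [smul_neg, neg_smul, neg_neg] at h3
  rw [has_scale]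
  exact h3

lemma PP.comm {u w a b : V} (h : PP Q M u w) (hu : Q u = 0) (huw : polar Q u w = 0) (h' : Has Q M a b)
    (hM : M ≤ O Q) (hua : polar Q u a = 0) (hub : polar Q u b = 0) :
    PP Q M u (polar Q w a • b - (polar Q w b + Q b * polar Q w a) • a) := by
  intro c
  have h1 := (h c).comm hu (by rw [p_smul', huw, mul_zero]) h' hM hua hub
  rw [p_smul, p_smul] at h1
  have : c • (polar Q w a • b - (polar Q w b + Q b * polar Q w a) • a) =
      (c * polar Q w a) • b - (c * polar Q w b + Q b * (c * polar Q w a)) • a := by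
    rw [smul_sub, smul_smul, smul_smul]
    congr 2
    ring
  rw [this]
  exact h1

namespace UJ

variable (hJ : UJ Q J t d)
include hJ

lemma sing_pair {s : V} (hs : Q s = 0) : polar Q s (J s) = 0 ∧ Q (J s) = 0 := by
  rw [hJ.self, hJ.val, hs, mul_zero, mul_zero]
  exact ⟨rfl, rfl⟩

/-- the unitary transvection -/
lemma siegel_comm {s : V} (hs : Q s = 0) (a : F) {g : V ≃ₗ[F] V} (hg : ∀ x, g x = sgF Q s (a • J s) x) :
    NJ J g := by
  refine ⟨0, 1, fun v => ?_⟩
  rw [hg, hg, zero_smul, zero_add, one_smul]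
  unfold sgF
  have h1 : Q (a • J s) = 0 := by rw [Q_smul, (hJ.sing_pair hs).2, mul_zero]
  rw [h1, zero_mul, add_zero, zero_mul, add_zero, map_sub, map_add, map_smul, map_smul, map_smul, hJ.sq,
    p_smul', p_smul', hJ.adj v s, hJ.adj v (J s), hJ.sq, p_sub', p_smul', p_smul']
  module

lemma JJ_ne {s : V} (hs : s ≠ 0) : J s ≠ 0 := by
  intro h
  have := hJ.ind s hs 0 1 (by rw [h]; simp)
  exact one_ne_zero this.2

omit hJ in
lemma exists_far [FiniteDimensional F V] (hQ : ND Q) {k : ℕ} (x : Fin k → V) (T : Submodule F V)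
    (hT : finrank F T + k < finrank F V) : ∃ p, (∀ i, polar Q p (x i) = 0) ∧ p ∉ T := by
  set S := Submodule.span F (Set.range x) with hS
  have hfr : finrank F S ≤ k := by
    have := finrank_range_le_card (R := F) x
    rw [Fintype.card_fin] at this
    exact this
  have hd := finrank_orth hQ S
  have hne : ¬ orth Q S ≤ T := by
    intro hle
    have := Submodule.finrank_mono hle
    omega
  obtain ⟨y, hy, hyS⟩ := SetLike.not_le_iff_exists.1 hne
  exact ⟨y, fun i => by rw [p_comm]; exact mem_orth.1 hy _ (Submodule.subset_span ⟨i, rfl⟩), hyS⟩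

end UJ

/-- the `K`-line -/
def KL (J : V →ₗ[F] V) (s : V) : Submodule F V := Submodule.span F {s, J s}

lemma mem_KL {s x : V} : x ∈ KL J s ↔ ∃ a b : F, a • s + b • J s = x := Submodule.mem_span_pair

lemma self_mem_KL (s : V) : s ∈ KL J s := Submodule.subset_span (by simp)
lemma J_mem_KL (s : V) : J s ∈ KL J s := Submodule.subset_span (by simp)

lemma finrank_KL (s : V) : finrank F (KL J s) ≤ 2 := H7.OAPoint.finrank_pair_le s (J s)

lemma KL_J (hJ : UJ Q J t d) {s x : V} (hx : x ∈ KL J s) : J x ∈ KL J s := by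
  obtain ⟨a, b, rfl⟩ := mem_KL.1 hx
  rw [mem_KL]
  refine ⟨-(b * d), a + b * t, ?_⟩
  rw [map_add, map_smul, map_smul, hJ.sq]
  module

lemma finrank_KL_sup [FiniteDimensional F V] (s s' : V) : finrank F (KL J s ⊔ KL J s' : Submodule F V) ≤ 4 := by
  have h1 := Submodule.finrank_add_le_finrank_add_finrank (KL J s) (KL J s')
  have h2 := finrank_KL (J := J) s
  have h3 := finrank_KL (J := J) s'
  omega

/-- if `x ∉ K s` then `s, J s, x` are independent, and also `J x`. -/
lemma ind3 (hJ : UJ Q J t d) {s x : V} (hs : s ≠ 0) (hx : x ∉ KL J s) : LinearIndependent F ![s, J s, x] := by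
  rw [Fintype.linearIndependent_iff]
  intro g hg
  rw [Fin.sum_univ_three] at hg
  change g 0 • s + g 1 • J s + g 2 • x = 0 at hg
  have h2 : g 2 = 0 := by
    by_contra h
    apply hx
    rw [mem_KL]
    refine ⟨-(g 2)⁻¹ * g 0, -(g 2)⁻¹ * g 1, ?_⟩
    have : x = (g 2)⁻¹ • (g 2 • x) := by rw [inv_smul_smul₀ h]
    rw [this]
    have h3 : g 2 • x = -(g 0 • s + g 1 • J s) := by
      rw [eq_neg_iff_add_eq_zero, add_comm]; exact hg
    rw [h3]
    module
  rw [h2, zero_smul, add_zero] at hg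
  obtain ⟨h0, h1⟩ := hJ.ind s hs _ _ hg
  intro i
  fin_cases i
  · exact h0
  · exact h1
  · exact h2

section main
variable [Finite F] [FiniteDimensional F V]
variable (hJ : UJ Q J t d) (hQ : ND Q) (hn : 14 ≤ finrank F V) (hM : M ≤ O Q)
  (hN : ∀ g ∈ Om Q, NJ J g → g ∈ M)
include hJ hQ hn hM hN

omit hM in
lemma base {s : V} (hs : Q s = 0) : PP Q M s (J s) := by
  intro a
  obtain ⟨g, hg, hgx⟩ := full_Om hQ (by omega) hs (a • J s) (by rw [p_smul', (hJ.sing_pair hs).1, mul_zero])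
  exact ⟨g, hN g hg (hJ.siegel_comm hs a hgx), hgx⟩

/-- the basic rule -/
lemma rule {s w z : V} (hs : Q s = 0) (hw : polar Q s w = 0) (h : PP Q M s w) (hz : Q z = 0)
    (h1 : polar Q s z = 0) (h2 : polar Q s (J z) = 0) :
    PP Q M s (polar Q w z • J z - polar Q w (J z) • z) := by
  have h3 := h.comm hs hw (base hJ hQ hn hN hz).has hM h1 h2
  rw [(hJ.sing_pair hz).2, zero_mul, add_zero] at h3
  exact h3

lemma rule' {s w z : V} (hs : Q s = 0) (hw : polar Q s w = 0) (h : PP Q M s w) (hz : Q z = 0)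
    (h1 : polar Q s z = 0) (h2 : polar Q s (J z) = 0) (h3 : polar Q w z = 0) (h4 : polar Q w (J z) ≠ 0) :
    PP Q M s z := by
  have h5 := rule hJ hQ hn hM hN hs hw h hz h1 h2
  rw [h3, zero_smul, zero_sub, ← neg_smul] at h5
  exact h5.of_smul (neg_ne_zero.2 h4)

/-- step two -/
lemma start {s y : V} (hs : Q s = 0) (hs0 : s ≠ 0) (hsy : polar Q s y = 0) (hy : y ∉ KL J s) (h : PP Q M s y) :
    ∃ z, Q z = 0 ∧ polar Q s z = 0 ∧ polar Q s (J z) = 0 ∧ z ∉ KL J s ∧ PP Q M s z := by
  obtain ⟨hsJ, hJs⟩ := hJ.sing_pair hs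
  have hli := ind3 hJ hs0 hy
  -- a vector `p` orthogonal to `K s`, independent of `s, J s, y`
  obtain ⟨p, hp, hpT⟩ := UJ.exists_far hQ ![s, J s] (Submodule.span F (Set.range ![s, J s, y])) (by
    have := finrank_range_le_card (R := F) ![s, J s, y]
    rw [Fintype.card_fin] at this
    have h2 : finrank F (Submodule.span F (Set.range ![s, J s, y])) ≤ 3 := this
    omega)
  have hps : polar Q p s = 0 := hp 0
  have hpJ : polar Q p (J s) = 0 := hp 1
  have hli4 : LinearIndependent F ![p, s, J s, y] := linearIndependent_finCons.2 ⟨hli, hpT⟩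
  obtain ⟨z, hz, hzv⟩ := dual_val hQ (k := 4) (by omega) hli4 ![1, 0, 0, 1] 0
  have z1 : polar Q z p = 1 := hzv 0
  have z2 : polar Q z s = 0 := hzv 1
  have z3 : polar Q z (J s) = 0 := hzv 2
  have z4 : polar Q z y = 1 := hzv 3
  have z2' : polar Q s z = 0 := by rw [p_comm]; exact z2
  have z3' : polar Q s (J z) = 0 := by
    have := hJ.adj s z
    rw [p_comm Q (J s) z, z3, z2'] at this
    linear_combination this
  have hz0 : z ≠ 0 := by rintro rfl; rw [p_zero] at z1; exact zero_ne_one z1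
  have hr := rule hJ hQ hn hM hN hs hsy h hz z2' z3'
  have z4' : polar Q y z = 1 := by rw [p_comm]; exact z4
  rw [z4', one_smul] at hr
  obtain ⟨c, hc⟩ : ∃ c, c = polar Q y (J z) := ⟨_, rfl⟩
  rw [← hc] at hr
  have hzs : z ∉ KL J s := by
    intro h1
    obtain ⟨a, b, rfl⟩ := mem_KL.1 h1
    rw [p_add, p_smul, p_smul, p_comm Q s p, hps, p_comm Q (J s) p, hpJ] at z1
    simp at z1
  obtain ⟨q1, q2⟩ := hJ.sing_pair hz
  refine ⟨J z - c • z, ?_, ?_, ?_, ?_, hr⟩
  · rw [Q_sub, q2, Q_smul, hz, p_smul', p_comm Q (J z) z, q1]; ring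
  · rw [p_sub', z3', p_smul', z2']; ring
  · rw [map_sub, map_smul, hJ.sq, p_sub', p_sub', p_smul', p_smul', p_smul', z3', z2']; ring
  · intro h1
    apply hzs
    -- `J z - c z ∈ K s` implies `z ∈ K s`
    have h2 := KL_J hJ h1
    -- the two vectors `J z - c z` and `J (J z - c z)` span `K z`
    have h3 : J (J z - c • z) = (t - c) • (J z - c • z) + ((t - c) * c - d) • z := by
      rw [map_sub, map_smul, hJ.sq]; module
    rw [h3] at h2
    have h4 : ((t - c) * c - d) • z ∈ KL J s := by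
      have := (KL J s).sub_mem h2 ((KL J s).smul_mem (t - c) h1)
      rwa [add_sub_cancel_left] at this
    have h5 : (t - c) * c - d ≠ 0 := by
      intro h5
      -- then `(J - c)(J - (t - c)) z = 0`
      have h6 : J (J z - c • z) = (t - c) • (J z - c • z) := by rw [h3, h5, zero_smul, add_zero]
      have h7 : J z - c • z ≠ 0 := by
        intro h7
        have h8 := hJ.ind z hz0 (-c) 1 (by rw [one_smul, neg_smul, neg_add_eq_sub]; exact h7)
        exact one_ne_zero h8.2
      have h8 := hJ.ind _ h7 (-(t - c)) 1 (by rw [one_smul, neg_smul, neg_add_eq_sub, h6, sub_self])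
      exact one_ne_zero h8.2
    exact ((KL J s).smul_mem_iff h5).1 h4

omit [Finite F] [FiniteDimensional F V] hQ hM hN in
lemma norm_ne (c : F) : c * c - t * c + d ≠ 0 := by
  intro h
  have : Nontrivial V := Module.nontrivial_of_finrank_pos (R := F) (by omega)
  obtain ⟨v, hv⟩ := exists_ne (0 : V)
  have h7 : J v - (t - c) • v ≠ 0 := by
    intro h7
    have h8 := hJ.ind v hv (-(t - c)) 1 (by rw [one_smul, neg_smul, neg_add_eq_sub]; exact h7)
    exact one_ne_zero h8.2
  have h6 : J (J v - (t - c) • v) = c • (J v - (t - c) • v) := by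
    rw [map_sub, map_smul, hJ.sq]
    have : t • J v - d • v - (t - c) • J v - c • (J v - (t - c) • v) = -(c * c - t * c + d) • v := by module
    rw [← sub_eq_zero, this, h]; simp
  have h8 := hJ.ind _ h7 (-c) 1 (by rw [one_smul, neg_smul, neg_add_eq_sub, h6, sub_self])
  exact one_ne_zero h8.2

omit [Finite F] [FiniteDimensional F V] hQ hM hN in
lemma norm_ne' {p q : F} (h : d * p * p - t * p * q + q * q = 0) : p = 0 ∧ q = 0 := by
  by_cases hp : p = 0
  · subst hp
    refine ⟨rfl, ?_⟩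
    have : q * q = 0 := by linear_combination h
    exact mul_self_eq_zero.1 this
  · exfalso
    apply norm_ne hJ hn (q * p⁻¹)
    have h1 : p * p ≠ 0 := mul_ne_zero hp hp
    apply mul_left_cancel₀ h1
    rw [mul_zero]
    field_simp
    linear_combination h

omit [Finite F] hJ hM hN hn in
lemma exists_hyp' [Finite F] {L : Submodule F V} (hL : finrank F (L ⊓ orth Q L : Submodule F V) + 3 ≤ finrank F (orth Q L)) :
    ∃ e ∈ orth Q L, ∃ e' ∈ orth Q L, Q e = 0 ∧ Q e' = 0 ∧ polar Q e e' = 1 := by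
  set P := orth Q L with hP
  obtain ⟨C, hC⟩ := Submodule.exists_isCompl (Submodule.comap P.subtype L)
  have hdC := Submodule.finrank_add_eq_of_isCompl hC
  have h1 : finrank F (Submodule.comap P.subtype L) ≤ finrank F (L ⊓ P : Submodule F V) := by
    have h2 : (Submodule.comap P.subtype L).map P.subtype ≤ L ⊓ P := by
      rintro _ ⟨x, hx, rfl⟩
      exact ⟨hx, x.2⟩
    have h3 := Submodule.finrank_mono h2
    rwa [Submodule.finrank_map_subtype_eq] at h3
  obtain ⟨x, hxC, hx0, hxQ⟩ := exists_sing (Q.restrict P) (U := C) (by omega)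
  have hxL : (x : V) ∉ L := by
    intro hxL
    apply hx0
    have h4 : x ∈ Submodule.comap P.subtype L ⊓ C := ⟨hxL, hxC⟩
    rw [hC.inf_eq_bot] at h4
    exact (Submodule.mem_bot F).1 h4
  obtain ⟨p, hp, hp'⟩ := sep hQ hxL
  have hpP : p ∈ P := by rw [hP, mem_orth]; exact hp
  have hxQ' : Q (x : V) = 0 := hxQ
  obtain ⟨p', hp'P, e1⟩ : ∃ p' ∈ P, polar Q (x : V) p' = 1 :=
    ⟨(polar Q (x : V) p)⁻¹ • p, P.smul_mem _ hpP, by rw [p_smul', inv_mul_cancel₀ hp']⟩
  refine ⟨x, x.2, p' - Q p' • (x : V), P.sub_mem hp'P (P.smul_mem _ x.2), hxQ', ?_, ?_⟩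
  · rw [Q_sub, Q_smul, p_smul', p_comm Q p', e1, hxQ']; ring
  · rw [p_sub', p_smul', p_self, e1, hxQ']; ring

omit [Finite F] [FiniteDimensional F V] hJ hQ hM hN hn in
lemma corr_of {L : Submodule F V} {e e' : V} (he : e ∈ orth Q L) (he' : e' ∈ orth Q L) (h1 : Q e = 0)
    (h2 : Q e' = 0) (h3 : polar Q e e' = 1) (x : V) (a : F) : ∃ x', Q x' = a ∧ x' - x ∈ orth Q L := by
  set α := polar Q x e with hα
  set β := polar Q x e' with hβ
  refine ⟨x + ((1 - β) • e + (a - Q x + α * β - α) • e'), ?_, ?_⟩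
  · rw [Q_add, Q_add, Q_smul, Q_smul, h1, h2, p_add', p_smul', p_smul', p_smul', p_smul, h3,
      ← hα, ← hβ]
    ring
  · rw [add_sub_cancel_left]
    exact (orth Q L).add_mem ((orth Q L).smul_mem _ he) ((orth Q L).smul_mem _ he')

omit [Finite F] [FiniteDimensional F V] hQ hM hN hn in
lemma orthJ {s x : V} (h1 : polar Q s x = 0) (h2 : polar Q s (J x) = 0) : polar Q (J s) x = 0 ∧
    polar Q (J s) (J x) = 0 := by
  constructor
  · rw [hJ.adj, h1, h2]; ring
  · rw [hJ.adj, hJ.sq, p_sub', p_smul', p_smul', h1, h2]; ring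

/-- two steps between non-orthogonal vectors -/
lemma path2 {s w z : V} (hs : Q s = 0) (hs0 : s ≠ 0) (hw : Q w = 0) (sw : polar Q s w = 0) (sJw : polar Q s (J w) = 0)
    (hz : Q z = 0) (sz : polar Q s z = 0) (sJz : polar Q s (J z) = 0)
    (hwz : ¬ (polar Q w z = 0 ∧ polar Q w (J z) = 0)) (h : PP Q M s w) : PP Q M s z := by
  obtain ⟨p, hp⟩ : ∃ p, p = polar Q w z := ⟨_, rfl⟩
  obtain ⟨q, hq⟩ : ∃ q, q = polar Q w (J z) := ⟨_, rfl⟩
  rw [← hp, ← hq] at hwz
  obtain ⟨hww, hJw⟩ := hJ.sing_pair hw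
  obtain ⟨hzz, hJz⟩ := hJ.sing_pair hz
  obtain ⟨hss, hJs⟩ := hJ.sing_pair hs
  obtain ⟨sw', sJw'⟩ := orthJ hJ sw sJw
  obtain ⟨sz', sJz'⟩ := orthJ hJ sz sJz
  have e1 : polar Q (J w) z = t * p - q := by rw [hJ.adj, ← hp, ← hq]
  have e2 : polar Q (J w) (J z) = d * p := by
    rw [hJ.adj, hJ.sq, p_sub', p_smul', p_smul', ← hp, ← hq]; ring
  have selfw : polar Q w w = 0 := by rw [p_self, hw, mul_zero]
  have selfz : polar Q z z = 0 := by rw [p_self, hz, mul_zero]
  have selfJw : polar Q (J w) (J w) = 0 := by rw [p_self, hJw, mul_zero]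
  have selfJz : polar Q (J z) (J z) = 0 := by rw [p_self, hJz, mul_zero]
  have hww' : polar Q (J w) w = 0 := by rw [p_comm]; exact hww
  have hzz' : polar Q (J z) z = 0 := by rw [p_comm]; exact hzz
  -- coefficients vanish
  have key : ∀ a b c e f g : F, (∀ y ∈ ({w, J w, z, J z} : Set V),
      polar Q (a • s + b • J s + c • w + e • J w + f • z + g • J z) y = 0) → c = 0 ∧ e = 0 ∧ f = 0 ∧ g = 0 := by
    intro a b c e f g hy
    have y1 := hy w (by simp)
    have y2 := hy (J w) (by simp)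
    have y3 := hy z (by simp)
    have y4 := hy (J z) (by simp)
    simp only [p_add, p_smul, sw, sw', selfw, hww', p_comm Q z w, ← hp, p_comm Q (J z) w, ← hq] at y1
    simp only [p_add, p_smul, sJw, sJw', selfJw, hww, p_comm Q z (J w), e1, p_comm Q (J z) (J w), e2] at y2
    simp only [p_add, p_smul, sz, sz', ← hp, e1, selfz, hzz'] at y3
    simp only [p_add, p_smul, sJz, sJz', ← hq, e2, hzz, selfJz] at y4
    have hN0 : d * p * p - t * p * q + q * q ≠ 0 := fun h0 => hwz (norm_ne' hJ hn h0)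
    refine ⟨?_, ?_, ?_, ?_⟩
    · apply (mul_eq_zero.1 (show (d * p * p - t * p * q + q * q) * c = 0 by
        linear_combination d * p * y3 - (t * p - q) * y4)).resolve_left hN0
    · apply (mul_eq_zero.1 (show (d * p * p - t * p * q + q * q) * e = 0 by
        linear_combination p * y4 - q * y3)).resolve_left hN0
    · apply (mul_eq_zero.1 (show (d * p * p - t * p * q + q * q) * f = 0 by
        linear_combination d * p * y1 - q * y2)).resolve_left hN0
    · apply (mul_eq_zero.1 (show (d * p * p - t * p * q + q * q) * g = 0 by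
        linear_combination p * y2 - (t * p - q) * y1)).resolve_left hN0
  have hli : LinearIndependent F ![s, J s, w, J w, z, J z] := by
    rw [Fintype.linearIndependent_iff]
    intro g hg
    rw [Fin.sum_univ_six] at hg
    change g 0 • s + g 1 • J s + g 2 • w + g 3 • J w + g 4 • z + g 5 • J z = 0 at hg
    obtain ⟨k1, k2, k3, k4⟩ := key (g 0) (g 1) (g 2) (g 3) (g 4) (g 5) (fun y _ => by rw [hg, p_zero])
    rw [k1, k2, k3, k4] at hg
    simp only [zero_smul, add_zero] at hg
    obtain ⟨k5, k6⟩ := hJ.ind s hs0 _ _ hg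
    intro i
    fin_cases i
    exacts [k5, k6, k1, k2, k3, k4]
  obtain ⟨L, hL⟩ : ∃ L, L = Submodule.span F (Set.range ![s, J s, w, J w, z, J z]) := ⟨_, rfl⟩
  have hLfr : finrank F L = 6 := by rw [hL, finrank_span_eq_card hli, Fintype.card_fin]
  have hmemL : ∀ i, ![s, J s, w, J w, z, J z] i ∈ L := fun i => by rw [hL]; exact Submodule.subset_span ⟨i, rfl⟩
  have hrad : L ⊓ orth Q L ≤ KL J s := by
    rintro x ⟨hx1, hx2⟩
    have hx1' : x ∈ L := hx1
    rw [hL] at hx1'
    obtain ⟨g, hg⟩ := (Submodule.mem_span_range_iff_exists_fun F).1 hx1'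
    rw [Fin.sum_univ_six] at hg
    change g 0 • s + g 1 • J s + g 2 • w + g 3 • J w + g 4 • z + g 5 • J z = x at hg
    have hx3 : ∀ y ∈ L, polar Q x y = 0 := fun y hy => by rw [p_comm]; exact mem_orth.1 hx2 y hy
    obtain ⟨k1, k2, k3, k4⟩ := key (g 0) (g 1) (g 2) (g 3) (g 4) (g 5) (fun y hy => by
      rw [hg]
      apply hx3
      simp only [Set.mem_insert_iff, Set.mem_singleton_iff] at hy
      rcases hy with rfl | rfl | rfl | rfl
      · exact hmemL 2
      · exact hmemL 3
      · exact hmemL 4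
      · exact hmemL 5)
    rw [k1, k2, k3, k4] at hg
    simp only [zero_smul, add_zero] at hg
    exact mem_KL.2 ⟨_, _, hg⟩
  have hLo := finrank_orth hQ L
  have hr2 : finrank F (L ⊓ orth Q L : Submodule F V) ≤ 2 := (Submodule.finrank_mono hrad).trans (finrank_KL s)
  obtain ⟨e, he, e', he', q1, q2, q3⟩ := exists_hyp' hQ (L := L) (by omega)
  obtain ⟨u, hu⟩ := dual hQ hli ![0, 0, 0, 1, 0, 1]
  obtain ⟨w1, hw1, hw1'⟩ := corr_of he he' q1 q2 q3 u 0
  have hval : ∀ i, polar Q w1 (![s, J s, w, J w, z, J z] i) = ![0, 0, 0, 1, 0, 1] i := by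
    intro i
    rw [← hu i]
    have h3 := mem_orth.1 hw1' _ (hmemL i)
    rw [p_sub', sub_eq_zero] at h3
    rw [p_comm, h3, p_comm]
  have v0 : polar Q w1 s = 0 := hval 0
  have v1 : polar Q w1 (J s) = 0 := hval 1
  have v2 : polar Q w1 w = 0 := hval 2
  have v3 : polar Q w1 (J w) = 1 := hval 3
  have v4 : polar Q w1 z = 0 := hval 4
  have v5 : polar Q w1 (J z) = 1 := hval 5
  have sw1 : polar Q s w1 = 0 := by rw [p_comm]; exact v0
  have sJw1 : polar Q s (J w1) = 0 := by
    have := hJ.adj s w1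
    rw [p_comm Q (J s) w1, v1, sw1] at this
    linear_combination this
  have k1 : PP Q M s w1 := by
    refine rule' hJ hQ hn hM hN hs sw h hw1 sw1 sJw1 (by rw [p_comm]; exact v2) ?_
    have := hJ.adj w w1
    rw [p_comm Q (J w) w1, v3, p_comm Q w w1, v2] at this
    intro h0
    rw [h0] at this
    exact one_ne_zero (this.trans (by ring))
  exact rule' hJ hQ hn hM hN hs sw1 k1 hz sz sJz v4 (by rw [v5]; exact one_ne_zero)

lemma trivial_KL {s z : V} (hs : Q s = 0) (hz : z ∈ KL J s) : PP Q M s z := by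
  obtain ⟨a, b, rfl⟩ := mem_KL.1 hz
  intro c
  have h1 : c • (a • s + b • J s) = (c * b) • J s + (c * a) • s := by module
  rw [h1, has_add_u hs (by rw [p_smul', (hJ.sing_pair hs).1, mul_zero])]
  exact base hJ hQ hn hN hs _

lemma step3 {s w z : V} (hs : Q s = 0) (hs0 : s ≠ 0) (hw : Q w = 0) (sw : polar Q s w = 0) (sJw : polar Q s (J w) = 0)
    (hwK : w ∉ KL J s) (h : PP Q M s w) (hz : Q z = 0) (sz : polar Q s z = 0) (sJz : polar Q s (J z) = 0) :
    PP Q M s z := by
  by_cases hzK : z ∈ KL J s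
  · exact trivial_KL hJ hQ hn hM hN hs hzK
  have hli := ind3 hJ hs0 hwK
  obtain ⟨z', hz', v0, v1, v2, v3⟩ : ∃ z', Q z' = 0 ∧ polar Q z' s = 0 ∧ polar Q z' (J s) = 0 ∧
      polar Q z' w ≠ 0 ∧ polar Q z' z ≠ 0 := by
    by_cases h3 : z ∈ Submodule.span F (Set.range ![s, J s, w])
    · obtain ⟨g, hg⟩ := (Submodule.mem_span_range_iff_exists_fun F).1 h3
      rw [Fin.sum_univ_three] at hg
      change g 0 • s + g 1 • J s + g 2 • w = z at hg
      obtain ⟨z', hz', hv⟩ := dual_val hQ (k := 3) (by omega) hli ![0, 0, 1] 0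
      have v0 : polar Q z' s = 0 := hv 0
      have v1 : polar Q z' (J s) = 0 := hv 1
      have v2 : polar Q z' w = 1 := hv 2
      refine ⟨z', hz', v0, v1, by rw [v2]; exact one_ne_zero, ?_⟩
      rw [← hg, p_add', p_add', p_smul', p_smul', p_smul', v0, v1, v2]
      intro h0
      apply hzK
      have h1 : g 2 = 0 := by linear_combination h0
      rw [h1, zero_smul, add_zero] at hg
      exact mem_KL.2 ⟨_, _, hg⟩
    · have hli4 : LinearIndependent F ![z, s, J s, w] := linearIndependent_finCons.2 ⟨hli, h3⟩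
      obtain ⟨z', hz', hv⟩ := dual_val hQ (k := 4) (by omega) hli4 ![1, 0, 0, 1] 0
      have v3 : polar Q z' z = 1 := hv 0
      have v0 : polar Q z' s = 0 := hv 1
      have v1 : polar Q z' (J s) = 0 := hv 2
      have v2 : polar Q z' w = 1 := hv 3
      exact ⟨z', hz', v0, v1, by rw [v2]; exact one_ne_zero, by rw [v3]; exact one_ne_zero⟩
  have sz' : polar Q s z' = 0 := by rw [p_comm]; exact v0
  have sJz' : polar Q s (J z') = 0 := by
    have := hJ.adj s z'
    rw [p_comm Q (J s) z', v1, sz'] at this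
    linear_combination this
  have k1 := path2 hJ hQ hn hM hN hs hs0 hw sw sJw hz' sz' sJz' (fun h => v2 (by rw [p_comm]; exact h.1)) h
  exact path2 hJ hQ hn hM hN hs hs0 hz' sz' sJz' hz sz sJz (fun h => v3 h.1) k1

/-- all isotropic pairs -/
lemma step4 {s0 z0 : V} (hs0 : Q s0 = 0) (hs00 : s0 ≠ 0) (hz0 : Q z0 = 0) (sz0 : polar Q s0 z0 = 0)
    (sJz0 : polar Q s0 (J z0) = 0) (hzK : z0 ∉ KL J s0) (h : PP Q M s0 z0)
    {s z : V} (hs : Q s = 0) (hz : Q z = 0) (sz : polar Q s z = 0) (sJz : polar Q s (J z) = 0) :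
    PP Q M s z := by
  by_cases hs00' : s = 0
  · subst hs00'; intro a; exact has_zero'
  obtain ⟨s1, hs1, hv, hT⟩ := perp_val hQ (k := 4) (by omega) ![s0, J s0, s, J s]
    (T := KL J s0 ⊔ KL J s) (by have := finrank_KL_sup (J := J) (F := F) s0 s; omega) 0
  have v0 : polar Q s1 s0 = 0 := hv 0
  have v1 : polar Q s1 (J s0) = 0 := hv 1
  have v2 : polar Q s1 s = 0 := hv 2
  have v3 : polar Q s1 (J s) = 0 := hv 3
  have hT0 : s1 ∉ KL J s0 := fun h => hT (Submodule.mem_sup_left h)
  have hT1 : s1 ∉ KL J s := fun h => hT (Submodule.mem_sup_right h)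
  have hs10 : s1 ≠ 0 := by rintro rfl; exact hT0 (Submodule.zero_mem _)
  have v0' : polar Q s0 s1 = 0 := by rw [p_comm]; exact v0
  have v2' : polar Q s s1 = 0 := by rw [p_comm]; exact v2
  have hsym : ∀ {a b : V}, b ∉ KL J a → a ≠ 0 → a ∉ KL J b := by
    intro a b hb ha h1
    apply hb
    obtain ⟨x, y, hxy⟩ := mem_KL.1 h1
    have h2 := KL_J hJ (self_mem_KL (J := J) a)
    -- `a = x b + y J b`
    have h3 : J a = x • J b + y • (t • J b - d • b) := by rw [← hxy, map_add, map_smul, map_smul, hJ.sq]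
    have hN0 : x * x + t * x * y + d * y * y ≠ 0 := by
      intro h0
      have := norm_ne' hJ hn (p := y) (q := -x) (by linear_combination h0)
      apply ha
      rw [← hxy, this.1, neg_eq_zero.1 this.2]; simp
    have h4 : (x * x + t * x * y + d * y * y) • b = (x + t * y) • a - y • J a := by
      rw [h3, ← hxy]; module
    have h5 : (x * x + t * x * y + d * y * y) • b ∈ KL J a := by
      rw [h4]
      exact (KL J a).sub_mem ((KL J a).smul_mem _ (self_mem_KL a)) ((KL J a).smul_mem _ h2)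
    exact ((KL J a).smul_mem_iff hN0).1 h5
  have k1 : PP Q M s0 s1 := step3 hJ hQ hn hM hN hs0 hs00 hz0 sz0 sJz0 hzK h hs1 v0' (by
    have := hJ.adj s0 s1
    rw [p_comm Q (J s0) s1, v1, v0'] at this
    linear_combination this)
  have k2 : PP Q M s1 s0 := k1.symm hs0 hs1
  have s1Js0 : polar Q s1 (J s0) = 0 := v1
  have k3 : PP Q M s1 s := step3 hJ hQ hn hM hN hs1 hs10 hs0 v0 v1 (hsym hT0 hs00) k2 hs v2 v3
  have k4 : PP Q M s s1 := k3.symm hs1 hs
  exact step3 hJ hQ hn hM hN hs hs00' hs1 v2' (by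
    have := hJ.adj s s1
    rw [p_comm Q (J s) s1, v3, v2'] at this
    linear_combination this) hT1 k4 hz sz sJz

/-- all orthogonal singular pairs -/
lemma step5 {s0 z0 : V} (hs0 : Q s0 = 0) (hs00 : s0 ≠ 0) (hz0 : Q z0 = 0) (sz0 : polar Q s0 z0 = 0)
    (sJz0 : polar Q s0 (J z0) = 0) (hzK : z0 ∉ KL J s0) (h : PP Q M s0 z0)
    {s a : V} (hs : Q s = 0) (ha : Q a = 0) (sa : polar Q s a = 0) : PP Q M s a := by
  have all : ∀ {s z : V}, Q s = 0 → Q z = 0 → polar Q s z = 0 → polar Q s (J z) = 0 → PP Q M s z :=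
    fun h1 h2 h3 h4 => step4 hJ hQ hn hM hN hs0 hs00 hz0 sz0 sJz0 hzK h h1 h2 h3 h4
  by_cases sJa : polar Q s (J a) = 0
  · exact all hs ha sa sJa
  have hs00' : s ≠ 0 := by rintro rfl; rw [p_zero] at sJa; exact sJa rfl
  obtain ⟨b, hb, hv, hT⟩ := perp_val hQ (k := 3) (by omega) ![a, J a, s] (T := Submodule.span F (Set.range ![s, J s, a]))
    (by
      have := finrank_range_le_card (R := F) ![s, J s, a]
      rw [Fintype.card_fin] at this
      have h2 : finrank F (Submodule.span F (Set.range ![s, J s, a])) ≤ 3 := this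
      omega) 0
  have b0 : polar Q b a = 0 := hv 0
  have b1 : polar Q b (J a) = 0 := hv 1
  have b2 : polar Q b s = 0 := hv 2
  have haK : a ∉ KL J s := by
    intro h1
    obtain ⟨x, y, hxy⟩ := mem_KL.1 h1
    apply sJa
    have h2 := (hJ.sing_pair hs)
    rw [← hxy, map_add, map_smul, map_smul, hJ.sq, p_add', p_smul', p_smul', p_sub', p_smul', p_smul', h2.1, p_self, hs]
    ring
  have hli : LinearIndependent F ![b, s, J s, a] := linearIndependent_finCons.2 ⟨ind3 hJ hs00' haK, hT⟩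
  obtain ⟨w, hw, hwv⟩ := dual_val hQ (k := 4) (by omega) hli ![1, 0, 0, 0] 0
  have w0 : polar Q w b = 1 := hwv 0
  have w1 : polar Q w s = 0 := hwv 1
  have w2 : polar Q w (J s) = 0 := hwv 2
  have w3 : polar Q w a = 0 := hwv 3
  have sw : polar Q s w = 0 := by rw [p_comm]; exact w1
  have k1 : PP Q M s w := all hs hw sw (by
    have := hJ.adj s w
    rw [p_comm Q (J s) w, w2, sw] at this
    linear_combination this)
  have k2 : PP Q M a b := all ha hb (by rw [p_comm]; exact b0) (by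
    have := hJ.adj a b
    rw [p_comm Q (J a) b, b1, p_comm Q a b, b0] at this
    linear_combination this)
  have k3 := k1.comm hs sw k2.has hM sa (by rw [p_comm]; exact b2)
  rw [w3, zero_smul, w0, mul_zero, add_zero, one_smul, zero_sub, ← neg_one_smul F a] at k3
  exact k3.of_smul (neg_ne_zero.2 one_ne_zero)

theorem om_le {s0 z0 : V} (hs0 : Q s0 = 0) (hs00 : s0 ≠ 0) (hz0 : Q z0 = 0) (sz0 : polar Q s0 z0 = 0)
    (sJz0 : polar Q s0 (J z0) = 0) (hzK : z0 ∉ KL J s0) (h : PP Q M s0 z0) : Om Q ≤ M := by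
  have full : ∀ s, Q s = 0 → Full Q M s := by
    intro s hs w hw
    obtain ⟨S, hS⟩ : ∃ S : Submodule F V, S = Submodule.span F {z | Q z = 0 ∧ polar Q z s = 0} := ⟨_, rfl⟩
    have hwS : w ∈ S := span_val hQ (by omega) s S 0 (fun z h1 h2 => by rw [hS]; exact Submodule.subset_span ⟨h1, h2⟩)
      (by rw [p_comm]; exact hw)
    rw [hS] at hwS
    have key : ∀ x ∈ Submodule.span F {z | Q z = 0 ∧ polar Q z s = 0}, polar Q s x = 0 ∧ PP Q M s x := by
      intro x hx
      induction hx using Submodule.span_induction with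
      | mem x hx =>
        have h2 : polar Q s x = 0 := by rw [p_comm]; exact hx.2
        exact ⟨h2, step5 hJ hQ hn hM hN hs0 hs00 hz0 sz0 sJz0 hzK h hs hx.1 h2⟩
      | zero => exact ⟨p_zero' Q _, fun a => by rw [smul_zero]; exact has_zero⟩
      | add x y _ _ hx hy => exact ⟨by rw [p_add', hx.1, hy.1, add_zero], hx.2.add hs hy.2 hx.1 hy.1⟩
      | smul c x _ hx => exact ⟨by rw [p_smul', hx.1, mul_zero], hx.2.smul c⟩
    exact (key w hwS).2.has
  obtain ⟨v, hv, hsv⟩ := exists_partner hQ hs00 hs0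
  exact le_of_full hQ (by omega) hs0 hv (by rw [hsv]; exact one_ne_zero) (full _ hs0) (full _ hv)

omit [Finite F] [FiniteDimensional F V] hQ hM hN in
lemma KL_swap {a b : V} (hb : b ∉ KL J a) (ha : a ≠ 0) : a ∉ KL J b := by
  intro h1
  apply hb
  obtain ⟨x, y, hxy⟩ := mem_KL.1 h1
  have h2 := KL_J hJ (self_mem_KL (J := J) a)
  have h3 : J a = x • J b + y • (t • J b - d • b) := by rw [← hxy, map_add, map_smul, map_smul, hJ.sq]
  have hN0 : x * x + t * x * y + d * y * y ≠ 0 := by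
    intro h0
    have := norm_ne' hJ hn (p := y) (q := -x) (by linear_combination h0)
    apply ha
    rw [← hxy, this.1, neg_eq_zero.1 this.2]; simp
  have h4 : (x * x + t * x * y + d * y * y) • b = (x + t * y) • a - y • J a := by
    rw [h3, ← hxy]; module
  have h5 : (x * x + t * x * y + d * y * y) • b ∈ KL J a := by
    rw [h4]
    exact (KL J a).sub_mem ((KL J a).smul_mem _ (self_mem_KL a)) ((KL J a).smul_mem _ h2)
  exact ((KL J a).smul_mem_iff hN0).1 h5

omit [Finite F] [FiniteDimensional F V] hQ hM hN in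
lemma ind4 {s x : V} (hs : s ≠ 0) (hx : x ∉ KL J s) {a b c e : F}
    (h : a • s + b • J s + c • x + e • J x = 0) : a = 0 ∧ b = 0 ∧ c = 0 ∧ e = 0 := by
  have hce : c = 0 ∧ e = 0 := by
    by_contra hcon
    have hN0 : c * c + t * c * e + d * e * e ≠ 0 := by
      intro h0
      have := norm_ne' hJ hn (p := e) (q := -c) (by linear_combination h0)
      exact hcon ⟨neg_eq_zero.1 this.2, this.1⟩
    have hy : c • x + e • J x ∈ KL J s := by
      rw [mem_KL]
      refine ⟨-a, -b, ?_⟩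
      rw [← sub_eq_zero]
      have : -a • s + -b • J s - (c • x + e • J x) = -(a • s + b • J s + c • x + e • J x) := by module
      rw [this, h, neg_zero]
    have hy2 := KL_J hJ hy
    rw [map_add, map_smul, map_smul, hJ.sq] at hy2
    have h4 : (c * c + t * c * e + d * e * e) • x = (c + t * e) • (c • x + e • J x) -
        e • (c • J x + e • (t • J x - d • x)) := by module
    apply hx
    refine ((KL J s).smul_mem_iff hN0).1 ?_
    rw [h4]
    exact (KL J s).sub_mem ((KL J s).smul_mem _ hy) ((KL J s).smul_mem _ hy2)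
  rw [hce.1, hce.2, zero_smul, zero_smul, add_zero, add_zero] at h
  obtain ⟨h1, h2⟩ := hJ.ind s hs _ _ h
  exact ⟨h1, h2, hce.1, hce.2⟩

theorem maximal {g : V ≃ₗ[F] V} (hgM : g ∈ M) (hg : ¬ NJ J g) : Om Q ≤ M := by
  have hgO := hM hgM
  have hP : ∀ s, Q s = 0 → PP Q M s (g (J (g⁻¹ s))) := by
    intro s hs a
    have hs' : Q (g⁻¹ s) = 0 := by rw [mem_O.1 ((O Q).inv_mem hgO), hs]
    have h1 := (base hJ hQ hn hN hs' a).conj hgM hgO
    rwa [apply_inv_apply, map_smul] at h1
  by_cases hA : ∀ s, Q s = 0 → g (J (g⁻¹ s)) ∈ KL J s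
  · exfalso
    apply hg
    obtain ⟨s1, -, hs10, hs1⟩ := exists_sing Q (U := ⊤) (by rw [finrank_top]; omega)
    obtain ⟨a, b, hab⟩ := mem_KL.1 (hA s1 hs1)
    have key : ∀ s, Q s = 0 → g (J (g⁻¹ s)) = a • s + b • J s := by
      intro s hs
      by_cases hs0 : s = 0
      · subst hs0; simp
      obtain ⟨s3, hs3, hv, hT⟩ := perp_val hQ (k := 2) (by omega) ![s1, s] (T := KL J s1 ⊔ KL J s)
        (by have := finrank_KL_sup (J := J) (F := F) s1 s; omega) 0
      have v0 : polar Q s3 s1 = 0 := hv 0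
      have v1 : polar Q s3 s = 0 := hv 1
      have hT0 : s3 ∉ KL J s1 := fun h => hT (Submodule.mem_sup_left h)
      have hT1 : s3 ∉ KL J s := fun h => hT (Submodule.mem_sup_right h)
      obtain ⟨a3, b3, h3⟩ := mem_KL.1 (hA s3 hs3)
      obtain ⟨as, bs, h4⟩ := mem_KL.1 (hA s hs)
      have two : ∀ {r : V} {ar br : F}, r ≠ 0 → Q r = 0 → polar Q s3 r = 0 → s3 ∉ KL J r →
          ar • r + br • J r = g (J (g⁻¹ r)) → ar = a3 ∧ br = b3 := by
        intro r ar br hr0 hr h3r hTr h5
        have hsum : Q (r + s3) = 0 := by rw [Q_add, hr, hs3, p_comm, h3r]; ring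
        obtain ⟨x, y, hxy⟩ := mem_KL.1 (hA _ hsum)
        have e1 : g (J (g⁻¹ (r + s3))) = g (J (g⁻¹ r)) + g (J (g⁻¹ s3)) := by
          rw [map_add, map_add, map_add]
        rw [e1, ← h5, ← h3] at hxy
        have e2 : (ar - x) • r + (br - y) • J r + (a3 - x) • s3 + (b3 - y) • J s3 = 0 := by
          have : (ar - x) • r + (br - y) • J r + (a3 - x) • s3 + (b3 - y) • J s3 =
              (ar • r + br • J r + (a3 • s3 + b3 • J s3)) - (x • (r + s3) + y • J (r + s3)) := by
            rw [map_add]; module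
          rw [this, hxy, sub_self]
        obtain ⟨k1, k2, k3, k4⟩ := ind4 hJ hn hr0 hTr e2
        exact ⟨(sub_eq_zero.1 k1).trans (sub_eq_zero.1 k3).symm, (sub_eq_zero.1 k2).trans (sub_eq_zero.1 k4).symm⟩
      obtain ⟨k1, k2⟩ := two hs10 hs1 v0 hT0 hab
      obtain ⟨k3, k4⟩ := two hs0 hs v1 hT1 h4
      rw [← h4, k3, k4, k1, k2]
    -- all vectors
    refine ⟨a, b, fun v => ?_⟩
    obtain ⟨S, hS⟩ : ∃ S : Submodule F V, S = LinearMap.ker ((g : V →ₗ[F] V) ∘ₗ J ∘ₗ (g⁻¹ : V ≃ₗ[F] V).toLinearMap -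
        (a • LinearMap.id + b • J)) := ⟨_, rfl⟩
    have hmem : ∀ x, x ∈ S ↔ g (J (g⁻¹ x)) = a • x + b • J x := by
      intro x
      rw [hS, LinearMap.mem_ker, LinearMap.sub_apply, sub_eq_zero]
      rfl
    have h5 : g v ∈ S := span_val hQ (by omega) 0 S 0 (fun z h1 _ => (hmem z).2 (key z h1)) (p_zero' Q _)
    have h6 := (hmem _).1 h5
    rwa [inv_apply_apply] at h6
  · push Not at hA
    obtain ⟨s, hs, hsK⟩ := hA
    have hs0 : s ≠ 0 := by
      rintro rfl
      apply hsK
      rw [map_zero, map_zero, map_zero]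
      exact Submodule.zero_mem _
    have hsy : polar Q s (g (J (g⁻¹ s))) = 0 := by
      have h1 := O_polar hgO (g⁻¹ s) (J (g⁻¹ s))
      rw [apply_inv_apply] at h1
      rw [h1, hJ.self, mem_O.1 ((O Q).inv_mem hgO), hs, mul_zero]
    obtain ⟨z, hz, sz, sJz, hzK, hPz⟩ := start hJ hQ hn hM hN hs hs0 hsy hsK (hP s hs)
    exact om_le hJ hQ hn hM hN hs hs0 hz sz sJz hzK hPz

omit hM hN in
theorem exists_not : ∃ g ∈ Om Q, ¬ NJ J g := by
  have : Nontrivial V := Module.nontrivial_of_finrank_pos (R := F) (by omega)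
  obtain ⟨v, hv⟩ := exists_ne (0 : V)
  have hli : LinearIndependent F ![v, J v] := by
    rw [LinearIndependent.pair_iff]
    intro a b hab
    exact hJ.ind v hv a b hab
  obtain ⟨u, hu, huv⟩ := dual_val hQ (k := 2) (by omega) hli ![0, 1] 0
  have u1 : polar Q u v = 0 := huv 0
  have u2 : polar Q u (J v) = 1 := huv 1
  obtain ⟨w, hw, hwu, hwT⟩ := perp_val hQ (k := 2) (by omega) ![u, v]
    (T := Submodule.span F (Set.range ![u, v, J v])) (by
      have := finrank_range_le_card (R := F) ![u, v, J v]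
      rw [Fintype.card_fin] at this
      have h2 : finrank F (Submodule.span F (Set.range ![u, v, J v])) ≤ 3 := this
      omega) 0
  have w1 : polar Q w u = 0 := hwu 0
  have w2 : polar Q w v = 0 := hwu 1
  obtain ⟨g, hg, hgx⟩ := full_Om hQ (by omega) hu w (by rw [p_comm]; exact w1)
  have g1 : g v = v := by
    rw [hgx, sgF, p_comm Q v u, u1, p_comm Q v w, w2]; simp
  have g2 : g (J v) = J v + w - polar Q (J v) w • u := by
    rw [hgx, sgF, p_comm Q (J v) u, u2, hw]; simp
  refine ⟨g, hg, ?_⟩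
  rintro ⟨a, b, h⟩
  have h1 := h v
  rw [g1, g2] at h1
  apply hwT
  have h2 : w = polar Q (J v) w • u + a • v + (b - 1) • J v := by
    have : w = (J v + w - polar Q (J v) w • u) - J v + polar Q (J v) w • u := by abel
    rw [this, h1]
    have h3 : polar Q (J v) (a • v + b • J v - J v + polar Q (J v) w • u) = polar Q (J v) w := by
      rw [← h1]
      congr 1
      abel
    rw [h3]
    module
  have hm : ∀ i, ![u, v, J v] i ∈ Submodule.span F (Set.range ![u, v, J v]) :=
    fun i => Submodule.subset_span ⟨i, rfl⟩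
  rw [h2]
  exact Submodule.add_mem _ (Submodule.add_mem _ (Submodule.smul_mem _ _ (hm 0)) (Submodule.smul_mem _ _ (hm 1)))
    (Submodule.smul_mem _ _ (hm 2))

end main

end H7.OAUni
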