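import Mathlib
import Cfsg.Prelude.Def_GeometricClasses
import Cfsg.Agent.Lib.H7.OAUni

/-!
Quadratic subfields of the matrix algebra acting by similarities of a quadratic form.
-/
set_option autoImplicit false

namespace H7.OAUni

open Module QuadraticMap H48.QuadSplit H95.OGeo H7.OA H7.OABridge Cfsg Cfsg.Geo
open scoped Matrix MatrixGroups

variable {ι : Type} [Fintype ι] [DecidableEq ι] {F : Type*} [Field F]

/-- a generator of a quadratic field subalgebra -/
theorem exists_gen [Nonempty ι] {K : Subalgebra F (Matrix ι ι F)} (hK : IsFieldSubalgebra 2 K) :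
    ∃ W ∈ K, (∀ k ∈ K, ∃ a b : F, k = a • 1 + b • W) ∧ (∀ a b : F, a • (1 : Matrix ι ι F) + b • W = 0 → a = 0 ∧ b = 0) ∧
      (∀ v : ι → F, v ≠ 0 → ∀ a b : F, a • v + b • (W *ᵥ v) = 0 → a = 0 ∧ b = 0) := by
  have h1K : (1 : Matrix ι ι F) ∈ K := K.one_mem
  have hex : ∃ W ∈ K, W ∉ Submodule.span F {(1 : Matrix ι ι F)} := by
    by_contra hcon
    push Not at hcon
    have h1 : Subalgebra.toSubmodule K ≤ Submodule.span F {(1 : Matrix ι ι F)} := fun x hx => hcon x hx
    have h2 := Submodule.finrank_mono h1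
    have h3 := finrank_span_le_card (R := F) ({(1 : Matrix ι ι F)} : Set (Matrix ι ι F))
    simp at h3
    have h4 : finrank F (Subalgebra.toSubmodule K) = 2 := hK.finrank_eq
    omega
  obtain ⟨W, hW, hWn⟩ := hex
  have hli : ∀ a b : F, a • (1 : Matrix ι ι F) + b • W = 0 → a = 0 ∧ b = 0 := by
    intro a b h
    have hb : b = 0 := by
      by_contra hb
      apply hWn
      rw [Submodule.mem_span_singleton]
      refine ⟨-b⁻¹ * a, ?_⟩
      have h5 : W = b⁻¹ • (b • W) := by rw [inv_smul_smul₀ hb]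
      have h6 : b • W = -(a • (1 : Matrix ι ι F)) := by rw [eq_neg_iff_add_eq_zero, add_comm]; exact h
      rw [h5, h6]
      module
    rw [hb, zero_smul, add_zero] at h
    refine ⟨?_, hb⟩
    rcases smul_eq_zero.1 h with h | h
    · exact h
    · exact absurd h one_ne_zero
  refine ⟨W, hW, ?_, hli, ?_⟩
  · intro k hk
    have hli2 : LinearIndependent F ![(1 : Matrix ι ι F), W] := by
      rw [LinearIndependent.pair_iff]
      exact hli
    have h1 : Submodule.span F (Set.range ![(1 : Matrix ι ι F), W]) ≤ Subalgebra.toSubmodule K := by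
      rw [Submodule.span_le]; rintro _ ⟨i, rfl⟩
      fin_cases i
      · exact h1K
      · exact hW
    have h2 : Submodule.span F (Set.range ![(1 : Matrix ι ι F), W]) = Subalgebra.toSubmodule K := by
      apply Submodule.eq_of_le_of_finrank_eq h1
      rw [finrank_span_eq_card hli2, Fintype.card_fin]
      exact hK.finrank_eq.symm
    have hk' : k ∈ Subalgebra.toSubmodule K := hk
    rw [← h2] at hk'
    obtain ⟨g, hg⟩ := (Submodule.mem_span_range_iff_exists_fun F).1 hk'
    rw [Fin.sum_univ_two] at hg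
    exact ⟨g 0, g 1, hg.symm⟩
  · intro v hv a b h
    by_contra hcon
    have hne : a • (1 : Matrix ι ι F) + b • W ≠ 0 := fun h0 => hcon (hli a b h0)
    obtain ⟨y, hy, hy1⟩ := hK.inv _ (K.add_mem (K.smul_mem h1K a) (K.smul_mem hW b)) hne
    have h3 : (a • (1 : Matrix ι ι F) + b • W) *ᵥ v = 0 := by
      rw [Matrix.add_mulVec, Matrix.smul_mulVec, Matrix.smul_mulVec, Matrix.one_mulVec]
      exact h
    have h4 : y * (a • (1 : Matrix ι ι F) + b • W) = 1 := by
      rw [hK.comm y hy _ (K.add_mem (K.smul_mem h1K a) (K.smul_mem hW b))]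
      exact hy1
    apply hv
    rw [← Matrix.one_mulVec v, ← h4, ← Matrix.mulVec_mulVec, h3, Matrix.mulVec_zero]

theorem data_of [Nonempty ι] {Q : QuadraticForm F (ι → F)} (hQ : ND Q) {K : Subalgebra F (Matrix ι ι F)}
    (hK : IsFieldSubalgebra 2 K) (hac : IsAdjointClosedFor (polar Q) K) (hnsa : ¬ IsSelfAdjointFor (polar Q) K)
    (hsc : ∀ k ∈ K, ∃ c : F, ∀ v : (ι → F), Q (k *ᵥ v) = c * Q v) :
    ∃ W ∈ K, ∃ t d : F, (∀ k ∈ K, ∃ a b : F, k = a • 1 + b • W) ∧
      (∀ a b : F, a • (1 : Matrix ι ι F) + b • W = 0 → a = 0 ∧ b = 0) ∧ UJ Q (Matrix.toLin' W) t d := by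
  obtain ⟨W, hW, hgen, hli, hind⟩ := exists_gen hK
  obtain ⟨W', hW', hadj⟩ := hac W hW
  obtain ⟨a, b, rfl⟩ := hgen W' hW'
  obtain ⟨c, hc⟩ := hsc W hW
  obtain ⟨c', hc'⟩ := hsc (1 + W) (K.add_mem K.one_mem hW)
  have e1 : ∀ u v, polar Q (W *ᵥ u) v = a * polar Q u v + b * polar Q u (W *ᵥ v) := by
    intro u v
    rw [hadj, Matrix.add_mulVec, Matrix.smul_mulVec, Matrix.smul_mulVec, Matrix.one_mulVec, p_add', p_smul', p_smul']
  have e2 : ∀ u v, polar Q u (W *ᵥ v) = a * polar Q u v + b * polar Q (W *ᵥ u) v := by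
    intro u v
    rw [p_comm, e1, p_comm Q v u, p_comm Q v]
  have hnt : ∃ v : ι → F, v ≠ 0 := ⟨fun _ => 1, fun h => by
    obtain ⟨i⟩ := ‹Nonempty ι›
    exact one_ne_zero (congrFun h i)⟩
  obtain ⟨v0, hv0⟩ := hnt
  -- a matrix identity from an identity of forms
  have ext : ∀ x y : F, (∀ u v, x * polar Q (W *ᵥ u) v + y * polar Q u v = 0) → x = 0 ∧ y = 0 := by
    intro x y h
    have h1 : y • v0 + x • (W *ᵥ v0) = 0 := by
      apply hQ
      intro v
      rw [p_add, p_smul, p_smul, add_comm]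
      exact h v0 v
    exact (hind v0 hv0 _ _ h1).symm
  obtain ⟨hb, ha⟩ := ext (1 - b * b) (-(a * (1 + b))) (fun u v => by
    have := e1 u v
    rw [e2 u v] at this
    linear_combination this)
  have ha' : a * (1 + b) = 0 := neg_eq_zero.1 ha
  have hb1 : b = -1 := by
    by_contra hne
    have h1 : (1 - b) * (1 + b) = 0 := by linear_combination hb
    have h2 : 1 + b ≠ 0 := fun h0 => hne (by linear_combination h0)
    have h3 : b = 1 := by
      have := (mul_eq_zero.1 h1).resolve_right h2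
      linear_combination -this
    have h4 : a = 0 := (mul_eq_zero.1 ha').resolve_right h2
    apply hnsa
    intro k hk u v
    obtain ⟨x, y, rfl⟩ := hgen k hk
    rw [Matrix.add_mulVec, Matrix.smul_mulVec, Matrix.smul_mulVec, Matrix.one_mulVec, Matrix.add_mulVec,
      Matrix.smul_mulVec, Matrix.smul_mulVec, Matrix.one_mulVec, p_add, p_add', p_smul, p_smul, p_smul', p_smul',
      e1, h3, h4]
    ring
  subst hb1
  have e3 : ∀ u v, polar Q (W *ᵥ u) (W *ᵥ v) = c * polar Q u v := by
    intro u v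
    have h1 : polar Q (W *ᵥ u) (W *ᵥ v) = Q (W *ᵥ (u + v)) - Q (W *ᵥ u) - Q (W *ᵥ v) := by
      rw [Matrix.mulVec_add]; rfl
    rw [h1, hc, hc, hc, polar]; ring
  obtain ⟨x, y, hxy⟩ := hgen (W * W) (K.mul_mem hW hW)
  have e4 : ∀ v, W *ᵥ (W *ᵥ v) = x • v + y • (W *ᵥ v) := by
    intro v
    rw [Matrix.mulVec_mulVec, hxy, Matrix.add_mulVec, Matrix.smul_mulVec, Matrix.smul_mulVec, Matrix.one_mulVec]
  obtain ⟨h5, h6⟩ := ext (y - a) (x + c) (fun u v => by
    have h7 := e1 (W *ᵥ u) v
    rw [e3, e4, p_add, p_smul, p_smul] at h7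
    linear_combination h7)
  have hy : y = a := by linear_combination h5
  have hx : x = -c := by linear_combination h6
  have e5 : ∀ u, polar Q u (W *ᵥ u) = (c' - 1 - c) * Q u := by
    intro u
    have h7 := hc' u
    rw [Matrix.add_mulVec, Matrix.one_mulVec, Q_add, hc] at h7
    linear_combination h7
  have e6 : c' = 1 + a + c := by
    have h8 : ∀ u v, (c' - (1 + a + c)) * polar Q u v = 0 := by
      intro u v
      have h9 : polar Q ((1 + W) *ᵥ u) ((1 + W) *ᵥ v) = c' * polar Q u v := by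
        have h1 : polar Q ((1 + W) *ᵥ u) ((1 + W) *ᵥ v) = Q ((1 + W) *ᵥ (u + v)) - Q ((1 + W) *ᵥ u) - Q ((1 + W) *ᵥ v) := by
          rw [Matrix.mulVec_add]; rfl
        rw [h1, hc', hc', hc', polar]; ring
      rw [Matrix.add_mulVec, Matrix.one_mulVec, Matrix.add_mulVec, Matrix.one_mulVec, p_add, p_add', p_add', e3, e1] at h9
      linear_combination -h9
    by_contra hne
    apply hv0
    apply hQ
    intro v
    exact (mul_eq_zero.1 (h8 v0 v)).resolve_left (fun h0 => hne (by linear_combination h0))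
  refine ⟨W, hW, a, c, hgen, hli, ⟨?_, ?_, ?_, ?_, ?_⟩⟩
  · intro v
    simp only [Matrix.toLin'_apply]
    rw [e4, hx, hy]; module
  · intro u v
    simp only [Matrix.toLin'_apply]
    rw [e1]; ring
  · intro u
    simp only [Matrix.toLin'_apply]
    rw [e5, e6]; ring
  · intro u
    simp only [Matrix.toLin'_apply]
    exact hc u
  · intro v hv a b h
    simp only [Matrix.toLin'_apply] at h
    exact hind v hv a b h

theorem mem_normalizer_iff {K : Subalgebra F (Matrix ι ι F)} {W : Matrix ι ι F} (hW : W ∈ K)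
    (hgen : ∀ k ∈ K, ∃ a b : F, k = a • 1 + b • W)
    (hli : ∀ a b : F, a • (1 : Matrix ι ι F) + b • W = 0 → a = 0 ∧ b = 0) (g : GL ι F) :
    g ∈ subalgebraNormalizer K ↔ NJ (Matrix.toLin' W) (H95.Bridge.toEq ι F g) := by
  obtain ⟨G, hG⟩ : ∃ G, G = (g : Matrix ι ι F) := ⟨_, rfl⟩
  obtain ⟨G', hG'⟩ : ∃ G', G' = ((g⁻¹ : GL ι F) : Matrix ι ι F) := ⟨_, rfl⟩
  have hGG' : G * G' = 1 := by rw [hG, hG', ← Units.val_mul, mul_inv_cancel, Units.val_one]
  have hG'G : G' * G = 1 := by rw [hG, hG', ← Units.val_mul, inv_mul_cancel, Units.val_one]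
  have hmem : g ∈ subalgebraNormalizer K ↔ ∀ k : Matrix ι ι F, k ∈ K ↔ G * k * G' ∈ K := by
    rw [hG, hG']; rfl
  rw [hmem]
  constructor
  · intro h
    obtain ⟨a, b, hab⟩ := hgen _ ((h W).1 hW)
    refine ⟨a, b, fun v => ?_⟩
    rw [H95.Bridge.toEq_apply, H95.Bridge.toEq_apply, Matrix.toLin'_apply, Matrix.toLin'_apply, ← hG]
    have h1 : G * W = (a • 1 + b • W) * G := by
      rw [← hab, mul_assoc, hG'G, mul_one]
    rw [Matrix.mulVec_mulVec, h1, ← Matrix.mulVec_mulVec, Matrix.add_mulVec, Matrix.smul_mulVec, Matrix.smul_mulVec,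
      Matrix.one_mulVec]
  · rintro ⟨a, b, h⟩
    have h1 : G * W = (a • 1 + b • W) * G := by
      apply Matrix.toLin'.injective
      apply LinearMap.ext
      intro v
      have h2 := h v
      rw [H95.Bridge.toEq_apply, H95.Bridge.toEq_apply, Matrix.toLin'_apply, Matrix.toLin'_apply, ← hG] at h2
      rw [Matrix.toLin'_apply, Matrix.toLin'_apply, ← Matrix.mulVec_mulVec, h2, ← Matrix.mulVec_mulVec,
        Matrix.add_mulVec, Matrix.smul_mulVec, Matrix.smul_mulVec, Matrix.one_mulVec]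
    have h2 : G * W * G' = a • 1 + b • W := by rw [h1, mul_assoc, hGG', mul_one]
    have hb : b ≠ 0 := by
      intro hb
      rw [hb, zero_smul, add_zero, smul_mul_assoc, one_mul] at h1
      have h3 : W = a • 1 := by
        calc W = G' * (G * W) := by rw [← mul_assoc, hG'G, one_mul]
          _ = a • 1 := by rw [h1, mul_smul_comm, hG'G]
      have h4 := hli (-a) 1 (by rw [h3]; module)
      exact one_ne_zero h4.2
    have h5 : G' * W * G = (-(b⁻¹ * a)) • 1 + b⁻¹ • W := by
      have h6 : G' * (G * W * G') * G = W := by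
        calc G' * (G * W * G') * G = (G' * G) * W * (G' * G) := by simp only [mul_assoc]
          _ = W := by rw [hG'G, one_mul, mul_one]
      rw [h2, mul_add, add_mul, mul_smul_comm, mul_one, smul_mul_assoc, hG'G, mul_smul_comm, smul_mul_assoc] at h6
      have h7 : b • (G' * W * G) = W - a • 1 := by rw [eq_sub_iff_add_eq, add_comm]; exact h6
      have h8 : G' * W * G = b⁻¹ • (b • (G' * W * G)) := by rw [inv_smul_smul₀ hb]
      rw [h8, h7]; module
    intro k
    constructor
    · intro hk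
      obtain ⟨x, y, rfl⟩ := hgen k hk
      have : G * (x • 1 + y • W) * G' = x • 1 + y • (a • 1 + b • W) := by
        rw [mul_add, add_mul, mul_smul_comm, mul_one, smul_mul_assoc, hGG', mul_smul_comm, smul_mul_assoc, h2]
      rw [this]
      exact K.add_mem (K.smul_mem K.one_mem x) (K.smul_mem (K.add_mem (K.smul_mem K.one_mem a) (K.smul_mem hW b)) y)
    · intro hk
      obtain ⟨x, y, hxy⟩ := hgen _ hk
      have : k = x • 1 + y • ((-(b⁻¹ * a)) • 1 + b⁻¹ • W) := by
        calc k = G' * (G * k * G') * G := by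
              calc k = (G' * G) * k * (G' * G) := by rw [hG'G, one_mul, mul_one]
                _ = G' * (G * k * G') * G := by simp only [mul_assoc]
          _ = x • 1 + y • ((-(b⁻¹ * a)) • 1 + b⁻¹ • W) := by
              rw [hxy, mul_add, add_mul, mul_smul_comm, mul_one, smul_mul_assoc, hG'G, mul_smul_comm, smul_mul_assoc, h5]
      rw [this]
      exact K.add_mem (K.smul_mem K.one_mem x) (K.smul_mem (K.add_mem (K.smul_mem K.one_mem _) (K.smul_mem hW _)) y)

end H7.OAUni
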