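import Mathlib
import Cfsg.Prelude.Def_GeometricClasses
import Cfsg.Agent.Lib.H7.ONonmax2

/-!
Non-maximal stabilisers of orthogonal decompositions: the statements for functions on `ι → F`.
-/
set_option autoImplicit false

namespace H7.ONonmax

open Module QuadraticMap H48.QuadSplit H48.QuadWitt H95.OGeo H7.OA H7.OABridge Cfsg Cfsg.Geo

variable {ι : Type} [Fintype ι] [DecidableEq ι] {F : Type*} [Field F]

theorem card_decomp {t m : ℕ} {D : Fin t → Submodule F (ι → F)} (hD : IsMDecomposition m D) :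
    Fintype.card ι = t * m := by
  classical
  have hint : DirectSum.IsInternal D :=
    DirectSum.isInternal_submodule_of_iSupIndep_of_iSup_eq_top hD.indep hD.iSup_eq_top
  let b : ∀ i, Module.Basis (Fin m) F (D i) := fun i => Module.finBasisOfFinrankEq F (D i) (hD.finrank_eq i)
  let B := hint.collectedBasis b
  have h1 := Module.finrank_eq_card_basis B
  rw [Module.finrank_fintype_fun_eq_card] at h1
  rw [h1]
  simp

omit [Fintype ι] [DecidableEq ι] in
lemma ndW_of_on {Q : QuadraticForm F (ι → F)} {W : Submodule F (ι → F)} (h : IsNondegenerateOn (polar Q) W) :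
    NdW Q W := by
  intro x hx hxy
  by_contra hne
  obtain ⟨y, hy, hy'⟩ := (h x hx hne).2
  exact hy' (hxy y hy)

lemma dec_of {t k : ℕ} {Q : QuadraticForm F (ι → F)} {D : Fin t → Submodule F (ι → F)}
    (h : IsOrthogonalMDecomposition Q k D) : Dec Q D :=
  ⟨h.decomp.orthogonal, fun i => ndW_of_on (h.decomp.nondegenerate i)⟩

section
variable [Fintype F]

lemma field3 (hq : Fintype.card F = 3) : (3 : F) = 0 ∧ ∀ a : F, a = 0 ∨ a = 1 ∨ a = -1 := by
  have h3 : (3 : F) = 0 := by
    have := FiniteField.cast_card_eq_zero F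
    rw [hq] at this
    exact_mod_cast this
  refine ⟨h3, fun a => ?_⟩
  have h := FiniteField.pow_card a
  rw [hq] at h
  have h4 : a * ((a - 1) * (a + 1)) = 0 := by linear_combination h
  rcases mul_eq_zero.1 h4 with h5 | h5
  · exact Or.inl h5
  · rcases mul_eq_zero.1 h5 with h6 | h6
    · exact Or.inr (Or.inl (sub_eq_zero.1 h6))
    · exact Or.inr (Or.inr (eq_neg_of_add_eq_zero_left h6))

lemma pow_card_sub (k : ℕ) (hq : Fintype.card F = k + 1) (a : F) (ha : a ≠ 0) : a ^ k = 1 := by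
  have h := FiniteField.pow_card a
  rw [hq, pow_succ] at h
  exact mul_right_cancel₀ ha (by rw [h, one_mul])

lemma two_eq_zero (hq : Fintype.card F = 2 ∨ Fintype.card F = 4) : (2 : F) = 0 := by
  have := FiniteField.cast_card_eq_zero F
  rcases hq with hq | hq
  · rw [hq] at this; exact_mod_cast this
  · rw [hq] at this
    have h4 : (4 : F) = 0 := by exact_mod_cast this
    have h5 : (2 : F) * 2 = 0 := by linear_combination h4
    exact (mul_self_eq_zero).1 h5

variable {t : ℕ} {Q : QuadraticForm F (ι → F)} {D : Fin t → Submodule F (ι → F)}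

/-- the prime field in a field of characteristic two -/
def A01 (h2 : (2 : F) = 0) : AddSubgroup F where
  carrier := {a | a = 0 ∨ a = 1}
  zero_mem' := Or.inl rfl
  add_mem' := by
    rintro a b (rfl | rfl) (rfl | rfl)
    · exact Or.inl (by rw [add_zero])
    · exact Or.inr (by rw [zero_add])
    · exact Or.inr (by rw [add_zero])
    · exact Or.inl (by linear_combination h2)
  neg_mem' := by
    rintro a (rfl | rfl)
    · exact Or.inl neg_zero
    · exact Or.inr (by linear_combination (-1 : F) * h2)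

/-- conclusion shared by all cases -/
lemma finish {k : ℕ} (hQ : ND Q) (hcard : 13 ≤ Fintype.card ι)
    (h : ∃ T : Subgroup ((ι → F) ≃ₗ[F] (ι → F)), (∀ g ∈ Om Q, PermD D g → g ∈ T) ∧
      (∃ g ∈ Om Q, g ∈ T ∧ ¬ PermD D g) ∧ (∃ g ∈ Om Q, g ∉ T)) :
    ∃ K : Subgroup (Matrix.GeneralLinearGroup ι F), decompositionStabilizer D ⊓ omegaGL Q < K ∧ K < omegaGL Q := by
  obtain ⟨T, h0, h1, h2⟩ := h
  exact not_maximal_omegaGL (Q := Q) rfl (P := PermD D) (fun g => H95.Bridge.mem_decompositionStabilizer) T h0 h1 h2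

theorem q3 (hQ : ND Q) (hcard : 13 ≤ Fintype.card ι) (hq : Fintype.card F = 3) {k : ℕ} (hk : k = 2 ∨ k = 3)
    (hD : IsOrthogonalMDecomposition Q k D) :
    ∃ K : Subgroup (Matrix.GeneralLinearGroup ι F), decompositionStabilizer D ⊓ omegaGL Q < K ∧ K < omegaGL Q := by
  obtain ⟨h3, hF⟩ := field3 hq
  have h2 : (2 : F) ≠ 0 := by
    intro h; apply one_ne_zero (α := F); linear_combination h3 - h
  have hfr : finrank F (ι → F) = Fintype.card ι := finrank_fintype_fun_eq_card F
  have hc := card_decomp hD.decomp.decomp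
  have ht : 4 ≤ t := by
    rcases hk with rfl | rfl <;> omega
  have hdim := hD.decomp.decomp.finrank_eq
  refine finish (k := k) hQ hcard ?_
  rcases hk with rfl | rfl
  · exact caseA hQ (by omega) (dec_of hD) (by omega) h2 (a := 1) one_ne_zero
      (fun i => exists_val3 hF h3 (ndW_of_on (hD.decomp.nondegenerate i)) (hdim i) one_ne_zero)
      (fun i => prop2 hF h3 (ndW_of_on (hD.decomp.nondegenerate i)) (hdim i)) (fun i => (hdim i).ge)
  · obtain ⟨a, ha, x, hx, y, hy, z, hz, qx, qy, qz, pxy, pxz, pyz⟩ :=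
      frame3 hF h3 (ndW_of_on (hD.decomp.nondegenerate ⟨0, by omega⟩)) (hdim _)
    have hpr := prop3 hF h3 (hdim ⟨0, by omega⟩) ha hx hy hz qx qy qz pxy pxz pyz
    refine caseA hQ (by omega) (dec_of hD) (by omega) h2 (a := a) ha ?_ ?_ (fun i => by rw [hdim]; omega)
    · intro i
      obtain ⟨e, he⟩ := hD.isometric ⟨0, by omega⟩ i
      exact ⟨e ⟨x, hx⟩, (e ⟨x, hx⟩).2, by rw [he]; exact qx⟩
    · intro i v hv w hw qv qw
      obtain ⟨e, he⟩ := hD.isometric i ⟨0, by omega⟩
      have h5 : polar Q (e ⟨v, hv⟩ : ι → F) (e ⟨w, hw⟩ : ι → F) = polar Q v w := by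
        have h6 := he (⟨v, hv⟩ + ⟨w, hw⟩)
        rw [map_add] at h6
        simp only [polar]
        have h7 := he ⟨v, hv⟩
        have h8 := he ⟨w, hw⟩
        simp only [Submodule.coe_add] at h6
        rw [h6, h7, h8]
      rcases hpr _ (e ⟨v, hv⟩).2 _ (e ⟨w, hw⟩).2 (by rw [he]; exact qv) (by rw [he]; exact qw) with h6 | h6 | h6
      · left
        have h7 := e.injective (Subtype.ext h6)
        exact congrArg Subtype.val h7
      · right; left
        have h8 : e ⟨v, hv⟩ = e (-⟨w, hw⟩) := by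
          rw [map_neg]; exact Subtype.ext h6
        exact congrArg Subtype.val (e.injective h8)
      · right; right
        rw [← h5]; exact h6

lemma hyp_of_plus {W : Submodule F (ι → F)} (hW : IsNondegenerateOn (polar Q) W) (hd : finrank F W = 2)
    (hp : IsPlusTypeOn Q W) : ∃ x ∈ W, ∃ y ∈ W, Q x = 0 ∧ Q y = 0 ∧ polar Q x y = 1 := by
  obtain ⟨x, hx, hx0, hqx⟩ := H7.OANd.vec_of_plus hd hp
  obtain ⟨y, hy, hqy, hxy⟩ := partnerW (ndW_of_on hW) hx hx0 hqx
  exact ⟨x, hx, y, hy, hqx, hqy, hxy⟩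

theorem k2plus (hQ : ND Q) (hcard : 13 ≤ Fintype.card ι)
    (hq : Fintype.card F = 2 ∨ Fintype.card F = 4 ∨ Fintype.card F = 5)
    (hD : IsOrthogonalMDecomposition Q 2 D) (hp : ∀ i, IsPlusTypeOn Q (D i)) :
    ∃ K : Subgroup (Matrix.GeneralLinearGroup ι F), decompositionStabilizer D ⊓ omegaGL Q < K ∧ K < omegaGL Q := by
  have hfr : finrank F (ι → F) = Fintype.card ι := finrank_fintype_fun_eq_card F
  have hc := card_decomp hD.decomp.decomp
  have ht : 4 ≤ t := by omega
  have hdim := hD.decomp.decomp.finrank_eq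
  have hh : ∀ i, ∃ x ∈ D i, ∃ y ∈ D i, Q x = 0 ∧ Q y = 0 ∧ polar Q x y = 1 := fun i =>
    hyp_of_plus (hD.decomp.nondegenerate i) (hdim i) (hp i)
  refine finish (k := 2) hQ hcard ?_
  rcases hq with hq | hq | hq
  · have h2 := two_eq_zero (F := F) (Or.inl hq)
    have hF : ∀ a : F, a ≠ 0 → a = 1 := fun a ha => by simpa using pow_card_sub 1 hq a ha
    refine caseB hQ (by omega) (dec_of hD) ht h2 ⊥ (fun a ha => Or.inl (AddSubgroup.mem_bot.1 ha)) (c := 1)
      (fun h => one_ne_zero (AddSubgroup.mem_bot.1 h)) ?_ hh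
    intro i x hx y hy qx qy
    obtain ⟨e, he, f, hf, qe, qf, pef⟩ := hh i
    rw [AddSubgroup.mem_bot]
    exact prop2' h2 hF (hdim i) he hf qe qf pef x hx y hy qx qy
  · have h2 := two_eq_zero (F := F) (Or.inr hq)
    have hF : ∀ a : F, a ≠ 0 → a ^ 3 = 1 := fun a ha => pow_card_sub 3 hq a ha
    obtain ⟨c, hc0, hc1⟩ := H95.Bridge.exists_ne01 (F := F) (by omega)
    refine caseB hQ (by omega) (dec_of hD) ht h2 (A01 h2) (fun a ha => ha) (c := c)
      (fun h => h.elim hc0 hc1) ?_ hh
    intro i x hx y hy qx qy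
    obtain ⟨e, he, f, hf, qe, qf, pef⟩ := hh i
    exact prop4 h2 hF (hdim i) he hf qe qf pef x hx y hy qx qy
  · have h5 : (5 : F) = 0 := by
      have := FiniteField.cast_card_eq_zero F
      rw [hq] at this; exact_mod_cast this
    have h2 : (2 : F) ≠ 0 := by
      intro h; apply one_ne_zero (α := F); linear_combination h5 - 2 * h
    have hF : ∀ a : F, a ≠ 0 → a ^ 4 = 1 := fun a ha => pow_card_sub 4 hq a ha
    refine caseA hQ (by omega) (dec_of hD) (by omega) h2 (a := 1) one_ne_zero ?_ ?_ (fun i => (hdim i).ge)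
    · intro i
      obtain ⟨e, he, f, hf, qe, qf, pef⟩ := hh i
      exact ⟨e + f, (D i).add_mem he hf, by rw [Q_add, qe, qf, pef]; ring⟩
    · intro i
      obtain ⟨e, he, f, hf, qe, qf, pef⟩ := hh i
      exact prop5 hF (hdim i) he hf qe qf pef

theorem k4plus (hQ : ND Q) (hcard : 13 ≤ Fintype.card ι) (hq : Fintype.card F = 2)
    (hD : IsOrthogonalMDecomposition Q 4 D) (hp : ∀ i, IsPlusTypeOn Q (D i)) :
    ∃ K : Subgroup (Matrix.GeneralLinearGroup ι F), decompositionStabilizer D ⊓ omegaGL Q < K ∧ K < omegaGL Q := by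
  have hfr : finrank F (ι → F) = Fintype.card ι := finrank_fintype_fun_eq_card F
  have hc := card_decomp hD.decomp.decomp
  have hdim := hD.decomp.decomp.finrank_eq
  have h2 := two_eq_zero (F := F) (Or.inl hq)
  have hF : ∀ a : F, a = 0 ∨ a = 1 := fun a => by
    by_cases ha : a = 0
    · exact Or.inl ha
    · right; simpa using pow_card_sub 1 hq a ha
  refine finish (k := 4) hQ hcard ?_
  refine caseC hQ (by omega) (dec_of hD) (by omega) h2 hF ?_
  intro i
  obtain ⟨U, hU, hUs, hUd⟩ := hp i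
  exact hyp4 (ndW_of_on (hD.decomp.nondegenerate i)) (hdim i) hU hUs (by rw [hdim] at hUd; omega)

end

end H7.ONonmax
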