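import Cfsg.Agent.Lib.H94.OrthOver2
import Cfsg.Agent.Lib.H7.OLow
import Cfsg.Agent.Lib.H95.OBridge

/-!
Overgroups in SL of the similarity group of a non-degenerate quadratic form over a finite field of odd order, dimension at
least six (adapted from `H94.OrthOver`, `H94.OrthOver2`).
-/

set_option autoImplicit false
set_option linter.unusedSectionVars false

namespace H7.OrthSix

section geo

open Module QuadraticMap H48.QuadSplit H95.OGeo H17.OrthAbs H95.OSie H7.OLow

variable {F V : Type*} [Field F] [AddCommGroup V] [Module F V] {Q : QuadraticForm F V} [FiniteDimensional F V]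

lemma ns3w (hQ : ND Q) (h2 : (2 : F) ≠ 0) (hn : 6 ≤ finrank F V) {w x t : V} (hx : Q x ≠ 0) (ht : Q t ≠ 0)
    (hxt : polar Q x t = 0) (hwx : polar Q w x = 0) (hwt : polar Q w t = 0) :
    ∃ z, polar Q z w = 0 ∧ polar Q z x = 0 ∧ polar Q z t = 0 ∧ Q z ≠ 0 := by
  obtain ⟨z, hz, hz0⟩ := exists_ns hQ (S := Submodule.span F (Set.range ![w, x, t])) (by
    intro hle
    have h3 := finrank_orth hQ (Submodule.span F (Set.range ![w, x, t]))
    have h4 := finrank_range_le (F := F) ![w, x, t]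
    have h5 : orth Q (Submodule.span F (Set.range ![w, x, t])) ≤ Submodule.span F {w} := by
      intro z hz
      have h6 := hle hz
      rw [mem_orth_range] at hz
      have z1 : polar Q z x = 0 := hz 1
      have z2 : polar Q z t = 0 := hz 2
      obtain ⟨c, rfl⟩ := (Submodule.mem_span_range_iff_exists_fun F).1 h6
      rw [Fin.sum_univ_three] at z1 z2 ⊢
      simp only [Matrix.cons_val_zero, Matrix.cons_val_one, Matrix.cons_val] at z1 z2 ⊢
      have htx : polar Q t x = 0 := by rw [p_comm, hxt]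
      rw [p_add, p_add, p_smul, p_smul, p_smul, hwx, p_self, htx, mul_zero, zero_add, mul_zero, add_zero] at z1
      rw [p_add, p_add, p_smul, p_smul, p_smul, hwt, p_self, hxt, mul_zero, zero_add, mul_zero, zero_add] at z2
      have c1 : c 1 = 0 := (mul_eq_zero.1 z1).resolve_right (mul_ne_zero h2 hx)
      have c2 : c 2 = 0 := (mul_eq_zero.1 z2).resolve_right (mul_ne_zero h2 ht)
      rw [c1, c2, zero_smul, zero_smul, add_zero, add_zero]
      exact Submodule.mem_span_singleton.2 ⟨c 0, rfl⟩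
    have h6 := Submodule.finrank_mono h5
    have h7 := finrank_span_le_card (R := F) ({w} : Set V)
    simp at h7
    omega)
  rw [mem_orth_range] at hz
  exact ⟨z, hz 0, hz 1, hz 2, hz0⟩

lemma univ2 [Finite F] (hQ : ND Q) (h2 : (2 : F) ≠ 0) (hn : 6 ≤ finrank F V) {w x : V} (hx : Q x ≠ 0)
    (hwx : polar Q w x = 0) (s : F) : ∃ z, polar Q z w = 0 ∧ polar Q z x = 0 ∧ Q z = s := by
  obtain ⟨e, e1, e2, e3⟩ := ns2 hQ h2 (by omega) (v := w) (w := x) (Or.inr (Or.inl hx))
  obtain ⟨e', f1, f2, f3, f4⟩ := ns3w hQ h2 hn hx e3 (by rw [p_comm, e2]) hwx (by rw [p_comm, e1])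
  obtain ⟨a, b, hab⟩ := two_reps h2 e3 f4 s
  refine ⟨a • e + b • e', ?_, ?_, ?_⟩
  · rw [p_add, p_smul, p_smul, e1, f1]; ring
  · rw [p_add, p_smul, p_smul, e2, f2]; ring
  · rw [Q_add, Q_smul, Q_smul, p_smul, p_smul', p_comm Q e e', f3, hab]; ring

end geo

open Matrix Cfsg.Geo H94.Transv H94.FormRow H94.QuadForm H94.OrthOver H94.OrthOver2 QuadraticMap
open scoped MatrixGroups

variable {ι : Type} [Fintype ι] [DecidableEq ι] {F : Type*} [Field F]

variable {Q : (ι → F) → F} {M : Subgroup (GL ι F)}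

lemma fns3w (hQ : IsNondegenerateQuadraticForm Q) (h2 : (2 : F) ≠ 0) (hn : 6 ≤ Fintype.card ι) {w x t : ι → F}
    (hx : Q x ≠ 0) (ht : Q t ≠ 0) (hxt : polar Q x t = 0) (hwx : polar Q x w = 0) (hwt : polar Q t w = 0) :
    ∃ z, z ∈ perp hQ w ∧ polar Q z x = 0 ∧ polar Q z t = 0 ∧ Q z ≠ 0 := by
  obtain ⟨Q', hQ'def, hQ'⟩ := H95.OBridge.exists_quad hQ
  subst hQ'def
  obtain ⟨z, z1, z2, z3, z4⟩ := ns3w hQ' h2 (by rw [Module.finrank_fintype_fun_eq_card]; exact hn) (w := w) hx ht hxt
    (by rw [B_symm]; exact hwx) (by rw [B_symm]; exact hwt)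
  exact ⟨z, z1, z2, z3, z4⟩

lemma funiv2 [Finite F] (hQ : IsNondegenerateQuadraticForm Q) (h2 : (2 : F) ≠ 0) (hn : 6 ≤ Fintype.card ι)
    {w x : ι → F} (hx : Q x ≠ 0) (hwx : polar Q w x = 0) (s : F) :
    ∃ z, polar Q z w = 0 ∧ polar Q z x = 0 ∧ Q z = s := by
  obtain ⟨Q', hQ'def, hQ'⟩ := H95.OBridge.exists_quad hQ
  subst hQ'def
  exact univ2 hQ' h2 (by rw [Module.finrank_fintype_fun_eq_card]; exact hn) hx hwx s

lemma det_omega (Q : (ι → F) → F) {g : GL ι F} (hg : g ∈ omegaGL Q) : g ∈ specialLinear ι F := by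
  rw [H95.OBridge.omegaGL_eq] at hg
  have h1 : ⁅Cfsg.isometryGroup F Q, Cfsg.isometryGroup F Q⁆ ≤ commutator (GL ι F) :=
    Subgroup.commutator_mono le_top le_top
  have h3 := Abelianization.commutator_subset_ker (Matrix.GeneralLinearGroup.det (n := ι) (R := F)) (h1 hg)
  rw [mem_specialLinear_iff]
  exact congrArg Units.val h3

/-- the special elements -/
lemma mover (hQ : IsNondegenerateQuadraticForm Q) (h2 : (2 : F) ≠ 0) (hn : 6 ≤ Fintype.card ι) {x y a b u : ι → F}
    (hu0 : u ≠ 0) (u1 : polar Q x u = 0) (u2 : polar Q y u = 0) (u3 : polar Q a u = 0) (u4 : polar Q b u = 0)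
    (hau : a ∉ Submodule.span F {x, y, u}) :
    ∃ (h : GL ι F) (t : ι → F), h ∈ quadSimilarityGroup Q ⊓ specialLinear ι F ∧
      (∀ v, Q ((h : Matrix ι ι F) *ᵥ v) = Q v) ∧ (h : Matrix ι ι F) *ᵥ x = x ∧ (h : Matrix ι ι F) *ᵥ y = y ∧
      t ≠ 0 ∧ ∃ d1 d2 : F, d1 ≠ 0 ∧ (h : Matrix ι ι F) *ᵥ a = a + d1 • t ∧ (h : Matrix ι ι F) *ᵥ b = b + d2 • t := by
  obtain ⟨φ, hφ1, hφ2⟩ := exists_functional_submodule hau
  obtain ⟨z0, rfl⟩ := exists_frow_eq (linLeft hQ) hQ.polar_bilinear.add_right hQ.polar_bilinear.smul_right (nd hQ) φ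
  have e1 : polar Q x z0 = 0 := by
    have := hφ1 x (Submodule.subset_span (by simp)); rwa [(linLeft hQ).frow_dot] at this
  have e2 : polar Q y z0 = 0 := by
    have := hφ1 y (Submodule.subset_span (by simp)); rwa [(linLeft hQ).frow_dot] at this
  have e3 : polar Q u z0 = 0 := by
    have := hφ1 u (Submodule.subset_span (by simp)); rwa [(linLeft hQ).frow_dot] at this
  have e4 : polar Q a z0 = 1 := by rwa [(linLeft hQ).frow_dot] at hφ2
  by_cases hQu : Q u = 0
  · obtain ⟨Q', hQ'def, hQ'⟩ := H95.OBridge.exists_quad hQ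
    subst hQ'def
    have hs := H7.OLow.sie_mem hQ' h2 hQu e3
    have hs2 : (H95.Bridge.toEq ι F).symm (H95.OSie.sie Q' u z0) ∈ omegaGL (⇑Q') := by
      rw [H95.OBridge.mem_omegaGL, MulEquiv.apply_symm_apply]; exact hs
    have hap : ∀ v, (((H95.Bridge.toEq ι F).symm (H95.OSie.sie Q' u z0) : GL ι F) : Matrix ι ι F) *ᵥ v =
        v + polar Q' v u • z0 - polar Q' v z0 • u - (Q' z0 * polar Q' v u) • u := by
      intro v
      rw [H95.Bridge.toEq_symm_mulVec, H95.OSie.sie_apply hQu e3]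
    have hQv : ∀ v, Q' ((((H95.Bridge.toEq ι F).symm (H95.OSie.sie Q' u z0) : GL ι F) : Matrix ι ι F) *ᵥ v) = Q' v := by
      intro v
      rw [H95.Bridge.toEq_symm_mulVec]
      exact H95.OSie.sie_mem_O Q' u z0 v
    refine ⟨_, u, ⟨⟨1, fun v => ?_⟩, det_omega _ hs2⟩, hQv, ?_, ?_, hu0, -1, -(polar Q' b z0), ?_, ?_, ?_⟩
    · rw [hQv, Units.val_one, one_mul]
    · rw [hap, u1, e1]; simp
    · rw [hap, u2, e2]; simp
    · exact neg_ne_zero.2 one_ne_zero
    · rw [hap, u3, e4]; simp [sub_eq_add_neg]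
    · rw [hap, u4]; simp [sub_eq_add_neg]
  · obtain ⟨t, ht0, t1, t2, t3⟩ : ∃ t, Q t ≠ 0 ∧ polar Q x t = 0 ∧ polar Q y t = 0 ∧ polar Q a t = 1 := by
      by_cases hz : Q z0 = 0
      · by_cases hz1 : Q (z0 + u) = 0
        · refine ⟨z0 - u, ?_, ?_, ?_, ?_⟩
          · intro h3
            have e5 := Q_add (Q := Q) z0 u
            have e6 := Q_add (Q := Q) z0 (-u)
            have e7 : Q (-u) = Q u := by
              have := hQ.smul (-1) u
              simpa using this
            have e8 : polar Q z0 (-u) = - polar Q z0 u := by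
              have := hQ.polar_bilinear.smul_right (-1) z0 u
              simpa using this
            rw [← sub_eq_add_neg, h3, e7, e8, hz] at e6
            rw [hz1, hz] at e5
            have : (2 : F) * Q u = 0 := by linear_combination (-1) * e5 - e6
            exact hQu ((mul_eq_zero.1 this).resolve_left h2)
          all_goals rw [B_sub_right hQ]; simp [e1, e2, e4, u1, u2, u3]
        · refine ⟨z0 + u, hz1, ?_, ?_, ?_⟩
          all_goals rw [hQ.polar_bilinear.add_right]; simp [e1, e2, e4, u1, u2, u3]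
      · exact ⟨z0, hz, e1, e2, e4⟩
    refine ⟨rGL hQ t ht0 * rGL hQ u hQu, t, mul_rGL_mem hQ ht0 hQu, ?_, ?_, ?_, ?_, -(Q t)⁻¹, -(polar Q b t / Q t),
      neg_ne_zero.2 (inv_ne_zero ht0), ?_, ?_⟩
    · intro v
      rw [Units.val_mul, ← mulVec_mulVec, Q_refl hQ, Q_refl hQ]
    · rw [Units.val_mul, ← mulVec_mulVec, rGL_mulVec, rGL_mulVec, u1, zero_div, zero_smul, sub_zero, t1, zero_div,
        zero_smul, sub_zero]
    · rw [Units.val_mul, ← mulVec_mulVec, rGL_mulVec, rGL_mulVec, u2, zero_div, zero_smul, sub_zero, t2, zero_div,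
        zero_smul, sub_zero]
    · rintro rfl
      exact ht0 (Q_zero hQ)
    · rw [Units.val_mul, ← mulVec_mulVec, rGL_mulVec, rGL_mulVec, u3, zero_div, zero_smul, sub_zero, t3, one_div,
        sub_eq_add_neg, ← neg_smul]
    · rw [Units.val_mul, ← mulVec_mulVec, rGL_mulVec, rGL_mulVec, u4, zero_div, zero_smul, sub_zero,
        sub_eq_add_neg, ← neg_smul]

/-- the orthogonal vector -/
lemma exists_u (hQ : IsNondegenerateQuadraticForm Q) (hn : 6 ≤ Fintype.card ι) {x y a : ι → F} (b : ι → F)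
    (ha : a ∉ Submodule.span F {x, y}) :
    ∃ u, u ≠ 0 ∧ polar Q x u = 0 ∧ polar Q y u = 0 ∧ polar Q a u = 0 ∧ polar Q b u = 0 ∧
      a ∉ Submodule.span F {x, y, u} := by
  obtain ⟨U, hU⟩ : ∃ U, U = (perp hQ x ⊓ perp hQ y ⊓ perp hQ a ⊓ perp hQ b : Submodule F (ι → F)) := ⟨_, rfl⟩
  have hUd : 2 ≤ Module.finrank F U := by
    have h1 := finrank_inf_perp hQ ⊤ x
    have h3 := finrank_inf_perp hQ (perp hQ x) y
    have h4 := finrank_inf_perp hQ (perp hQ x ⊓ perp hQ y) a
    have h5 := finrank_inf_perp hQ (perp hQ x ⊓ perp hQ y ⊓ perp hQ a) b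
    rw [top_inf_eq, finrank_top, Module.finrank_fintype_fun_eq_card] at h1
    rw [hU]
    omega
  by_contra hcon
  push Not at hcon
  have hmem : ∀ u ∈ U, u ≠ 0 → a ∈ Submodule.span F {x, y, u} := by
    intro u hu hu0
    rw [hU] at hu
    exact hcon u hu0 (by rw [B_symm]; exact hu.1.1.1) (by rw [B_symm]; exact hu.1.1.2) (by rw [B_symm]; exact hu.1.2)
      (by rw [B_symm]; exact hu.2)
  have hmem2 : ∀ u ∈ U, u ≠ 0 → ∃ c : F, c ≠ 0 ∧ a - c • u ∈ Submodule.span F {x, y} := by
    intro u hu hu0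
    obtain ⟨p, q, r, hpqr⟩ := Submodule.mem_span_triple.1 (hmem u hu hu0)
    have h1 : a - r • u = p • x + q • y := by rw [← hpqr]; abel
    have h3 : a - r • u ∈ Submodule.span F {x, y} := by
      rw [h1]; exact Submodule.mem_span_pair.2 ⟨p, q, rfl⟩
    refine ⟨r, ?_, h3⟩
    rintro rfl
    rw [zero_smul, sub_zero] at h3
    exact ha h3
  -- two independent vectors
  obtain ⟨u1, hu1, hu10⟩ := (Submodule.ne_bot_iff U).1 (by
    rintro rfl
    rw [finrank_bot] at hUd
    omega)
  obtain ⟨u2, hu2, hu20⟩ : ∃ u2 ∈ U, u2 ∉ Submodule.span F {u1} := by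
    by_contra hcon2
    push Not at hcon2
    have h1 : U ≤ Submodule.span F {u1} := hcon2
    have h3 := Submodule.finrank_mono h1
    rw [finrank_span_singleton hu10] at h3
    omega
  have hu20' : u2 ≠ 0 := by
    rintro rfl
    exact hu20 (Submodule.zero_mem _)
  obtain ⟨c1, hc1, h1⟩ := hmem2 u1 hu1 hu10
  obtain ⟨c2, hc2, h3⟩ := hmem2 u2 hu2 hu20'
  have h4 : c2 • u2 - c1 • u1 ∈ Submodule.span F {x, y} := by
    have := Submodule.sub_mem _ h1 h3
    convert this using 1
    abel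
  have h5 : c2 • u2 - c1 • u1 ≠ 0 := by
    intro h0
    apply hu20
    rw [Submodule.mem_span_singleton]
    refine ⟨c2⁻¹ * c1, ?_⟩
    rw [mul_smul, ← sub_eq_zero.1 h0, smul_smul, inv_mul_cancel₀ hc2, one_smul]
  obtain ⟨c3, hc3, h6⟩ := hmem2 _ (U.sub_mem (U.smul_mem c2 hu2) (U.smul_mem c1 hu1)) h5
  apply ha
  have := Submodule.add_mem _ h6 (Submodule.smul_mem _ c3 h4)
  rwa [sub_add_cancel] at this

theorem exists_T (hQ : IsNondegenerateQuadraticForm Q) (h2 : (2 : F) ≠ 0)
    (hM : quadSimilarityGroup Q ⊓ specialLinear ι F ≤ M) (hMS : M ≤ specialLinear ι F) (hn : 6 ≤ Fintype.card ι)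
    {g : GL ι F} (hg : g ∈ M) (hgs : g ∉ quadSimilarityGroup Q) :
    ∃ w t, w ≠ 0 ∧ t ≠ 0 ∧ HasT M w (frow (polar Q) t) := by
  by_contra hcon
  have hcon' : ∀ w t, w ≠ 0 → t ≠ 0 → ¬ HasT M w (frow (polar Q) t) := by
    intro w t hw ht hT
    exact hcon ⟨w, t, hw, ht, hT⟩
  apply hgs
  have hQ' := pull_quad hQ g
  set Q' := pull g Q with hQ'def
  -- S
  have hS : ∀ v, ∃ u, frow (polar Q) u = frow (polar Q') v := fun v =>
    exists_frow_eq (linLeft hQ) hQ.polar_bilinear.add_right hQ.polar_bilinear.smul_right (nd hQ) _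
  -- stable pairs
  have hpair : ∀ x y a, Q' x ≠ 0 → Q' y ≠ 0 → polar Q' x y = 0 → frow (polar Q) a = frow (polar Q') x →
      a ∈ Submodule.span F {x, y} := by
    intro x y a hx hy hxy ha
    by_contra haxy
    obtain ⟨b, hb⟩ := hS y
    obtain ⟨u, hu0, u1, u2, u3, u4, hau⟩ := exists_u hQ hn b haxy
    obtain ⟨h, t, hh, hhQ, hhx, hhy, ht0, d1, d2, hd1, hha, hhb⟩ := mover hQ h2 hn hu0 u1 u2 u3 u4 hau
    obtain ⟨w, hw, hT⟩ := A_core hQ h2 hM hMS hg hx hy hxy ha hb (hM hh) hhQ hhx hhy hha hhb (Or.inl hd1)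
    exact hcon' w t hw ht0 hT
  -- eigenvectors
  have heig : ∀ x, Q' x ≠ 0 → ∃ c : F, ∀ v, polar Q' v x = c * polar Q v x := by
    intro x hx
    obtain ⟨a, ha⟩ := hS x
    obtain ⟨y, hy, hyQ⟩ := exists_nonsing hQ' (X := perp hQ' x) (by
      have := finrank_inf_perp hQ' ⊤ x
      rw [top_inf_eq, finrank_top, Module.finrank_fintype_fun_eq_card] at this
      omega)
    obtain ⟨y2, hy2, hy2Q⟩ := exists_nonsing hQ' (X := perp hQ' x ⊓ perp hQ' y) (by
      have := finrank_inf_perp hQ' ⊤ x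
      have h3 := finrank_inf_perp hQ' (perp hQ' x) y
      rw [top_inf_eq, finrank_top, Module.finrank_fintype_fun_eq_card] at this
      omega)
    have hyx : polar Q' y x = 0 := hy
    have hy2x : polar Q' y2 x = 0 := hy2.1
    have hy2y : polar Q' y2 y = 0 := hy2.2
    obtain ⟨α, β, e1⟩ := Submodule.mem_span_pair.1 (hpair x y a hx hyQ (by rw [B_symm]; exact hyx) ha)
    obtain ⟨α', β', e2⟩ := Submodule.mem_span_pair.1 (hpair x y2 a hx hy2Q (by rw [B_symm]; exact hy2x) ha)
    have hβ : β = 0 := by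
      have h1 : polar Q' a y = β * (2 * Q' y) := by
        rw [← e1, hQ'.polar_bilinear.add_left, hQ'.polar_bilinear.smul_left, hQ'.polar_bilinear.smul_left,
          B_self hQ', B_symm x y, hyx]
        ring
      have h3 : polar Q' a y = 0 := by
        rw [← e2, hQ'.polar_bilinear.add_left, hQ'.polar_bilinear.smul_left, hQ'.polar_bilinear.smul_left,
          B_symm x y, hyx, hy2y]
        ring
      rw [h1] at h3
      exact (mul_eq_zero.1 h3).resolve_right (mul_ne_zero h2 hyQ)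
    refine ⟨α, fun v => ?_⟩
    rw [← (linLeft hQ').frow_dot, ← ha, ← e1, hβ, zero_smul, add_zero, frow_smul hQ, smul_dotProduct,
      (linLeft hQ).frow_dot, smul_eq_mul]
  -- nonzero vectors from nonsingular
  have hne0 : ∀ x, Q' x ≠ 0 → x ≠ 0 := by
    rintro x hx rfl
    exact hx (Q_zero hQ')
  -- two orthogonal nonsingular vectors with different constants have Q' x + Q' y = 0
  have hdiff : ∀ x y c d, Q' x ≠ 0 → Q' y ≠ 0 → polar Q' x y = 0 → (∀ v, polar Q' v x = c * polar Q v x) →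
      (∀ v, polar Q' v y = d * polar Q v y) → c ≠ d → Q' x + Q' y = 0 := by
    intro x y c d hx hy hxy hc hd hcd
    by_contra hne
    have hxyQ : Q' (x + y) ≠ 0 := by rw [Q_add (Q := Q'), hxy, add_zero]; exact hne
    obtain ⟨e, he⟩ := heig _ hxyQ
    have key : (e - c) • x + (e - d) • y = 0 := by
      apply nd hQ
      intro v
      rw [hQ.polar_bilinear.add_right, hQ.polar_bilinear.smul_right, hQ.polar_bilinear.smul_right]
      have h1 := he v
      rw [hQ'.polar_bilinear.add_right, hQ.polar_bilinear.add_right, hc, hd] at h1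
      linear_combination (-1) * h1
    have k1 : polar Q' ((e - c) • x + (e - d) • y) x = 0 := by rw [key]; exact (linLeft hQ').zero_left x
    have k2 : polar Q' ((e - c) • x + (e - d) • y) y = 0 := by rw [key]; exact (linLeft hQ').zero_left y
    rw [hQ'.polar_bilinear.add_left, hQ'.polar_bilinear.smul_left, hQ'.polar_bilinear.smul_left, B_self hQ',
      B_symm y x, hxy] at k1
    rw [hQ'.polar_bilinear.add_left, hQ'.polar_bilinear.smul_left, hQ'.polar_bilinear.smul_left, B_self hQ',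
      hxy] at k2
    have l1 : e - c = 0 := by
      have : (e - c) * (2 * Q' x) = 0 := by linear_combination k1
      exact (mul_eq_zero.1 this).resolve_right (mul_ne_zero h2 hx)
    have l2 : e - d = 0 := by
      have : (e - d) * (2 * Q' y) = 0 := by linear_combination k2
      exact (mul_eq_zero.1 this).resolve_right (mul_ne_zero h2 hy)
    apply hcd
    rw [← sub_eq_zero.1 l1, sub_eq_zero.1 l2]
  have hsame : ∀ x y c d, Q' x ≠ 0 → Q' y ≠ 0 → polar Q' x y = 0 → (∀ v, polar Q' v x = c * polar Q v x) →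
      (∀ v, polar Q' v y = d * polar Q v y) → c = d := by
    intro x y c d hx hy hxy hc hd
    by_contra hcd
    have h0 := hdiff x y c d hx hy hxy hc hd hcd
    obtain ⟨z, hz, hzQ⟩ := exists_nonsing hQ' (X := perp hQ' x ⊓ perp hQ' y) (by
      have := finrank_inf_perp hQ' ⊤ x
      have h3 := finrank_inf_perp hQ' (perp hQ' x) y
      rw [top_inf_eq, finrank_top, Module.finrank_fintype_fun_eq_card] at this
      omega)
    have hzx : polar Q' z x = 0 := hz.1
    have hzy : polar Q' z y = 0 := hz.2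
    have hxz : polar Q' x z = 0 := by rw [B_symm]; exact hzx
    have hyz : polar Q' y z = 0 := by rw [B_symm]; exact hzy
    obtain ⟨e, he⟩ := heig z hzQ
    by_cases hec : e = c
    · subst hec
      -- e = c ≠ d
      have h1 := hdiff z y e d hzQ hy hzy he hd hcd
      -- Q' z = - Q' y = Q' x
      have hxzQ : Q' (x + z) ≠ 0 := by
        rw [Q_add (Q := Q'), hxz, add_zero]
        intro h3
        have : (2 : F) * Q' y = 0 := by linear_combination h0 + h1 - h3
        exact hy ((mul_eq_zero.1 this).resolve_left h2)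
      have h4 := hdiff (x + z) y e d hxzQ hy (by rw [hQ'.polar_bilinear.add_left, hxy, hzy, add_zero])
        (fun v => by rw [hQ'.polar_bilinear.add_right, hQ.polar_bilinear.add_right, hc, he]; ring) hd hcd
      rw [Q_add (Q := Q'), hxz, add_zero] at h4
      apply hy
      linear_combination h0 + h1 - h4
    · have h1 := hdiff z x e c hzQ hx hzx he hc hec
      by_cases hed : e = d
      · subst hed
        have hyzQ : Q' (y + z) ≠ 0 := by
          rw [Q_add (Q := Q'), hyz, add_zero]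
          intro h3
          have : (2 : F) * Q' x = 0 := by linear_combination h0 + h1 - h3
          exact hx ((mul_eq_zero.1 this).resolve_left h2)
        have h4 := hdiff (y + z) x e c hyzQ hx (by
            rw [hQ'.polar_bilinear.add_left, hzx, B_symm y x, hxy, add_zero])
          (fun v => by rw [hQ'.polar_bilinear.add_right, hQ.polar_bilinear.add_right, hd, he]; ring) hc hec
        rw [Q_add (Q := Q'), hyz, add_zero] at h4
        apply hx
        linear_combination h0 + h1 - h4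
      · have h3 := hdiff z y e d hzQ hy hzy he hd hed
        have : (2 : F) * Q' z = 0 := by linear_combination h1 + h3 - h0
        exact hzQ ((mul_eq_zero.1 this).resolve_left h2)
  -- scalar
  obtain ⟨x, -, hxQ⟩ := exists_nonsing hQ' (X := ⊤) (by
    rw [finrank_top, Module.finrank_fintype_fun_eq_card]; omega)
  obtain ⟨c, hc⟩ := heig x hxQ
  let S0 : Submodule F (ι → F) :=
    { carrier := {w | ∀ v, polar Q' v w = c * polar Q v w}
      add_mem' := fun {a b} ha hb v => by
        rw [hQ'.polar_bilinear.add_right, hQ.polar_bilinear.add_right, ha v, hb v]; ring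
      zero_mem' := fun v => by rw [B_zero_right hQ', B_zero_right hQ, mul_zero]
      smul_mem' := fun d a ha v => by
        rw [hQ'.polar_bilinear.smul_right, hQ.polar_bilinear.smul_right, ha v]; ring }
  obtain ⟨e0, he0, he0Q⟩ := exists_nonsing hQ' (X := perp hQ' x) (by
      have := finrank_inf_perp hQ' ⊤ x
      rw [top_inf_eq, finrank_top, Module.finrank_fintype_fun_eq_card] at this
      omega)
  have hle : perp hQ' x ≤ S0 := le_of_nonsing hQ' h2 he0 he0Q (by
    intro y hy hyQ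
    obtain ⟨d, hd⟩ := heig y hyQ
    have : c = d := hsame x y c d hxQ hyQ (by rw [B_symm]; exact hy) hc hd
    subst this
    exact hd)
  have hall : ∀ v, polar Q' v v = c * polar Q v v := by
    intro v
    have hv : v ∈ S0 := by
      have hx2 : polar Q' x x ≠ 0 := by rw [B_self hQ']; exact mul_ne_zero h2 hxQ
      have h1 : v - (polar Q' v x / polar Q' x x) • x ∈ perp hQ' x := by
        show polar Q' _ x = 0
        rw [(linLeft hQ').sub_left, hQ'.polar_bilinear.smul_left, div_mul_cancel₀ _ hx2, sub_self]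
      have h3 := S0.add_mem (hle h1) (S0.smul_mem (polar Q' v x / polar Q' x x) (show x ∈ S0 from hc))
      rwa [sub_add_cancel] at h3
    exact hv v
  have hallQ : ∀ v, Q' v = c * Q v := by
    intro v
    have := hall v
    rw [B_self hQ', B_self hQ] at this
    have h3 : (2 : F) * (Q' v - c * Q v) = 0 := by linear_combination this
    exact sub_eq_zero.1 ((mul_eq_zero.1 h3).resolve_left h2)
  have hc0 : c ≠ 0 := by
    rintro rfl
    apply hxQ
    rw [hallQ, zero_mul]
  have hinv : g⁻¹ ∈ quadSimilarityGroup Q := ⟨Units.mk0 c hc0, hallQ⟩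
  have := (quadSimilarityGroup Q).inv_mem hinv
  rwa [inv_inv] at this


/-- nonsingular directions -/
theorem upgrade [Finite F] (hQ : IsNondegenerateQuadraticForm Q) (h2 : (2 : F) ≠ 0)
    (hM : quadSimilarityGroup Q ⊓ specialLinear ι F ≤ M) (hn : 6 ≤ Fintype.card ι) {w u : ι → F} (hw : w ≠ 0)
    (hu : u ≠ 0) (hT : HasT M w (frow (polar Q) u)) :
    ∃ w' t, w' ≠ 0 ∧ Q t ≠ 0 ∧ HasT M w' (frow (polar Q) t) := by
  by_cases hQu : Q u = 0
  swap
  · exact ⟨w, u, hw, hQu, hT⟩
  have hdim : Fintype.card ι ≤ Module.finrank F (perp hQ w) + 1 := by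
    have := finrank_inf_perp hQ ⊤ w
    rwa [top_inf_eq, finrank_top, Module.finrank_fintype_fun_eq_card] at this
  by_cases huw : u ∈ Submodule.span F {w}
  · obtain ⟨c, rfl⟩ := Submodule.mem_span_singleton.1 huw
    have hc : c ≠ 0 := by
      rintro rfl
      exact hu (zero_smul _ _)
    have hQw : Q w = 0 := by
      rw [hQ.smul] at hQu
      exact (mul_eq_zero.1 hQu).resolve_left (pow_ne_zero 2 hc)
    obtain ⟨w1, hw1, hw10, hT1⟩ : ∃ w1, Q w1 = 0 ∧ polar Q w w1 ≠ 0 ∧ HasT M w1 (frow (polar Q) (c • w1)) := by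
      obtain ⟨Q', hQ'def, hQ'⟩ := H95.OBridge.exists_quad hQ
      subst hQ'def
      have hn' : 4 ≤ Module.finrank F (ι → F) := by rw [Module.finrank_fintype_fun_eq_card]; omega
      obtain ⟨w1, k1, k2, -⟩ := H7.OLow.both hQ' h2 hn' hQw hQw hw hw
      have hw10 : w1 ≠ 0 := by
        rintro rfl
        exact k2 ((linLeft hQ).zero_left w)
      obtain ⟨h, hh, hhw⟩ := H7.OLow.trans_sing hQ' h2 hn' hQw k1 hw hw10
      have hs2 : (H95.Bridge.toEq ι F).symm h ∈ omegaGL (⇑Q') := by
        rw [H95.OBridge.mem_omegaGL, MulEquiv.apply_symm_apply]; exact hh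
      have hQv : ∀ v, Q' ((((H95.Bridge.toEq ι F).symm h : GL ι F) : Matrix ι ι F) *ᵥ v) = Q' v := by
        intro v
        rw [H95.Bridge.toEq_symm_mulVec]
        exact H95.OSie.omega_le_O Q' hh v
      refine ⟨w1, k1, by rw [B_symm]; exact k2, ?_⟩
      have h3 := hT.conj (hM ⟨⟨1, fun v => by rw [hQv, Units.val_one, one_mul]⟩, det_omega _ hs2⟩)
      rwa [frow_vecMul_inv hQ hQv, mulVec_smul, H95.Bridge.toEq_symm_mulVec, hhw] at h3
    have h3 := hT1.conjT hT
    rw [(linLeft hQ).frow_dot, (linLeft hQ).frow_dot, ← frow_smul hQ, ← frow_sub hQ] at h3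
    refine ⟨_, _, ?_, ?_, h3⟩
    · intro h0
      have h4 : polar Q (w + polar Q w (c • w1) • w1) w1 = 0 := by rw [h0]; exact (linLeft hQ).zero_left _
      rw [hQ.polar_bilinear.add_left, hQ.polar_bilinear.smul_left, B_self hQ, hw1, mul_zero, mul_zero, add_zero] at h4
      exact hw10 h4
    · rw [sub_eq_add_neg, ← neg_smul, smul_smul, Q_add (Q := Q), hQ.smul, hQ.smul, hw1, hQw,
        hQ.polar_bilinear.smul_right, hQ.polar_bilinear.smul_right, hQ.polar_bilinear.smul_left, B_symm w1 w]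
      have : c ^ 2 * 0 + (-(c * polar Q w w1) * c) ^ 2 * 0 + -(c * polar Q w w1) * c * (c * polar Q w w1) =
        -(c ^ 3 * polar Q w w1 ^ 2) := by ring
      rw [this]
      exact neg_ne_zero.2 (mul_ne_zero (pow_ne_zero 3 hc) (pow_ne_zero 2 hw10))
  · obtain ⟨e, heN, he⟩ := exists_nonsing hQ (X := perp hQ w) (by omega)
    obtain ⟨x, hx, hxQ, hux⟩ : ∃ x ∈ perp hQ w, Q x ≠ 0 ∧ polar Q u x ≠ 0 := by
      by_contra hcon
      push Not at hcon
      have h3 := le_of_nonsing hQ h2 (S := perp hQ u) heN he (fun y hy hyQ => by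
        show polar Q y u = 0
        rw [B_symm]; exact hcon y hy hyQ)
      apply huw
      have h4 : frow (polar Q) u ∈ Submodule.span F {frow (polar Q) w} := by
        apply mem_span_of_ker_le
        intro x hx
        rw [(linLeft hQ).frow_dot] at hx ⊢
        exact h3 hx
      obtain ⟨c, hc⟩ := Submodule.mem_span_singleton.1 h4
      rw [Submodule.mem_span_singleton]
      refine ⟨c, ?_⟩
      rw [← sub_eq_zero]
      apply nd hQ
      intro x
      rw [← (linLeft hQ).frow_dot, frow_sub hQ, frow_smul hQ, hc, sub_self, zero_dotProduct]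
    have h3 := finrank_inf_perp hQ (perp hQ w) u
    obtain ⟨y, hy, hyQ⟩ := exists_nonsing hQ (X := perp hQ w ⊓ perp hQ u) (by omega)
    have hwy : polar Q w y = 0 := by rw [B_symm]; exact hy.1
    have huy : polar Q u y = 0 := by rw [B_symm]; exact hy.2
    have hxw : polar Q x w = 0 := hx
    have h1 := hT.conj (hM (mul_rGL_mem hQ hxQ hyQ))
    rw [frow_vecMul_inv hQ (by intro z; rw [Units.val_mul, ← mulVec_mulVec, Q_refl hQ, Q_refl hQ]),
      two_refl hQ hxQ hyQ huy, two_refl hQ hxQ hyQ hwy, B_symm w x, hxw, zero_div, zero_smul, sub_zero] at h1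
    have h4 := hT.sub_right h1
    rw [← frow_sub hQ, sub_sub_cancel] at h4
    refine ⟨w, _, hw, ?_, h4⟩
    rw [hQ.smul]
    exact mul_ne_zero (pow_ne_zero 2 (div_ne_zero hux hxQ)) hxQ

theorem chain6 (hQ : IsNondegenerateQuadraticForm Q) (h2 : (2 : F) ≠ 0) {X S : Submodule F (ι → F)}
    (hX : ∀ u x, u ∈ X → x ∈ X → Q u ≠ 0 → Q x ≠ 0 → polar Q u x = 0 →
      ∃ t ∈ X, polar Q t u = 0 ∧ polar Q t x = 0 ∧ Q t ≠ 0) {u : ι → F} (hu : u ∈ X) (hQu : Q u ≠ 0) (huS : u ∈ S)
    (hS : ∀ v ∈ S, Q v ≠ 0 → ∀ x ∈ X, Q x ≠ 0 → polar Q v x ≠ 0 → x ∈ S) : X ≤ S := by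
  refine le_of_nonsing hQ h2 hu hQu ?_
  intro x hx hQx
  by_cases hux : polar Q u x = 0
  · have hxu : polar Q x u = 0 := by rw [B_symm]; exact hux
    obtain ⟨z', hz'X, hz'u, hz'x, hne⟩ : ∃ z' ∈ X, polar Q z' u = 0 ∧ polar Q z' x = 0 ∧ Q u + Q x + Q z' ≠ 0 := by
      by_cases h0 : Q u + Q x = 0
      · obtain ⟨t, htX, htu, htx, hQt⟩ := hX u x hu hx hQu hQx hux
        exact ⟨t, htX, htu, htx, by rw [h0, zero_add]; exact hQt⟩
      · exact ⟨0, X.zero_mem, (linLeft hQ).zero_left u, (linLeft hQ).zero_left x, by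
          rw [Q_zero hQ, add_zero]; exact h0⟩
    have hzX : u + x + z' ∈ X := X.add_mem (X.add_mem hu hx) hz'X
    have hzQ : Q (u + x + z') = Q u + Q x + Q z' := by
      rw [Q_add (Q := Q), Q_add (Q := Q), hux, hQ.polar_bilinear.add_left, B_symm u z', hz'u, B_symm x z', hz'x]
      ring
    have hz : u + x + z' ∈ S := by
      apply hS u huS hQu _ hzX (by rw [hzQ]; exact hne)
      rw [hQ.polar_bilinear.add_right, hQ.polar_bilinear.add_right, B_self hQ, hux, B_symm u z', hz'u, add_zero,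
        add_zero]
      exact mul_ne_zero h2 hQu
    apply hS _ hz (by rw [hzQ]; exact hne) x hx hQx
    rw [hQ.polar_bilinear.add_left, hQ.polar_bilinear.add_left, B_self hQ, hux, hz'x, zero_add, add_zero]
    exact mul_ne_zero h2 hQx
  · exact hS u huS hQu x hx hQx hux

theorem full_of6 [Fintype F] (hodd : Odd (Fintype.card F)) (hQ : IsNondegenerateQuadraticForm Q) (h2 : (2 : F) ≠ 0)
    (hM : quadSimilarityGroup Q ⊓ specialLinear ι F ≤ M) (hn : 6 ≤ Fintype.card ι) {w u : ι → F}
    (hu : Q u ≠ 0) (hT : HasT M w (frow (polar Q) u)) : Full M w := by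
  have hwu : polar Q w u = 0 := by
    have := hT.1; rwa [(linLeft hQ).frow_dot] at this
  have hdim : Fintype.card ι ≤ Module.finrank F (perp hQ w) + 1 := by
    have := finrank_inf_perp hQ ⊤ w
    rwa [top_inf_eq, finrank_top, Module.finrank_fintype_fun_eq_card] at this
  -- (♦)
  have hdiam : ∀ v x, HasT M w (frow (polar Q) v) → polar Q x w = 0 → Q x ≠ 0 →
      HasT M w (frow (polar Q) ((polar Q v x / Q x) • x)) := by
    intro v x hv hxw hx
    have h3 := finrank_inf_perp hQ (perp hQ w) v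
    obtain ⟨y, hy, hyQ⟩ := exists_nonsing hQ (X := perp hQ w ⊓ perp hQ v) (by omega)
    have hwy : polar Q w y = 0 := by rw [B_symm]; exact hy.1
    have hvy : polar Q v y = 0 := by rw [B_symm]; exact hy.2
    have h1 := hv.conj (hM (mul_rGL_mem hQ hx hyQ))
    rw [frow_vecMul_inv hQ (by intro z; rw [Units.val_mul, ← mulVec_mulVec, Q_refl hQ, Q_refl hQ]),
      two_refl hQ hx hyQ hvy, two_refl hQ hx hyQ hwy, B_symm w x, hxw, zero_div, zero_smul, sub_zero] at h1
    have h4 := hv.sub_right h1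
    rwa [← frow_sub hQ, sub_sub_cancel] at h4
  -- (♦♦)
  have hdd0 : ∀ (c0 : F) x, c0 ≠ 0 → HasT M w (frow (polar Q) (c0 • x)) → polar Q x w = 0 → Q x ≠ 0 →
      ∀ c : F, HasT M w (frow (polar Q) (c • x)) := by
    intro c0 x hc0 hv hxw hx c
    by_cases hc : c = 0
    · rw [hc, zero_smul]
      have : frow (polar Q) (0 : ι → F) = 0 := by
        have := frow_smul hQ 0 (0 : ι → F)
        simpa using this
      rw [this]; exact HasT.zero_right w
    obtain ⟨z', hz'w, hz'x, hz'Q⟩ := funiv2 hQ h2 hn (w := w) hx (by rw [B_symm]; exact hxw)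
      (c0 * 4 * Q x / c - Q x)
    have hzQ : Q (x + z') = c0 * 4 * Q x / c := by
      rw [Q_add (Q := Q), hz'Q, B_symm x z', hz'x]; ring
    have h4 : (4 : F) ≠ 0 := by
      have : (4 : F) = 2 * 2 := by norm_num
      rw [this]; exact mul_ne_zero h2 h2
    have hzQ0 : Q (x + z') ≠ 0 := by
      rw [hzQ]; exact div_ne_zero (mul_ne_zero (mul_ne_zero hc0 h4) hx) hc
    have hzx : polar Q (x + z') x = 2 * Q x := by
      rw [hQ.polar_bilinear.add_left, B_self hQ, hz'x, add_zero]
    have hvz : polar Q (c0 • x) (x + z') = c0 * (2 * Q x) := by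
      rw [hQ.polar_bilinear.smul_left, B_symm, hzx]
    have h5 := hdiam _ (x + z') hv (by rw [hQ.polar_bilinear.add_left, hxw, hz'w, add_zero]) hzQ0
    have h6 := hdiam _ x h5 hxw hx
    rw [hQ.polar_bilinear.smul_left, hvz, hzx, hzQ] at h6
    convert h6 using 3
    field_simp
    ring
  have hdd : ∀ v x, HasT M w (frow (polar Q) v) → polar Q x w = 0 → Q x ≠ 0 → polar Q v x ≠ 0 →
      ∀ c : F, HasT M w (frow (polar Q) (c • x)) := by
    intro v x hv hxw hx hvx c
    exact hdd0 _ x (div_ne_zero hvx hx) (hdiam v x hv hxw hx) hxw hx c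
  let S : Submodule F (ι → F) :=
    { carrier := {v | ∀ c : F, HasT M w (frow (polar Q) (c • v))}
      add_mem' := fun {a b} ha hb c => by
        rw [smul_add, frow_add hQ]; exact (ha c).add_right (hb c)
      zero_mem' := fun c => by
        have : frow (polar Q) (0 : ι → F) = 0 := by
          have := frow_smul hQ 0 (0 : ι → F)
          simpa using this
        rw [smul_zero, this]; exact HasT.zero_right w
      smul_mem' := fun d a ha c => by
        rw [smul_smul]; exact ha _ }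
  have huw : polar Q u w = 0 := by rw [B_symm]; exact hwu
  have huS : u ∈ S := hdd u u hT huw hu (by rw [B_self hQ]; exact mul_ne_zero h2 hu)
  have hle : perp hQ w ≤ S := by
    refine chain6 hQ h2 (fun u x hu hx hQu hQx hux => fns3w hQ h2 hn hQu hQx hux hu hx)
      (show u ∈ perp hQ w from huw) hu huS ?_
    intro v hv _ x hx hQx hvx
    have hv1 := hv 1
    rw [one_smul] at hv1
    exact hdd v x hv1 hx hQx hvx
  intro φ hφ
  obtain ⟨y, rfl⟩ := exists_frow_eq (linLeft hQ) hQ.polar_bilinear.add_right hQ.polar_bilinear.smul_right (nd hQ) φ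
  rw [(linLeft hQ).frow_dot, B_symm] at hφ
  have := hle (show y ∈ perp hQ w from hφ) 1
  rwa [one_smul] at this

theorem specialLinear_le_of_full_centre6 (hQ : IsNondegenerateQuadraticForm Q) (h2 : (2 : F) ≠ 0)
    (hM : quadSimilarityGroup Q ⊓ specialLinear ι F ≤ M) (hn : 6 ≤ Fintype.card ι) {w : ι → F}
    (hw0 : w ≠ 0) (hw : Full M w) : specialLinear ι F ≤ M := by
  apply specialLinear_le_of_full
  have hmem : ∀ v ∈ fullSubmodule M, ∀ x, Q x ≠ 0 → polar Q v x ≠ 0 → x ∈ fullSubmodule M := by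
    intro v hv x hx hvx
    obtain ⟨y, hy, hyQ⟩ := exists_nonsing hQ (X := perp hQ v) (by
      have := finrank_inf_perp hQ ⊤ v
      rw [top_inf_eq, finrank_top, Module.finrank_fintype_fun_eq_card] at this
      omega)
    have hvy : polar Q v y = 0 := by rw [B_symm]; exact hy
    have h1 : _ ∈ fullSubmodule M := fullSubmodule_stable (hM (mul_rGL_mem hQ hx hyQ)) hv
    rw [two_refl hQ hx hyQ hvy] at h1
    have h3 := (fullSubmodule M).sub_mem hv h1
    rw [sub_sub_cancel] at h3
    have h4 := (fullSubmodule M).smul_mem (polar Q v x / Q x)⁻¹ h3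
    rwa [smul_smul, inv_mul_cancel₀ (div_ne_zero hvx hx), one_smul] at h4
  obtain ⟨e, -, he⟩ := exists_nonsing hQ (X := ⊤) (by
    rw [finrank_top, Module.finrank_fintype_fun_eq_card]; omega)
  obtain ⟨x0, hx0, hwx0⟩ : ∃ x, Q x ≠ 0 ∧ polar Q w x ≠ 0 := by
    by_contra hcon
    push Not at hcon
    apply hw0
    apply nd hQ
    intro x
    have := le_of_nonsing hQ h2 (X := ⊤) (S := perp hQ w) trivial he (fun y _ hy => by
      show polar Q y w = 0
      rw [B_symm]; exact hcon y hy)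
    exact this (show x ∈ (⊤ : Submodule F (ι → F)) from trivial)
  rw [eq_top_iff]
  refine chain6 hQ h2 (fun u x _ _ hQu hQx hux => by
      obtain ⟨t, -, h⟩ := fns3w hQ h2 hn (w := 0) hQu hQx hux (B_zero_right hQ _) (B_zero_right hQ _)
      exact ⟨t, trivial, h⟩) trivial hx0 (hmem w hw x0 hx0 hwx0) ?_
  intro v hv _ x _ hQx hvx
  exact hmem v hv x hQx hvx

theorem not_specialLinear_le6 (hQ : IsNondegenerateQuadraticForm Q) (h2 : (2 : F) ≠ 0) (hn : 6 ≤ Fintype.card ι) :
    ¬ specialLinear ι F ≤ quadSimilarityGroup Q := by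
  intro hle
  obtain ⟨v, -, hv⟩ := exists_nonsing hQ (X := ⊤) (by
    rw [finrank_top, Module.finrank_fintype_fun_eq_card]; omega)
  have hv0 : v ≠ 0 := by rintro rfl; exact hv (Q_zero hQ)
  obtain ⟨x, hx⟩ : ∃ x, x ∉ Submodule.span F {v} := by
    by_contra hcon
    push Not at hcon
    have h1 : (⊤ : Submodule F (ι → F)) ≤ Submodule.span F {v} := fun y _ => hcon y
    have h3 := Submodule.finrank_mono h1
    rw [finrank_top, Module.finrank_fintype_fun_eq_card, finrank_span_singleton hv0] at h3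
    omega
  obtain ⟨φ, h1, h3⟩ := exists_functional hx
  obtain ⟨c, hc⟩ := hle (tGL_mem_specialLinear v φ h1)
  have e1 := hc v
  have e2 := hc x
  have e3 := hc (x + v)
  rw [tGL_val, tm_mulVec, h1, zero_smul, add_zero] at e1
  have hc1 : (c : F) = 1 := by
    have : ((c : F) - 1) * Q v = 0 := by linear_combination -e1
    exact sub_eq_zero.1 ((mul_eq_zero.1 this).resolve_right hv)
  rw [tGL_val, tm_mulVec, h3, one_smul, hc1, one_mul, Q_add (Q := Q)] at e2
  rw [tGL_val, tm_mulVec, dotProduct_add, h1, h3, add_zero, one_smul, hc1, one_mul, Q_add (Q := Q) (x + v) v,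
    hQ.polar_bilinear.add_left, B_self hQ] at e3
  have : (2 : F) * Q v = 0 := by linear_combination e3 - e2
  exact hv ((mul_eq_zero.1 this).resolve_left h2)

theorem similarity_maximal6 [Fintype F] (hodd : Odd (Fintype.card F)) (hQ : IsNondegenerateQuadraticForm Q)
    (hn : 6 ≤ Fintype.card ι) : IsMaximalIn (specialLinear ι F) (quadSimilarityGroup Q ⊓ specialLinear ι F) := by
  have h2 : (2 : F) ≠ 0 := by
    intro h
    have hchar : CharP F 2 := by
      refine CharTwo.of_one_ne_zero_of_two_eq_zero one_ne_zero h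
    have hev : 2 ∣ Fintype.card F := by
      have := FiniteField.card F 2
      obtain ⟨n, hp, hn⟩ := this
      rw [hn]; exact dvd_pow_self 2 n.ne_zero
    exact (Nat.not_even_iff_odd.2 hodd) (even_iff_two_dvd.2 hev)
  refine ⟨lt_of_le_of_ne inf_le_right fun h => ?_, fun M hM1 hM2 => ?_⟩
  · apply not_specialLinear_le6 hQ h2 hn
    rw [← h]; exact inf_le_left
  · by_cases hM : M ≤ quadSimilarityGroup Q
    · exact Or.inl (le_antisymm (le_inf hM hM2) hM1)
    · right
      apply le_antisymm hM2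
      obtain ⟨g, hg, hgs⟩ := Set.not_subset.1 hM
      obtain ⟨w0, t0, hw0, ht0, hT0⟩ := exists_T hQ h2 hM1 hM2 hn hg hgs
      obtain ⟨w, t, hw, ht, hT⟩ := upgrade hQ h2 hM1 hn hw0 ht0 hT0
      exact specialLinear_le_of_full_centre6 hQ h2 hM1 hn hw (full_of6 hodd hQ h2 hM1 hn ht hT)

end H7.OrthSix
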