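import Cfsg.Agent.Lib.H95.OGeo
import Cfsg.Agent.Lib.H95.SpBasic

set_option autoImplicit false

/-!
Overgroups of the normaliser of a quadratic extension (unitary type) in symplectic groups, odd characteristic.
-/

namespace H7.SpUni

open Module QuadraticMap H48.QuadSplit H48.QuadWitt H95.OGeo H95.SpBasic

variable {F V : Type*} [Field F] [AddCommGroup V] [Module F V]

/-- a quadratic extension with a skew-adjoint generator -/
structure SJ (B : LinearMap.BilinForm F V) (J : V →ₗ[F] V) (ε : F) : Prop where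
  alt : B.IsAlt
  nd : ∀ v, (∀ w, B v w = 0) → v = 0
  sq : ∀ v, J (J v) = ε • v
  adj : ∀ u v, B (J u) v = - B u (J v)
  ns : ∀ x : F, x * x ≠ ε
  two : (2 : F) ≠ 0

variable {B : LinearMap.BilinForm F V} {J : V →ₗ[F] V} {ε : F} {M : Subgroup (V ≃ₗ[F] V)}

lemma inv_apply (g : V ≃ₗ[F] V) (x : V) : g⁻¹ (g x) = x := g.symm_apply_apply x
lemma apply_inv (g : V ≃ₗ[F] V) (x : V) : g (g⁻¹ x) = x := g.apply_symm_apply x

namespace SJ

lemma sw (h : SJ B J ε) (x y : V) : B x y = - B y x := (LinearMap.BilinForm.IsAlt.neg_eq h.alt y x).symm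

lemma e0 (h : SJ B J ε) : ε ≠ 0 := by
  intro h0; exact h.ns 0 (by rw [h0, mul_zero])

/-- anisotropy of the norm form -/
lemma norm (h : SJ B J ε) {a b : F} (hab : a ≠ 0 ∨ b ≠ 0) : a * a - ε * (b * b) ≠ 0 := by
  intro h0
  by_cases hb : b = 0
  · rw [hb, mul_zero, mul_zero, sub_zero] at h0
    rcases hab with ha | hb'
    · exact ha (mul_self_eq_zero.1 h0)
    · exact hb' hb
  · apply h.ns (a / b)
    field_simp
    linear_combination h0

lemma norm' (h : SJ B J ε) {a b : F} (hab : a ≠ 0 ∨ b ≠ 0) : ε * (a * a) - b * b ≠ 0 := by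
  intro h0
  exact h.norm hab.symm (by linear_combination - h0)

lemma sym (h : SJ B J ε) (x y : V) : B x (J y) = B y (J x) := by
  rw [h.sw x (J y), h.adj, neg_neg]

lemma JJ (h : SJ B J ε) (x y : V) : B (J x) (J y) = - (ε * B x y) := by
  rw [h.adj, h.sq, map_smul, smul_eq_mul]

lemma J_inj (h : SJ B J ε) {x : V} (hx : J x = 0) : x = 0 := by
  have := h.sq x
  rw [hx, map_zero] at this
  rcases smul_eq_zero.1 this.symm with h1 | h1
  · exact absurd h1 h.e0
  · exact h1

/-- `x` and `J x` are independent -/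
lemma ind (h : SJ B J ε) {x : V} (hx : x ≠ 0) {a b : F} (hab : a • x + b • J x = 0) : a = 0 ∧ b = 0 := by
  by_contra hcon
  have hab' : a ≠ 0 ∨ b ≠ 0 := by
    by_contra hc; push Not at hc; exact hcon hc
  have h1 : J (a • x + b • J x) = 0 := by rw [hab, map_zero]
  rw [map_add, map_smul, map_smul, h.sq] at h1
  -- a (a x + b J x) - b (a J x + b ε x) = (a² - ε b²) x
  have h2 : (a * a - ε * (b * b)) • x = a • (a • x + b • J x) - b • (a • J x + b • ε • x) := by module
  rw [hab, h1, smul_zero, smul_zero, sub_zero] at h2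
  rcases smul_eq_zero.1 h2 with h3 | h3
  · exact h.norm hab' h3
  · exact hx h3

lemma ind_div (h : SJ B J ε) {x w : V} (hx : x ≠ 0) {a b : F} (hw : w = a • x + b • J x) (hw0 : w ≠ 0) :
    a ≠ 0 ∨ b ≠ 0 := by
  by_contra hc; push Not at hc
  rw [hc.1, hc.2, zero_smul, zero_smul, add_zero] at hw
  exact hw0 hw

end SJ

/-- the quadratic form `B(x, J x)` -/
def NQ (B : LinearMap.BilinForm F V) (J : V →ₗ[F] V) : QuadraticForm F V :=
  LinearMap.BilinMap.toQuadraticMap (B.compRight J)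

lemma NQ_apply (x : V) : NQ B J x = B x (J x) := rfl

lemma polar_NQ (h : SJ B J ε) (x y : V) : polar (NQ B J) x y = 2 * B x (J y) := by
  rw [polar, NQ_apply, NQ_apply, NQ_apply, map_add, map_add, map_add, LinearMap.add_apply, LinearMap.add_apply,
    h.sym y x]
  ring

lemma nd_NQ (h : SJ B J ε) : ND (NQ B J) := by
  intro x hx
  apply h.nd
  intro w
  have h1 := hx (J w)
  rw [polar_NQ h, h.sq, map_smul, smul_eq_mul] at h1
  rcases mul_eq_zero.1 h1 with h2 | h2
  · exact absurd h2 h.two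
  · rcases mul_eq_zero.1 h2 with h3 | h3
    · exact absurd h3 h.e0
    · exact h3

/-- `M` contains the element of `Sym²⟨z,w⟩` with coefficients `α, β, γ` -/
def El (B : LinearMap.BilinForm F V) (M : Subgroup (V ≃ₗ[F] V)) (z w : V) (α β γ : F) : Prop :=
  ∃ g ∈ M, ∀ y, g y = y + (α * B y z + β * B y w) • z + (β * B y z + γ * B y w) • w

lemma El.conj {z w : V} {α β γ : F} (h : El B M z w α β γ) {g : V ≃ₗ[F] V} (hg : g ∈ M) (hgi : g ∈ isom B) :
    El B M (g z) (g w) α β γ := by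
  obtain ⟨u, hu, hux⟩ := h
  refine ⟨g * u * g⁻¹, M.mul_mem (M.mul_mem hg hu) (M.inv_mem hg), fun x => ?_⟩
  have e1 : B (g⁻¹ x) z = B x (g z) := by
    rw [← hgi (g⁻¹ x) z, apply_inv]
  have e2 : B (g⁻¹ x) w = B x (g w) := by
    rw [← hgi (g⁻¹ x) w, apply_inv]
  show g (u (g⁻¹ x)) = _
  rw [hux, map_add, map_add, map_smul, map_smul, apply_inv, e1, e2]

lemma El.add (hB : B.IsAlt) {z w : V} (hzw : B z w = 0) (hwz : B w z = 0) {α β γ α' β' γ' : F}
    (h : El B M z w α β γ) (h' : El B M z w α' β' γ') : El B M z w (α + α') (β + β') (γ + γ') := by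
  obtain ⟨u, hu, hux⟩ := h
  obtain ⟨u', hu', hux'⟩ := h'
  refine ⟨u * u', M.mul_mem hu hu', fun x => ?_⟩
  show u (u' x) = _
  rw [hux, hux']
  have hz : B z z = 0 := hB z
  have hw : B w w = 0 := hB w
  simp only [map_add, LinearMap.add_apply, map_smul, LinearMap.smul_apply, smul_eq_mul, hz, hw, hzw, hwz,
    mul_zero, add_zero]
  module

lemma El.neg (hB : B.IsAlt) {z w : V} (hzw : B z w = 0) (hwz : B w z = 0) {α β γ : F}
    (h : El B M z w α β γ) : El B M z w (-α) (-β) (-γ) := by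
  obtain ⟨u, hu, hux⟩ := h
  refine ⟨u⁻¹, M.inv_mem hu, fun x => ?_⟩
  have hz : B z z = 0 := hB z
  have hw : B w w = 0 := hB w
  apply u.injective
  rw [apply_inv, hux]
  simp only [map_add, LinearMap.add_apply, map_smul, LinearMap.smul_apply, smul_eq_mul, hz, hw, hzw, hwz,
    mul_zero, add_zero]
  module

/-- change of basis -/
lemma El.basis {z w : V} {p q r s α β γ : F} (h : El B M (p • z + q • w) (r • z + s • w) α β γ) :
    El B M z w (α * (p * p) + 2 * β * (p * r) + γ * (r * r)) (α * (p * q) + β * (p * s + q * r) + γ * (r * s))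
      (α * (q * q) + 2 * β * (q * s) + γ * (s * s)) := by
  obtain ⟨u, hu, hux⟩ := h
  refine ⟨u, hu, fun x => ?_⟩
  rw [hux]
  simp only [map_add, map_smul, smul_eq_mul]
  module

lemma El.tr {z w : V} {α : F} (hB : B.IsAlt) (h : El B M z w α 0 0) : tr B hB z α ∈ M := by
  obtain ⟨u, hu, hux⟩ := h
  have : H95.SpBasic.tr B hB z α = u := by
    ext x
    rw [hux, tr_apply]
    simp
  rw [this]; exact hu

lemma El.of_tr {z w : V} {α : F} (hB : B.IsAlt) (h : H95.SpBasic.tr B hB z α ∈ M) : El B M z w α 0 0 :=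
  ⟨_, h, fun x => by rw [tr_apply]; simp⟩

/-- `M` contains the unitary group -/
def HasU (B : LinearMap.BilinForm F V) (J : V →ₗ[F] V) (M : Subgroup (V ≃ₗ[F] V)) : Prop :=
  ∀ g ∈ isom B, (∀ v, g (J v) = J (g v)) → g ∈ M

/-- unitary transvections -/
lemma HasU.el (h : SJ B J ε) (hM : HasU B J M) {x : V} (hx : B x (J x) = 0) (c : F) :
    El B M x (J x) (c * ε) 0 (-c) := by
  have hg : ∀ y, (tr B h.alt x (c * ε) * tr B h.alt (J x) (-c)) y =
      y + (c * ε * B y x) • x + (-c * B y (J x)) • J x := by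
    intro y
    show tr B h.alt x (c * ε) (tr B h.alt (J x) (-c) y) = _
    have hx' : B (J x) x = 0 := by rw [h.sw, hx, neg_zero]
    rw [tr_apply, tr_apply]
    simp only [map_add, LinearMap.add_apply, map_smul, LinearMap.smul_apply, smul_eq_mul, hx', mul_zero, add_zero]
    abel
  refine ⟨tr B h.alt x (c * ε) * tr B h.alt (J x) (-c), hM _ ?_ ?_, fun y => ?_⟩
  · exact (isom B).mul_mem (tr_mem_isom _ _ _ _) (tr_mem_isom _ _ _ _)
  · intro v
    rw [hg, hg]
    simp only [map_add, map_smul, h.sq, h.JJ]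
    rw [h.adj v x]
    module
  · rw [hg]
    simp

variable [FiniteDimensional F V] [Finite F]

/-- isotropic vectors with given products with `z` and `J z` -/
lemma SJ.partner (h : SJ B J ε) (hn : 14 ≤ finrank F V) {z : V} (hz : z ≠ 0) (a b : F) :
    ∃ y, B y (J y) = 0 ∧ B z y = a ∧ B z (J y) = b := by
  have hli : LinearIndependent F ![z, J z] := by
    rw [LinearIndependent.pair_iff]
    intro s t hst
    exact h.ind hz hst
  obtain ⟨y, hy, hy'⟩ := dual_val (nd_NQ h) (k := 2) (by omega) hli ![2 * b, -(2 * ε * a)] 0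
  have h0 : polar (NQ B J) y z = 2 * b := hy' 0
  have h1 : polar (NQ B J) y (J z) = -(2 * ε * a) := hy' 1
  refine ⟨y, hy, ?_, ?_⟩
  · rw [polar_NQ h, h.sq, map_smul, smul_eq_mul] at h1
    rw [h.sw z y]
    have h2 : (2 * ε) * (B y z + a) = 0 := by linear_combination h1
    rcases mul_eq_zero.1 h2 with h3 | h3
    · exact absurd h3 (mul_ne_zero h.two h.e0)
    · linear_combination -h3
  · rw [polar_NQ h] at h0
    rw [h.sym z y]
    exact mul_left_cancel₀ h.two h0

/-- the torus -/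
lemma HasU.torus (h : SJ B J ε) (hM : HasU B J M) (hn : 14 ≤ finrank F V) {z : V} (hz : z ≠ 0)
    (hzz : B z (J z) = 0) {p q : F} (hpq : p ≠ 0 ∨ q ≠ 0) :
    ∃ g ∈ M, g ∈ isom B ∧ g z = p • z + q • J z ∧ g (J z) = p • J z + (q * ε) • z := by
  obtain ⟨y, hyy, hzy, hzJy⟩ := h.partner hn hz 1 0
  have hnn := h.norm hpq
  obtain ⟨n, hn'⟩ : ∃ n, n = p * p - ε * (q * q) := ⟨_, rfl⟩
  rw [← hn'] at hnn
  obtain ⟨p', hp'⟩ : ∃ p', p' = p / n := ⟨_, rfl⟩
  obtain ⟨q', hq'⟩ : ∃ q', q' = q / n := ⟨_, rfl⟩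
  have hε := h.e0
  have hp1 : p' * p - ε * (q' * q) = 1 := by
    rw [hp', hq']; field_simp; rw [hn']; ring
  have hp2 : p' * q = q' * p := by
    rw [hp', hq']; field_simp
  -- values
  have v1 : B y z = -1 := by rw [h.sw, hzy]
  have v2 : B (J y) z = 0 := by rw [h.sw, hzJy, neg_zero]
  have v3 : B (J z) y = 0 := by rw [h.adj, hzJy, neg_zero]
  have v4 : B y (J z) = 0 := by rw [h.sw, v3, neg_zero]
  have v5 : B (J z) (J y) = -ε := by rw [h.JJ, hzy, mul_one]
  have v6 : B (J y) (J z) = ε := by rw [h.sw, v5, neg_neg]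
  have v7 : B (J z) z = 0 := by rw [h.sw, hzz, neg_zero]
  have v8 : B (J y) y = 0 := by rw [h.sw, hyy, neg_zero]
  have v9 : B z z = 0 := h.alt z
  have v10 : B y y = 0 := h.alt y
  have v11 : B (J z) (J z) = 0 := h.alt _
  have v12 : B (J y) (J y) = 0 := h.alt _
  -- the linear map
  let G : V →ₗ[F] V := LinearMap.id + ((p - 1) • B.flip y - q • B.flip (J y)).smulRight z +
    (q • B.flip y - ((p - 1) / ε) • B.flip (J y)).smulRight (J z) +
    (-(p' - 1) • B.flip z + q' • B.flip (J z)).smulRight y +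
    (-q' • B.flip z + ((p' - 1) / ε) • B.flip (J z)).smulRight (J y)
  have hG : ∀ v, G v = v + ((p - 1) * B v y - q * B v (J y)) • z + (q * B v y - (p - 1) / ε * B v (J y)) • J z +
      (-(p' - 1) * B v z + q' * B v (J z)) • y + (-q' * B v z + (p' - 1) / ε * B v (J z)) • J y := fun v => rfl
  have hGi : ∀ u v, B (G u) (G v) = B u v := by
    intro u v
    have a1 : B z v = - B v z := h.sw _ _
    have a2 : B y v = - B v y := h.sw _ _
    have a3 : B (J z) v = - B v (J z) := h.sw _ _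
    have a4 : B (J y) v = - B v (J y) := h.sw _ _
    rw [hG, hG]
    simp only [map_add, LinearMap.add_apply, map_smul, LinearMap.smul_apply, smul_eq_mul, hzy, hzJy, v1, v2, v3, v4,
      v5, v6, v7, v8, v9, v10, v11, v12, hyy, hzz, a1, a2, a3, a4]
    field_simp
    linear_combination (ε * (B u (J y) * B v (J z)) - ε * (B u (J z) * B v (J y)) +
      ε ^ 2 * (B u z * B v y - B u y * B v z)) * hp1 + ε ^ 2 * (B u (J y) * B v z - B v (J z) * B u y +
      B u (J z) * B v y - B v (J y) * B u z) * hp2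
  have hinj : Function.Injective G := by
    rw [← LinearMap.ker_eq_bot, LinearMap.ker_eq_bot']
    intro m hm
    apply h.nd
    intro w
    rw [← hGi, hm, map_zero, LinearMap.zero_apply]
  obtain ⟨g, hg⟩ : ∃ g : V ≃ₗ[F] V, g = LinearEquiv.ofInjectiveEndo G hinj := ⟨_, rfl⟩
  have hgx : ∀ v, g v = G v := fun v => by rw [hg]; rfl
  have hgi : g ∈ isom B := by
    intro u v
    show B (g u) (g v) = B u v
    rw [hgx, hgx, hGi]
  refine ⟨g, hM g hgi ?_, hgi, ?_, ?_⟩
  · intro v
    rw [hgx, hgx, hG, hG]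
    simp only [map_add, map_smul, h.sq, h.JJ]
    rw [h.adj v y, h.adj v z]
    match_scalars <;> field_simp <;> ring
  · rw [hgx, hG]
    rw [hzy, hzJy, v9, hzz]
    module
  · rw [hgx, hG]
    rw [v3, v5, v7, v11]
    have e1 : (p - 1) / ε * -ε = -(p - 1) := by field_simp
    rw [e1]
    module

lemma cen_line (h : SJ B J ε) (hM : HasU B J M) (hn : 14 ≤ finrank F V) {z : V} (hz : z ≠ 0)
    (hzz : B z (J z) = 0) (hC : Cen B h.alt M z) (p q : F) : Cen B h.alt M (p • z + q • J z) := by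
  by_cases hpq : p ≠ 0 ∨ q ≠ 0
  · obtain ⟨g, hg, hgi, hgz, -⟩ := hM.torus h hn hz hzz hpq
    rw [← hgz]
    exact hC.map hg hgi
  · push Not at hpq
    rw [hpq.1, hpq.2, zero_smul, zero_smul, add_zero]
    exact Cen.zero _ _ _

/-- a nonzero vector of a `J`-line spans it -/
lemma back (h : SJ B J ε) {p q : F} (hpq : p ≠ 0 ∨ q ≠ 0) (y : V) : ∃ a b : F,
    y = a • (p • y + q • J y) + b • J (p • y + q • J y) := by
  have hnn := h.norm hpq
  obtain ⟨n, hn'⟩ : ∃ n, n = p * p - ε * (q * q) := ⟨_, rfl⟩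
  rw [← hn'] at hnn
  refine ⟨p / n, -q / n, ?_⟩
  simp only [map_add, map_smul, h.sq]
  match_scalars
  · field_simp
    linear_combination hn'
  · field_simp
    ring

lemma line_ne (h : SJ B J ε) {y : V} (hy : y ≠ 0) {p q : F} (hpq : p ≠ 0 ∨ q ≠ 0) : p • y + q • J y ≠ 0 := by
  intro h0
  have := h.ind hy h0
  rcases hpq with h1 | h1
  · exact h1 this.1
  · exact h1 this.2

lemma line_iso (h : SJ B J ε) {y : V} (hyy : B y (J y) = 0) (p q : F) :
    B (p • y + q • J y) (J (p • y + q • J y)) = 0 := by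
  have h1 : B (J y) y = 0 := by rw [h.sw, hyy, neg_zero]
  have h2 : B y y = 0 := h.alt y
  have h3 : B (J y) (J y) = 0 := h.alt _
  simp only [map_add, LinearMap.add_apply, map_smul, LinearMap.smul_apply, smul_eq_mul, h.sq, hyy, h1, h2, h3]
  ring

lemma cen_step (h : SJ B J ε) (hM : HasU B J M) (hMB : M ≤ isom B) (hn : 14 ≤ finrank F V) {x y : V}
    (hC : Cen B h.alt M x) (hy : y ≠ 0)
    (hyy : B y (J y) = 0) (hxy : B x y ≠ 0 ∨ B x (J y) ≠ 0) : Cen B h.alt M y := by
  obtain ⟨g, hg, hgf⟩ := hM.el h hyy 1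
  obtain ⟨p, hp⟩ : ∃ p, p = ε * B x y := ⟨_, rfl⟩
  obtain ⟨q, hq⟩ : ∃ q, q = - B x (J y) := ⟨_, rfl⟩
  have hpq : p ≠ 0 ∨ q ≠ 0 := by
    rcases hxy with h1 | h1
    · left; rw [hp]; exact mul_ne_zero h.e0 h1
    · right; rw [hq]; exact neg_ne_zero.2 h1
  have hgx : g x = x + (p • y + q • J y) := by
    rw [hgf, hp, hq]; module
  have hxx : B x x = 0 := h.alt x
  have h1 : B (g x) x ≠ 0 := by
    rw [h.sw, hgx]
    apply neg_ne_zero.2
    have := h.norm' hxy
    intro h0
    apply this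
    rw [map_add, map_add, map_smul, map_smul, hxx, hp, hq, smul_eq_mul, smul_eq_mul] at h0
    linear_combination h0
  have h2 := (hC.map hg (hMB hg)).add hC h1 (-1)
  have h3 : g x + (-1 : F) • x = p • y + q • J y := by
    rw [hgx]; module
  rw [h3] at h2
  obtain ⟨a, b, hab⟩ := back h hpq y
  rw [hab]
  exact cen_line h hM hn (line_ne h hy hpq) (line_iso h hyy p q) h2 a b

/-- an overgroup containing transvections at an isotropic vector is everything -/
theorem cen_iso (h : SJ B J ε) (hM : HasU B J M) (hMB : M ≤ isom B) (hn : 14 ≤ finrank F V) {x : V}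
    (hx : x ≠ 0) (hC : Cen B h.alt M x) : isom B ≤ M := by
  have key : ∀ y, y ≠ 0 → B y (J y) = 0 → Cen B h.alt M y := by
    intro y hy hyy
    obtain ⟨z, hz, hzx, hzy⟩ := conn (nd_NQ h) (by omega) hx hy 0
    have hz0 : z ≠ 0 := by
      rintro rfl
      apply hzx
      rw [p_zero]
    rw [polar_NQ h] at hzx hzy
    have h1 : B x (J z) ≠ 0 := by
      rw [h.sym]; exact right_ne_zero_of_mul hzx
    have h2 : B z (J y) ≠ 0 := right_ne_zero_of_mul hzy
    exact cen_step h hM hMB hn (cen_step h hM hMB hn hC hz0 hz (Or.inr h1)) hy hyy (Or.inr h2)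
  apply isom_le_of_tr B h.alt h.nd
  intro v
  change Cen B h.alt M v
  by_cases hv : v = 0
  · rw [hv]; exact Cen.zero _ _ _
  by_cases hvv : B v (J v) = 0
  · exact key v hv hvv
  have hli : LinearIndependent F ![v, J v] := by
    rw [LinearIndependent.pair_iff]
    intro s t hst
    exact h.ind hv hst
  obtain ⟨y, hy, hy'⟩ := dual_val (nd_NQ h) (k := 2) (by omega) hli ![B v (J v), 2 * ε] 0
  have h0 : polar (NQ B J) y v = B v (J v) := hy' 0
  have h1 : polar (NQ B J) y (J v) = 2 * ε := hy' 1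
  have h1' : B y v = 1 := by
    rw [polar_NQ h, h.sq, map_smul, smul_eq_mul] at h1
    have h2 : (2 * ε) * (B y v - 1) = 0 := by linear_combination h1
    rcases mul_eq_zero.1 h2 with h3 | h3
    · exact absurd h3 (mul_ne_zero h.two h.e0)
    · linear_combination h3
  have hyy : B y y = 0 := h.alt y
  have hy0 : y ≠ 0 := by
    rintro rfl
    rw [map_zero, LinearMap.zero_apply] at h1'
    exact zero_ne_one h1'
  have hvy0 : v - y ≠ 0 := by
    intro h2
    rw [sub_eq_zero] at h2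
    rw [h2, hyy] at h1'
    exact zero_ne_one h1'
  have h3 : B (v - y) (J (v - y)) = 0 := by
    have : NQ B J (v - y) = 0 := by
      rw [Q_sub, hy, p_comm, h0, NQ_apply]
      ring
    exact this
  have h4 : B y (v - y) ≠ 0 := by
    rw [map_sub, hyy, h1', sub_zero]; exact one_ne_zero
  have h5 := (key y hy0 hy).add (key _ hvy0 h3) h4 1
  rw [one_smul, add_sub_cancel] at h5
  exact h5

end H7.SpUni
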