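import Cfsg.Agent.Lib.H7.SpUni

set_option autoImplicit false

/-!
Overgroups of the normaliser of a quadratic extension (unitary type) in symplectic groups, odd characteristic: the end.
-/

namespace H7.SpUni

open Module QuadraticMap H48.QuadSplit H48.QuadWitt H95.OGeo H95.SpBasic

variable {F V : Type*} [Field F] [AddCommGroup V] [Module F V]
variable {B : LinearMap.BilinForm F V} {J : V →ₗ[F] V} {ε : F} {M : Subgroup (V ≃ₗ[F] V)}

/-- the conjugate of `J` by `g` -/
def cj (J : V →ₗ[F] V) (g : V ≃ₗ[F] V) : V →ₗ[F] V := (g : V →ₗ[F] V) ∘ₗ J ∘ₗ (g⁻¹ : V ≃ₗ[F] V)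

lemma cj_apply (g : V ≃ₗ[F] V) (v : V) : cj J g v = g (J (g⁻¹ v)) := rfl

lemma isom_inv {g : V ≃ₗ[F] V} (hg : g ∈ isom B) (u v : V) : B (g u) v = B u (g⁻¹ v) := by
  rw [← hg u (g⁻¹ v), apply_inv]

lemma isom_inv' {g : V ≃ₗ[F] V} (hg : g ∈ isom B) (u v : V) : B u (g v) = B (g⁻¹ u) v := by
  rw [← hg (g⁻¹ u) v, apply_inv]

lemma SJ.cj (h : SJ B J ε) {g : V ≃ₗ[F] V} (hg : g ∈ isom B) : SJ B (cj J g) ε where
  alt := h.alt
  nd := h.nd
  sq v := by rw [cj_apply, cj_apply, inv_apply, h.sq, map_smul, apply_inv]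
  adj u v := by rw [cj_apply, cj_apply, isom_inv hg, h.adj, isom_inv' hg]
  ns := h.ns
  two := h.two

lemma HasU.cj (hM : HasU B J M) {g : V ≃ₗ[F] V} (hg : g ∈ M) (hgi : g ∈ isom B) : HasU B (cj J g) M := by
  intro u hu huJ
  have h1 : g⁻¹ * u * g ∈ M := by
    apply hM
    · exact (isom B).mul_mem ((isom B).mul_mem ((isom B).inv_mem hgi) hu) hgi
    · intro v
      have := huJ (g v)
      rw [cj_apply, cj_apply, inv_apply] at this
      show g⁻¹ (u (g (J v))) = J (g⁻¹ (u (g v)))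
      rw [this, inv_apply]
  have h2 : u = g * (g⁻¹ * u * g) * g⁻¹ := by group
  rw [h2]
  exact M.mul_mem (M.mul_mem hg h1) (M.inv_mem hg)

/-- `El` with explicit group element -/
lemma El.mk {z w : V} {α β γ : F} {g : V ≃ₗ[F] V} (hg : g ∈ M)
    (h : ∀ y, g y = y + (α * B y z + β * B y w) • z + (β * B y z + γ * B y w) • w) : El B M z w α β γ := ⟨g, hg, h⟩

variable [FiniteDimensional F V] [Finite F]

/-- step 2a -/
lemma cen_of_el (h : SJ B J ε) (hM : HasU B J M) (hMB : M ≤ isom B) (hn : 14 ≤ finrank F V) {z : V} (hz : z ≠ 0)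
    (hzz : B z (J z) = 0) {α β : F} (hab : α ≠ 0 ∨ β ≠ 0) (hE : El B M z (J z) α β 0) : Cen B h.alt M z := by
  have hzz' : B (J z) z = 0 := by rw [h.sw, hzz, neg_zero]
  have step : ∀ α β : F, El B M z (J z) α β 0 → ∀ t, El B M z (J z) (4 * ε * β * t) (α * t) 0 := by
    intro α β hE t
    obtain ⟨s, hs⟩ : ∃ s, s = t / 2 := ⟨_, rfl⟩
    have hst : t = 2 * s := by rw [hs]; field_simp [h.two]
    obtain ⟨g, hg, hgi, hgz, hgJ⟩ := hM.torus h hn hz hzz (p := 1) (q := s) (Or.inl one_ne_zero)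
    obtain ⟨g', hg', hgi', hgz', hgJ'⟩ := hM.torus h hn hz hzz (p := 1) (q := -s) (Or.inl one_ne_zero)
    have e1 := hE.conj hg hgi
    have e2 := hE.conj hg' hgi'
    rw [hgz, hgJ, add_comm ((1 : F) • J z)] at e1
    rw [hgz', hgJ', add_comm ((1 : F) • J z)] at e2
    have e3 := (e1.basis.add h.alt hzz hzz' (e2.basis.neg h.alt hzz hzz')).add h.alt hzz hzz'
      (hM.el h hzz (4 * β * s))
    have a1 : α * (1 * 1) + 2 * β * (1 * (s * ε)) + 0 * (s * ε * (s * ε)) +
        -(α * (1 * 1) + 2 * β * (1 * (-s * ε)) + 0 * (-s * ε * (-s * ε))) + 4 * β * s * ε = 4 * ε * β * t := by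
      rw [hst]; ring
    have a2 : α * (1 * s) + β * (1 * 1 + s * (s * ε)) + 0 * (s * ε * 1) +
        -(α * (1 * -s) + β * (1 * 1 + -s * (-s * ε)) + 0 * (-s * ε * 1)) + 0 = α * t := by
      rw [hst]; ring
    have a3 : α * (s * s) + 2 * β * (s * 1) + 0 * (1 * 1) + -(α * (-s * -s) + 2 * β * (-s * 1) + 0 * (1 * 1)) +
        -(4 * β * s) = 0 := by ring
    rw [a1, a2, a3] at e3
    exact e3
  have hk : α * α - ε * ((2 * β) * (2 * β)) ≠ 0 := h.norm (by
    rcases hab with h1 | h1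
    · exact Or.inl h1
    · exact Or.inr (mul_ne_zero h.two h1))
  have h4 : (4 : F) * ε ≠ 0 := by
    have : (4 : F) = 2 * 2 := by norm_num
    rw [this]
    exact mul_ne_zero (mul_ne_zero h.two h.two) h.e0
  intro c
  obtain ⟨u, hu⟩ : ∃ u, u * (α * α - ε * ((2 * β) * (2 * β))) = c := ⟨_, div_mul_cancel₀ _ hk⟩
  obtain ⟨w, hw⟩ : ∃ w, 4 * ε * w = α * u := ⟨_, mul_div_cancel₀ _ h4⟩
  have e1 := step _ _ (step α β hE 1) w
  have e2 := step α β hE (-β * u)
  have e3 := e1.add h.alt hzz hzz' e2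
  have b1 : 4 * ε * (α * 1) * w + 4 * ε * β * (-β * u) = c := by
    linear_combination α * hw + hu
  have b2 : 4 * ε * β * 1 * w + α * (-β * u) = 0 := by
    linear_combination β * hw
  rw [b1, b2, add_zero] at e3
  exact e3.tr h.alt

/-- step 2b, fields with more than three elements -/
lemma cen_of_two (h : SJ B J ε) {J' : V →ₗ[F] V} (h' : SJ B J' ε) (hM : HasU B J M) (hM' : HasU B J' M)
    (hMB : M ≤ isom B) {x : V}
    (hx : B x (J x) = 0) (hx' : B x (J' x) = 0) (hκ : B (J x) (J' x) ≠ 0) (ha : ∃ a : F, a ≠ 0 ∧ a * a ≠ 1) :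
    Cen B h.alt M x := by
  obtain ⟨a, ha0, ha1⟩ := ha
  obtain ⟨κ, hκd⟩ : ∃ κ, κ = B (J x) (J' x) := ⟨_, rfl⟩
  rw [← hκd] at hκ
  obtain ⟨e, he⟩ : ∃ e, e = J x := ⟨_, rfl⟩
  obtain ⟨f, hf⟩ : ∃ f, f = J' x := ⟨_, rfl⟩
  -- c1 = - a / κ, c0 c1 κ² = 1
  obtain ⟨c1, hc1⟩ : ∃ c1, c1 * κ = -a := ⟨-a / κ, div_mul_cancel₀ _ hκ⟩
  obtain ⟨c0, hc0⟩ : ∃ c0, c0 * (κ * a) = -1 := ⟨-1 / (κ * a), div_mul_cancel₀ _ (mul_ne_zero hκ ha0)⟩
  have hxx : B x x = 0 := h.alt x
  have hee : B e e = 0 := h.alt e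
  have hff : B f f = 0 := h.alt f
  have hxe : B x e = 0 := by rw [he, hx]
  have hxf : B x f = 0 := by rw [hf, hx']
  have hex : B e x = 0 := by rw [h.sw, hxe, neg_zero]
  have hfx : B f x = 0 := by rw [h.sw, hxf, neg_zero]
  have hef : B e f = κ := by rw [he, hf, hκd]
  have hfe : B f e = -κ := by rw [h.sw, hef]
  obtain ⟨g0, hg0, hg0f⟩ := hM.el h hx c0
  obtain ⟨g1, hg1, hg1f⟩ := hM'.el h' hx' c1
  rw [← he] at hg0f
  rw [← hf] at hg1f
  obtain ⟨n, hn⟩ : ∃ n, n = g0 * g1 * g0 := ⟨_, rfl⟩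
  have hnM : n ∈ M := by rw [hn]; exact M.mul_mem (M.mul_mem hg0 hg1) hg0
  have s1 : g0 e = e := by rw [hg0f, hex, hee]; module
  have s2 : g1 e = e + a • f := by
    rw [hg1f, hex, hef, show (0 * 0 + -c1 * κ : F) = a by linear_combination -hc1]; module
  have s3 : g0 f = f + (c0 * κ) • e := by
    rw [hg0f, hfx, hfe, show (0 * 0 + -c0 * -κ : F) = c0 * κ by ring]; module
  have s4 : n e = a • f := by
    rw [hn]
    show g0 (g1 (g0 e)) = _
    rw [s1, s2, map_add, map_smul, s1, s3, smul_add, smul_smul, show a * (c0 * κ) = -1 by linear_combination hc0]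
    module
  have s5 : g0 x = x := by rw [hg0f, hxx, hxe]; module
  have s6 : g1 x = x := by rw [hg1f, hxx, hxf]; module
  have s7 : n x = x := by
    rw [hn]
    show g0 (g1 (g0 x)) = _
    rw [s5, s6, s5]
  intro c
  have h1a : 1 - a * a ≠ 0 := fun h0 => ha1 (by linear_combination -h0)
  obtain ⟨d, hd⟩ : ∃ d, d * (ε * (1 - a * a)) = c := ⟨_, div_mul_cancel₀ _ (mul_ne_zero h.e0 h1a)⟩
  have e1 := (hM.el h hx d).conj hnM (hMB hnM)
  have e2 := hM'.el h' hx' (-(a * a * d))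
  rw [← he, s4, s7] at e1
  rw [← hf] at e2
  have e3 : El B M x f _ _ _ := El.basis (p := 1) (q := 0) (r := 0) (s := a) (by
    rw [one_smul, zero_smul, add_zero, zero_smul, zero_add]; exact e1)
  have e4 := e3.add h.alt hxf hfx e2
  have b1 : d * ε * (1 * 1) + 2 * 0 * (1 * 0) + -d * (0 * 0) + -(a * a * d) * ε = c := by
    linear_combination hd
  have b2 : d * ε * (1 * 0) + 0 * (1 * a + 0 * 0) + -d * (0 * a) + 0 = 0 := by ring
  have b3 : d * ε * (0 * 0) + 2 * 0 * (0 * a) + -d * (a * a) + - -(a * a * d) = 0 := by ring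
  rw [b1, b2, b3] at e4
  exact e4.tr h.alt

/-- a vector with prescribed polar values, outside a subspace spanned by the conditions -/
lemma exists_notin {Q : QuadraticForm F V} (hQ : ND Q) {k : ℕ} (hk : 2 * k + 5 ≤ finrank F V) {x : Fin k → V}
    (hx : LinearIndependent F x) (c : Fin k → F) :
    ∃ y, Q y = 0 ∧ (∀ i, polar Q y (x i) = c i) ∧ y ∉ Submodule.span F (Set.range x) := by
  obtain ⟨y, hy, hy'⟩ := dual_val hQ (by omega) hx c 0
  by_cases hyS : y ∈ Submodule.span F (Set.range x)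
  · have hfr : finrank F (Submodule.span F (Set.range x)) ≤ k := by
      have := finrank_range_le_card (R := F) x
      rw [Fintype.card_fin] at this
      exact this
    obtain ⟨z, hz, hz', hzS⟩ := perp_val hQ hk x (T := Submodule.span F (Set.range x)) (by omega) 0
    refine ⟨y + z, ?_, fun i => ?_, fun h => hzS ?_⟩
    · have h1 : ∀ s ∈ Submodule.span F (Set.range x), polar Q s z = 0 := by
        intro s hs
        induction hs using Submodule.span_induction with
        | mem s hs => obtain ⟨i, rfl⟩ := hs; rw [p_comm]; exact hz' i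
        | zero => exact p_zero _ _
        | add a b _ _ ha hb => rw [p_add, ha, hb, add_zero]
        | smul a b _ hb => rw [p_smul, hb, mul_zero]
      rw [Q_add, hy, hz, h1 y hyS]; ring
    · rw [p_add, hy', hz', add_zero]
    · have := Submodule.sub_mem _ h hyS
      rwa [add_sub_cancel_left] at this
  · exact ⟨y, hy, hy', hyS⟩

/-- independence of `x, Jx, y, Jy` -/
lemma SJ.ind4 (h : SJ B J ε) {x y : V} (hx : x ≠ 0) (hy : ∀ a b : F, y ≠ a • x + b • J x) :
    LinearIndependent F ![x, J x, y, J y] := by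
  rw [Fintype.linearIndependent_iff]
  intro c hc
  rw [Fin.sum_univ_four] at hc
  simp only [Matrix.cons_val_zero, Matrix.cons_val_one, Matrix.cons_val] at hc
  by_cases hcd : c 2 ≠ 0 ∨ c 3 ≠ 0
  · exfalso
    obtain ⟨a, b, hab⟩ := back h hcd y
    have e1 : c 2 • y + c 3 • J y = -(c 0 • x + c 1 • J x) := by
      rw [eq_neg_iff_add_eq_zero, ← hc]; abel
    rw [e1] at hab
    simp only [map_neg, map_add, map_smul, h.sq] at hab
    apply hy (-(a * c 0) - b * (c 1 * ε)) (-(a * c 1) - b * c 0)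
    rw [hab]; module
  · push Not at hcd
    rw [hcd.1, hcd.2, zero_smul, zero_smul, add_zero, add_zero] at hc
    have := h.ind hx hc
    intro i
    fin_cases i
    · exact this.1
    · exact this.2
    · exact hcd.1
    · exact hcd.2

/-- step 2b, the field with three elements -/
lemma cen_of_two3 (h : SJ B J ε) {J' : V →ₗ[F] V} (h' : SJ B J' ε) (hM : HasU B J M) (hM' : HasU B J' M)
    (hMB : M ≤ isom B) (hn : 14 ≤ finrank F V) {x : V}
    (hx : B x (J x) = 0) (hx' : B x (J' x) = 0) (hκ : B (J x) (J' x) ≠ 0) (h3 : ∀ a : F, a ≠ 0 → a * a = 1) :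
    Cen B h.alt M (J x) := by
  have t3 : (3 : F) = 0 := by linear_combination h3 2 h.two
  obtain ⟨κ, hκd⟩ : ∃ κ, κ = B (J x) (J' x) := ⟨_, rfl⟩
  rw [← hκd] at hκ
  have hκ2 := h3 κ hκ
  have hε2 := h3 ε h.e0
  obtain ⟨e, he⟩ : ∃ e, e = J x := ⟨_, rfl⟩
  obtain ⟨f, hf⟩ : ∃ f, f = J' x := ⟨_, rfl⟩
  have hxx : B x x = 0 := h.alt x
  have hee : B e e = 0 := h.alt e
  have hff : B f f = 0 := h.alt f
  have hxe : B x e = 0 := by rw [he, hx]
  have hxf : B x f = 0 := by rw [hf, hx']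
  have hex : B e x = 0 := by rw [h.sw, hxe, neg_zero]
  have hfx : B f x = 0 := by rw [h.sw, hxf, neg_zero]
  have hef : B e f = κ := by rw [he, hf, hκd]
  have hfe : B f e = -κ := by rw [h.sw, hef]
  obtain ⟨g0, hg0, hg0f⟩ := hM.el h hx 1
  obtain ⟨g1, hg1, hg1f⟩ := hM'.el h' hx' 1
  rw [← he] at hg0f
  rw [← hf] at hg1f
  obtain ⟨n, hn'⟩ : ∃ n, n = g0 * g1 * g0 := ⟨_, rfl⟩
  have hnM : n ∈ M := by rw [hn']; exact M.mul_mem (M.mul_mem hg0 hg1) hg0
  have hnf : ∀ y, n y = y - (B y e + κ * B y f) • e - (B y f - κ * B y e) • f := by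
    intro y
    rw [hn']
    show g0 (g1 (g0 y)) = _
    rw [hg0f, hg1f, hg0f]
    simp only [map_add, LinearMap.add_apply, map_smul, LinearMap.smul_apply, smul_eq_mul, hxx, hee, hff, hxe, hxf,
      hex, hfx, hef, hfe]
    match_scalars
    · ring
    · linear_combination ε * B y x * t3
    · linear_combination B y e * hκ2
    · ring
  obtain ⟨e', he'⟩ : ∃ e', e' = κ • f := ⟨_, rfl⟩
  have hee' : B e e' = 1 := by rw [he', map_smul, smul_eq_mul, hef, hκ2]
  have he'e : B e' e = -1 := by rw [h.sw, hee']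
  have he'e' : B e' e' = 0 := h.alt e'
  have hrf : ∀ y, (n * n) y = y + B y e' • e - B y e • e' := by
    intro y
    show n (n y) = _
    rw [hnf (n y), hnf y, he']
    simp only [map_sub, LinearMap.sub_apply, map_smul, LinearMap.smul_apply, smul_eq_mul, hee, hff, hef, hfe]
    match_scalars
    · ring
    · linear_combination (-κ * B y f) * t3 + (2 * B y e + κ * B y f) * hκ2
    · linear_combination (κ * B y e) * t3 + (2 * B y f - κ * B y e) * hκ2
  have hrM : n * n ∈ M := M.mul_mem hnM hnM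
  obtain ⟨r, hr⟩ : ∃ r, r = n * n := ⟨_, rfl⟩
  rw [← hr] at hrf hrM
  have key : ∀ w, B w (J w) = 0 → B e w = 0 → B e (J w) = 0 → B e' w = ε → B e' (J w) = 0 →
      El B M e w (-ε) 1 0 := by
    intro w hw h1 h2 h3 h4
    obtain ⟨g, hg, hgf⟩ := hM.el h hw 1
    have hge : g e = e := by rw [hgf, h1, h2]; module
    have hge' : g e' = e' + w := by
      rw [hgf, h3, h4, show (1 * ε * ε + 0 * 0 : F) = 1 by linear_combination hε2]; module
    refine ⟨g * r * g⁻¹ * r, M.mul_mem (M.mul_mem (M.mul_mem hg hrM) (M.inv_mem hg)) hrM, fun y => ?_⟩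
    have hs : ∀ y, (g * r * g⁻¹) y = y + B y (e' + w) • e - B y e • (e' + w) := by
      intro y
      show g (r (g⁻¹ y)) = _
      rw [hrf, map_sub, map_add, map_smul, map_smul, apply_inv, ← isom_inv' (hMB hg), ← isom_inv' (hMB hg), hge, hge']
    show (g * r * g⁻¹) (r y) = _
    rw [hs, hrf]
    simp only [map_add, map_sub, LinearMap.add_apply, LinearMap.sub_apply, map_smul, LinearMap.smul_apply,
      smul_eq_mul, hee, hee', he'e, he'e', h1, h3]
    match_scalars
    · ring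
    · linear_combination (B y e') * t3
    · linear_combination (-B y e) * t3
    · linear_combination (-B y e) * t3
  have hε := h.e0
  have hJe : B e (J e) = 0 := by rw [he, h.sq, map_smul, smul_eq_mul, h.sw, hx]; ring
  have he0 : e ≠ 0 := by
    rintro h0
    rw [h0, map_zero, LinearMap.zero_apply] at hee'
    exact zero_ne_one hee'
  have hli : LinearIndependent F ![e, J e, e', J e'] := by
    apply h.ind4 he0
    intro a b hab
    rw [hab, map_add, map_smul, map_smul, hee, hJe, smul_zero, smul_zero, add_zero] at hee'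
    exact zero_ne_one hee'
  have hval : ∀ w, (∀ i, polar (NQ B J) w ((![e, J e, e', J e'] : Fin 4 → V) i) = (![0, 0, 0, -2] : Fin 4 → F) i) →
      B e w = 0 ∧ B e (J w) = 0 ∧ B e' w = ε ∧ B e' (J w) = 0 := by
    intro w hw
    have w0 : polar (NQ B J) w e = 0 := hw 0
    have w1 : polar (NQ B J) w (J e) = 0 := hw 1
    have w2 : polar (NQ B J) w e' = 0 := hw 2
    have w3 : polar (NQ B J) w (J e') = -2 := hw 3
    rw [polar_NQ h] at w0 w1 w2 w3
    rw [h.sq, map_smul, smul_eq_mul] at w1 w3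
    refine ⟨?_, ?_, ?_, ?_⟩
    · rw [h.sw]
      have := (mul_eq_zero.1 w1).resolve_left h.two
      rw [(mul_eq_zero.1 this).resolve_left hε, neg_zero]
    · rw [h.sym]
      exact (mul_eq_zero.1 w0).resolve_left h.two
    · rw [h.sw]
      apply mul_left_cancel₀ (mul_ne_zero h.two hε)
      linear_combination -w3 - 2 * hε2
    · rw [h.sym]
      exact (mul_eq_zero.1 w2).resolve_left h.two
  obtain ⟨w1, hw1, hw1', hw1S⟩ := exists_notin (nd_NQ h) (k := 4) (by omega) hli ![0, 0, 0, -2]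
  have hJS : J w1 ∉ Submodule.span F (Set.range ![e, J e, e', J e']) := by
    intro hJw
    have hst : ∀ s ∈ Submodule.span F (Set.range ![e, J e, e', J e']), J s ∈
        Submodule.span F (Set.range ![e, J e, e', J e']) := by
      intro s hs
      induction hs using Submodule.span_induction with
      | mem s hs =>
        obtain ⟨i, rfl⟩ := hs
        fin_cases i
        · exact Submodule.subset_span ⟨1, rfl⟩
        · show J (J e) ∈ _
          rw [h.sq]
          exact Submodule.smul_mem _ _ (Submodule.subset_span ⟨0, rfl⟩)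
        · exact Submodule.subset_span ⟨3, rfl⟩
        · show J (J e') ∈ _
          rw [h.sq]
          exact Submodule.smul_mem _ _ (Submodule.subset_span ⟨2, rfl⟩)
      | zero => rw [map_zero]; exact Submodule.zero_mem _
      | add a b _ _ ha hb => rw [map_add]; exact Submodule.add_mem _ ha hb
      | smul a b _ hb => rw [map_smul]; exact Submodule.smul_mem _ _ hb
    have := hst _ hJw
    rw [h.sq] at this
    exact hw1S ((Submodule.smul_mem_iff _ hε).1 this)
  obtain ⟨w2, hw2, hw2'⟩ := dual_val (nd_NQ h) (k := 5) (by omega)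
    (linearIndependent_finCons.2 ⟨hli, hJS⟩) (Fin.cons 1 ![0, 0, 0, -2]) 0
  obtain ⟨a1, a2, a3, a4⟩ := hval w1 hw1'
  obtain ⟨b1, b2, b3, b4⟩ := hval w2 (fun i => by
    have := hw2' i.succ
    rwa [Fin.cons_succ, Fin.cons_succ] at this)
  have hm : B w2 w1 ≠ 0 := by
    have h0 : polar (NQ B J) w2 (J w1) = 1 := hw2' 0
    rw [polar_NQ h, h.sq, map_smul, smul_eq_mul] at h0
    intro h00
    rw [h00, mul_zero, mul_zero] at h0
    exact zero_ne_one h0
  obtain ⟨m, hmd⟩ : ∃ m, m = B w2 w1 := ⟨_, rfl⟩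
  rw [← hmd] at hm
  have E1 := key w1 hw1 a1 a2 a3 a4
  have E2 := key w2 hw2 b1 b2 b3 b4
  obtain ⟨g, hg, hgf⟩ := E1
  have c1 : B w1 e = 0 := by rw [h.sw, a1, neg_zero]
  have c2 : B w2 e = 0 := by rw [h.sw, b1, neg_zero]
  have hge : g e = e := by rw [hgf, hee, a1]; module
  have hgw : g w2 = m • e + w2 := by
    rw [hgf, c2, ← hmd]; module
  have E3 := E2.conj hg (hMB hg)
  rw [hge, hgw] at E3
  have E4 : El B M e w2 _ _ _ := El.basis (p := 1) (q := 0) (r := m) (s := 1) (by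
    rw [one_smul, zero_smul, add_zero, one_smul]; exact E3)
  have E5 := (E4.add h.alt b1 c2 (E2.neg h.alt b1 c2))
  have d1 : -ε * (1 * 1) + 2 * 1 * (1 * m) + 0 * (m * m) + - -ε = 2 * m := by ring
  have d2 : -ε * (1 * 0) + 1 * (1 * 1 + 0 * m) + 0 * (m * 1) + -1 = 0 := by ring
  have d3 : -ε * (0 * 0) + 2 * 1 * (0 * 1) + 0 * (1 * 1) + -0 = 0 := by ring
  rw [d1, d2, d3] at E5
  intro c
  by_cases hc : c = 0
  · rw [hc, tr_zero]; exact M.one_mem
  have hc2 := h3 c hc
  have hm2 := h3 (2 * m) (mul_ne_zero h.two hm)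
  have : (c - 2 * m) * (c + 2 * m) = 0 := by linear_combination hc2 - hm2
  rw [← he]
  rcases mul_eq_zero.1 this with h1 | h1
  · rw [sub_eq_zero.1 h1]
    exact E5.tr h.alt
  · rw [eq_neg_of_add_eq_zero_left h1]
    have := (E5.neg h.alt b1 c2)
    rw [neg_zero] at this
    exact this.tr h.alt

end H7.SpUni
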