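import Cfsg.Agent.Lib.H7.SpUni2

set_option autoImplicit false

/-!
Overgroups of the normaliser of a quadratic extension (unitary type) in symplectic groups, odd characteristic: the theorem.
-/

namespace H7.SpUni

open Module QuadraticMap H48.QuadSplit H48.QuadWitt H95.OGeo H95.SpBasic

variable {F V : Type*} [Field F] [AddCommGroup V] [Module F V]
variable {B : LinearMap.BilinForm F V} {J : V →ₗ[F] V} {ε : F} {M : Subgroup (V ≃ₗ[F] V)}
variable [FiniteDimensional F V] [Finite F]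

/-- an isotropic vector not killed by two nonzero maps -/
lemma exists_iso (h : SJ B J ε) (hn : 14 ≤ finrank F V) {A A' : V →ₗ[F] V} (hA : ∃ v, A v ≠ 0)
    (hA' : ∃ v, A' v ≠ 0) : ∃ x, B x (J x) = 0 ∧ A x ≠ 0 ∧ A' x ≠ 0 := by
  have key : ∀ A : V →ₗ[F] V, (∃ v, A v ≠ 0) → ∃ z, z ≠ 0 ∧ ∀ x, polar (NQ B J) x z ≠ 0 → A x ≠ 0 := by
    rintro A ⟨v, hv⟩
    obtain ⟨φ, hφ⟩ : ∃ φ : Module.Dual F V, φ (A v) ≠ 0 := by
      by_contra hcon
      push Not at hcon
      exact hv ((Module.forall_dual_apply_eq_zero_iff F _).1 hcon)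
    obtain ⟨z, hz⟩ := exists_represent (nd_iff.1 (nd_NQ h)) (φ ∘ₗ A)
    refine ⟨z, ?_, fun x hx h0 => ?_⟩
    · rintro rfl
      apply hφ
      have := hz v
      rw [p_zero'] at this
      exact this.symm
    · apply hx
      rw [hz, LinearMap.comp_apply, h0, map_zero]
  obtain ⟨z, hz, hz'⟩ := key A hA
  obtain ⟨w, hw, hw'⟩ := key A' hA'
  obtain ⟨x, hx, hxz, hxw⟩ := conn (nd_NQ h) (by omega) hz hw 0
  exact ⟨x, hx, hz' x hxz, hw' x hxw⟩

/-- maximality of the normaliser -/
theorem overgroup (h : SJ B J ε) (hM : HasU B J M) (hMB : M ≤ isom B) (hn : 14 ≤ finrank F V)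
    (hg : ∃ g ∈ M, (∃ v, g (J v) ≠ J (g v)) ∧ ∃ v, g (J v) ≠ - J (g v)) : isom B ≤ M := by
  obtain ⟨g, hg, ⟨v, hv⟩, ⟨v', hv'⟩⟩ := hg
  obtain ⟨x0, hx0, hA, hA'⟩ := exists_iso h hn (A := (g : V →ₗ[F] V) ∘ₗ J - J ∘ₗ g)
    (A' := (g : V →ₗ[F] V) ∘ₗ J + J ∘ₗ g) ⟨v, sub_ne_zero.2 hv⟩ ⟨v', fun h0 => hv' (eq_neg_of_add_eq_zero_left h0)⟩
  change g (J x0) - J (g x0) ≠ 0 at hA
  change g (J x0) + J (g x0) ≠ 0 at hA'
  have hx00 : x0 ≠ 0 := by
    rintro rfl
    rw [map_zero, map_zero, map_zero, sub_zero] at hA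
    exact hA rfl
  obtain ⟨z, hz⟩ : ∃ z, z = g x0 := ⟨_, rfl⟩
  obtain ⟨w, hw⟩ : ∃ w, w = g (J x0) := ⟨_, rfl⟩
  rw [← hz, ← hw] at hA hA'
  have hgi := hMB hg
  have hzw : B z w = 0 := by rw [hz, hw, hgi, hx0]
  have hwz : B w z = 0 := by rw [h.sw, hzw, neg_zero]
  have hEl : ∀ c, El B M z w (c * ε) 0 (-c) := by
    intro c
    have := (hM.el h hx0 c).conj hg hgi
    rwa [← hz, ← hw] at this
  have hind : ∀ a b : F, a • z + b • w = 0 → a = 0 ∧ b = 0 := by
    intro a b hab
    rw [hz, hw, ← map_smul, ← map_smul, ← map_add] at hab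
    exact h.ind hx00 ((LinearEquiv.map_eq_zero_iff g).1 hab)
  have hz0 : z ≠ 0 := by
    intro h0
    have := hind 1 0 (by rw [h0, smul_zero, zero_smul, add_zero])
    exact one_ne_zero this.1
  by_cases hcase : ∃ a b : F, w = a • z + b • J z
  · obtain ⟨a, b, hab⟩ := hcase
    have hb : b ≠ 0 := by
      rintro rfl
      have := hind a (-1) (by rw [hab]; module)
      exact neg_ne_zero.2 one_ne_zero this.2
    have hzz : B z (J z) = 0 := by
      rw [hab, map_add, map_smul, map_smul, h.alt z, smul_zero, zero_add, smul_eq_mul] at hzw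
      exact (mul_eq_zero.1 hzw).resolve_left hb
    have hzz' : B (J z) z = 0 := by rw [h.sw, hzz, neg_zero]
    have E1 : El B M z (J z) _ _ _ := El.basis (p := 1) (q := 0) (r := a) (s := b) (by
      rw [one_smul, zero_smul, add_zero, ← hab]; exact hEl 1)
    have E2 := E1.add h.alt hzz hzz' (hM.el h hzz (-(b * b)))
    have d1 : 1 * ε * (1 * 1) + 2 * 0 * (1 * a) + -1 * (a * a) + -(b * b) * ε = ε - a * a - b * b * ε := by ring
    have d2 : 1 * ε * (1 * 0) + 0 * (1 * b + 0 * a) + -1 * (a * b) + 0 = -(a * b) := by ring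
    have d3 : 1 * ε * (0 * 0) + 2 * 0 * (0 * b) + -1 * (b * b) + - -(b * b) = 0 := by ring
    rw [d1, d2, d3] at E2
    refine cen_iso h hM hMB hn hz0 (cen_of_el h hM hMB hn hz0 hzz ?_ E2)
    by_contra hcon
    push Not at hcon
    obtain ⟨e1, e2⟩ := hcon
    have ha : a = 0 := by
      have := neg_eq_zero.1 e2
      exact (mul_eq_zero.1 this).resolve_right hb
    rw [ha] at e1
    have e3 : ε * ((1 - b) * (1 + b)) = 0 := by linear_combination e1
    rcases mul_eq_zero.1 ((mul_eq_zero.1 e3).resolve_left h.e0) with e4 | e4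
    · apply hA
      rw [hab, ha, ← sub_eq_zero.1 e4]
      module
    · apply hA'
      rw [hab, ha, show b = -1 by linear_combination e4]
      module
  · push Not at hcase
    obtain ⟨g1, hg1, hg1f⟩ := hEl 1
    have hg1i := hMB hg1
    have hli : LinearIndependent F ![J z, J w, z] := by
      rw [Fintype.linearIndependent_iff]
      intro c hc
      rw [Fin.sum_univ_three] at hc
      simp only [Matrix.cons_val_zero, Matrix.cons_val_one, Matrix.cons_val] at hc
      have hc' := congrArg J hc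
      simp only [map_add, map_smul, h.sq, map_zero] at hc'
      have hc1 : c 1 = 0 := by
        by_contra hc1
        apply hcase (-(c 0 / c 1)) (-(c 2 / (c 1 * ε)))
        have h1 : w = (c 1 * ε)⁻¹ • (c 1 • ε • w) := by
          rw [smul_smul, smul_smul, mul_assoc, inv_mul_cancel₀ (mul_ne_zero hc1 h.e0), one_smul]
        rw [h1, show c 1 • ε • w = -(c 0 • ε • z) - c 2 • J z by
          rw [← sub_eq_zero, ← hc']; abel]
        have hε := h.e0
        match_scalars <;> field_simp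
      rw [hc1, zero_smul, add_zero, add_comm] at hc
      have := h.ind hz0 hc
      intro i
      fin_cases i
      · exact this.2
      · exact hc1
      · exact this.1
    obtain ⟨x, hx, hx'⟩ := dual_val (nd_NQ h) (k := 3) (by omega) hli ![0, 0, 1] 0
    have x0' : polar (NQ B J) x (J z) = 0 := hx' 0
    have x1 : polar (NQ B J) x (J w) = 0 := hx' 1
    have x2 : polar (NQ B J) x z = 1 := hx' 2
    rw [polar_NQ h, h.sq, map_smul, smul_eq_mul] at x0' x1
    rw [polar_NQ h] at x2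
    have hxz : B x z = 0 := (mul_eq_zero.1 ((mul_eq_zero.1 x0').resolve_left h.two)).resolve_left h.e0
    have hxw : B x w = 0 := (mul_eq_zero.1 ((mul_eq_zero.1 x1).resolve_left h.two)).resolve_left h.e0
    have hx2 : B (J x) z ≠ 0 := by
      rw [h.adj]
      intro h0
      rw [neg_eq_zero.1 h0, mul_zero] at x2
      exact zero_ne_one x2
    have hg1x : g1 x = x := by rw [hg1f, hxz, hxw]; module
    have hg1x' : g1⁻¹ x = x := by
      apply g1.injective
      rw [apply_inv, hg1x]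
    have hxx : B x (J x) = 0 := hx
    have hJ'x : cj J g1 x = g1 (J x) := by rw [cj_apply, hg1x']
    have hxx' : B x (cj J g1 x) = 0 := by rw [hJ'x, isom_inv' hg1i, hg1x', hxx]
    have hκ : B (J x) (cj J g1 x) ≠ 0 := by
      have := h.norm' (Or.inl hx2 : B (J x) z ≠ 0 ∨ B (J x) w ≠ 0)
      intro h0
      apply this
      rw [hJ'x, hg1f] at h0
      simp only [map_add, map_smul, smul_eq_mul, h.alt (J x)] at h0
      linear_combination h0
    have hx00 : x ≠ 0 := by
      rintro rfl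
      rw [map_zero, map_zero, LinearMap.zero_apply] at hx2
      exact hx2 rfl
    by_cases h3 : ∃ a : F, a ≠ 0 ∧ a * a ≠ 1
    · exact cen_iso h hM hMB hn hx00 (cen_of_two h (h.cj hg1i) hM (hM.cj hg1 hg1i) hMB hxx hxx' hκ h3)
    · push Not at h3
      exact cen_iso h hM hMB hn (fun h0 => hx00 (h.J_inj h0))
        (cen_of_two3 h (h.cj hg1i) hM (hM.cj hg1 hg1i) hMB hn hxx hxx' hκ h3)

end H7.SpUni
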