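import Cfsg.Agent.Lib.H7.SpUni3
import Cfsg.Agent.Lib.H7.OAUniB

set_option autoImplicit false

/-!
Quadratic subfields of the matrix algebra, skew for a symplectic form.
-/

namespace H7.SpUni

open Module QuadraticMap H48.QuadSplit H48.QuadWitt H95.OGeo H95.SpBasic H95.Bridge Cfsg Cfsg.Geo H7.OAUni
open scoped Matrix MatrixGroups

variable {ι : Type} [Fintype ι] [DecidableEq ι] {F : Type*} [Field F]

theorem data_of [Nonempty ι] {B : LinearMap.BilinForm F (ι → F)} (hB : B.IsAlt)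
    (hnd : ∀ v, (∀ w, B v w = 0) → v = 0) (h2 : (2 : F) ≠ 0) {K : Subalgebra F (Matrix ι ι F)}
    (hK : IsFieldSubalgebra 2 K) (hac : IsAdjointClosedFor (fun u v => B u v) K)
    (hnsa : ¬ IsSelfAdjointFor (fun u v => B u v) K) :
    ∃ W ∈ K, ∃ a ε : F, (∀ k ∈ K, ∃ a b : F, k = a • 1 + b • W) ∧
      (∀ a b : F, a • (1 : Matrix ι ι F) + b • W = 0 → a = 0 ∧ b = 0) ∧
      (∀ v : ι → F, v ≠ 0 → ∀ a b : F, a • v + b • (W *ᵥ v) = 0 → a = 0 ∧ b = 0) ∧
      SJ B ((2 : F) • Matrix.toLin' W - a • LinearMap.id) ε := by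
  obtain ⟨W, hW, hgen, hli, hind⟩ := exists_gen hK
  obtain ⟨W', hW', hadj⟩ := hac W hW
  obtain ⟨a, b, rfl⟩ := hgen W' hW'
  have e1 : ∀ u v, B (W *ᵥ u) v = a * B u v + b * B u (W *ᵥ v) := by
    intro u v
    have := hadj u v
    simp only [Matrix.add_mulVec, Matrix.smul_mulVec, Matrix.one_mulVec, map_add, map_smul, smul_eq_mul] at this
    exact this
  have sw : ∀ u v, B u v = - B v u := fun u v => (LinearMap.BilinForm.IsAlt.neg_eq hB v u).symm
  have e2 : ∀ u v, B u (W *ᵥ v) = a * B u v + b * B (W *ᵥ u) v := by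
    intro u v
    rw [sw, e1, sw v u, sw v (W *ᵥ u)]; ring
  have hnt : ∃ v : ι → F, v ≠ 0 := ⟨fun _ => 1, fun h => by
    obtain ⟨i⟩ := ‹Nonempty ι›
    exact one_ne_zero (congrFun h i)⟩
  obtain ⟨v0, hv0⟩ := hnt
  have ext : ∀ x y : F, (∀ u v, x * B (W *ᵥ u) v + y * B u v = 0) → x = 0 ∧ y = 0 := by
    intro x y h
    have h1 : y • v0 + x • (W *ᵥ v0) = 0 := by
      apply hnd
      intro v
      rw [map_add, map_smul, map_smul, LinearMap.add_apply, LinearMap.smul_apply, LinearMap.smul_apply, smul_eq_mul,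
        smul_eq_mul, add_comm]
      exact h v0 v
    exact (hind v0 hv0 _ _ h1).symm
  obtain ⟨hb, ha⟩ := ext (1 - b * b) (-(a * (1 + b))) (fun u v => by
    have := e1 u v
    rw [e2 u v] at this
    linear_combination this)
  have ha' : a * (1 + b) = 0 := neg_eq_zero.1 ha
  have hb1 : b = -1 := by
    by_contra hne
    have h1 : (1 - b) * (1 + b) = 0 := by linear_combination hb
    have h2 : 1 + b ≠ 0 := fun h0 => hne (by linear_combination h0)
    have h3 : b = 1 := by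
      have := (mul_eq_zero.1 h1).resolve_right h2
      linear_combination -this
    have h4 : a = 0 := (mul_eq_zero.1 ha').resolve_right h2
    apply hnsa
    intro k hk u v
    obtain ⟨x, y, rfl⟩ := hgen k hk
    simp only [Matrix.add_mulVec, Matrix.smul_mulVec, Matrix.one_mulVec, map_add, map_smul, LinearMap.add_apply,
      LinearMap.smul_apply, smul_eq_mul, e1, h3, h4]
    ring
  subst hb1
  obtain ⟨x, y, hxy⟩ := hgen (W * W) (K.mul_mem hW hW)
  have e4 : ∀ v, W *ᵥ (W *ᵥ v) = x • v + y • (W *ᵥ v) := by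
    intro v
    rw [Matrix.mulVec_mulVec, hxy, Matrix.add_mulVec, Matrix.smul_mulVec, Matrix.smul_mulVec, Matrix.one_mulVec]
  obtain ⟨h5, h6⟩ := ext (2 * (y - a)) (-(a * (y - a))) (fun u v => by
    have h7 := e1 (W *ᵥ u) v
    rw [e4] at h7
    have h8 := e1 u (W *ᵥ v)
    rw [e4] at h8
    simp only [map_add, map_smul, LinearMap.add_apply, LinearMap.smul_apply, smul_eq_mul] at h7 h8
    have h9 := e2 u v
    linear_combination h7 - h8 + (y - a) * h9)
  have hy : y = a := by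
    have := (mul_eq_zero.1 h5).resolve_left h2
    linear_combination this
  subst hy
  have hJ : ∀ v, ((2 : F) • Matrix.toLin' W - y • LinearMap.id : (ι → F) →ₗ[F] (ι → F)) v = (2 : F) • (W *ᵥ v) - y • v := fun v => by
    rw [LinearMap.sub_apply, LinearMap.smul_apply, LinearMap.smul_apply, Matrix.toLin'_apply, LinearMap.id_apply]
  have hJ2 : ∀ v, (2 : F) • (W *ᵥ ((2 : F) • (W *ᵥ v) - y • v)) - y • ((2 : F) • (W *ᵥ v) - y • v) =
      (4 * x + y * y) • v := by
    intro v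
    rw [Matrix.mulVec_sub, Matrix.mulVec_smul, Matrix.mulVec_smul, e4]
    module
  refine ⟨W, hW, y, 4 * x + y * y, hgen, hli, hind, ⟨hB, hnd, ?_, ?_, ?_, h2⟩⟩
  · intro v
    rw [hJ, hJ, hJ2]
  · intro u v
    rw [hJ, hJ]
    simp only [map_sub, map_smul, LinearMap.sub_apply, LinearMap.smul_apply, smul_eq_mul, e1]
    ring
  · intro s hs
    have h10 : ∀ v : ι → F, v ≠ 0 → ∀ s : F, (2 : F) • (W *ᵥ v) - y • v + s • v ≠ 0 := by
      intro v hv s h0
      have := hind v hv (s - y) 2 (by rw [← h0]; module)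
      exact h2 this.2
    have h11 := h10 v0 hv0 (-s)
    apply h10 _ h11 s
    have h12 := hJ2 v0
    rw [Matrix.mulVec_add, Matrix.mulVec_smul]
    have h13 : (2 : F) • (W *ᵥ ((2 : F) • (W *ᵥ v0) - y • v0) + -s • (W *ᵥ v0)) -
        y • ((2 : F) • (W *ᵥ v0) - y • v0 + -s • v0) + s • ((2 : F) • (W *ᵥ v0) - y • v0 + -s • v0) =
        ((2 : F) • (W *ᵥ ((2 : F) • (W *ᵥ v0) - y • v0)) - y • ((2 : F) • (W *ᵥ v0) - y • v0)) - (s * s) • v0 := by
      module
    rw [h13, h12, hs, sub_self]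

end H7.SpUni
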