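import Mathlib
import Cfsg.Prelude.Def_GeometricClasses
import Cfsg.Agent.Lib.H95.Bridge

/-!
Pure tensors for the tensor product subgroups.
-/
set_option autoImplicit false

namespace H7.Tens

open Module Cfsg Cfsg.Geo H95.Bridge
open scoped Matrix MatrixGroups Kronecker

variable {ι : Type} [Fintype ι] [DecidableEq ι] {F : Type*} [Field F] {n₁ n₂ : ℕ}

/-- pure tensors -/
def tauF (e : ι ≃ Fin n₁ × Fin n₂) (P : GL ι F) (a : Fin n₁ → F) (b : Fin n₂ → F) : ι → F :=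
  (P : Matrix ι ι F) *ᵥ ((fun p : Fin n₁ × Fin n₂ => a p.1 * b p.2) ∘ e)

/-- pure tensors as a bilinear map -/
def tau (e : ι ≃ Fin n₁ × Fin n₂) (P : GL ι F) : (Fin n₁ → F) →ₗ[F] (Fin n₂ → F) →ₗ[F] (ι → F) :=
  LinearMap.mk₂ F (tauF e P)
    (by
      intro a a' b
      unfold tauF
      rw [← Matrix.mulVec_add]
      congr 1; funext i; simp [add_mul])
    (by
      intro c a b
      unfold tauF
      rw [← Matrix.mulVec_smul]
      congr 1; funext i; simp [mul_assoc])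
    (by
      intro a b b'
      unfold tauF
      rw [← Matrix.mulVec_add]
      congr 1; funext i; simp [mul_add])
    (by
      intro c a b
      unfold tauF
      rw [← Matrix.mulVec_smul]
      congr 1; funext i; simp [mul_left_comm])

lemma tau_apply (e : ι ≃ Fin n₁ × Fin n₂) (P : GL ι F) (a : Fin n₁ → F) (b : Fin n₂ → F) :
    tau e P a b = (P : Matrix ι ι F) *ᵥ ((fun p : Fin n₁ × Fin n₂ => a p.1 * b p.2) ∘ e) := rfl

lemma kron_mulVec (A : Matrix (Fin n₁) (Fin n₁) F) (B : Matrix (Fin n₂) (Fin n₂) F) (a : Fin n₁ → F)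
    (b : Fin n₂ → F) : (A ⊗ₖ B) *ᵥ (fun p : Fin n₁ × Fin n₂ => a p.1 * b p.2) =
      fun p => (A *ᵥ a) p.1 * (B *ᵥ b) p.2 := by
  funext p
  simp only [Matrix.mulVec, dotProduct, Matrix.kroneckerMap_apply]
  rw [Finset.sum_mul_sum, Fintype.sum_prod_type]
  refine Finset.sum_congr rfl fun i _ => Finset.sum_congr rfl fun j _ => ?_
  ring

theorem mem_tps {e : ι ≃ Fin n₁ × Fin n₂} {P : GL ι F} {g : GL ι F} (hg : g ∈ tensorProductSubgroup n₁ n₂ e P) :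
    ∃ (α : (Fin n₁ → F) ≃ₗ[F] (Fin n₁ → F)) (β : (Fin n₂ → F) ≃ₗ[F] (Fin n₂ → F)), ∀ a b,
      toEq ι F g (tau e P a b) = tau e P (α a) (β b) := by
  obtain ⟨_, ⟨k, ⟨A, B, hk⟩, rfl⟩, rfl⟩ := hg
  refine ⟨toEq (Fin n₁) F A, toEq (Fin n₂) F B, fun a b => ?_⟩
  rw [toEq_apply, tau_apply, tau_apply]
  have h1 : ((MulAut.conj P).toMonoidHom ((glReindex e.symm).toMonoidHom k) : GL ι F) =
      P * (glReindex e.symm) k * P⁻¹ := rfl
  rw [h1, Units.val_mul, Units.val_mul, ← Matrix.mulVec_mulVec, ← Matrix.mulVec_mulVec]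
  have h2 : ((P⁻¹ : GL ι F) : Matrix ι ι F) *ᵥ ((P : Matrix ι ι F) *ᵥ ((fun p : Fin n₁ × Fin n₂ => a p.1 * b p.2) ∘ e)) =
      (fun p : Fin n₁ × Fin n₂ => a p.1 * b p.2) ∘ e := by
    rw [Matrix.mulVec_mulVec, ← Units.val_mul, inv_mul_cancel, Units.val_one, Matrix.one_mulVec]
  rw [h2]
  congr 1
  have h3 : ((glReindex e.symm k : GL ι F) : Matrix ι ι F) = Matrix.reindex e.symm e.symm (k : Matrix _ _ F) := rfl
  rw [h3, hk]
  funext i
  have h4 : (Matrix.reindex e.symm e.symm ((A : Matrix (Fin n₁) (Fin n₁) F) ⊗ₖ (B : Matrix (Fin n₂) (Fin n₂) F)) *ᵥ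
      ((fun p : Fin n₁ × Fin n₂ => a p.1 * b p.2) ∘ e)) i =
      (((A : Matrix (Fin n₁) (Fin n₁) F) ⊗ₖ (B : Matrix (Fin n₂) (Fin n₂) F)) *ᵥ
        (fun p : Fin n₁ × Fin n₂ => a p.1 * b p.2)) (e i) := by
    simp only [Matrix.mulVec, dotProduct, Matrix.reindex_apply, Matrix.submatrix_apply, Equiv.symm_symm,
      Function.comp_apply]
    exact Equiv.sum_comp e (fun p => ((A : Matrix (Fin n₁) (Fin n₁) F) ⊗ₖ (B : Matrix (Fin n₂) (Fin n₂) F)) (e i) p *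
      (a p.1 * b p.2))
  rw [h4, kron_mulVec]
  simp

theorem exists_tps (e : ι ≃ Fin n₁ × Fin n₂) (P : GL ι F) (A : GL (Fin n₁) F) (B : GL (Fin n₂) F) :
    ∃ g ∈ tensorProductSubgroup n₁ n₂ e P, ∀ a b,
      toEq ι F g (tau e P a b) = tau e P (toEq (Fin n₁) F A a) (toEq (Fin n₂) F B b) := by
  obtain ⟨k, hk⟩ : ∃ k : GL (Fin n₁ × Fin n₂) F, (k : Matrix (Fin n₁ × Fin n₂) (Fin n₁ × Fin n₂) F) =
      (A : Matrix (Fin n₁) (Fin n₁) F) ⊗ₖ (B : Matrix (Fin n₂) (Fin n₂) F) := by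
    refine ⟨⟨(A : Matrix (Fin n₁) (Fin n₁) F) ⊗ₖ (B : Matrix (Fin n₂) (Fin n₂) F),
      ((A⁻¹ : GL (Fin n₁) F) : Matrix (Fin n₁) (Fin n₁) F) ⊗ₖ ((B⁻¹ : GL (Fin n₂) F) : Matrix (Fin n₂) (Fin n₂) F),
      ?_, ?_⟩, rfl⟩
    · rw [← Matrix.mul_kronecker_mul, ← Units.val_mul, ← Units.val_mul, mul_inv_cancel, mul_inv_cancel,
        Units.val_one, Units.val_one, Matrix.one_kronecker_one]
    · rw [← Matrix.mul_kronecker_mul, ← Units.val_mul, ← Units.val_mul, inv_mul_cancel, inv_mul_cancel,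
        Units.val_one, Units.val_one, Matrix.one_kronecker_one]
  refine ⟨MulAut.conj P (glReindex e.symm k), ⟨_, ⟨k, ⟨A, B, hk⟩, rfl⟩, rfl⟩, fun a b => ?_⟩
  rw [toEq_apply, tau_apply, tau_apply]
  have h1 : (MulAut.conj P (glReindex e.symm k) : GL ι F) = P * (glReindex e.symm) k * P⁻¹ := rfl
  rw [h1, Units.val_mul, Units.val_mul, ← Matrix.mulVec_mulVec, ← Matrix.mulVec_mulVec]
  have h2 : ((P⁻¹ : GL ι F) : Matrix ι ι F) *ᵥ ((P : Matrix ι ι F) *ᵥ ((fun p : Fin n₁ × Fin n₂ => a p.1 * b p.2) ∘ e)) =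
      (fun p : Fin n₁ × Fin n₂ => a p.1 * b p.2) ∘ e := by
    rw [Matrix.mulVec_mulVec, ← Units.val_mul, inv_mul_cancel, Units.val_one, Matrix.one_mulVec]
  rw [h2]
  congr 1
  have h3 : ((glReindex e.symm k : GL ι F) : Matrix ι ι F) = Matrix.reindex e.symm e.symm (k : Matrix _ _ F) := rfl
  rw [h3, hk]
  funext i
  have h4 : (Matrix.reindex e.symm e.symm ((A : Matrix (Fin n₁) (Fin n₁) F) ⊗ₖ (B : Matrix (Fin n₂) (Fin n₂) F)) *ᵥ
      ((fun p : Fin n₁ × Fin n₂ => a p.1 * b p.2) ∘ e)) i =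
      (((A : Matrix (Fin n₁) (Fin n₁) F) ⊗ₖ (B : Matrix (Fin n₂) (Fin n₂) F)) *ᵥ
        (fun p : Fin n₁ × Fin n₂ => a p.1 * b p.2)) (e i) := by
    simp only [Matrix.mulVec, dotProduct, Matrix.reindex_apply, Matrix.submatrix_apply, Equiv.symm_symm,
      Function.comp_apply]
    exact Equiv.sum_comp e (fun p => ((A : Matrix (Fin n₁) (Fin n₁) F) ⊗ₖ (B : Matrix (Fin n₂) (Fin n₂) F)) (e i) p *
      (a p.1 * b p.2))
  rw [h4, kron_mulVec]
  simp

/-- expansion of a bilinear form -/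
lemma bil_expand {κ : Type} [Fintype κ] [DecidableEq κ] {f : (κ → F) → (κ → F) → F} (hf : IsBilinearForm f)
    (x y : κ → F) : f x y = ∑ i, ∑ j, x i * gramMatrix f i j * y j := by
  let B : LinearMap.BilinForm F (κ → F) := LinearMap.mk₂ F f hf.add_left (fun c x y => by rw [hf.smul_left, smul_eq_mul])
    (fun x y z => hf.add_right x y z) (fun c x y => by rw [hf.smul_right, smul_eq_mul])
  have h1 : f x y = B x y := rfl
  rw [h1, ← Matrix.toBilin'_toMatrix' B, Matrix.toBilin'_apply]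
  rfl

theorem form_tau {f : (ι → F) → (ι → F) → F} {f₁ : (Fin n₁ → F) → (Fin n₁ → F) → F}
    {f₂ : (Fin n₂ → F) → (Fin n₂ → F) → F} (h1 : IsBilinearForm f₁) (h2 : IsBilinearForm f₂)
    {e : ι ≃ Fin n₁ × Fin n₂} {P : GL ι F} (hT : IsTensorFormStructure id f f₁ f₂ e P) :
    ∃ c : F, c ≠ 0 ∧ ∀ a b a' b', f (tau e P a b) (tau e P a' b') = c * (f₁ a a' * f₂ b b') := by
  obtain ⟨c, hc, h⟩ := hT
  refine ⟨c, hc, fun a b a' b' => ?_⟩
  rw [tau_apply, tau_apply, h, bil_expand h1, bil_expand h2]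
  congr 1
  unfold formOfGram
  rw [Finset.sum_mul_sum, Fintype.sum_prod_type]
  refine Finset.sum_congr rfl fun i _ => Finset.sum_congr rfl fun k _ => ?_
  rw [Finset.sum_mul_sum, Fintype.sum_prod_type]
  refine Finset.sum_congr rfl fun j _ => Finset.sum_congr rfl fun l _ => ?_
  simp only [Matrix.kroneckerMap_apply, id]
  ring

/-- the pure tensors span -/
theorem span_tau (e : ι ≃ Fin n₁ × Fin n₂) (P : GL ι F) :
    Submodule.span F {v | ∃ a b, v = tau e P a b} = ⊤ := by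
  rw [eq_top_iff]
  intro v _
  have h0 : v = (P : Matrix ι ι F) *ᵥ (((P⁻¹ : GL ι F) : Matrix ι ι F) *ᵥ v) := by
    rw [Matrix.mulVec_mulVec, ← Units.val_mul, mul_inv_cancel, Units.val_one, Matrix.one_mulVec]
  obtain ⟨w, hw⟩ : ∃ w, w = ((P⁻¹ : GL ι F) : Matrix ι ι F) *ᵥ v := ⟨_, rfl⟩
  rw [← hw] at h0
  have h1 : w = ∑ i, w i • (Pi.single i 1 : ι → F) := by
    funext j
    simp [Finset.sum_apply, Pi.single_apply]
  rw [h0, h1, Matrix.mulVec_sum]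
  refine Submodule.sum_mem _ fun i _ => ?_
  rw [Matrix.mulVec_smul]
  refine Submodule.smul_mem _ _ (Submodule.subset_span ⟨Pi.single (e i).1 1, Pi.single (e i).2 1, ?_⟩)
  rw [tau_apply]
  congr 1
  funext j
  simp only [Function.comp_apply, Pi.single_apply]
  by_cases h : j = i
  · subst h; simp
  · rw [if_neg h]
    by_cases h2 : (e j).1 = (e i).1
    · rw [if_pos h2]
      by_cases h3 : (e j).2 = (e i).2
      · exact absurd (e.injective (Prod.ext h2 h3)) h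
      · rw [if_neg h3, mul_zero]
    · rw [if_neg h2, zero_mul]

end H7.Tens
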