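import Mathlib
import Cfsg.Agent.Lib.H7.ONonmax2

/-!
The stabiliser of a tensor decomposition with a three-dimensional orthogonal factor over the field
with three elements is not maximal.
-/
set_option autoImplicit false

namespace H7.Tens3

open Module QuadraticMap H48.QuadSplit H48.QuadWitt H95.OGeo H7.OA H7.OABridge H7.ONonmax

variable {F V V1 V2 : Type*} [Field F] [AddCommGroup V] [Module F V] [AddCommGroup V1] [Module F V1]
  [AddCommGroup V2] [Module F V2] {Q : QuadraticForm F V} {Q1 : QuadraticForm F V1} {Q2 : QuadraticForm F V2}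
  {τ : V1 →ₗ[F] V2 →ₗ[F] V} {c : F}

/-- `g` acts as a tensor product -/
def PureP (τ : V1 →ₗ[F] V2 →ₗ[F] V) (g : V ≃ₗ[F] V) : Prop :=
  ∃ (α : V1 ≃ₗ[F] V1) (β : V2 ≃ₗ[F] V2), ∀ a b, g (τ a b) = τ (α a) (β b)

lemma PureP.inv {g : V ≃ₗ[F] V} (h : PureP τ g) : PureP τ g⁻¹ := by
  obtain ⟨α, β, h⟩ := h
  refine ⟨α.symm, β.symm, fun a b => ?_⟩
  have := h (α.symm a) (β.symm b)
  rw [LinearEquiv.apply_symm_apply, LinearEquiv.apply_symm_apply] at this
  rw [← this, inv_apply_apply]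

/-- vectors with anisotropic orthogonal -/
def AA (Q1 : QuadraticForm F V1) : Set V1 := {a | a ≠ 0 ∧ ∀ v, polar Q1 a v = 0 → Q1 v = 0 → v = 0}

/-- the union of the members -/
def SS (Q1 : QuadraticForm F V1) (τ : V1 →ₗ[F] V2 →ₗ[F] V) : Set V := {x | ∃ a ∈ AA Q1, ∃ b, x = τ a b}

section
variable (hτ : ∀ a b a' b', polar Q (τ a b) (τ a' b') = c * (polar Q1 a a' * polar Q2 b b'))
include hτ

lemma SS_map (h2 : (2 : F) ≠ 0) (hc : c ≠ 0) (nt : ∃ b b', polar Q2 b b' ≠ 0) {g : V ≃ₗ[F] V}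
    (hg : g ∈ O Q) (h : PureP τ g) {x : V} (hx : x ∈ SS Q1 τ) : g x ∈ SS Q1 τ := by
  obtain ⟨α, β, h⟩ := h
  obtain ⟨a, ⟨ha0, ha⟩, b, rfl⟩ := hx
  obtain ⟨b1, b2, hb⟩ := nt
  refine ⟨α a, ⟨by rwa [Ne, LinearEquiv.map_eq_zero_iff], fun v hv hvq => ?_⟩, β b, h a b⟩
  have key : ∀ a1 a2, polar Q1 (α a1) (α a2) = 0 → polar Q1 a1 a2 = 0 := by
    intro a1 a2 h0
    have h3 := O_polar hg (τ a1 b1) (τ a2 b2)
    rw [h, h, hτ, hτ, h0, zero_mul, mul_zero] at h3
    have h4 := (mul_eq_zero.1 h3.symm).resolve_left hc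
    exact (mul_eq_zero.1 h4).resolve_right hb
  obtain ⟨v', rfl⟩ := α.surjective v
  have h5 : Q1 v' = 0 := by
    have h6 := key v' v' (by rw [p_self, hvq, mul_zero])
    rw [p_self] at h6
    exact (mul_eq_zero.1 h6).resolve_left h2
  rw [ha v' (key a v' hv) h5, map_zero]

lemma nonpure (nd2 : ND Q2) (hc : c ≠ 0) {a0 : F} (ha0 : a0 ≠ 0) {x y : V1} (h2 : (2 : F) ≠ 0)
    (qx : Q1 x = a0) (qy : Q1 y = a0) (hxy : polar Q1 x y = 0) {b b' b'' : V2} {a'' : V1} (hb : b ≠ 0)
    (h : τ x b + τ y b' = τ a'' b'') : ∃ μ : F, b' = μ • b := by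
  have h2a : 2 * a0 ≠ 0 := mul_ne_zero h2 ha0
  have h1 : (2 * a0) • b = polar Q1 a'' x • b'' := by
    rw [← sub_eq_zero]
    apply nd2
    intro z
    have h3 : polar Q (τ x b + τ y b') (τ x z) = polar Q (τ a'' b'') (τ x z) := by rw [h]
    rw [p_add, hτ, hτ, hτ, p_self, qx, p_comm Q1 y x, hxy] at h3
    have h4 : c * (2 * a0 * polar Q2 b z - polar Q1 a'' x * polar Q2 b'' z) = 0 := by linear_combination h3
    rw [p_sub, p_smul, p_smul]
    exact (mul_eq_zero.1 h4).resolve_left hc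
  have h1' : (2 * a0) • b' = polar Q1 a'' y • b'' := by
    rw [← sub_eq_zero]
    apply nd2
    intro z
    have h3 : polar Q (τ x b + τ y b') (τ y z) = polar Q (τ a'' b'') (τ y z) := by rw [h]
    rw [p_add, hτ, hτ, hτ, p_self, qy, hxy] at h3
    have h4 : c * (2 * a0 * polar Q2 b' z - polar Q1 a'' y * polar Q2 b'' z) = 0 := by linear_combination h3
    rw [p_sub, p_smul, p_smul]
    exact (mul_eq_zero.1 h4).resolve_left hc
  have hk : polar Q1 a'' x ≠ 0 := by
    intro h0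
    rw [h0, zero_smul, smul_eq_zero] at h1
    exact (h1.resolve_left h2a) |> hb
  refine ⟨(2 * a0)⁻¹ * polar Q1 a'' y * ((polar Q1 a'' x)⁻¹ * (2 * a0)), ?_⟩
  rw [mul_smul, mul_smul, mul_smul _ (2 * a0) b, h1, inv_smul_smul₀ hk, ← h1', inv_smul_smul₀ h2a]

lemma Q_tau (h2 : (2 : F) ≠ 0) (a : V1) (b : V2) : Q (τ a b) = 2 * c * (Q1 a * Q2 b) := by
  have h := hτ a b a b
  rw [p_self, p_self, p_self] at h
  apply mul_left_cancel₀ h2
  rw [h]; ring

theorem tens3 [Finite F] [FiniteDimensional F V] [FiniteDimensional F V1] [FiniteDimensional F V2]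
    (hF : ∀ a : F, a = 0 ∨ a = 1 ∨ a = -1) (h3 : (3 : F) = 0) (hQ : ND Q) (hn : 5 ≤ finrank F V) (hc : c ≠ 0)
    (nd1 : ND Q1) (nd2 : ND Q2) (hd1 : finrank F V1 = 3) (hd2 : 3 ≤ finrank F V2) :
    ∃ T : Subgroup (V ≃ₗ[F] V), (∀ g ∈ Om Q, PureP τ g → g ∈ T) ∧ (∃ g ∈ Om Q, g ∈ T ∧ ¬ PureP τ g) ∧
      (∃ g ∈ Om Q, g ∉ T) := by
  have h2 : (2 : F) ≠ 0 := by
    intro h; apply one_ne_zero (α := F); linear_combination h3 - h
  obtain ⟨a0, ha0, x, -, y, -, z, -, qx, qy, qz, pxy, pxz, pyz⟩ :=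
    frame3 (Q := Q1) (W := ⊤) hF h3 (fun v _ hv => nd1 v fun w => hv w Submodule.mem_top) (by rw [finrank_top, hd1])
  have h2a : 2 * a0 ≠ 0 := mul_ne_zero h2 ha0
  have pyx : polar Q1 y x = 0 := by rw [p_comm]; exact pxy
  have pzx : polar Q1 z x = 0 := by rw [p_comm]; exact pxz
  have pzy : polar Q1 z y = 0 := by rw [p_comm]; exact pyz
  have hli : LinearIndependent F ![x, y, z] := by
    apply li_of_dual (Q := Q1) (y := ![x, y, z]) (d := fun _ => 2 * a0) (fun _ => h2a)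
    intro i j
    fin_cases i <;> fin_cases j <;> simp [qx, qy, qz, pxy, pxz, pyz, pyx, pzx, pzy]
  have hcomb : ∀ v : V1, ∃ a b c : F, v = a • x + b • y + c • z := by
    intro v
    obtain ⟨d, hd⟩ := mem_comb (W := ⊤) hli (fun _ => Submodule.mem_top) (by rw [finrank_top, hd1])
      (w := v) Submodule.mem_top
    exact ⟨d 0, d 1, d 2, by rw [← hd, Fin.sum_univ_three]; rfl⟩
  have hQc : ∀ a b c : F, Q1 (a • x + b • y + c • z) = a0 * (a * a + b * b + c * c) := by
    intro a b c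
    simp only [Q_add, Q_smul, p_add, p_smul, p_smul', qx, qy, qz, pxy, pxz, pyz]; ring
  have hPc : ∀ a b c a' b' c' : F, polar Q1 (a • x + b • y + c • z) (a' • x + b' • y + c' • z) =
      2 * a0 * (a * a' + b * b' + c * c') := by
    intro a b c a' b' c'
    simp only [p_add, p_add', p_smul, p_smul', p_self, qx, qy, qz, pxy, pxz, pyz, pyx, pzx, pzy]; ring
  have hz0 : ∀ a b c : F, a • x + b • y + c • z = 0 → a = 0 ∧ b = 0 ∧ c = 0 := by
    intro a b c h
    have e1 := hPc a b c 1 0 0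
    have e2 := hPc a b c 0 1 0
    have e3 := hPc a b c 0 0 1
    rw [h, p_zero] at e1 e2 e3
    refine ⟨?_, ?_, ?_⟩
    · exact (mul_eq_zero.1 (show 2 * a0 * a = 0 by linear_combination -e1)).resolve_left h2a
    · exact (mul_eq_zero.1 (show 2 * a0 * b = 0 by linear_combination -e2)).resolve_left h2a
    · exact (mul_eq_zero.1 (show 2 * a0 * c = 0 by linear_combination -e3)).resolve_left h2a
  -- the set `AA`
  have hAx : x ∈ AA Q1 := by
    refine ⟨by rintro rfl; rw [QuadraticMap.map_zero] at qx; exact ha0 qx.symm, fun v hv hq => ?_⟩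
    obtain ⟨a, b, c, rfl⟩ := hcomb v
    have e1 := hPc 1 0 0 a b c
    simp only [one_smul, zero_smul, add_zero] at e1
    rw [hv] at e1
    have ha : a = 0 := (mul_eq_zero.1 (show 2 * a0 * a = 0 by linear_combination -e1)).resolve_left h2a
    rw [hQc] at hq
    have h4 := (mul_eq_zero.1 hq).resolve_left ha0
    subst ha
    rcases hF b with rfl | rfl | rfl <;> rcases hF c with rfl | rfl | rfl <;>
      first
      | (simp; done)
      | (exfalso; apply one_ne_zero (α := F); linear_combination h4; done)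
      | (exfalso; apply one_ne_zero (α := F); linear_combination h3 - h4; done)
  have hA : ∀ v ∈ AA Q1, v = x ∨ v = -x ∨ (polar Q1 v x = 0) := by
    rintro v ⟨hv0, hv⟩
    obtain ⟨a, b, c, rfl⟩ := hcomb v
    have e1 := hPc a b c 1 0 0
    simp only [one_smul, zero_smul, add_zero] at e1
    by_cases ha : a = 0
    · right; right; rw [e1, ha]; ring
    -- `a ≠ 0`
    have haa : a * a = 1 := by
      rcases hF a with rfl | rfl | rfl
      · exact absurd rfl ha
      · ring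
      · ring
    have hsq : ∀ t : F, t ≠ 0 → t * t = 1 := by
      intro t ht
      rcases hF t with rfl | rfl | rfl
      · exact absurd rfl ht
      · ring
      · ring
    have hb : b = 0 := by
      by_contra hb
      by_cases hc0 : c = 0
      · have h5 := hz0 _ _ _ (hv (b • x + (-a) • y + (1 : F) • z) (by rw [hPc, hc0]; ring)
          (by rw [hQc]; linear_combination a0 * hsq b hb + a0 * haa + a0 * h3))
        exact one_ne_zero h5.2.2
      · have h5 := hz0 _ _ _ (hv (a • x + b • y + c • z)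
          (by rw [hPc]; linear_combination 2 * a0 * hsq b hb + 2 * a0 * haa + 2 * a0 * hsq c hc0 + 2 * a0 * h3)
          (by rw [hQc]; linear_combination a0 * hsq b hb + a0 * haa + a0 * hsq c hc0 + a0 * h3))
        exact ha h5.1
    have hc : c = 0 := by
      by_contra hc0
      have h5 := hz0 _ _ _ (hv (c • x + (1 : F) • y + (-a) • z) (by rw [hPc, hb]; ring)
          (by rw [hQc]; linear_combination a0 * hsq c hc0 + a0 * haa + a0 * h3))
      exact one_ne_zero h5.2.1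
    rw [hb, hc]
    rcases hF a with rfl | rfl | rfl
    · exact absurd rfl ha
    · left; simp
    · right; left; simp
  -- vectors in `V2`
  obtain ⟨b0, -, hb00, qb0⟩ := exists_sing Q2 (U := ⊤) (by rw [finrank_top]; exact hd2)
  obtain ⟨b, qb, hb0b⟩ := exists_partner nd2 hb00 qb0
  have hbb0 : polar Q2 b b0 = 1 := by rw [p_comm]; exact hb0b
  have hb0 : b ≠ 0 := by rintro rfl; rw [p_zero] at hbb0; exact zero_ne_one hbb0
  obtain ⟨b1, -, hb10, hb1⟩ := exists_perp (Q := Q2) (W := ⊤) ![b0, b] (by rw [finrank_top]; omega)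
  have hb1b0 : polar Q2 b1 b0 = 0 := hb1 0
  have hb1b : polar Q2 b1 b = 0 := hb1 1
  have hb01 : polar Q2 b0 b1 = 0 := by rw [p_comm]; exact hb1b0
  have nt : ∃ b b', polar Q2 b b' ≠ 0 := ⟨b, b0, by rw [hbb0]; exact one_ne_zero⟩
  -- Siegel transformations inside the first member
  have hsg : ∀ b2 : V2, ∀ v ∈ SS Q1 τ, sgF Q (τ x b0) (τ x b2) v ∈ SS Q1 τ := by
    rintro b2 _ ⟨a, ha, d, rfl⟩
    rcases hA a ha with rfl | rfl | h4
    · refine ⟨a, ha, d + polar Q (τ a d) (τ a b0) • b2 - (polar Q (τ a d) (τ a b2) +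
        Q (τ a b2) * polar Q (τ a d) (τ a b0)) • b0, ?_⟩
      rw [sgF, map_sub, map_add, map_smul, map_smul]
    · refine ⟨-x, ha, d - polar Q (τ (-x) d) (τ x b0) • b2 + (polar Q (τ (-x) d) (τ x b2) +
        Q (τ x b2) * polar Q (τ (-x) d) (τ x b0)) • b0, ?_⟩
      rw [sgF, map_add, map_sub, map_smul, map_smul, map_neg, LinearMap.neg_apply, LinearMap.neg_apply,
        LinearMap.neg_apply, smul_neg, smul_neg]
      abel
    · refine ⟨a, ha, d, ?_⟩
      rw [sgF, hτ, hτ, h4]; simp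
  have hQu : Q (τ x b0) = 0 := by rw [Q_tau hτ h2, qb0]; ring
  refine ⟨setStab F (SS Q1 τ), ?_, ?_, ?_⟩
  · intro g hg hp v
    refine ⟨SS_map hτ h2 hc nt (Om_le Q hg) hp, fun h => ?_⟩
    have := SS_map hτ h2 hc nt ((O Q).inv_mem (Om_le Q hg)) hp.inv h
    rwa [inv_apply_apply] at this
  · have huw : polar Q (τ x b0) (τ x b1) = 0 := by rw [hτ, hb01]; ring
    obtain ⟨g, hg, hgx⟩ := full_Om hQ hn hQu _ huw
    refine ⟨g, hg, ?_, ?_⟩
    · intro v
      constructor
      · intro hv; rw [hgx]; exact hsg b1 v hv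
      · intro hv
        have h5 := hsg (-b1) _ hv
        rw [hgx, map_neg, sgF_mul hQu (by rw [p_neg', huw, neg_zero]) huw, neg_add_cancel] at h5
        simpa [sgF] using h5
    · rintro ⟨α, β, h⟩
      have e1 := h (x + y) b
      have p1 : polar Q (τ (x + y) b) (τ x b0) = c * (2 * a0) := by
        rw [hτ, p_add, p_self, qx, pyx, hbb0]; ring
      have e2 : g (τ (x + y) b) = τ x (b + (c * (2 * a0)) • b1 - (polar Q (τ (x + y) b) (τ x b1) +
          Q (τ x b1) * (c * (2 * a0))) • b0) + τ y b := by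
        rw [hgx, sgF, p1]
        simp only [map_add, map_sub, map_smul, LinearMap.add_apply]
        abel
      rw [e2, add_comm] at e1
      obtain ⟨μ, hμ⟩ := nonpure hτ nd2 hc ha0 h2 qy qx pyx hb0 e1
      obtain ⟨r, hr⟩ : ∃ r, r = polar Q (τ (x + y) b) (τ x b1) + Q (τ x b1) * (c * (2 * a0)) := ⟨_, rfl⟩
      rw [← hr] at hμ
      have e3 := congrArg (fun v => polar Q2 v b0) hμ
      simp only [p_sub, p_add, p_smul, hbb0, hb1b0, p_self, qb0, mul_zero, add_zero, sub_zero] at e3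
      rw [mul_one] at e3
      have e4 := congrArg (fun v => polar Q2 v b) hμ
      simp only [p_sub, p_add, p_smul, hb1b, hb0b, p_self, qb, mul_zero, add_zero, zero_sub] at e4
      have hr0 : r = 0 := by linear_combination -e4
      rw [hr0, ← e3, one_smul, zero_smul, sub_zero, add_eq_left, smul_eq_zero] at hμ
      exact hμ.elim (mul_ne_zero hc h2a) hb10
  · have huw : polar Q (τ x b0) (τ y b0) = 0 := by rw [hτ, pxy]; ring
    obtain ⟨g, hg, hgx⟩ := full_Om hQ hn hQu _ huw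
    refine ⟨g, hg, fun hgS => ?_⟩
    obtain ⟨a'', -, b'', e1⟩ := (hgS (τ x b)).1 ⟨x, hAx, b, rfl⟩
    have p1 : polar Q (τ x b) (τ x b0) = c * (2 * a0) := by
      rw [hτ, p_self, qx, hbb0]; ring
    have p2 : polar Q (τ x b) (τ y b0) = 0 := by rw [hτ, pxy]; ring
    have p3 : Q (τ y b0) = 0 := by rw [Q_tau hτ h2, qb0]; ring
    rw [hgx, sgF, p1, p2, p3, zero_mul, add_zero, zero_smul, sub_zero, ← map_smul] at e1
    obtain ⟨μ, hμ⟩ := nonpure hτ nd2 hc ha0 h2 qx qy pxy hb0 e1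
    have e3 := congrArg (fun v => polar Q2 v b0) hμ
    simp only [p_smul, hbb0, p_self, qb0, mul_zero] at e3
    rw [← e3.trans (mul_one μ)] at hμ
    rw [zero_smul, smul_eq_zero] at hμ
    exact hμ.elim (mul_ne_zero hc h2a) hb00

end

end H7.Tens3
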