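import Mathlib
import Cfsg.Agent.Lib.H7.Tens3

/-!
The stabiliser of a tensor decomposition with a two-dimensional symplectic factor over the field
with two elements is not maximal.
-/
set_option autoImplicit false

namespace H7.Tens2

open Module QuadraticMap H48.QuadSplit H48.QuadWitt H95.OGeo H7.OA H7.OABridge H7.Tens3

variable {F V V1 V2 : Type*} [Field F] [AddCommGroup V] [Module F V] [AddCommGroup V1] [Module F V1]
  [AddCommGroup V2] [Module F V2] {Q : QuadraticForm F V} {B1 : LinearMap.BilinForm F V1}
  {B2 : LinearMap.BilinForm F V2} {τ : V1 →ₗ[F] V2 →ₗ[F] V}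

/-- the normaliser of an element of order three -/
def TJ (J : V ≃ₗ[F] V) (hJ : ∀ x, J (J (J x)) = x) : Subgroup (V ≃ₗ[F] V) where
  carrier := {g | (∀ x, g (J x) = J (g x)) ∨ (∀ x, g (J x) = J (J (g x)))}
  one_mem' := Or.inl fun x => rfl
  mul_mem' := by
    rintro a b (ha | ha) (hb | hb)
    · left; intro x; rw [LinearEquiv.mul_apply, hb, ha]; rfl
    · right; intro x; rw [LinearEquiv.mul_apply, hb, ha, ha]; rfl
    · right; intro x; rw [LinearEquiv.mul_apply, hb, ha]; rfl
    · left; intro x; rw [LinearEquiv.mul_apply, hb, ha, ha, hJ]; rfl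
  inv_mem' := by
    rintro a (ha | ha)
    · left; intro x
      have := ha (a⁻¹ x)
      rw [apply_inv_apply] at this
      rw [← this, inv_apply_apply]
    · right; intro x
      have h1 : a (J (J (a⁻¹ x))) = J x := by rw [ha, ha, apply_inv_apply, hJ]
      rw [← h1, inv_apply_apply]

theorem tens2 [Finite F] [FiniteDimensional F V] [FiniteDimensional F V1] [FiniteDimensional F V2]
    (hF : ∀ a : F, a = 0 ∨ a = 1) (h2 : (2 : F) = 0) (hQ : ND Q) (hn : 9 ≤ finrank F V)
    (hτ : ∀ a b a' b', polar Q (τ a b) (τ a' b') = B1 a a' * B2 b b') (hpure : ∀ a b, Q (τ a b) = 0)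
    (hspan : Submodule.span F {v | ∃ a b, v = τ a b} = ⊤)
    (alt1 : ∀ a, B1 a a = 0) (alt2 : ∀ b, B2 b b = 0) (nd1 : ∀ a, (∀ a', B1 a a' = 0) → a = 0)
    (nd2 : ∀ b, (∀ b', B2 b b' = 0) → b = 0) (hd2 : 3 ≤ finrank F V2)
    {ω : V1 ≃ₗ[F] V1} (hω : ∀ a, ω (ω a) = a + ω a) {a0 : V1} (ha0 : a0 ≠ 0)
    (hcomb : ∀ a, ∃ s t : F, a = s • a0 + t • ω a0) {J : V ≃ₗ[F] V} (hJ : ∀ a b, J (τ a b) = τ (ω a) b) :
    ∃ T : Subgroup (V ≃ₗ[F] V), (∀ g ∈ Om Q, PureP τ g → g ∈ T) ∧ (∃ g ∈ Om Q, g ∈ T ∧ ¬ PureP τ g) ∧
      (∃ g ∈ Om Q, g ∉ T) := by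
  have hdblV : ∀ v : V, v + v = 0 := fun v => by rw [← two_smul F, h2, zero_smul]
  have hdbl1 : ∀ v : V1, v + v = 0 := fun v => by rw [← two_smul F, h2, zero_smul]
  have h11 : (1 : F) + 1 = 0 := by linear_combination h2
  -- skew symmetry
  have sk1 : ∀ a b, B1 a b = B1 b a := by
    intro a b
    have := alt1 (a + b)
    simp only [map_add, LinearMap.add_apply, alt1] at this
    linear_combination this - B1 b a * h2
  have sk2 : ∀ a b, B2 a b = B2 b a := by
    intro a b
    have := alt2 (a + b)
    simp only [map_add, LinearMap.add_apply, alt2] at this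
    linear_combination this - B2 b a * h2
  -- `J`
  have hJ2 : ∀ v, J (J v) = v + J v := by
    intro v
    have hv : v ∈ Submodule.span F {v | ∃ a b, v = τ a b} := by rw [hspan]; exact Submodule.mem_top
    induction hv using Submodule.span_induction with
    | mem x hx =>
      obtain ⟨a, b, rfl⟩ := hx
      rw [hJ, hJ, hω, map_add, LinearMap.add_apply]
    | zero => simp
    | add x y _ _ hx hy => rw [map_add, map_add, hx, hy]; abel
    | smul c x _ hx => rw [map_smul, map_smul, hx, smul_add]
  have hJ3 : ∀ v, J (J (J v)) = v := by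
    intro v
    rw [hJ2 (J v), hJ2 v]
    calc J v + (v + J v) = v + (J v + J v) := by abel
      _ = v := by rw [hdblV, add_zero]
  obtain ⟨b, hb⟩ : ∃ b, b = ω a0 := ⟨_, rfl⟩
  have hωb : ω b = a0 + b := by rw [hb, hω]
  have p1 : B1 a0 b = 1 := by
    rcases hF (B1 a0 b) with h | h
    · exfalso
      apply ha0
      apply nd1
      intro a'
      obtain ⟨s, t, rfl⟩ := hcomb a'
      rw [← hb, map_add, map_smul, map_smul, alt1, h]; simp
    · exact h
  have p1' : B1 b a0 = 1 := by rw [sk1]; exact p1
  have hB1ω : ∀ a a', B1 (ω a) (ω a') = B1 a a' := by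
    intro a a'
    obtain ⟨s, t, rfl⟩ := hcomb a
    obtain ⟨s', t', rfl⟩ := hcomb a'
    rw [← hb]
    simp only [map_add, map_smul, LinearMap.add_apply, LinearMap.smul_apply, smul_eq_mul, ← hb, hωb, alt1, p1, p1']
    linear_combination (t * t') * h2
  have hJB : ∀ v w, polar Q (J v) (J w) = polar Q v w := by
    intro v w
    have hv : v ∈ Submodule.span F {v | ∃ a b, v = τ a b} := by rw [hspan]; exact Submodule.mem_top
    have hw : w ∈ Submodule.span F {v | ∃ a b, v = τ a b} := by rw [hspan]; exact Submodule.mem_top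
    induction hv using Submodule.span_induction with
    | mem x hx =>
      obtain ⟨a, b, rfl⟩ := hx
      induction hw using Submodule.span_induction with
      | mem y hy =>
        obtain ⟨a', b', rfl⟩ := hy
        rw [hJ, hJ, hτ, hτ, hB1ω]
      | zero => simp [p_zero']
      | add x y _ _ hx hy => rw [map_add, p_add', p_add', hx, hy]
      | smul c x _ hx => rw [map_smul, p_smul', p_smul', hx]
    | zero => simp [p_zero]
    | add x y _ _ hx hy => rw [map_add, p_add, p_add, hx, hy]
    | smul c x _ hx => rw [map_smul, p_smul, p_smul, hx]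
  have hJB' : ∀ v w, polar Q (J v) w = polar Q v w + polar Q v (J w) := by
    intro v w
    rw [← hJB (J v) w, ← hJB (J (J v)) (J w), hJ3, hJ2 w, p_add']
  -- vectors in `V2`
  obtain ⟨x, hx0⟩ : ∃ x : V2, x ≠ 0 := by
    have : Nontrivial V2 := Module.nontrivial_of_finrank_pos (R := F) (by omega)
    exact exists_ne 0
  obtain ⟨z, hz⟩ : ∃ z, B2 x z = 1 := by
    by_contra hcon
    push Not at hcon
    exact hx0 (nd2 x fun z => (hF _).resolve_right (hcon z))
  obtain ⟨y, hy0, hxy, hzy⟩ : ∃ y, y ≠ 0 ∧ B2 x y = 0 ∧ B2 z y = 0 := by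
    let φ : V2 →ₗ[F] (F × F) := (B2 x).prod (B2 z)
    have h1 : LinearMap.ker φ ≠ ⊥ := by
      intro h
      have h3 := LinearMap.finrank_le_finrank_of_injective (LinearMap.ker_eq_bot.1 h)
      rw [Module.finrank_prod, finrank_self] at h3
      omega
    obtain ⟨y, hy, hy0⟩ := (Submodule.ne_bot_iff _).1 h1
    have h3 : φ y = 0 := hy
    exact ⟨y, hy0, congrArg Prod.fst h3, congrArg Prod.snd h3⟩
  have hzx : B2 z x = 1 := by rw [sk2]; exact hz
  have hyx : B2 y x = 0 := by rw [sk2]; exact hxy
  refine ⟨TJ J hJ3, ?_, ?_, ?_⟩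
  · -- tensor products normalise
    rintro g - ⟨α, β, h⟩
    have key : ∀ κ : V1 ≃ₗ[F] V1, (∀ a, κ (κ a) = a + κ a) → (∀ a, κ a = ω a) ∨ (∀ a, κ a = ω (ω a)) := by
      intro κ hκ
      obtain ⟨s, t, hst⟩ := hcomb (κ a0)
      rw [← hb] at hst
      rcases hF t with rfl | rfl
      · exfalso
        rw [zero_smul, add_zero] at hst
        have h1 := hκ a0
        rcases hF s with rfl | rfl
        · rw [zero_smul] at hst
          rw [hst, map_zero, add_zero] at h1
          exact ha0 h1.symm
        · rw [one_smul] at hst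
          rw [hst, hst] at h1
          exact ha0 (by rw [hdbl1] at h1; exact h1)
      · rcases hF s with rfl | rfl
        · left
          rw [zero_smul, zero_add, one_smul] at hst
          intro a
          obtain ⟨s, t, rfl⟩ := hcomb a
          have h1 := hκ a0
          rw [hst] at h1
          rw [← hb, map_add, map_add, map_smul, map_smul, map_smul, map_smul, hst, h1, hωb, ← hb]
        · right
          rw [one_smul, one_smul] at hst
          intro a
          obtain ⟨s, t, rfl⟩ := hcomb a
          have h1 := hκ a0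
          rw [hst, map_add, hst] at h1
          have h3 : κ b = a0 := by
            have h4 : a0 + b + κ b = a0 + b + a0 := by rw [h1]; abel
            exact add_left_cancel h4
          have h5 : ω (ω b) = a0 := by
            rw [hωb, map_add, ← hb, hωb]
            calc b + (a0 + b) = a0 + (b + b) := by abel
              _ = a0 := by rw [hdbl1, add_zero]
          rw [← hb, map_add, map_smul, map_smul, hst, h3, map_add, map_add, map_smul, map_smul, map_smul, map_smul,
            h5, ← hb, hωb]
    have hκ := key ((α.symm.trans ω).trans α) (by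
      intro a
      simp only [LinearEquiv.trans_apply, LinearEquiv.symm_apply_apply, hω, map_add, LinearEquiv.apply_symm_apply])
    have hκ' : (∀ a, α (ω a) = ω (α a)) ∨ (∀ a, α (ω a) = ω (ω (α a))) := by
      rcases hκ with h1 | h1
      · left; intro a
        have := h1 (α a)
        simpa only [LinearEquiv.trans_apply, LinearEquiv.symm_apply_apply] using this
      · right; intro a
        have := h1 (α a)
        simpa only [LinearEquiv.trans_apply, LinearEquiv.symm_apply_apply] using this
    rcases hκ' with h1 | h1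
    · left; intro v
      have hv : v ∈ Submodule.span F {v | ∃ a b, v = τ a b} := by rw [hspan]; exact Submodule.mem_top
      induction hv using Submodule.span_induction with
      | mem x hx =>
        obtain ⟨a, b, rfl⟩ := hx
        rw [hJ, h, h, hJ, h1]
      | zero => simp
      | add x y _ _ hx hy => simp only [map_add, hx, hy]
      | smul c x _ hx => simp only [map_smul, hx]
    · right; intro v
      have hv : v ∈ Submodule.span F {v | ∃ a b, v = τ a b} := by rw [hspan]; exact Submodule.mem_top
      induction hv using Submodule.span_induction with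
      | mem x hx =>
        obtain ⟨a, b, rfl⟩ := hx
        rw [hJ, h, h, hJ, hJ, h1]
      | zero => simp
      | add x y _ _ hx hy => simp only [map_add, hx, hy]
      | smul c x _ hx => simp only [map_smul, hx]
  · -- a unitary transvection
    obtain ⟨s, hs⟩ : ∃ s, s = τ a0 x + τ b y := ⟨_, rfl⟩
    have hJs : J s = τ b x + τ (a0 + b) y := by rw [hs, map_add, hJ, hJ, ← hb, hωb]
    have qs : Q s = 0 := by rw [hs, Q_add, hpure, hpure, hτ, hxy]; ring
    have qJs : Q (J s) = 0 := by rw [hJs, Q_add, hpure, hpure, hτ, hxy]; ring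
    have hsJs : polar Q s (J s) = 0 := by
      rw [hs, ← hs, hJs, hs]
      simp only [p_add, p_add', hτ, alt2, hxy, hyx]; ring
    obtain ⟨g, hg, hgx⟩ := full_Om hQ (by omega) qs _ hsJs
    refine ⟨g, hg, Or.inl ?_, ?_⟩
    · intro v
      rw [hgx, hgx, sgF, sgF, qJs, zero_mul, add_zero, zero_mul, add_zero, map_sub, map_add, map_smul, map_smul,
        hJB, hJB', hJ2 s]
      have e1 : ∀ c d : F, ∀ p q : V, (c + d) • p - c • q = c • (q + p) - d • p := by
        intro c d p q
        have e2 : ∀ r : V, -r = r := fun r => by rw [neg_eq_iff_add_eq_zero, hdblV]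
        rw [sub_eq_add_neg, e2, sub_eq_add_neg, e2, add_smul, smul_add]; abel
      rw [add_sub_assoc, add_sub_assoc, e1]
    · rintro ⟨α, β, h⟩
      have e1 := h b z
      have k1 : polar Q (τ b z) s = 1 := by
        rw [hs, p_add', hτ, hτ, alt1, p1', hzx]; ring
      have k2 : polar Q (τ b z) (J s) = 0 := by
        rw [hJs, p_add', hτ, hτ, alt1, hzy]; ring
      have k3 : g (τ b z) = τ b (z + x) + τ (a0 + b) y := by
        rw [hgx, sgF, k1, k2, qJs, hJs, map_add]; simp [add_assoc]
      rw [k3] at e1
      obtain ⟨a'', b'', hab⟩ : ∃ a'' b'', τ b (z + x) + τ (a0 + b) y = τ a'' b'' := ⟨_, _, e1⟩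
      have pba : B1 b (a0 + b) = 1 := by rw [map_add, p1', alt1, add_zero]
      have pab : B1 (a0 + b) b = 1 := by rw [map_add, LinearMap.add_apply, p1, alt1, add_zero]
      have m1 : z + x = B1 a'' (a0 + b) • b'' := by
        rw [← sub_eq_zero]
        apply nd2
        intro w
        have m3 : polar Q (τ b (z + x) + τ (a0 + b) y) (τ (a0 + b) w) = polar Q (τ a'' b'') (τ (a0 + b) w) := by rw [hab]
        rw [p_add, hτ, hτ, hτ, pba, alt1] at m3
        rw [map_sub, LinearMap.sub_apply, map_smul, LinearMap.smul_apply, smul_eq_mul]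
        linear_combination m3
      have m2 : y = B1 a'' b • b'' := by
        rw [← sub_eq_zero]
        apply nd2
        intro w
        have m3 : polar Q (τ b (z + x) + τ (a0 + b) y) (τ b w) = polar Q (τ a'' b'') (τ b w) := by rw [hab]
        rw [p_add, hτ, hτ, hτ, pab, alt1] at m3
        rw [map_sub, LinearMap.sub_apply, map_smul, LinearMap.smul_apply, smul_eq_mul]
        linear_combination m3
      have m4 : y = b'' := by
        rcases hF (B1 a'' b) with h4 | h4
        · rw [h4, zero_smul] at m2; exact absurd m2 hy0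
        · rw [h4, one_smul] at m2; exact m2
      have m5 : B2 (z + x) x = 1 := by rw [map_add, LinearMap.add_apply, hzx, alt2, add_zero]
      rw [m1, map_smul, LinearMap.smul_apply, ← m4, hyx, smul_zero] at m5
      exact zero_ne_one m5
  · -- an element not normalising
    obtain ⟨v, hv⟩ : ∃ v, v = τ a0 x := ⟨_, rfl⟩
    have hv0 : v ≠ 0 := by
      intro h
      have h3 := hτ a0 x b z
      rw [← hv, h, p_zero, p1, hz] at h3
      exact zero_ne_one (h3.trans (mul_one 1))
    have hJv : J v = τ b x := by rw [hv, hJ, ← hb]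
    have hJ2v := hJ2 v
    have hli : LinearIndependent F ![v, J v] := by
      rw [LinearIndependent.pair_iff]
      intro s t hst
      rcases hF t with rfl | rfl
      · rw [zero_smul, add_zero, smul_eq_zero] at hst
        exact ⟨hst.resolve_right hv0, rfl⟩
      · exfalso
        rcases hF s with rfl | rfl
        · rw [zero_smul, zero_add, one_smul, LinearEquiv.map_eq_zero_iff] at hst
          exact hv0 hst
        · rw [one_smul, one_smul] at hst
          rw [hst, LinearEquiv.map_eq_zero_iff, LinearEquiv.map_eq_zero_iff] at hJ2v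
          exact hv0 hJ2v
    obtain ⟨u, hu, huv⟩ := dual_val hQ (k := 2) (by omega) hli ![0, 1] 0
    have u1 : polar Q u v = 0 := huv 0
    have u2 : polar Q u (J v) = 1 := huv 1
    obtain ⟨w, hw, hwu, hwT⟩ := perp_val hQ (k := 2) (by omega) ![u, v] (T := Submodule.span F {u, v}) (by
      have := H7.OAPoint.finrank_pair_le (F := F) u v
      omega) 0
    have w1 : polar Q w u = 0 := hwu 0
    have w2 : polar Q w v = 0 := hwu 1
    obtain ⟨g, hg, hgx⟩ := full_Om hQ (by omega) hu w (by rw [p_comm]; exact w1)
    have g1 : g v = v := by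
      rw [hgx, sgF, p_comm Q v u, u1, p_comm Q v w, w2]; simp
    have g2 : g (J v) = J v + w - polar Q (J v) w • u := by
      rw [hgx, sgF, p_comm Q (J v) u, u2, hw]; simp
    refine ⟨g, hg, ?_⟩
    rintro (h | h)
    · have h1 := h v
      rw [g1, g2, add_sub_assoc, add_eq_left, sub_eq_zero] at h1
      apply hwT
      rw [h1]
      exact Submodule.smul_mem _ _ (Submodule.subset_span (by simp))
    · have h1 := h v
      rw [g1, g2, hJ2, add_sub_assoc, add_comm v, add_right_inj, sub_eq_iff_eq_add] at h1
      apply hwT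
      rw [h1]
      exact Submodule.add_mem _ (Submodule.subset_span (by simp)) (Submodule.smul_mem _ _ (Submodule.subset_span (by simp)))

end H7.Tens2
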