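import Mathlib
import Cfsg.Agent.Lib.H7.Tens
import Cfsg.Agent.Lib.H7.Tens2
import Cfsg.Agent.Lib.H7.ONonmaxB

/-!
Non-maximal tensor product stabilisers in orthogonal groups over the field with two elements.
-/
set_option autoImplicit false

namespace H7.Tens2

open Module QuadraticMap H48.QuadSplit H95.OGeo H7.OA H7.OABridge H7.ONonmax H7.Tens Cfsg Cfsg.Geo

variable {F : Type*} [Field F]

/-- bilinear form attached to a function -/
def bilOf {κ : Type} (f : (κ → F) → (κ → F) → F) (hf : IsBilinearForm f) : LinearMap.BilinForm F (κ → F) :=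
  LinearMap.mk₂ F f hf.add_left (fun c x y => by rw [hf.smul_left, smul_eq_mul])
    (fun x y z => hf.add_right x y z) (fun c x y => by rw [hf.smul_right, smul_eq_mul])

lemma bilOf_apply {κ : Type} (f : (κ → F) → (κ → F) → F) (hf : IsBilinearForm f) (a b : κ → F) :
    bilOf f hf a b = f a b := rfl

lemma nd_bilOf {κ : Type} (f : (κ → F) → (κ → F) → F) (hf : IsSymplecticForm f) (a : κ → F)
    (h : ∀ b, bilOf f hf.bilinear a b = 0) : a = 0 := by
  by_contra hne
  obtain ⟨x, hx⟩ := (hf.nondegenerate a hne).2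
  exact hx (h x)

/-- an element of order three -/
def wM (F : Type*) [Field F] : Matrix (Fin 2) (Fin 2) F := !![0, 1; 1, 1]

lemma wM_mulVec (a : Fin 2 → F) : (wM F).mulVec a = ![a 1, a 0 + a 1] := by
  funext i
  fin_cases i <;> simp [wM, Matrix.mulVec, dotProduct, Fin.sum_univ_two]

variable {ι : Type} [Fintype ι] [DecidableEq ι]

theorem tens_q2 [Fintype F] {Q : QuadraticForm F (ι → F)} (hQ : ND Q) (hcard : 13 ≤ Fintype.card ι)
    (hq : Fintype.card F = 2) (n₂ : ℕ) (e : ι ≃ Fin 2 × Fin n₂) (P : Matrix.GeneralLinearGroup ι F)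
    (f₁ : (Fin 2 → F) → (Fin 2 → F) → F) (f₂ : (Fin n₂ → F) → (Fin n₂ → F) → F)
    (hf₁ : IsSymplecticForm f₁) (hf₂ : IsSymplecticForm f₂)
    (hT : IsTensorFormStructure id (polar Q) f₁ f₂ e P)
    (hpure : ∀ a b, Q (tau e P a b) = 0) :
    ∃ K : Subgroup (Matrix.GeneralLinearGroup ι F), tensorProductSubgroup 2 n₂ e P ⊓ omegaGL Q < K ∧
      K < omegaGL Q := by
  have h2 := two_eq_zero (F := F) (Or.inl hq)
  have hF : ∀ a : F, a = 0 ∨ a = 1 := fun a => by
    by_cases ha : a = 0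
    · exact Or.inl ha
    · right; simpa using pow_card_sub 1 hq a ha
  have hfr : finrank F (ι → F) = Fintype.card ι := finrank_fintype_fun_eq_card F
  have hn2 : Fintype.card ι = 2 * n₂ := by
    rw [Fintype.card_congr e]; simp
  obtain ⟨c, hc, hτ⟩ := form_tau hf₁.bilinear hf₂.bilinear hT
  have hc1 : c = 1 := (hF c).resolve_left hc
  have hdet : (wM F).det ≠ 0 := by simp [wM, Matrix.det_fin_two]
  obtain ⟨A, hA⟩ : ∃ A : Matrix.GeneralLinearGroup (Fin 2) F, (A : Matrix (Fin 2) (Fin 2) F) = wM F :=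
    ⟨Matrix.GeneralLinearGroup.mkOfDetNeZero _ hdet, rfl⟩
  have hAa : ∀ a, H95.Bridge.toEq (Fin 2) F A a = ![a 1, a 0 + a 1] := by
    intro a; rw [H95.Bridge.toEq_apply, hA, wM_mulVec]
  obtain ⟨g0, -, hg0⟩ := exists_tps e P A 1
  obtain ⟨T, h0, h1, h4⟩ := tens2 (Q := Q) (B1 := bilOf f₁ hf₁.bilinear) (B2 := bilOf f₂ hf₂.bilinear) (τ := tau e P)
    hF h2 hQ (by omega) (fun a b a' b' => by rw [hτ, hc1, one_mul]; rfl) hpure (span_tau e P)
    (fun a => hf₁.alternating a) (fun b => hf₂.alternating b) (fun a h => nd_bilOf f₁ hf₁ a h)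
    (fun b h => nd_bilOf f₂ hf₂ b h) (by simp; omega) (ω := H95.Bridge.toEq (Fin 2) F A)
    (fun a => by
      rw [hAa, hAa]
      funext i
      fin_cases i
      · simp
      · simp)
    (a0 := ![1, 0]) (fun h => one_ne_zero (α := F) (congrFun h 0))
    (fun a => ⟨a 0, a 1, by
      rw [hAa]
      funext i
      fin_cases i <;> simp⟩)
    (J := H95.Bridge.toEq ι F g0) (fun a b => by rw [hg0]; simp)
  refine not_maximal_omegaGL (Q := Q) rfl
    (P := fun g => (H95.Bridge.toEq ι F).symm g ∈ tensorProductSubgroup 2 n₂ e P) ?_ T ?_ ?_ h4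
  · intro g
    rw [MulEquiv.symm_apply_apply]
  · intro g hg hgS
    refine h0 g hg ?_
    obtain ⟨α, β, h⟩ := mem_tps hgS
    rw [MulEquiv.apply_symm_apply] at h
    exact ⟨α, β, h⟩
  · obtain ⟨g, hg, hgT, hgP⟩ := h1
    refine ⟨g, hg, hgT, fun hgS => hgP ?_⟩
    obtain ⟨α, β, h⟩ := mem_tps hgS
    rw [MulEquiv.apply_symm_apply] at h
    exact ⟨α, β, h⟩

end H7.Tens2
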