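import Mathlib
import Cfsg.Agent.Lib.H7.Tens
import Cfsg.Agent.Lib.H7.Tens3
import Cfsg.Agent.Lib.H7.ONonmaxB

/-!
Non-maximal tensor product stabilisers in orthogonal groups over the field with three elements.
-/
set_option autoImplicit false

namespace H7.Tens3

open Module QuadraticMap H48.QuadSplit H95.OGeo H7.OA H7.OABridge H7.ONonmax H7.Tens Cfsg Cfsg.Geo

variable {F : Type*} [Field F]

/-- half of a symmetric form as a quadratic form -/
def halfQ {κ : Type} (f : (κ → F) → (κ → F) → F) (hf : IsSymmetricForm f) (h2 : (2 : F) ≠ 0) :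
    QuadraticForm F (κ → F) :=
  have hp : ∀ a b, polar (fun a => (2 : F)⁻¹ * f a a) a b = f a b := by
    intro a b
    simp only [polar, hf.bilinear.add_left, hf.bilinear.add_right, hf.symm b a]
    field_simp
    ring
  QuadraticMap.ofPolar (fun a => (2 : F)⁻¹ * f a a)
    (fun c x => by rw [hf.bilinear.smul_left, hf.bilinear.smul_right, smul_eq_mul]; ring)
    (fun x y z => by rw [hp, hp, hp, hf.bilinear.add_left])
    (fun c x y => by rw [hp, hp, hf.bilinear.smul_left, smul_eq_mul])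

lemma polar_halfQ {κ : Type} (f : (κ → F) → (κ → F) → F) (hf : IsSymmetricForm f) (h2 : (2 : F) ≠ 0)
    (a b : κ → F) : polar (halfQ f hf h2) a b = f a b := by
  change polar (fun a => (2 : F)⁻¹ * f a a) a b = f a b
  simp only [polar, hf.bilinear.add_left, hf.bilinear.add_right, hf.symm b a]
  field_simp
  ring

lemma nd_halfQ {κ : Type} (f : (κ → F) → (κ → F) → F) (hf : IsSymmetricForm f) (h2 : (2 : F) ≠ 0) :
    ND (halfQ f hf h2) := by
  intro x hx
  by_contra hne
  obtain ⟨y, hy⟩ := (hf.nondegenerate x hne).2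
  apply hy
  rw [← polar_halfQ f hf h2]
  exact hx y

variable {ι : Type} [Fintype ι] [DecidableEq ι]

theorem tens_q3 [Fintype F] {Q : QuadraticForm F (ι → F)} (hQ : ND Q) (hcard : 13 ≤ Fintype.card ι)
    (hq : Fintype.card F = 3) (n₂ : ℕ) (e : ι ≃ Fin 3 × Fin n₂) (P : Matrix.GeneralLinearGroup ι F)
    (f₁ : (Fin 3 → F) → (Fin 3 → F) → F) (f₂ : (Fin n₂ → F) → (Fin n₂ → F) → F)
    (hf₁ : IsSymmetricForm f₁) (hf₂ : IsSymmetricForm f₂)
    (hT : IsTensorFormStructure id (polar Q) f₁ f₂ e P) :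
    ∃ K : Subgroup (Matrix.GeneralLinearGroup ι F), tensorProductSubgroup 3 n₂ e P ⊓ omegaGL Q < K ∧
      K < omegaGL Q := by
  obtain ⟨h3, hF⟩ := field3 hq
  have h2 : (2 : F) ≠ 0 := by
    intro h; apply one_ne_zero (α := F); linear_combination h3 - h
  have hfr : finrank F (ι → F) = Fintype.card ι := finrank_fintype_fun_eq_card F
  have hn2 : Fintype.card ι = 3 * n₂ := by
    rw [Fintype.card_congr e]; simp
  obtain ⟨c, hc, hτ⟩ := form_tau hf₁.bilinear hf₂.bilinear hT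
  obtain ⟨T, h0, h1, h4⟩ := tens3 (Q := Q) (Q1 := halfQ f₁ hf₁ h2) (Q2 := halfQ f₂ hf₂ h2) (τ := tau e P) (c := c)
    (fun a b a' b' => by rw [hτ, polar_halfQ, polar_halfQ]) hF h3 hQ (by omega) hc (nd_halfQ _ _ _) (nd_halfQ _ _ _)
    (by simp) (by simp; omega)
  refine not_maximal_omegaGL (Q := Q) rfl
    (P := fun g => (H95.Bridge.toEq ι F).symm g ∈ tensorProductSubgroup 3 n₂ e P) ?_ T ?_ ?_ h4
  · intro g
    rw [MulEquiv.symm_apply_apply]
  · intro g hg hgS
    refine h0 g hg ?_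
    obtain ⟨α, β, h⟩ := mem_tps hgS
    rw [MulEquiv.apply_symm_apply] at h
    exact ⟨α, β, h⟩
  · obtain ⟨g, hg, hgT, hgP⟩ := h1
    refine ⟨g, hg, hgT, fun hgS => hgP ?_⟩
    obtain ⟨α, β, h⟩ := mem_tps hgS
    rw [MulEquiv.apply_symm_apply] at h
    exact ⟨α, β, h⟩

end H7.Tens3
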