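import Cfsg.Agent.Lib.H22.RGDBN

/-!
Sections with a Frobenius subgroup `p : c` in groups with a BN-pair whose torus contains a Sylow
`p`-subgroup.
-/

set_option autoImplicit false
set_option linter.unusedVariables false
set_option linter.unusedSectionVars false
set_option linter.style.haveILetI false

namespace H7.TorSect

open H22.RGD H22.RGD.Sys

section fus

variable {G : Type*} [Group G] {Φ I : Type*} {C : RootComb Φ I} (S : Sys G C)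

/-- If `g` conjugates a subset of the torus into the torus, then it acts like an element of `N`. -/
theorem fusion [Finite Φ] {P : Set G} (hP : P ⊆ S.H) {g : G} (hg : g ∈ S.Γ)
    (hc : ∀ x ∈ P, g * x * g⁻¹ ∈ S.H) :
    ∃ n ∈ S.N, ∀ x ∈ P, n * x * n⁻¹ = g * x * g⁻¹ := by
  obtain ⟨b, hb, n, w, hn, u, hu, rfl⟩ := S.normal_form hg
  obtain ⟨v, hv, k, hk, rfl⟩ := S.mem_B.1 hb
  refine ⟨k * n, S.N.mul_mem (S.H_le_N hk) hn.1, ?_⟩
  intro h₁ h1P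
  have h1 : h₁ ∈ S.H := hP h1P
  obtain ⟨h₂, hc2⟩ : ∃ h₂, v * k * n * u * h₁ * (v * k * n * u)⁻¹ = h₂ := ⟨_, rfl⟩
  have h2 : h₂ ∈ S.H := by rw [← hc2]; exact hc _ h1P
  rw [hc2]
  have e : (v * k * (n * h₁ * n⁻¹)) * n * (h₁⁻¹ * u * h₁) =
      ((h₂ * v * h₂⁻¹) * (h₂ * k)) * n * u := by
    have : v * k * n * u * h₁ = h₂ * (v * k * n * u) := by
      rw [← hc2]; simp [mul_assoc]
    calc (v * k * (n * h₁ * n⁻¹)) * n * (h₁⁻¹ * u * h₁) = v * k * n * u * h₁ := by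
          simp [mul_assoc]
      _ = h₂ * (v * k * n * u) := this
      _ = _ := by simp [mul_assoc]
  have hu' : h₁⁻¹ * u * h₁ ∈ S.Um w := by
    have : S.H ≤ stabSub (S.Um w) := S.H_le_stab_iSup _
    exact inv_conj_mem_of_stabSub (this h1) hu
  have hnh : n * h₁ * n⁻¹ ∈ S.H := S.N_conj_H hn.1 h1
  have hv2 : h₂ * v * h₂⁻¹ ∈ S.U := conj_mem_of_stabSub (S.H_le_stab_U h2) hv
  obtain ⟨e1, _⟩ := S.normal_form_unique hn
    (S.B.mul_mem (S.B.mul_mem (S.U_le_B hv) (S.H_le_B hk)) (S.H_le_B hnh))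
    (S.B.mul_mem (S.U_le_B hv2) (S.H_le_B (S.H.mul_mem h2 hk))) hu' hu e
  have e2 : (h₂ * v * h₂⁻¹)⁻¹ * v = (h₂ * k) * (k * (n * h₁ * n⁻¹))⁻¹ := by
    have : v = (h₂ * v * h₂⁻¹) * (h₂ * k) * (k * (n * h₁ * n⁻¹))⁻¹ := by
      rw [← e1]; simp [mul_assoc]
    calc (h₂ * v * h₂⁻¹)⁻¹ * v = (h₂ * v * h₂⁻¹)⁻¹ *
          ((h₂ * v * h₂⁻¹) * (h₂ * k) * (k * (n * h₁ * n⁻¹))⁻¹) := by rw [← this]
      _ = _ := by simp [mul_assoc]
  have e3 : (h₂ * k) * (k * (n * h₁ * n⁻¹))⁻¹ = 1 := by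
    rw [← e2]
    refine S.eq_one_of_mem_U_H (S.U.mul_mem (S.U.inv_mem hv2) hv) ?_
    rw [e2]
    exact S.H.mul_mem (S.H.mul_mem h2 hk) (S.H.inv_mem (S.H.mul_mem hk hnh))
  have e4 : h₂ * k = k * (n * h₁ * n⁻¹) := mul_inv_eq_one.1 e3
  calc k * n * h₁ * (k * n)⁻¹ = k * (n * h₁ * n⁻¹) * k⁻¹ := by simp [mul_assoc]
    _ = h₂ := by rw [← e4]; simp

/-- Powers. -/
theorem conj_pow_eq {P : Set G} {g n : G} (hg : ∀ x ∈ P, g * x * g⁻¹ ∈ P)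
    (h : ∀ x ∈ P, n * x * n⁻¹ = g * x * g⁻¹) (k : ℕ) :
    ∀ x ∈ P, n ^ k * x * (n ^ k)⁻¹ = g ^ k * x * (g ^ k)⁻¹ := by
  induction k with
  | zero => intro x _; simp
  | succ k ih =>
    intro x hx
    have h1 : n ^ (k + 1) * x * (n ^ (k + 1))⁻¹ = n ^ k * (n * x * n⁻¹) * (n ^ k)⁻¹ := by
      rw [pow_succ]; group
    have h2 : g ^ (k + 1) * x * (g ^ (k + 1))⁻¹ = g ^ k * (g * x * g⁻¹) * (g ^ k)⁻¹ := by
      rw [pow_succ]; group
    rw [h1, h2, h x hx]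
    exact ih _ (hg x hx)

theorem fix_pow [Finite Φ] (hab : ∀ x ∈ S.H, ∀ y ∈ S.H, x * y = y * x) {e : ℕ}
    (he : ∀ w ∈ C.W, w ^ e = 1) {P : Set G} (hP : P ⊆ S.H) {g : G} (hg : g ∈ S.Γ)
    (hgP : ∀ x ∈ P, g * x * g⁻¹ ∈ P) : ∀ x ∈ P, g ^ e * x * (g ^ e)⁻¹ = x := by
  obtain ⟨n, hn, h⟩ := fusion S hP hg (fun x hx => hP (hgP x hx))
  intro x hx
  rw [← conj_pow_eq hgP h e x hx]
  have h1 : n ^ e ∈ S.H := by
    have h2 : (⟨n, hn⟩ : S.N) ^ e ∈ S.toW.ker := by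
      rw [MonoidHom.mem_ker, map_pow]
      apply he
      rw [← S.toW_range]
      exact ⟨_, rfl⟩
    rw [S.toW_ker, Subgroup.mem_subgroupOf] at h2
    exact h2
  rw [hab _ h1 _ (hP hx)]
  simp

end fus

section abs

theorem conj_into {Γ : Type*} [Group Γ] [Finite Γ] {p : ℕ} [Fact p.Prime] (T : Subgroup Γ)
    (hidx : ¬ p ∣ T.index) (Q : Subgroup Γ) (hQ : IsPGroup p Q) :
    ∃ y : Γ, ∀ x ∈ Q, y * x * y⁻¹ ∈ T := by
  have h1 : ¬ p ∣ Nat.card (Γ ⧸ T) := hidx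
  obtain ⟨a, ha⟩ := hQ.nonempty_fixed_point_of_prime_not_dvd_card (Γ ⧸ T) h1
  induction a using Quotient.inductionOn' with
  | h a =>
    refine ⟨a⁻¹, fun x hx => ?_⟩
    have h2 := ha ⟨x, hx⟩
    have h3 : ((x * a : Γ) : Γ ⧸ T) = (a : Γ ⧸ T) := h2
    rw [QuotientGroup.eq] at h3
    have h4 := T.inv_mem h3
    have h5 : ((x * a)⁻¹ * a)⁻¹ = a⁻¹ * x * a⁻¹⁻¹ := by group
    rwa [h5] at h4

theorem exists_p_elem {H X : Type*} [Group H] [Finite H] [Group X] {p : ℕ} [Fact p.Prime]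
    (φ : H →* X) (hφ : Function.Surjective φ) {σ : X} (hσ : orderOf σ = p) :
    ∃ x : H, φ x = σ ∧ ∃ k, orderOf x = p ^ k := by
  obtain ⟨y, hy⟩ := hφ σ
  have hp : p.Prime := Fact.out
  have hy0 : orderOf y ≠ 0 := (orderOf_pos y).ne'
  obtain ⟨k, b, hb, e⟩ := Nat.exists_eq_pow_mul_and_not_dvd hy0 p hp.ne_one
  have hco : Nat.Coprime b p := ((Nat.Prime.coprime_iff_not_dvd hp).2 hb).symm
  obtain ⟨u, hu⟩ : ∃ u : ℕ, b * u ≡ 1 [MOD p] := by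
    rcases Nat.exists_mul_mod_eq_one_of_coprime hco hp.one_lt with ⟨u, hu⟩
    exact ⟨u, by rw [Nat.ModEq, hu.2, Nat.mod_eq_of_lt hp.one_lt]⟩
  refine ⟨y ^ (b * u), ?_, ?_⟩
  · rw [map_pow, hy]
    have h1 : σ ^ (b * u) = σ ^ 1 := by
      rw [pow_eq_pow_iff_modEq, hσ]; exact hu
    rw [h1, pow_one]
  · have h1 : (y ^ (b * u)) ^ p ^ k = 1 := by
      rw [← pow_mul, show b * u * p ^ k = (p ^ k * b) * u by ring, ← e, pow_mul,
        pow_orderOf_eq_one, one_pow]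
    obtain ⟨j, _, hj⟩ := (Nat.dvd_prime_pow hp).1 (orderOf_dvd_of_pow_eq_one h1)
    exact ⟨j, hj⟩

theorem conj_pow_of {X : Type*} [Group X] {σ τ : X} {c : ℕ} (h : τ * σ * τ⁻¹ = σ ^ c) (e : ℕ) :
    τ ^ e * σ * (τ ^ e)⁻¹ = σ ^ (c ^ e) := by
  induction e with
  | zero => simp
  | succ e ih =>
    have h1 : τ ^ (e + 1) * σ * (τ ^ (e + 1))⁻¹ = τ * (τ ^ e * σ * (τ ^ e)⁻¹) * τ⁻¹ := by
      rw [pow_succ']; group
    rw [h1, ih, ← conj_pow, h, ← pow_mul, pow_succ']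

theorem sect0 {Γ : Type*} [Group Γ] [Finite Γ] {p : ℕ} [Fact p.Prime] (T : Subgroup Γ)
    (hidx : ¬ p ∣ T.index) {e : ℕ}
    (hf : ∀ (P : Subgroup Γ), P ≤ T → ∀ g : Γ, (∀ x ∈ P, g * x * g⁻¹ ∈ P) →
      ∀ x ∈ P, g ^ e * x * (g ^ e)⁻¹ = x)
    {X H : Type*} [Group X] [Group H] (ι : H →* Γ) (hι : Function.Injective ι) (φ : H →* X)
    (hφ : Function.Surjective φ) {σ τ : X} {c : ℕ} (hσ : orderOf σ = p)
    (hc : τ * σ * τ⁻¹ = σ ^ c) (hN : (Subgroup.zpowers σ).Normal) : c ^ e ≡ 1 [MOD p] := by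
  haveI : Finite H := Finite.of_injective ι hι
  obtain ⟨x, hx, k, hk⟩ := exists_p_elem φ hφ hσ
  obtain ⟨M, hM⟩ : ∃ M : Subgroup H, M = (Subgroup.zpowers σ).comap φ := ⟨_, rfl⟩
  haveI : M.Normal := by rw [hM]; exact hN.comap φ
  have hxM : x ∈ M := by rw [hM, Subgroup.mem_comap, hx]; exact Subgroup.mem_zpowers σ
  have hpx : IsPGroup p (Subgroup.zpowers (⟨x, hxM⟩ : M)) := by
    apply IsPGroup.of_card (n := k)
    rw [Nat.card_zpowers]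
    rw [← hk]
    exact (Subgroup.orderOf_coe (⟨x, hxM⟩ : M)).symm
  obtain ⟨P₀, hP₀⟩ := hpx.exists_le_sylow
  obtain ⟨P, hP⟩ : ∃ P : Subgroup H, P = (P₀ : Subgroup M).map M.subtype := ⟨_, rfl⟩
  have hxP : x ∈ P := by
    rw [hP]
    exact ⟨⟨x, hxM⟩, hP₀ (Subgroup.mem_zpowers _), rfl⟩
  have hPp : IsPGroup p P := by
    rw [hP]; exact P₀.isPGroup'.map _
  obtain ⟨h, hh⟩ := hφ τ
  have hfr := Sylow.normalizer_sup_eq_top P₀
  have hmem : h ∈ Subgroup.normalizer ((P₀ : Subgroup M).map M.subtype : Set H) ⊔ M := by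
    first
      | (rw [hfr]; exact Subgroup.mem_top h)
  obtain ⟨n, hn, m, hm, e1⟩ := Subgroup.mem_sup_of_normal_right.1 hmem
  have hnP : ∀ z ∈ P, n * z * n⁻¹ ∈ P := by
    intro z hz
    rw [hP] at hz ⊢
    exact (Subgroup.mem_normalizer_iff.1 hn z).1 hz
  -- φ n σ φ n⁻¹ = σ ^ c
  have hn2 : φ n * σ * (φ n)⁻¹ = σ ^ c := by
    rw [hM, Subgroup.mem_comap] at hm
    obtain ⟨j, hj⟩ := Subgroup.mem_zpowers_iff.1 hm
    have h1 : τ = φ n * σ ^ j := by rw [← hh, ← e1, map_mul, hj]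
    rw [← hc, h1]
    have h2 : σ ^ j * σ = σ * σ ^ j := (Commute.zpow_self σ j).eq
    calc φ n * σ * (φ n)⁻¹ = φ n * (σ * σ ^ j) * (φ n * σ ^ j)⁻¹ := by group
      _ = φ n * (σ ^ j * σ) * (φ n * σ ^ j)⁻¹ := by rw [h2]
      _ = φ n * σ ^ j * σ * (φ n * σ ^ j)⁻¹ := by group
  obtain ⟨y, hy⟩ := conj_into T hidx (P.map ι) (hPp.map ι)
  -- the conjugate subgroup
  obtain ⟨Q, hQ⟩ : ∃ Q : Subgroup Γ, Q = (P.map ι).map (MulAut.conj y).toMonoidHom := ⟨_, rfl⟩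
  have hQT : Q ≤ T := by
    rw [hQ]
    rintro _ ⟨z, hz, rfl⟩
    exact hy z hz
  have hmQ : ∀ z ∈ P, y * ι z * y⁻¹ ∈ Q := by
    intro z hz
    rw [hQ]
    exact ⟨ι z, ⟨z, hz, rfl⟩, rfl⟩
  have h3 := hf Q hQT (y * ι n * y⁻¹) (by
    intro w hw
    rw [hQ] at hw
    obtain ⟨_, ⟨z, hz, rfl⟩, rfl⟩ := hw
    have h4 := hmQ _ (hnP z hz)
    rw [map_mul, map_mul, map_inv] at h4
    have h5 : y * (ι n * ι z * (ι n)⁻¹) * y⁻¹ = y * ι n * y⁻¹ * (y * ι z * y⁻¹) * (y * ι n * y⁻¹)⁻¹ := by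
      group
    rw [h5] at h4
    exact h4) _ (hmQ x hxP)
  have h6 : (y * ι n * y⁻¹) ^ e = y * ι (n ^ e) * y⁻¹ := by rw [conj_pow, map_pow]
  rw [h6] at h3
  have h7 : y * ι (n ^ e * x * (n ^ e)⁻¹) * y⁻¹ = y * ι x * y⁻¹ := by
    rw [← h3, map_mul, map_mul, map_inv]; group
  have h8 : n ^ e * x * (n ^ e)⁻¹ = x := by
    apply hι
    exact mul_left_cancel (mul_right_cancel h7)
  have h9 := congrArg φ h8
  rw [map_mul, map_mul, map_inv, hx, map_pow, conj_pow_of hn2 e] at h9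
  have h10 : σ ^ (c ^ e) = σ ^ 1 := by rw [h9, pow_one]
  rw [pow_eq_pow_iff_modEq, hσ] at h10
  exact h10

theorem sect {Γ : Type*} [Group Γ] [Finite Γ] {p : ℕ} [Fact p.Prime] (T : Subgroup Γ)
    (hidx : ¬ p ∣ T.index) {e : ℕ}
    (hf : ∀ (P : Subgroup Γ), P ≤ T → ∀ g : Γ, (∀ x ∈ P, g * x * g⁻¹ ∈ P) →
      ∀ x ∈ P, g ^ e * x * (g ^ e)⁻¹ = x)
    {X H : Type*} [Group X] [Group H] (ι : H →* Γ) (hι : Function.Injective ι) (φ : H →* X)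
    (hφ : Function.Surjective φ) {σ τ : X} {c : ℕ} (hσ : orderOf σ = p)
    (hc : τ * σ * τ⁻¹ = σ ^ c) (hcp : ¬ p ∣ c) : c ^ e ≡ 1 [MOD p] := by
  obtain ⟨Y, hY⟩ : ∃ Y : Subgroup X, Y = Subgroup.normalizer (Subgroup.zpowers σ : Set X) :=
    ⟨_, rfl⟩
  have hp : p.Prime := Fact.out
  have hσY : σ ∈ Y := by
    rw [hY]; exact Subgroup.le_normalizer (Subgroup.mem_zpowers σ)
  haveI : Finite (Subgroup.zpowers σ) := by
    apply Nat.finite_of_card_ne_zero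
    rw [Nat.card_zpowers, hσ]; exact hp.ne_zero
  have hτY : τ ∈ Y := by
    rw [hY]
    have hle : (Subgroup.zpowers σ).map (MulAut.conj τ).toMonoidHom ≤ Subgroup.zpowers σ := by
      rintro _ ⟨z, hz, rfl⟩
      obtain ⟨j, rfl⟩ := Subgroup.mem_zpowers_iff.1 hz
      show τ * σ ^ j * τ⁻¹ ∈ _
      rw [← conj_zpow, hc]
      exact Subgroup.zpow_mem _ (Subgroup.pow_mem _ (Subgroup.mem_zpowers σ) _) _
    have heq : (Subgroup.zpowers σ).map (MulAut.conj τ).toMonoidHom = Subgroup.zpowers σ := by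
      apply SetLike.coe_injective
      apply Set.eq_of_subset_of_ncard_le hle ?_ (Set.toFinite _)
      rw [Subgroup.coe_map]
      exact (Set.ncard_image_of_injective _ (MulAut.conj τ).injective).ge
    rw [Subgroup.mem_normalizer_iff]
    intro z
    constructor
    · intro hz
      have : τ * z * τ⁻¹ ∈ (Subgroup.zpowers σ).map (MulAut.conj τ).toMonoidHom := ⟨z, hz, rfl⟩
      rw [heq] at this; exact this
    · intro hz
      have hz' : τ * z * τ⁻¹ ∈ (Subgroup.zpowers σ).map (MulAut.conj τ).toMonoidHom := by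
        rw [heq]; exact hz
      obtain ⟨z', hz', e'⟩ := hz'
      have : z' = z := (MulAut.conj τ).injective e'
      rw [← this]; exact hz'
  obtain ⟨L, hL⟩ : ∃ L : Subgroup H, L = Y.comap φ := ⟨_, rfl⟩
  subst hL
  have hsurj : Function.Surjective ((φ.comp (Y.comap φ).subtype).codRestrict Y (fun x => x.2)) := by
    rintro ⟨z, hz⟩
    obtain ⟨h, rfl⟩ := hφ z
    exact ⟨⟨h, hz⟩, rfl⟩
  refine sect0 T hidx hf (ι.comp (Y.comap φ).subtype)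
    (hι.comp Subtype.coe_injective) _ hsurj (σ := ⟨σ, hσY⟩) (τ := ⟨τ, hτY⟩) (c := c) ?_ ?_ ?_
  · rw [← hσ]; exact (Subgroup.orderOf_coe (⟨σ, hσY⟩ : Y)).symm
  · apply Subtype.ext; exact hc
  · constructor
    intro z hz g
    obtain ⟨j, rfl⟩ := Subgroup.mem_zpowers_iff.1 hz
    have h1 : (g : X) ∈ Subgroup.normalizer (Subgroup.zpowers σ : Set X) := hY ▸ g.2
    rw [Subgroup.mem_normalizer_iff] at h1
    have h2 := (h1 (σ ^ j)).1 (Subgroup.zpow_mem _ (Subgroup.mem_zpowers σ) _)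
    obtain ⟨i, hi⟩ := Subgroup.mem_zpowers_iff.1 h2
    rw [Subgroup.mem_zpowers_iff]
    exact ⟨i, Subtype.ext hi⟩

end abs

section both

variable {G : Type*} [Group G] {Φ I : Type*} {C : RootComb Φ I} (S : Sys G C)

theorem sys_sect [Finite Φ] (K : Subgroup G) [Finite K] (hK : S.Γ = K)
    (hab : ∀ x ∈ S.H, ∀ y ∈ S.H, x * y = y * x) {e : ℕ}
    (he : ∀ w ∈ C.W, w ^ e = 1) {p : ℕ} [Fact p.Prime] (hidx : ¬ p ∣ S.H.relIndex K)
    {X H : Type*} [Group X] [Group H] (ι : H →* K) (hι : Function.Injective ι) (φ : H →* X)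
    (hφ : Function.Surjective φ) {σ τ : X} {c : ℕ} (hσ : orderOf σ = p)
    (hc : τ * σ * τ⁻¹ = σ ^ c) (hcp : ¬ p ∣ c) : c ^ e ≡ 1 [MOD p] := by
  refine sect (S.H.subgroupOf K) hidx ?_ ι hι φ hφ hσ hc hcp
  intro P hP g hg x hx
  have h1 := fix_pow S hab he (P := (Subtype.val '' (P : Set K))) (g := (g : G)) (by
    rintro _ ⟨z, hz, rfl⟩; exact hP hz) (by rw [hK]; exact g.2) (by
    rintro _ ⟨z, hz, rfl⟩; exact ⟨_, hg z hz, rfl⟩) (x : G) ⟨x, hx, rfl⟩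
  apply Subtype.ext
  exact h1

end both

end H7.TorSect
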