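import Cfsg.Agent.Lib.H7.OAUniB
import Cfsg.Agent.Lib.H7.OAUni12

set_option autoImplicit false
open Cfsg

/-! Unitary overfield subgroups of orthogonal groups, dimension at least twelve. -/

namespace H7.Uni12

theorem uni {F : Type*} [Field F] [Fintype F] {n : ℕ} (hn : 12 ≤ n) (Q : (Fin n → F) → F) (hQ : Cfsg.Geo.IsNondegenerateQuadraticForm Q) (K : Subalgebra F (Matrix (Fin n) (Fin n) F)) (hK : Cfsg.Geo.IsFieldSubalgebra 2 K) (hac : Cfsg.Geo.IsAdjointClosedFor (QuadraticMap.polar Q) K) (hnsa : ¬ Cfsg.Geo.IsSelfAdjointFor (QuadraticMap.polar Q) K) (hsc : ∀ k ∈ K, ∃ c : F, ∀ v : (Fin n → F), Q (Matrix.mulVec k v) = c * Q v) : Cfsg.Geo.IsMaximalIn (Cfsg.Geo.omegaGL Q) (Cfsg.Geo.subalgebraNormalizer K ⊓ Cfsg.Geo.omegaGL Q) := by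
  have hfr : Module.finrank F (Fin n → F) = n := by simp
  obtain ⟨q, rfl⟩ : ∃ q : QuadraticForm F (Fin n → F), ⇑q = Q := ⟨H7.OABridge.ofFun hQ, rfl⟩
  have hnd : H48.QuadSplit.ND q := H7.OABridge.nd_of rfl hQ
  have hne : Nonempty (Fin n) := ⟨⟨0, by omega⟩⟩
  have hn12 : 12 ≤ Module.finrank F (Fin n → F) := by omega
  obtain ⟨W, hW, t, d, hgen, hli, hJ⟩ := H7.OAUni.data_of hnd hK hac hnsa hsc
  have hJ' : H7.OAUni12.UJ q (Matrix.toLin' W) t d := ⟨hJ.sq, hJ.adj, hJ.self, hJ.val, hJ.ind⟩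
  refine H7.OABridge.isMaximalIn_omegaGL (Q := q) rfl (P := H7.OAUni.NJ (Matrix.toLin' W))
    (fun g => H7.OAUni.mem_normalizer_iff hW hgen hli g) (H7.OAUni12.exists_not hJ' hnd hn12) ?_
  rintro M hM1 hM2 ⟨g, hgM, hg⟩
  exact H7.OAUni12.maximal hJ' hnd hn12 (hM2.trans (H7.OA.Om_le _)) hM1 hgM hg

end H7.Uni12
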